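import Cfsg.Statements.S4663
import Cfsg.Agent.Blocks.HeightZero

set_option autoImplicit false
set_option linter.all false
open Cfsg

namespace Cfsg.Agent.S4663

/-- Fix a prime p and a maximal ideal M of the algebraic integers containing p. Brauer's Third Main Theorem in the language of Brauer pairs: for the principal p-block B₀ of the finite group G and any p-subgroup Q, a p-block e of C_G(Q) makes (Q, e) a Brauer pair of B₀ if and only if e is the principal p-block of C_G(Q). Equivalently, modulo M the truncation to C_G(Q) of the idempotent of B₀ is the idempotent of the principal block of C_G(Q). -/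
theorem result {G : Type*} [Group G] [Fintype G] (p : ℕ) [Fact p.Prime] (M : Ideal Cfsg.AlgInt) (hM : Cfsg.IsPModular p M) (Q : Subgroup G) (hQ : IsPGroup p Q) (e : Set (Cfsg.IrrCharacter (Subgroup.centralizer (Q : Set G)))) (he : Cfsg.IsPBlock M e) : Cfsg.IsBrauerPairOf p M (Cfsg.principalBlock M G) Q e ↔ e = Cfsg.principalBlock M (Subgroup.centralizer (Q : Set G)) := by
  classical
  haveI := Fintype.ofFinite G
  haveI := Fintype.ofFinite ↥(Subgroup.centralizer (Q : Set G))
  have h1 : (Char.oneIrr G : G → ℂ) = fun _ => (1 : ℂ) := funext fun g => Char.oneIrr_apply g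
  have h2 : (Char.oneIrr (Subgroup.centralizer (Q : Set G)) : (Subgroup.centralizer (Q : Set G)) → ℂ) = fun _ => (1 : ℂ) := funext fun g => Char.oneIrr_apply g
  have key : ∀ (K : Type _) [Group K] [Fintype K], ¬ Cfsg.MemLocalIdeal M
      (Blocks.omega (Char.oneIrr K : K → ℂ) (Blocks.regElt p (Char.oneIrr K : K → ℂ))) := by
    intro K _ _
    refine Blocks.not_li_omega_regElt hM ⟨Char.oneIrr K, rfl⟩ (Blocks.self_mem_blockOf hM _) ?_
      (Blocks.self_mem_blockOf hM _)
    simp [Cfsg.blockHeight, Cfsg.charDegree]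
  obtain ⟨ξ₀, hξ₀⟩ := Blocks.block_nonempty hM he
  obtain ⟨B', hB', hBφ⟩ := (Blocks.isModHom_trunc hM hQ (H := (Subgroup.centralizer (Q : Set G))) le_rfl
    (Blocks.centralizer_conj_mem (Subgroup.centralizer (Q : Set G))) ξ₀).exists_block
  obtain ⟨χ', hχ'⟩ := Blocks.block_nonempty hM hB'
  have hind : Cfsg.IsInducedBlock M (Subgroup.centralizer (Q : Set G)) e B' := Blocks.isInducedBlock_of_hom hM he hB' hξ₀ hχ' fun g => by
    rw [← Blocks.trunc_coe_eq_univ]
    exact hBφ χ' hχ' _ (Blocks.isCentral_classSum g) (Blocks.classSum_mem hM g)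
  have hB0 : Cfsg.IsPBlock M (Cfsg.principalBlock M G) := ⟨Char.oneIrr G, by rw [h1]; rfl⟩
  have hok := Blocks.okuyama hM (ψ := Char.oneIrr (Subgroup.centralizer (Q : Set G))) (χ := Char.oneIrr G)
    (by rw [h2]; funext h; simp) (key G) (key (Subgroup.centralizer (Q : Set G))) ⟨B', hind⟩
  rw [h1, h2] at hok
  have hω : ∀ ξ : Cfsg.IrrCharacter (Subgroup.centralizer (Q : Set G)),
      Cfsg.brauerOmega Q (Cfsg.blockCoeff (Cfsg.principalBlock M G)) (ξ : (Subgroup.centralizer (Q : Set G)) → ℂ)
        = Blocks.omega (ξ : (Subgroup.centralizer (Q : Set G)) → ℂ) (Blocks.trunc (Subgroup.centralizer (Q : Set G)) ((Subgroup.centralizer (Q : Set G)) : Set G) (Blocks.idem (Cfsg.principalBlock M G))) := by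
    intro ξ
    rw [Cfsg.brauerOmega, finsum_eq_sum_of_fintype, Blocks.omega, Blocks.ev, Finset.sum_div]
    refine Finset.sum_congr rfl fun x _ => ?_
    rw [Blocks.trunc_coeff, if_pos (SetLike.mem_coe.2 x.2)]
    rfl
  refine Iff.trans ?_ hok
  constructor
  · rintro ⟨-, -, h⟩
    have h3 := h ξ₀ hξ₀
    rw [hω] at h3
    have h4 := hBφ χ' hχ' _ (Blocks.isCentral_idem _) (Blocks.idem_block_mem hM hB0)
    rw [Blocks.omega_idem] at h4
    by_cases hm : χ' ∈ Cfsg.principalBlock M G
    · have : B' = Cfsg.principalBlock M G := by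
        by_contra hne
        exact Set.disjoint_left.1 (Blocks.disjoint_blocks hM hB' hB0 hne) hχ' hm
      show Cfsg.IsInducedBlock M _ e (Cfsg.principalBlock M G); rw [← this]; exact hind
    · rw [if_neg hm] at h4
      have h5 := Blocks.li_sub hM h4 h3
      refine absurd ?_ (Blocks.not_li_one hM)
      simpa using h5
  · intro h
    refine ⟨⟨hQ, he⟩, hB0, fun ξ hξ => ?_⟩
    have h6 := Blocks.li_trunc_sub_omega hM h hξ
      (show Char.oneIrr G ∈ Cfsg.principalBlock M G by
        have := Blocks.self_mem_blockOf hM (Char.oneIrr G); rwa [h1] at this)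
      (Blocks.isCentral_idem (Cfsg.principalBlock M G)) (Blocks.idem_block_mem hM hB0)
    rw [← Blocks.trunc_coe_eq_univ, Blocks.omega_idem, if_pos (by
        have := Blocks.self_mem_blockOf hM (Char.oneIrr G); rwa [h1] at this)] at h6
    rw [hω]; exact h6

end Cfsg.Agent.S4663
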