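import Cfsg.Statements.S0939
import Cfsg.Agent.Blocks.BlockKernel
import Cfsg.Agent.Blocks.DefectNumber
import Cfsg.Agent.Solv.Cores

set_option autoImplicit false
set_option linter.all false
open Cfsg

namespace Cfsg.Agent.S0939

/-- Let G be a finite group with a normal p-complement (the largest normal subgroup O_p'(G) of order prime to p has p-power index). Then, relative to any maximal ideal M of the algebraic integers containing p, the principal block of G is the set of irreducible characters χ with χ n = χ 1 for every n ∈ O_p'(G). -/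
theorem result {G : Type*} [Group G] [Finite G] (p : ℕ) [Fact p.Prime] (M : Ideal Cfsg.AlgInt) (hM : Cfsg.IsPModular p M) (hnc : ∃ k : ℕ, (Cfsg.pPrimeCore p G).index = p ^ k) : Cfsg.principalBlock M G = {χ : Cfsg.IrrCharacter G | ∀ n ∈ Cfsg.pPrimeCore p G, (χ : G → ℂ) n = (χ : G → ℂ) 1} := by
  classical
  haveI := Fintype.ofFinite G
  haveI := Fintype.ofFinite (Cfsg.pPrimeCore p G)
  haveI := (Solv.pPrimeCore_mem (G := G) p).1
  have hN : ¬ p ∣ Nat.card (Cfsg.pPrimeCore p G) :=
    (Nat.Prime.coprime_iff_not_dvd hM.1).1 (Solv.pPrimeCore_mem (G := G) p).2.symm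
  obtain ⟨k, hk⟩ := hnc
  let one : Cfsg.IrrCharacter G := Cfsg.Agent.Char.oneIrr G
  have hfun : (one : G → ℂ) = fun _ => (1 : ℂ) := funext fun g => Cfsg.Agent.Char.oneIrr_apply g
  have hB : Cfsg.IsPBlock M (Cfsg.principalBlock M G) := ⟨one, by rw [hfun]; rfl⟩
  have hmem : one ∈ Cfsg.principalBlock M G := by
    have := Blocks.self_mem_blockOf hM one
    rwa [hfun] at this
  ext χ
  constructor
  · intro hχ n hn
    exact Blocks.trivial_on_of_sameBlock hM (Cfsg.pPrimeCore p G) hN
      (Blocks.sameBlock_of_mem hM hB hmem hχ) (fun g _ => by rw [hfun]) hn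
  · intro hχ
    set B := Cfsg.principalBlock M G with hBdef
    have htriv : ∀ ψ ∈ B, ∀ g ∈ Cfsg.pPrimeCore p G, (ψ : G → ℂ) g = (ψ : G → ℂ) 1 :=
      fun ψ hψ g hg => Blocks.trivial_on_of_sameBlock hM (Cfsg.pPrimeCore p G) hN
        (Blocks.sameBlock_of_mem hM hB hmem hψ) (fun g _ => by rw [hfun]) hg
    have hzero : ∀ g : G, g ∉ Cfsg.pPrimeCore p G → Cfsg.blockCoeff B g = 0 := by
      intro g hg
      have hd : p ∣ orderOf g := by
        have h1 : orderOf (QuotientGroup.mk g : G ⧸ Cfsg.pPrimeCore p G) ∣ orderOf g :=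
          orderOf_map_dvd (QuotientGroup.mk' _) g
        have h2 : orderOf (QuotientGroup.mk g : G ⧸ Cfsg.pPrimeCore p G) ∣ p ^ k := by
          rw [← hk, Subgroup.index_eq_card]; exact orderOf_dvd_natCard _
        obtain ⟨i, -, hi⟩ := (Nat.dvd_prime_pow hM.1).1 h2
        rcases i with _ | i
        · rw [pow_zero, orderOf_eq_one_iff, QuotientGroup.eq_one_iff] at hi
          exact absurd hi hg
        · exact (hi ▸ dvd_pow_self p i.succ_ne_zero).trans h1
      have h3 := congrArg (starRingEnd ℂ) (Blocks.sum_eq_zero_of_singular hM (Blocks.idem_block_mem hM hB) hd (t := 1)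
        (by rw [orderOf_one]; exact hM.1.not_dvd_one))
      simp only [map_sum, map_mul, Complex.conj_conj, map_zero] at h3
      rw [Cfsg.blockCoeff, finsum_mem_eq_finite_toFinset_sum _ B.toFinite]
      simp only [mul_comm ((_ : Cfsg.IrrCharacter G).val 1)]
      rw [h3, mul_zero]
    have hconst : ∀ n ∈ Cfsg.pPrimeCore p G, Cfsg.blockCoeff B n = Cfsg.blockCoeff B 1 := by
      intro n hn
      rw [Cfsg.blockCoeff, Cfsg.blockCoeff]
      congr 1
      exact finsum_mem_congr rfl fun ψ hψ => by rw [htriv ψ hψ n hn]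
    have hω : ∀ η : Cfsg.IrrCharacter G, (∀ g ∈ Cfsg.pPrimeCore p G, (η : G → ℂ) g = (η : G → ℂ) 1) →
        Blocks.omega (η : G → ℂ) (Blocks.idem B)
          = (Nat.card (Cfsg.pPrimeCore p G) : ℂ) * Cfsg.blockCoeff B 1 := by
      intro η hη
      rw [Blocks.omega, Blocks.ev, div_eq_iff (Cfsg.Agent.Char.irr_one_ne_zero η)]
      calc ∑ g, (Blocks.idem B).coeff g * (η : G → ℂ) g
          = ∑ g, if g ∈ Cfsg.pPrimeCore p G then Cfsg.blockCoeff B 1 * (η : G → ℂ) 1 else 0 := by
            refine Finset.sum_congr rfl fun g _ => ?_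
            show Cfsg.blockCoeff B g * _ = _
            split_ifs with hg
            · rw [hconst g hg, hη g hg]
            · rw [hzero g hg, zero_mul]
        _ = _ := by
            rw [← Finset.sum_filter, Finset.sum_const, nsmul_eq_mul, mul_assoc, Nat.card_eq_fintype_card,
              Fintype.card_subtype]
    have h1 := hω χ hχ
    rw [← hω one (fun g _ => by rw [hfun]), Blocks.omega_idem, Blocks.omega_idem, if_pos hmem] at h1
    by_contra hn
    rw [if_neg hn] at h1
    exact zero_ne_one h1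

end Cfsg.Agent.S0939
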