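import Cfsg.Statements.S1043
import Mathlib
import Cfsg.Agent.Chev.Borel
import Cfsg.Agent.Chev.All

set_option autoImplicit false
open Cfsg

namespace Cfsg.Agent.S1043
open Cfsg.Agent.Chev Cfsg.Lie Matrix

/-- `B ≤ G`, `N ≤ G` and `B ⊔ N = G` for the Chevalley group `G` generated by all root elements. -/
theorem result {F : Type*} [Field F] (D : Cfsg.Lie.ChevalleyDatum) (hD : D ∈ [Cfsg.Lie.chevG2, Cfsg.Lie.chevB2, Cfsg.Lie.chevD4, Cfsg.Lie.chevF4, Cfsg.Lie.chevE6, Cfsg.Lie.chevE7, Cfsg.Lie.chevE8]) :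
    D.borelSubgroup F ≤ D.group F ∧ D.monomialSubgroup F ≤ D.group F ∧ D.borelSubgroup F ⊔ D.monomialSubgroup F = D.group F := by
  obtain ⟨k, g⟩ := good_of_mem hD
  have hx : ∀ (r : ℕ) (hr : r < D.nroots) (t : F), xG g r hr t ∈ D.group F := fun r hr t =>
    Subgroup.subset_closure ⟨⟨r, hr⟩, t, x_eq hr t⟩
  have hn : ∀ (r : ℕ) (hr : r < D.nroots) (t : F), nG g r hr t ∈ D.group F := fun r hr t =>
    mul_mem (mul_mem (hx _ hr _) (hx _ (g.neg_lt hr) _)) (hx _ hr _)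
  have hH : D.diagonalSubgroup F ≤ D.group F := by
    rw [H_eq g, T0, Subgroup.closure_le]
    rintro x ⟨i, hi, t, -, rfl⟩
    exact mul_mem (hn _ _ _) (hn _ _ _)
  have hU : D.posUnipotent F ≤ D.group F := by
    rw [ChevalleyDatum.posUnipotent, Subgroup.closure_le]
    rintro x ⟨r, t, hr, hxe⟩
    exact Subgroup.subset_closure ⟨⟨r, hr.1⟩, t, hxe.trans (x_eq hr.1 t)⟩
  have hB : D.borelSubgroup F ≤ D.group F := sup_le hU hH
  have hN : D.monomialSubgroup F ≤ D.group F := by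
    rw [N_eq g, ← H_eq g]
    exact sup_le hH (W0_le g)
  refine ⟨hB, hN, le_antisymm (sup_le hB hN) ?_⟩
  rw [ChevalleyDatum.group, Subgroup.closure_le]
  rintro x ⟨⟨r, hr⟩, t, hxe⟩
  obtain ⟨w, hw, i, hi, ε, hε, w1, -⟩ := reach (F := F) g hr
  have hw' : w ∈ D.borelSubgroup F ⊔ D.monomialSubgroup F := Subgroup.mem_sup_right (by rw [N_eq g]; exact Subgroup.mem_sup_right hw)
  have hp : xG g (D.simple i) (g.simple hi).lt (ε * t) ∈ D.borelSubgroup F ⊔ D.monomialSubgroup F :=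
    Subgroup.mem_sup_left (Subgroup.mem_sup_left (Subgroup.subset_closure
      ⟨_, ε * t, (pos_iff g).2 ⟨(g.simple hi).lt, (g.simple hi).pos⟩, rfl⟩))
  have e : x = w * xG g (D.simple i) (g.simple hi).lt (ε * t) * w⁻¹ := by
    rw [w1, ← mul_assoc, hε, one_mul]
    exact Units.ext (hxe.trans (x_eq hr t).symm)
  rw [e]
  exact mul_mem (mul_mem hw' hp) (inv_mem hw')

end Cfsg.Agent.S1043
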