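import Cfsg.Statements.S0032
import Cfsg.Agent.Solv.Cores

set_option autoImplicit false
set_option linter.style.haveILetI false
open Cfsg

namespace Cfsg.Agent.S0032

/-- If an automorphism of a finite group fixes only the identity and maps a normal subgroup N into itself, then the only cosets of N it fixes are those in N: a fixed coset xN forces x ∈ N. -/
theorem result {G : Type*} [Group G] [Finite G] (φ : G ≃* G)
    (hφ : MonoidHom.FixedPointFree (φ : G →* G)) (N : Subgroup G) [N.Normal] (hN : ∀ n ∈ N, φ n ∈ N)
    (x : G) (hx : (φ x)⁻¹ * x ∈ N) : x ∈ N := by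
  let ψ : N →* N :=
    { toFun := fun n => ⟨φ n, hN n n.2⟩
      map_one' := by ext; simp
      map_mul' := fun a b => by ext; simp }
  have hψ : MonoidHom.FixedPointFree ψ := fun n hn =>
    Subtype.ext (hφ (n : G) (congrArg Subtype.val hn))
  obtain ⟨n, hn⟩ := hψ.commutatorMap_surjective
    ⟨x * (φ x)⁻¹, by
      have := (inferInstance : N.Normal).conj_mem _ hx x
      rw [show x * ((φ x)⁻¹ * x) * x⁻¹ = x * (φ x)⁻¹ by group] at this
      exact this⟩
  have hxn : x = (n : G) := by
    apply hφ.commutatorMap_injective
    have h := congrArg Subtype.val hn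
    simp only [MonoidHom.commutatorMap_apply, div_eq_mul_inv] at h ⊢
    simpa [ψ] using h.symm
  rw [hxn]; exact n.2

end Cfsg.Agent.S0032
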