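import Cfsg.Statements.S0681

set_option autoImplicit false
open Cfsg

namespace Cfsg.Agent.S0681

/-- The affine maps `x ↦ x * a + b`, `a ≠ 0`, of a near-field form a sharply doubly transitive permutation group. -/
theorem result {F : Type*} [Cfsg.NearField F] : ∃ H : Subgroup (Equiv.Perm F), (∀ σ : Equiv.Perm F, σ ∈ H ↔ ∃ a b : F, a ≠ 0 ∧ ∀ x : F, σ x = x * a + b) ∧ MulAction.IsMultiplyPretransitive H F 2 ∧ ∀ x : Fin 2 ↪ F, MulAction.stabilizer H x = ⊥ := by
  classical
  have hm0 := Cfsg.NearField.mul_zero (F := F)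
  have hrd := Cfsg.NearField.right_distrib (F := F)
  have hinv := Cfsg.NearField.exists_inv (F := F)
  have h0m : ∀ c : F, (0 : F) * c = 0 := fun c => by
    have := hrd 0 0 c; rw [add_zero] at this; simpa using this
  have hsub : ∀ x y c : F, (x - y) * c = x * c - y * c := fun x y c => by
    rw [eq_sub_iff_add_eq, ← hrd, sub_add_cancel]
  have hinj : ∀ a b x y : F, a ≠ 0 → x * a + b = y * a + b → x = y := by
    intro a b x y ha e
    obtain ⟨c, h1, h2⟩ := hinv a ha
    have := congrArg (· * c) (add_right_cancel e)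
    simpa [mul_assoc, h1] using this
  let T : Set (Equiv.Perm F) := {σ | ∃ a b : F, a ≠ 0 ∧ ∀ x : F, σ x = x * a + b}
  have hnz : ∀ a c : F, a ≠ 0 → c ≠ 0 → a * c ≠ 0 := by
    intro a c ha hc e
    obtain ⟨d, h1, h2⟩ := hinv c hc
    have := congrArg (· * d) e
    simp only [mul_assoc, h1, mul_one, h0m] at this
    exact ha this
  let H : Subgroup (Equiv.Perm F) :=
    { carrier := T
      one_mem' := ⟨1, 0, fun e => Cfsg.NearField.zero_ne_one e.symm, fun x => by simp⟩
      mul_mem' := by
        rintro σ τ ⟨a, b, ha, h⟩ ⟨c, d, hc, h'⟩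
        refine ⟨c * a, d * a + b, hnz c a hc ha, fun x => ?_⟩
        rw [Equiv.Perm.mul_apply, h', h, hrd, mul_assoc, add_assoc]
      inv_mem' := by
        rintro σ ⟨a, b, ha, h⟩
        obtain ⟨c, h1, h2⟩ := hinv a ha
        refine ⟨c, (-b) * c, fun e => ha ?_, fun x => ?_⟩
        · have : a * c = 1 := h1
          rw [e, hm0] at this
          exact absurd this Cfsg.NearField.zero_ne_one
        · apply σ.injective
          rw [Equiv.Perm.inv_def, Equiv.apply_symm_apply, h, ← hrd, mul_assoc, h2, mul_one, neg_add_cancel_right] }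
  refine ⟨H, fun σ => Iff.rfl, ?_, ?_⟩
  · rw [MulAction.is_two_pretransitive_iff]
    intro a b c d hab hcd
    obtain ⟨e, h1, h2⟩ := hinv (a - b) (sub_ne_zero.2 hab)
    set m := e * (c - d) with hm
    have hene : e ≠ 0 := fun h => by
      rw [h, hm0] at h1; exact Cfsg.NearField.zero_ne_one h1
    have hmne : m ≠ 0 := hnz _ _ hene (sub_ne_zero.2 hcd)
    let t := -(b * m) + d
    have hbij : Function.Bijective fun x : F => x * m + t := by
      refine ⟨fun x y h => hinj m t x y hmne h, fun y => ?_⟩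
      obtain ⟨k, k1, k2⟩ := hinv m hmne
      refine ⟨(y - t) * k, ?_⟩
      simp [mul_assoc, k2]
    refine ⟨⟨Equiv.ofBijective _ hbij, m, t, hmne, fun x => rfl⟩, ?_, ?_⟩
    · show a * m + t = c
      have e3 : a * m = (c - d) + b * m := by
        rw [← sub_eq_iff_eq_add, ← hsub, hm, ← mul_assoc, h1, one_mul]
      rw [e3]
      simp [t, add_assoc]
    · show b * m + t = d
      simp [t]
  · intro x
    rw [eq_bot_iff]
    rintro ⟨σ, a, b, ha, h⟩ hσ
    rw [Subgroup.mem_bot]
    have h0 : x 0 * a + b = x 0 := by rw [← h]; exact congrArg (fun f : Fin 2 ↪ F => f 0) hσ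
    have h1 : x 1 * a + b = x 1 := by rw [← h]; exact congrArg (fun f : Fin 2 ↪ F => f 1) hσ
    have hne : x 0 - x 1 ≠ 0 := sub_ne_zero.2 (x.injective.ne (by decide))
    have hb : (x 0 - x 1) * a = x 0 - x 1 := by
      rw [hsub]
      conv_rhs => rw [← h0, ← h1]
      simp
    obtain ⟨k, k1, k2⟩ := hinv _ hne
    have ha1 : a = 1 := by
      have := congrArg (k * ·) hb
      simpa [← mul_assoc, k2] using this
    subst ha1
    simp at h0
    subst h0
    exact Subtype.ext (Equiv.ext fun y => by simpa using h y)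

end Cfsg.Agent.S0681
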