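import Cfsg.Statements.S0005
import Cfsg.Agent.Solv.Hall

set_option autoImplicit false
set_option linter.style.haveILetI false
open Cfsg

namespace Cfsg.Agent.S0005

/-- Hall's Theorem, containment: in a finite solvable group of order m * n with m and n coprime, every subgroup of order coprime to n is contained in a subgroup of order m. -/
theorem result {G : Type*} [Group G] [Finite G] [Group.IsSolvable G] (m n : ℕ)
    (hG : Nat.card G = m * n) (hmn : m.Coprime n) (K : Subgroup G) (hK : (Nat.card K).Coprime n) :
    ∃ H : Subgroup G, Nat.card H = m ∧ K ≤ H := by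
  obtain ⟨H, hH, hdom⟩ := Solv.hall_exists_dominating hG hmn
  obtain ⟨g, hg⟩ := hdom K hK
  refine ⟨H.map (MulAut.conj g⁻¹ : G ≃* G).toMonoidHom, ?_, ?_⟩
  · rw [Subgroup.card_map_of_injective (MulEquiv.injective _), hH]
  · intro x hx
    refine ⟨g * x * g⁻¹, hg ?_, ?_⟩
    · rw [Solv.mem_conj_smul]; simpa [mul_assoc] using hx
    · simp [mul_assoc]

end Cfsg.Agent.S0005
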