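import Cfsg.Statements.S0007
import Cfsg.Agent.Solv.Cores

set_option autoImplicit false
set_option linter.style.haveILetI false
open Cfsg

namespace Cfsg.Agent.S0007

/-- Subgroups of coprime index: the intersection has index equal to the product of the indices, and every element is a product of an element of the first subgroup and an element of the second. -/
theorem result {G : Type*} [Group G] [Finite G] (H K : Subgroup G)
    (h : H.index.Coprime K.index) :
    (H ⊓ K).index = H.index * K.index ∧ ∀ g : G, ∃ x ∈ H, ∃ y ∈ K, g = x * y := by
  have h1 : (H ⊓ K).index = H.index * K.index := by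
    refine le_antisymm (Subgroup.index_inf_le) (Nat.le_of_dvd ?_ ?_)
    · exact Nat.pos_of_ne_zero Subgroup.index_ne_zero_of_finite
    · exact h.mul_dvd_of_dvd_of_dvd (Subgroup.index_dvd_of_le inf_le_left)
        (Subgroup.index_dvd_of_le inf_le_right)
  refine ⟨h1, ?_⟩
  have h2 := Subgroup.relIndex_mul_index (show H ⊓ K ≤ H from inf_le_left)
  rw [h1, Subgroup.inf_relIndex_left] at h2
  have h4 : K.relIndex H = K.index := by
    have : K.relIndex H * H.index = K.index * H.index := by rw [h2, mul_comm]
    exact Nat.eq_of_mul_eq_mul_right (Nat.pos_of_ne_zero Subgroup.index_ne_zero_of_finite) this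
  intro g
  -- the map H/(H ⊓ K) → G/K is a bijection
  let f : H ⧸ K.subgroupOf H → G ⧸ K := Quotient.map' (fun x : H => (x : G)) (fun a b hab => by
    rw [QuotientGroup.leftRel_apply] at hab ⊢
    simpa [Subgroup.mem_subgroupOf] using hab)
  have hf : Function.Injective f := by
    intro a b
    induction a using Quotient.inductionOn'
    induction b using Quotient.inductionOn'
    intro hab
    apply Quotient.sound'
    have := Quotient.exact' hab
    rw [QuotientGroup.leftRel_apply] at this ⊢
    simpa [Subgroup.mem_subgroupOf] using this
  have hbij := Nat.bijective_iff_injective_and_card f |>.mpr ⟨hf, h4⟩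
  obtain ⟨a, ha⟩ := hbij.2 (g : G ⧸ K)
  induction a using Quotient.inductionOn' with
  | _ x =>
    refine ⟨x, x.2, (x : G)⁻¹ * g, ?_, by group⟩
    exact QuotientGroup.eq.mp ha

end Cfsg.Agent.S0007
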