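import Cfsg.Statements.S0011
import Cfsg.Agent.Solv.Cores

set_option autoImplicit false
set_option linter.style.haveILetI false
open Cfsg

namespace Cfsg.Agent.S0011

/-- If the Frattini quotient of a finite group is nilpotent then the group is nilpotent. -/
theorem result {G : Type*} [Group G] [Finite G]
    (h : Group.IsNilpotent (G ⧸ frattini G)) : Group.IsNilpotent G := by
  refine (Group.isNilpotent_of_finite_tfae.out 0 3).mpr ?_
  intro p hp P
  haveI := h
  let f := QuotientGroup.mk' (frattini G)
  have hf : Function.Surjective f := QuotientGroup.mk'_surjective _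
  have hQn : ((P.mapSurjective hf : Sylow p (G ⧸ frattini G)) : Subgroup (G ⧸ frattini G)).Normal :=
    Sylow.normal_of_normalizerCondition Group.normalizerCondition_of_isNilpotent _
  set K : Subgroup G := ((P.mapSurjective hf : Sylow p (G ⧸ frattini G)) : Subgroup (G ⧸ frattini G)).comap f with hK
  have hKeq : K = (P : Subgroup G) ⊔ frattini G := by
    rw [hK, Sylow.coe_mapSurjective, Subgroup.comap_map_eq, QuotientGroup.ker_mk']
  haveI : K.Normal := hQn.comap f
  have hPK : (P : Subgroup G) ≤ K := hKeq ▸ le_sup_left
  have harg := Sylow.normalizer_sup_eq_top' P hPK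
  apply Subgroup.normalizer_eq_top_iff.mp
  apply frattini_nongenerating
  rw [← harg, hKeq]
  exact le_antisymm (sup_le le_sup_left (le_sup_right.trans le_sup_right))
    (sup_le le_sup_left (sup_le (Subgroup.le_normalizer.trans le_sup_left) le_sup_right))

end Cfsg.Agent.S0011
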