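import Cfsg.Statements.S0015
import Cfsg.Agent.Solv.Nilpotent

set_option autoImplicit false
set_option linter.style.haveILetI false
open Cfsg

namespace Cfsg.Agent.S0015

/-- In a finite nilpotent group, an abelian normal subgroup that is maximal among abelian normal subgroups equals its own centralizer. -/
theorem result {G : Type*} [Group G] [Finite G] [Group.IsNilpotent G]
    (N : Subgroup G) [N.Normal] [IsMulCommutative N]
    (hmax : ∀ M : Subgroup G, M.Normal → IsMulCommutative M → N ≤ M → M = N) :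
    Subgroup.centralizer (N : Set G) = N := by
  classical
  have hcomm : ∀ a ∈ N, ∀ b ∈ N, a * b = b * a := fun a ha b hb =>
    congrArg Subtype.val ((‹IsMulCommutative N›).is_comm.comm (⟨a, ha⟩ : N) ⟨b, hb⟩)
  have hNC : N ≤ Subgroup.centralizer (N : Set G) := fun a ha =>
    Subgroup.mem_centralizer_iff.mpr fun b hb => hcomm b hb a ha
  refine le_antisymm ?_ hNC
  by_contra hnle
  let f := QuotientGroup.mk' N
  haveI : Group.IsNilpotent (G ⧸ N) := inferInstance
  have hne : (Subgroup.centralizer (N : Set G)).map f ≠ ⊥ := by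
    rw [Ne, Subgroup.map_eq_bot_iff, QuotientGroup.ker_mk']; exact hnle
  obtain ⟨w, hw, hw1⟩ := ((Subgroup.centralizer (N : Set G)).map f ⊓ Subgroup.center (G ⧸ N)).bot_or_exists_ne_one.resolve_left
    (Solv.inf_center_ne_bot ((inferInstance : (Subgroup.centralizer (N : Set G)).Normal).map f (QuotientGroup.mk'_surjective N)) hne)
  obtain ⟨⟨x, hx, rfl⟩, hw3⟩ := Subgroup.mem_inf.mp hw
  let M := (Subgroup.zpowers (f x)).comap f
  have hNM : N ≤ M := fun a ha => by
    rw [Subgroup.mem_comap, show f a = 1 from (QuotientGroup.eq_one_iff a).mpr ha]; exact one_mem _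
  haveI hzn : (Subgroup.zpowers (f x)).Normal := ⟨fun z hz c => by
    rw [Subgroup.mem_center_iff.mp ((Subgroup.zpowers_le.mpr hw3 : Subgroup.zpowers (f x) ≤ _) hz) c, mul_inv_cancel_right]
    exact hz⟩
  have hMc : IsMulCommutative M := by
    have hdec : ∀ m : M, ∃ a ∈ N, ∃ i : ℤ, (m : G) = a * x ^ i := by
      intro m
      obtain ⟨i, hi⟩ := Subgroup.mem_zpowers_iff.mp m.2
      refine ⟨(m : G) * (x ^ i)⁻¹, ?_, i, by group⟩
      rw [← QuotientGroup.eq_one_iff]
      show f ((m : G) * (x ^ i)⁻¹) = 1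
      rw [map_mul, map_inv, map_zpow, hi, mul_inv_cancel]
    have hxa : ∀ a ∈ N, ∀ i : ℤ, x ^ i * a = a * x ^ i := fun a ha i =>
      ((show Commute x a from (Subgroup.mem_centralizer_iff.mp hx a ha).symm).zpow_left i).eq
    refine ⟨⟨fun m m' => Subtype.ext ?_⟩⟩
    obtain ⟨a, ha, i, hi⟩ := hdec m
    obtain ⟨b, hb, j, hj⟩ := hdec m'
    rw [Subgroup.coe_mul, Subgroup.coe_mul, hi, hj]
    calc a * x ^ i * (b * x ^ j) = a * (x ^ i * b) * x ^ j := by group
      _ = (a * b) * (x ^ i * x ^ j) := by rw [hxa b hb i]; group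
      _ = (b * a) * (x ^ j * x ^ i) := by rw [hcomm a ha b hb, ← zpow_add, ← zpow_add, add_comm]
      _ = b * (a * x ^ j) * x ^ i := by group
      _ = b * (x ^ j * a) * x ^ i := by rw [hxa a ha j]
      _ = b * x ^ j * (a * x ^ i) := by group
  have hMN : M = N := hmax M inferInstance hMc hNM
  exact hw1 ((QuotientGroup.eq_one_iff x).mpr (hMN ▸ (show x ∈ M from Subgroup.mem_zpowers (f x))))

end Cfsg.Agent.S0015
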