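import Cfsg.Statements.S0018
import Cfsg.Agent.Solv.Fitting

set_option autoImplicit false
set_option linter.style.haveILetI false
open Cfsg

namespace Cfsg.Agent.S0018

/-- A finite solvable group whose Sylow p-subgroups are abelian has p-length one: a Sylow p-subgroup together with the largest normal subgroup of order prime to p generates a normal subgroup. -/
theorem result {G : Type*} [Group G] [Finite G] [Group.IsSolvable G]
    (p : ℕ) [Fact p.Prime] (P : Sylow p G) (hP : IsMulCommutative P) :
    ((P : Subgroup G) ⊔ Cfsg.pPrimeCore p G).Normal := by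
  haveI := (Solv.pPrimeCore_mem (G := G) p).1
  let f := QuotientGroup.mk' (Cfsg.pPrimeCore p G)
  have hf : Function.Surjective f := QuotientGroup.mk'_surjective _
  haveI : Group.IsSolvable (G ⧸ Cfsg.pPrimeCore p G) := Group.isSolvable_of_surjective hf
  have hR := Solv.centralizer_pCore_le (Solv.pPrimeCore_quotient (G := G) p)
  let Q : Sylow p (G ⧸ Cfsg.pPrimeCore p G) := P.mapSurjective hf
  have hQ : (Q : Subgroup (G ⧸ Cfsg.pPrimeCore p G)) = (P : Subgroup G).map f := rfl
  have hab : (Q : Subgroup (G ⧸ Cfsg.pPrimeCore p G)) ≤ Cfsg.pCore p (G ⧸ Cfsg.pPrimeCore p G) := by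
    refine le_trans ?_ hR
    intro x hx
    rw [Subgroup.mem_centralizer_iff]
    intro y hy
    haveI := hP
    haveI : IsMulCommutative (Q : Subgroup (G ⧸ Cfsg.pPrimeCore p G)) := by
      rw [hQ]; infer_instance
    exact setLike_mul_comm (Solv.pCore_le_sylow Q hy) hx
  have hQeq : (Q : Subgroup (G ⧸ Cfsg.pPrimeCore p G)) = Cfsg.pCore p (G ⧸ Cfsg.pPrimeCore p G) :=
    le_antisymm hab (Solv.pCore_le_sylow Q)
  have hn : ((Q : Subgroup (G ⧸ Cfsg.pPrimeCore p G)).comap f).Normal := by
    rw [hQeq]
    exact (Solv.pCore_mem p).1.comap f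
  rw [hQ, Subgroup.comap_map_eq, QuotientGroup.ker_mk'] at hn
  exact hn

end Cfsg.Agent.S0018
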