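import Cfsg.Statements.S0028
import Mathlib.GroupTheory.Nilpotent
import Mathlib.GroupTheory.Sylow

set_option autoImplicit false
set_option linter.style.haveILetI false
open Cfsg

namespace Cfsg.Agent.S0028

/-- Thompson's P × Q Lemma: let a p-subgroup P and a subgroup Q of order prime to p centralise each other and normalise a p-subgroup U; if every element of U fixed by P is fixed by Q, then Q centralises U. -/
theorem result {G : Type*} [Group G] [Finite G] (p : ℕ) [Fact p.Prime]
    (P Q U : Subgroup G) (hP : IsPGroup p P) (hQ : (Nat.card Q).Coprime p) (hU : IsPGroup p U)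
    (hPQ : P ≤ Subgroup.centralizer (Q : Set G))
    (hPU : P ≤ Subgroup.normalizer (U : Set G)) (hQU : Q ≤ Subgroup.normalizer (U : Set G))
    (hC : U ⊓ Subgroup.centralizer (P : Set G) ≤ Subgroup.centralizer (Q : Set G)) :
    Q ≤ Subgroup.centralizer (U : Set G) := by
  classical
  suffices key : ∀ n (U : Subgroup G), Nat.card U = n → IsPGroup p U →
      P ≤ Subgroup.normalizer (U : Set G) → Q ≤ Subgroup.normalizer (U : Set G) →
      U ⊓ Subgroup.centralizer (P : Set G) ≤ Subgroup.centralizer (Q : Set G) →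
      Q ≤ Subgroup.centralizer (U : Set G) from key _ U rfl hU hPU hQU hC
  intro n
  induction n using Nat.strong_induction_on with
  | _ n ih =>
  intro U hn hU hPU hQU hC
  by_cases hU1 : U = ⊥
  · subst hU1
    intro q _
    rw [Subgroup.mem_centralizer_iff]
    intro u hu
    rw [SetLike.mem_coe, Subgroup.mem_bot] at hu
    subst hu; simp
  have hVle : ⁅U, P⁆ ≤ U := Subgroup.le_normalizer_iff_commutator_le_left.mp hPU
  have hVne : ⁅U, P⁆ ≠ U := by
    intro hVU
    haveI : Group.IsNilpotent (U ⊔ P : Subgroup G) :=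
      IsPGroup.isNilpotent (p := p) (IsPGroup.to_sup_of_normal_left' hU hP hPU)
    have hmem : ∀ k, U ≤ (Subgroup.lowerCentralSeries (⊤ : Subgroup (U ⊔ P : Subgroup G)) k).map (U ⊔ P).subtype := by
      intro k
      induction k with
      | zero => rw [Subgroup.lowerCentralSeries_zero, ← MonoidHom.range_eq_map, Subgroup.range_subtype]; exact le_sup_left
      | succ k ihk =>
        rw [Subgroup.lowerCentralSeries_succ, Subgroup.map_commutator, ← MonoidHom.range_eq_map, Subgroup.range_subtype]
        calc U = ⁅U, P⁆ := hVU.symm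
          _ ≤ _ := Subgroup.commutator_mono ihk le_sup_right
    obtain ⟨k, hk⟩ := nilpotent_iff_lowerCentralSeries.mp ‹Group.IsNilpotent (U ⊔ P : Subgroup G)›
    have := hmem k
    rw [hk, Subgroup.map_bot, le_bot_iff] at this
    exact hU1 this
  have hlt : Nat.card (⁅U, P⁆ : Subgroup G) < n := by
    rw [← hn]
    exact Set.ncard_lt_ncard (SetLike.coe_ssubset_coe.mpr (lt_of_le_of_ne hVle hVne))
  have hQV : Q ≤ Subgroup.normalizer ((⁅U, P⁆ : Subgroup G) : Set G) := by
    intro q hq
    have hqP : q ∈ Subgroup.normalizer (P : Set G) := Subgroup.centralizer_le_normalizer _ (by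
      rw [Subgroup.mem_centralizer_iff]
      intro x hx
      exact (Subgroup.mem_centralizer_iff.mp (hPQ hx) q hq).symm)
    rw [Subgroup.mem_normalizer_iff_map_conj_eq, Subgroup.map_commutator,
      Subgroup.mem_normalizer_iff_map_conj_eq.mp (hQU hq), Subgroup.mem_normalizer_iff_map_conj_eq.mp hqP]
  have hQcV : Q ≤ Subgroup.centralizer ((⁅U, P⁆ : Subgroup G) : Set G) :=
    ih _ hlt _ rfl (hU.to_le hVle) (Subgroup.normalizer_commutator_ge_right U P) hQV
      (le_trans (inf_le_inf_right _ hVle) hC)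
  have h1 : ⁅⁅P, Q⁆, U⁆ = ⊥ := by
    rw [Subgroup.commutator_eq_bot_iff_le_centralizer.mpr hPQ, Subgroup.commutator_bot_left]
  have h2 : ⁅⁅U, P⁆, Q⁆ = ⊥ := by
    rw [Subgroup.commutator_comm]
    exact Subgroup.commutator_eq_bot_iff_le_centralizer.mpr hQcV
  have h3 : ⁅⁅Q, U⁆, P⁆ = ⊥ := Subgroup.commutator_commutator_eq_bot_of_rotate h2 h1
  have hc : ⁅Q, U⁆ ≤ Subgroup.centralizer (Q : Set G) :=
    le_trans (le_inf (Subgroup.le_normalizer_iff_commutator_le_right.mp hQU)
      (Subgroup.commutator_eq_bot_iff_le_centralizer.mp h3)) hC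
  intro q hq
  rw [Subgroup.mem_centralizer_iff]
  intro u hu
  set c := q * u * q⁻¹ * u⁻¹ with hcdef
  have hcQU : c ∈ ⁅Q, U⁆ := Subgroup.commutator_mem_commutator hq hu
  have hcomm : Commute q c := Subgroup.mem_centralizer_iff.mp (hc hcQU) q hq
  have hcU : c ∈ U := Subgroup.le_normalizer_iff_commutator_le_right.mp hQU hcQU
  have hrel : u * q * u⁻¹ = c⁻¹ * q := by rw [hcdef]; group
  have hone : (c⁻¹) ^ orderOf q = 1 := by
    have := congrArg (· ^ orderOf q) hrel
    simp only [conj_pow, pow_orderOf_eq_one, mul_one, mul_inv_cancel, hcomm.symm.inv_left.mul_pow] at this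
    exact this.symm
  obtain ⟨k, hk⟩ := hU ⟨c, hcU⟩
  have hk' : c ^ p ^ k = 1 := congrArg Subtype.val hk
  have hoq : (orderOf q).Coprime (p ^ k) :=
    ((hQ.coprime_dvd_left (Subgroup.orderOf_dvd_natCard _ hq))).pow_right k
  have : c = 1 := by
    rw [← orderOf_eq_one_iff]
    exact Nat.eq_one_of_dvd_coprimes hoq (orderOf_dvd_of_pow_eq_one (by simpa using hone))
      (orderOf_dvd_of_pow_eq_one hk')
  rw [hcdef] at this
  calc u * q = (q * u * q⁻¹ * u⁻¹) * (u * q) := by rw [this, one_mul]
    _ = q * u := by group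

end Cfsg.Agent.S0028
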