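import Cfsg.Statements.S0029
import Cfsg.Agent.Solv.Glauberman

set_option autoImplicit false
set_option linter.style.haveILetI false
open Cfsg

namespace Cfsg.Agent.S0029

/-- An action that is trivial on the Frattini quotient and coprime on the Frattini subgroup is trivial: if A normalises K, the orders of A and of the Frattini subgroup of K are coprime, and every commutator of an element of A with an element of K lies in the Frattini subgroup of K, then A centralises K. -/
theorem result {G : Type*} [Group G] [Finite G] (A K : Subgroup G)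
    (hAK : A ≤ Subgroup.normalizer (K : Set G))
    (hcop : (Nat.card A).Coprime (Nat.card (frattini K)))
    (htriv : ∀ a ∈ A, ∀ k ∈ K, a * k * a⁻¹ * k⁻¹ ∈ (frattini K).map K.subtype) :
    A ≤ Subgroup.centralizer (K : Set G) := by
  haveI := frattini_nilpotent (G := K)
  obtain ⟨N, hN⟩ : ∃ N, N = (frattini K).map K.subtype := ⟨_, rfl⟩
  have hNK : N ≤ K := hN ▸ Subgroup.map_subtype_le _
  have hNnorm : A ≤ Subgroup.normalizer (N : Set G) := by
    intro a ha
    apply Solv.mem_normalizer_of_conj
    let e : K ≃* K :=
      { toFun := fun k => ⟨a * k * a⁻¹, (Subgroup.mem_normalizer_iff.mp (hAK ha) _).mp k.2⟩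
        invFun := fun k => ⟨a⁻¹ * k * a, (Subgroup.mem_normalizer_iff.mp (hAK ha) _).mpr (by
          simp [mul_assoc])⟩
        left_inv := fun k => by ext; simp [mul_assoc]
        right_inv := fun k => by ext; simp [mul_assoc]
        map_mul' := fun k l => by ext; simp [mul_assoc] }
    have he : (frattini K).map e.toMonoidHom = frattini K :=
      Subgroup.characteristic_iff_map_eq.mp inferInstance e
    rw [hN, Solv.conj_smul_eq_map, Subgroup.map_map]
    conv_rhs => rw [← he, Subgroup.map_map]
    rfl
  have hc : (Nat.card A).Coprime (Nat.card N) := by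
    rwa [hN, Subgroup.card_map_of_injective K.subtype_injective]
  have hs : Group.IsSolvable N := by
    rw [hN]
    exact Group.isSolvable_of_surjective (K.subtype.subgroupMap_surjective (frattini K))
  have hgen : (Subgroup.centralizer (A : Set G)).subgroupOf K ⊔ frattini K = ⊤ := by
    rw [eq_top_iff]
    intro k _
    obtain ⟨n, hn, hnk⟩ := Solv.fix_coset hNnorm hc (Or.inr hs) (k := (k : G)) (fun a ha => by
      have h := htriv a ha k k.2
      rw [← hN] at h
      rw [show (k : G) * a * (k : G)⁻¹ * a⁻¹ = (a * k * a⁻¹ * (k : G)⁻¹)⁻¹ by group]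
      exact inv_mem h)
    rw [hN] at hn
    obtain ⟨n', hn', rfl⟩ := hn
    rw [show k = n'⁻¹ * (n' * k) by group]
    refine mul_mem (Subgroup.mem_sup_right (inv_mem hn')) (Subgroup.mem_sup_left ?_)
    exact hnk
  have htop := frattini_nongenerating hgen
  rw [Subgroup.subgroupOf_eq_top] at htop
  intro a ha
  rw [Subgroup.mem_centralizer_iff]
  intro k hk
  exact (Subgroup.mem_centralizer_iff.mp (htop hk) a ha).symm

end Cfsg.Agent.S0029
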