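import Cfsg.Statements.S0030
import Cfsg.Agent.Solv.Glauberman

set_option autoImplicit false
set_option linter.style.haveILetI false
open Cfsg

namespace Cfsg.Agent.S0030

/-- Under coprime action fixed points of a product of two invariant subgroups factor: if K = X Y with X and Y normalised by A then every A-fixed element of K is a product of an A-fixed element of X and an A-fixed element of Y. -/
theorem result {G : Type*} [Group G] [Finite G] (A K : Subgroup G) (hAK : A ≤ Subgroup.normalizer (K : Set G))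
    (hcop : (Nat.card A).Coprime (Nat.card K)) (hsolv : Group.IsSolvable A ∨ Group.IsSolvable K)
    (X Y : Subgroup G) (hX : X ≤ K) (hY : Y ≤ K) (hXA : A ≤ Subgroup.normalizer (X : Set G)) (hYA : A ≤ Subgroup.normalizer (Y : Set G))
    (hXY : ∀ k ∈ K, ∃ x ∈ X, ∃ y ∈ Y, k = x * y) (k : G) (hk : k ∈ K ⊓ Subgroup.centralizer (A : Set G)) :
    ∃ x ∈ X ⊓ Subgroup.centralizer (A : Set G), ∃ y ∈ Y ⊓ Subgroup.centralizer (A : Set G), k = x * y := by
  obtain ⟨x, hx, y, hy, rfl⟩ := hXY k hk.1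
  have hle : X ⊓ Y ≤ K := inf_le_left.trans hX
  obtain ⟨n, hn, hc⟩ := Solv.fix_coset (A := A) (N := X ⊓ Y)
    (fun a ha => by
      apply Solv.mem_normalizer_of_conj
      rw [Subgroup.smul_inf, Solv.conj_of_mem_normalizer (hXA ha), Solv.conj_of_mem_normalizer (hYA ha)])
    (hcop.coprime_dvd_right (Subgroup.card_dvd_of_le hle))
    (hsolv.imp_right fun h => by
      haveI := h
      exact Group.isSolvable_of_isSolvable_injective (Subgroup.inclusion_injective hle))
    (k := y) (fun a ha => by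
      have hfix : a * (x * y) = (x * y) * a := Subgroup.mem_centralizer_iff.mp hk.2 a ha
      refine ⟨?_, ?_⟩
      · have e : y * a * y⁻¹ * a⁻¹ = x⁻¹ * (a * x * a⁻¹) := by
          calc y * a * y⁻¹ * a⁻¹ = x⁻¹ * ((x * y) * a) * y⁻¹ * a⁻¹ := by group
            _ = x⁻¹ * (a * (x * y)) * y⁻¹ * a⁻¹ := by rw [hfix]
            _ = x⁻¹ * (a * x * a⁻¹) := by group
        show _ ∈ X
        rw [e]
        exact mul_mem (inv_mem hx) ((Subgroup.mem_normalizer_iff.mp (hXA ha) x).mp hx)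
      · show _ ∈ Y
        rw [show y * a * y⁻¹ * a⁻¹ = y * (a * y⁻¹ * a⁻¹) by group]
        exact mul_mem hy ((Subgroup.mem_normalizer_iff.mp (hYA ha) y⁻¹).mp (inv_mem hy)))
  obtain ⟨hn1, hn2⟩ := Subgroup.mem_inf.mp hn
  refine ⟨x * n⁻¹, Subgroup.mem_inf.mpr ⟨mul_mem hx (inv_mem hn1), ?_⟩, n * y,
    Subgroup.mem_inf.mpr ⟨mul_mem hn2 hy, hc⟩, by group⟩
  have h := mul_mem (Subgroup.mem_inf.mp hk).2 (inv_mem hc)
  rwa [show x * y * (n * y)⁻¹ = x * n⁻¹ by group] at h

end Cfsg.Agent.S0030
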