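import Cfsg.Statements.S0031
import Cfsg.Agent.Solv.Cores

set_option autoImplicit false
set_option linter.style.haveILetI false
open Cfsg
open scoped Pointwise

namespace Cfsg.Agent.S0031

/-- A fixed-point-free automorphism of a finite group maps some Sylow p-subgroup to itself. -/
theorem result {G : Type*} [Group G] [Finite G] (φ : G ≃* G)
    (hφ : MonoidHom.FixedPointFree (φ : G →* G)) (p : ℕ) [Fact p.Prime] :
    ∃ P : Sylow p G, (P : Subgroup G).map (φ : G →* G) = P := by
  obtain ⟨P⟩ : Nonempty (Sylow p G) := inferInstance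
  obtain ⟨g, hg⟩ := MulAction.exists_smul_eq G (P.mapSurjective (f := (φ : G →* G)) φ.surjective) P
  obtain ⟨x, hx⟩ := hφ.commutatorMap_surjective g
  rw [MonoidHom.commutatorMap_apply] at hx
  refine ⟨x⁻¹ • P, ?_⟩
  have hg' : MulAut.conj g • (P : Subgroup G).map (φ : G →* G) = P := congrArg Sylow.toSubgroup hg
  have key : ∀ (a : G) (S : Subgroup G), MulAut.conj a • S = S.map (MulAut.conj a : G ≃* G).toMonoidHom :=
    fun a S => rfl
  conv_rhs => rw [Sylow.coe_subgroup_smul, ← hg']
  rw [Sylow.coe_subgroup_smul, key, key, key, Subgroup.map_map, Subgroup.map_map, Subgroup.map_map]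
  congr 1
  ext y
  simp only [← hx, MonoidHom.coe_comp, MulEquiv.coe_toMonoidHom, Function.comp_apply,
    MulAut.conj_apply, MulAut.conj_inv_apply, MulAut.inv_apply, MulAut.conj_symm_apply,
    MonoidHom.coe_coe, MulAut.mul_apply, map_mul, map_inv, div_eq_mul_inv]
  group

end Cfsg.Agent.S0031
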