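import Cfsg.Statements.S0038
import Cfsg.Agent.Frob.Basic

set_option autoImplicit false
set_option linter.style.haveILetI false
open Pointwise
open Cfsg

namespace Cfsg.Agent.S0038

/-- All Frobenius complements of a finite group are conjugate to one another. -/
theorem result {G : Type*} [Group G] [Finite G] (H H₀ : Subgroup G)
    (hH : Cfsg.IsFrobeniusComplement H) (hH₀ : Cfsg.IsFrobeniusComplement H₀) :
    ∃ g : G, MulAut.conj g • H₀ = H := by
  have key : ∀ H H₀ : Subgroup G, Cfsg.IsFrobeniusComplement H → Cfsg.IsFrobeniusComplement H₀ →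
      Nat.card H₀ ≤ Nat.card H → ∃ g : G, MulAut.conj g • H₀ = H := by
    intro H H₀ hH hH₀ hle
    obtain ⟨g, hg⟩ := Cfsg.Agent.Frob.conj_le_of_card_le hH hH₀ hle
    refine ⟨g, le_antisymm hg fun h hh => ?_⟩
    -- `H₀' = conj g • H₀` is a Frobenius complement, hence self-normalising inside `H` with trivial kernel
    obtain ⟨a, ha, ha1⟩ := H₀.bot_or_exists_ne_one.resolve_left hH₀.1
    have ha' : g * a * g⁻¹ ∈ H := hg (Cfsg.Agent.Solv.mem_conj_smul.2 (by simpa [mul_assoc] using ha))
    exact Cfsg.Agent.Frob.le_of_le hH hH₀ g hg hh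
  rcases le_total (Nat.card H₀) (Nat.card H) with h | h
  · exact key H H₀ hH hH₀ h
  · obtain ⟨g, hg⟩ := key H₀ H hH₀ hH h
    exact ⟨g⁻¹, by rw [← hg, smul_smul, ← map_mul, inv_mul_cancel, map_one, one_smul]⟩

end Cfsg.Agent.S0038
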