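import Cfsg.Statements.S0039
import Cfsg.Agent.Frob.Basic

set_option autoImplicit false
set_option linter.style.haveILetI false
open Cfsg

namespace Cfsg.Agent.S0039

/-- In a finite group that is a semidirect product of a normal subgroup K by a nontrivial subgroup H, H is a Frobenius complement exactly when each nonidentity element of H acts without nonidentity fixed points on K by conjugation. -/
theorem result {G : Type*} [Group G] [Finite G] (K H : Subgroup G) [K.Normal]
    (hc : Subgroup.IsComplement' K H) (hK : K ≠ ⊥) (hH : H ≠ ⊥) :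
    Cfsg.IsFrobeniusComplement H ↔ ∀ h ∈ H, h ≠ 1 → K ⊓ Subgroup.centralizer {h} = ⊥ := by
  exact ⟨fun h x hx hx1 => Cfsg.Agent.Frob.fpf_of_isFrobeniusComplement hc.disjoint.eq_bot h hx hx1,
    fun h => Cfsg.Agent.Frob.isFrobeniusComplement_of_fpf hc hK hH h⟩

end Cfsg.Agent.S0039
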