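import Cfsg.Statements.S0041
import Cfsg.Agent.Solv.AbelianAction

set_option autoImplicit false
set_option linter.style.haveILetI false
open Cfsg

namespace Cfsg.Agent.S0041

/-- A group acting on a nontrivial abelian group so that no nonidentity element has a nonidentity fixed point is cyclic, provided it is abelian or its order is a product of two (possibly equal) primes. -/
theorem result {G : Type*} [Group G] [Finite G] (A V : Subgroup G) [IsMulCommutative V]
    (hV : V ≠ ⊥) (hAV : A ≤ Subgroup.normalizer (V : Set G)) (hfpf : ∀ a ∈ A, a ≠ 1 → V ⊓ Subgroup.centralizer {a} = ⊥)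
    (hA : IsMulCommutative A ∨ ∃ p q : ℕ, p.Prime ∧ q.Prime ∧ Nat.card A = p * q) : IsCyclic A := by
  letI : CommGroup V := { (inferInstance : Group V) with mul_comm := (‹IsMulCommutative V›).is_comm.comm }
  haveI : Nontrivial V := (Subgroup.nontrivial_iff_ne_bot V).mpr hV
  refine Solv.isCyclic_of_fpf ((Subgroup.normalizerMonoidHom V).comp (Subgroup.inclusion hAV)) ?_ hA
  intro a ha v hv
  have hv' : (a : G) * (v : G) * (a : G)⁻¹ = v := congrArg Subtype.val hv
  have h := (hfpf a a.2 fun h => ha (Subtype.ext h)).le (Subgroup.mem_inf.mpr ⟨v.2,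
    Subgroup.mem_centralizer_singleton_iff.mpr (by
      calc (v : G) * a = (a : G) * v * (a : G)⁻¹ * a := by rw [hv']
        _ = a * v := by group)⟩)
  exact Subtype.ext (Subgroup.mem_bot.mp h)

end Cfsg.Agent.S0041
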