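import Cfsg.Statements.S0572
import Mathlib

set_option autoImplicit false
set_option linter.style.haveILetI false
open Cfsg

namespace Cfsg.Agent.S0572

/-- Itô's Theorem: if a group G is the product AB of two abelian subgroups, then the commutator subgroup of G is abelian, i.e. the second term of the derived series is trivial. -/
theorem result {G : Type*} [Group G] (A B : Subgroup G) [IsMulCommutative A] [IsMulCommutative B] (hAB : ∀ g : G, ∃ a ∈ A, ∃ b ∈ B, g = a * b) : derivedSeries G 2 = ⊥ := by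
  have hA : ∀ x ∈ A, ∀ y ∈ A, x * y = y * x := fun x hx y hy =>
    congrArg Subtype.val ((‹IsMulCommutative A›).is_comm.comm (⟨x, hx⟩ : A) ⟨y, hy⟩)
  have hB : ∀ x ∈ B, ∀ y ∈ B, x * y = y * x := fun x hx y hy =>
    congrArg Subtype.val ((‹IsMulCommutative B›).is_comm.comm (⟨x, hx⟩ : B) ⟨y, hy⟩)
  have hBA : ∀ g : G, ∃ b ∈ B, ∃ a ∈ A, g = b * a := fun g => by
    obtain ⟨a, ha, b, hb, h⟩ := hAB g⁻¹
    exact ⟨b⁻¹, inv_mem hb, a⁻¹, inv_mem ha, by rw [← inv_inv g, h, mul_inv_rev]⟩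
  let φ : G → G → G := fun a b => a * b * a⁻¹ * b⁻¹
  -- conjugation by `A` moves only the second entry, conjugation by `B` only the first
  have hconjA : ∀ a₁ ∈ A, ∀ b ∈ B, ∃ b₃ ∈ B, ∀ a ∈ A, a₁ * φ a b * a₁⁻¹ = φ a b₃ := by
    intro a₁ ha₁ b hb
    obtain ⟨b₃, hb₃, a₃, ha₃, h⟩ := hBA (a₁ * b * a₁⁻¹)
    refine ⟨b₃, hb₃, fun a ha => ?_⟩
    calc a₁ * φ a b * a₁⁻¹ = (a₁ * a * a₁⁻¹) * (a₁ * b * a₁⁻¹) * (a₁ * a * a₁⁻¹)⁻¹ * (a₁ * b * a₁⁻¹)⁻¹ := by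
          simp only [φ]; group
      _ = a * (b₃ * a₃) * a⁻¹ * (b₃ * a₃)⁻¹ := by rw [hA a₁ ha₁ a ha, mul_inv_cancel_right, h]
      _ = a * b₃ * ((a₃ * a⁻¹) * a₃⁻¹) * b₃⁻¹ := by group
      _ = φ a b₃ := by rw [hA a₃ ha₃ a⁻¹ (inv_mem ha), mul_inv_cancel_right]
  have hconjB : ∀ b₁ ∈ B, ∀ a ∈ A, ∃ a₂ ∈ A, ∀ b ∈ B, b₁ * φ a b * b₁⁻¹ = φ a₂ b := by
    intro b₁ hb₁ a ha
    obtain ⟨a₂, ha₂, b₂, hb₂, h⟩ := hAB (b₁ * a * b₁⁻¹)
    refine ⟨a₂, ha₂, fun b hb => ?_⟩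
    calc b₁ * φ a b * b₁⁻¹ = (b₁ * a * b₁⁻¹) * (b₁ * b * b₁⁻¹) * (b₁ * a * b₁⁻¹)⁻¹ * (b₁ * b * b₁⁻¹)⁻¹ := by
          simp only [φ]; group
      _ = (a₂ * b₂) * b * (a₂ * b₂)⁻¹ * b⁻¹ := by rw [hB b₁ hb₁ b hb, mul_inv_cancel_right, h]
      _ = a₂ * ((b₂ * b) * b₂⁻¹) * a₂⁻¹ * b⁻¹ := by group
      _ = φ a₂ b := by rw [hB b₂ hb₂ b hb, mul_inv_cancel_right]
  have hcm : ∀ a ∈ A, ∀ b ∈ B, ∀ a₁ ∈ A, ∀ b₁ ∈ B, Commute (φ a b) (φ a₁ b₁) := by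
    intro a ha b hb a₁ ha₁ b₁ hb₁
    have h7 : ∀ a' ∈ A, ∀ b' ∈ B, (b' * a') * φ a b * (b' * a')⁻¹ = (a' * b') * φ a b * (a' * b')⁻¹ := by
      intro a' ha' b' hb'
      obtain ⟨b'', hb'', h3'⟩ := hconjA a' ha' b hb
      obtain ⟨a'', ha'', h2'⟩ := hconjB b' hb' a ha
      calc (b' * a') * φ a b * (b' * a')⁻¹ = b' * (a' * φ a b * a'⁻¹) * b'⁻¹ := by group
        _ = φ a'' b'' := by rw [h3' a ha, h2' b'' hb'']
        _ = a' * (b' * φ a b * b'⁻¹) * a'⁻¹ := by rw [h2' b hb, h3' a'' ha'']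
        _ = (a' * b') * φ a b * (a' * b')⁻¹ := by group
    have h8 := h7 a₁⁻¹ (inv_mem ha₁) b₁⁻¹ (inv_mem hb₁)
    have h9 : Commute (φ a₁ b₁)⁻¹ (φ a b) := by
      calc (φ a₁ b₁)⁻¹ * φ a b
          = (b₁ * a₁) * ((b₁⁻¹ * a₁⁻¹) * φ a b * (b₁⁻¹ * a₁⁻¹)⁻¹) * (a₁ * b₁)⁻¹ := by
            simp only [φ]; group
        _ = (b₁ * a₁) * ((a₁⁻¹ * b₁⁻¹) * φ a b * (a₁⁻¹ * b₁⁻¹)⁻¹) * (a₁ * b₁)⁻¹ := by rw [h8]
        _ = φ a b * (φ a₁ b₁)⁻¹ := by simp only [φ]; group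
    exact (Commute.inv_left_iff.1 h9).symm
  let S : Set G := {x | ∃ a ∈ A, ∃ b ∈ B, φ a b = x}
  have hS : ∀ g : G, ∀ x ∈ S, g * x * g⁻¹ ∈ S := by
    intro g x hx
    obtain ⟨a, ha, b, hb, rfl⟩ := hx
    obtain ⟨a₁, ha₁, b₁, hb₁, rfl⟩ := hAB g
    obtain ⟨a₂, ha₂, h2⟩ := hconjB b₁ hb₁ a ha
    obtain ⟨b₃, hb₃, h3⟩ := hconjA a₁ ha₁ b hb
    refine ⟨a₂, ha₂, b₃, hb₃, ?_⟩
    rw [← h3 a₂ ha₂, ← h2 b hb]; group
  let N := Subgroup.closure S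
  haveI : N.Normal := by
    refine ⟨fun n hn g => ?_⟩
    induction hn using Subgroup.closure_induction with
    | mem x hx => exact Subgroup.subset_closure (hS g x hx)
    | one => simpa using N.one_mem
    | mul x y _ _ hx hy => simpa [mul_assoc] using N.mul_mem hx hy
    | inv x _ hx => simpa [mul_assoc] using N.inv_mem hx
  have hc : ∀ x ∈ N, ∀ y ∈ N, x * y = y * x := by
    have hN : IsMulCommutative N := Subgroup.isMulCommutative_closure (by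
      rintro x ⟨a, ha, b, hb, rfl⟩ y ⟨a₁, ha₁, b₁, hb₁, rfl⟩
      exact hcm a ha b hb a₁ ha₁ b₁ hb₁)
    exact fun x hx y hy => congrArg Subtype.val (hN.is_comm.comm (⟨x, hx⟩ : N) ⟨y, hy⟩)
  have hle : derivedSeries G 1 ≤ N := by
    rw [derivedSeries_succ, derivedSeries_zero, Subgroup.commutator_le]
    intro g _ h _
    obtain ⟨a, ha, b, hb, rfl⟩ := hAB g
    obtain ⟨a', ha', b', hb', rfl⟩ := hAB h
    let q := QuotientGroup.mk' N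
    have hq : ∀ x ∈ A, ∀ y ∈ B, Commute (q x) (q y) := by
      intro x hx y hy
      have : q (φ x y) = 1 := (QuotientGroup.eq_one_iff _).2 (Subgroup.subset_closure ⟨x, hx, y, hy, rfl⟩)
      simp only [φ, map_mul, map_inv] at this
      exact mul_inv_eq_iff_eq_mul.1 (mul_inv_eq_one.1 this)
    have hAA : Commute (q a) (q a') := by unfold Commute SemiconjBy; rw [← map_mul, ← map_mul, hA a ha a' ha']
    have hBB : Commute (q b) (q b') := by unfold Commute SemiconjBy; rw [← map_mul, ← map_mul, hB b hb b' hb']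
    refine (QuotientGroup.eq_one_iff _).1 (?_ : q _ = 1)
    rw [map_commutatorElement, commutatorElement_eq_one_iff_commute, map_mul, map_mul]
    exact ((hAA.mul_right (hq a ha b' hb')).mul_left ((hq a' ha' b hb).symm.mul_right hBB))
  rw [derivedSeries_succ, eq_bot_iff, Subgroup.commutator_le]
  intro g hg h hh
  rw [Subgroup.mem_bot]
  exact commutatorElement_eq_one_iff_commute.2 (hc g (hle hg) h (hle hh))

end Cfsg.Agent.S0572
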