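import Cfsg.Statements.S0048
import Cfsg.Agent.Solv.Cores

set_option autoImplicit false
set_option linter.style.haveILetI false
open Cfsg

namespace Cfsg.Agent.S0048

/-- In a finite solvable group every maximal subgroup has index a prime power. -/
theorem result {G : Type*} [Group G] [Finite G] [Group.IsSolvable G]
    (M : Subgroup G) (hM : IsCoatom M) : IsPrimePow M.index := by
  obtain ⟨C, hC⟩ : ∃ C, C = M.normalCore := ⟨_, rfl⟩
  haveI hCn : C.Normal := hC ▸ inferInstance
  let f := QuotientGroup.mk' C
  have hf : Function.Surjective f := QuotientGroup.mk'_surjective C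
  have hCM : C ≤ M := hC ▸ Subgroup.normalCore_le M
  haveI : Nontrivial (G ⧸ C) :=
    QuotientGroup.nontrivial_iff.mpr fun h => hM.1 (top_le_iff.mp (h ▸ hCM))
  obtain ⟨A, hAn, hA0, -, hAmin⟩ :=
    Solv.exists_minimal_normal (N := (⊤ : Subgroup (G ⧸ C))) inferInstance top_ne_bot
  haveI := hAn
  haveI : Group.IsSolvable (G ⧸ C) := Group.isSolvable_of_surjective hf
  obtain ⟨hAab, p, hp, -, hAp, -⟩ := Solv.minimal_normal_solvable hAn hA0 hAmin
  haveI := Fact.mk hp
  obtain ⟨U, hU⟩ : ∃ U, U = M.map f := ⟨_, rfl⟩
  have hUc : U.comap f = M := by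
    rw [hU, Subgroup.comap_map_eq, QuotientGroup.ker_mk']
    exact sup_eq_left.mpr hCM
  have hidx : U.index = M.index := by rw [← hUc, Subgroup.index_comap_of_surjective _ hf]
  have hUA : U ⊔ A = ⊤ := by
    apply Subgroup.comap_injective hf
    rw [Subgroup.comap_top]
    refine (hM.le_iff.mp ?_).resolve_right ?_
    · rw [← hUc]; exact Subgroup.comap_mono le_sup_left
    · intro h
      have h1 : A.comap f ≤ M := (Subgroup.comap_mono le_sup_right).trans h.le
      have h2 : A.comap f ≤ C := by
        haveI : (A.comap f).Normal := hAn.comap f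
        exact (Subgroup.normal_le_normalCore.mpr h1).trans hC.ge
      apply hA0
      rw [eq_bot_iff]
      intro a ha
      obtain ⟨x, rfl⟩ := hf a
      exact (QuotientGroup.eq_one_iff x).mpr (h2 ha)
  have hI : U ⊓ A = ⊥ := by
    haveI : (U ⊓ A).Normal := by
      refine Subgroup.normalizer_eq_top_iff.mp (eq_top_iff.mpr ?_)
      rw [← hUA]
      refine sup_le (fun u hu => ?_) (fun a ha => ?_)
      · rw [Subgroup.mem_normalizer_iff]
        intro x
        constructor
        · rintro ⟨h1, h2⟩
          exact ⟨U.mul_mem (U.mul_mem hu h1) (inv_mem hu), hAn.conj_mem x h2 u⟩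
        · rintro ⟨h1, h2⟩
          refine ⟨?_, ?_⟩
          · simpa [mul_assoc] using U.mul_mem (U.mul_mem (inv_mem hu) h1) hu
          · simpa [mul_assoc] using hAn.conj_mem _ h2 u⁻¹
      · rw [Subgroup.mem_normalizer_iff]
        intro x
        constructor
        · intro hx
          rw [show a * x * a⁻¹ = x by rw [setLike_mul_comm ha hx.2]; group]
          exact hx
        · intro hx
          have hxA : x ∈ A := by simpa [mul_assoc] using A.mul_mem (A.mul_mem (inv_mem ha) hx.2) ha
          rwa [show a * x * a⁻¹ = x by rw [setLike_mul_comm ha hxA]; group] at hx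
    rcases hAmin _ this inf_le_right with h | h
    · exact h
    · exfalso
      rw [sup_eq_left.mpr (inf_eq_right.mp h)] at hUA
      exact hM.1 (by rw [← hUc, hUA, Subgroup.comap_top])
  have hidxA : U.index = Nat.card A := by
    rw [← Subgroup.relIndex_top_right, ← hUA, sup_comm]
    have h1 : Subgroup.IsComplement' A U :=
      Subgroup.isComplement'_of_disjoint_and_mul_eq_univ (disjoint_iff.mpr (inf_comm U A ▸ hI))
        (by rw [← Subgroup.normal_mul, sup_comm, hUA, Subgroup.coe_top])
    rw [sup_comm, hUA, Subgroup.relIndex_top_right]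
    exact h1.index_eq_card
  obtain ⟨k, hk⟩ := IsPGroup.iff_card.mp hAp
  rw [← hidx, hidxA, hk]
  refine ⟨p, k, hp.prime, Nat.pos_of_ne_zero ?_, rfl⟩
  rintro rfl
  exact hA0 (Subgroup.eq_bot_of_card_eq _ (by simpa using hk))

end Cfsg.Agent.S0048
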