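import Cfsg.Statements.S0049
import Cfsg.Agent.Solv.Cores

set_option autoImplicit false
set_option linter.style.haveILetI false
open Cfsg

namespace Cfsg.Agent.S0049

/-- A prime divisor of the order of a finite group also divides the index of the Frattini subgroup. -/
theorem result {G : Type*} [Group G] [Finite G] (p : ℕ) (hp : p.Prime) (hdvd : p ∣ Nat.card G) :
    p ∣ (frattini G).index := by
  haveI := Fact.mk hp
  by_contra hnd
  obtain ⟨P⟩ : Nonempty (Sylow p G) := inferInstance
  have hcard : p ∣ Nat.card (frattini G) := by
    have := (frattini G).card_mul_index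
    rw [← this] at hdvd
    exact (hp.dvd_mul.mp hdvd).resolve_right hnd
  obtain ⟨Q⟩ : Nonempty (Sylow p (frattini G)) := inferInstance
  haveI := frattini_nilpotent (G := G)
  have hQn : (Q : Subgroup (frattini G)).Normal :=
    Sylow.normal_of_normalizerCondition Group.normalizerCondition_of_isNilpotent _
  haveI := Q.characteristic_of_normal hQn
  let P₀ : Subgroup G := (Q : Subgroup (frattini G)).map (frattini G).subtype
  have hP₀c : (Nat.card P₀).Coprime P₀.index := by
    have h1 : Nat.card P₀ = Nat.card (Q : Subgroup (frattini G)) :=
      Subgroup.card_map_of_injective (frattini G).subtype_injective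
    have h2 : P₀.index = (Q : Subgroup (frattini G)).index * (frattini G).index := by
      simp [P₀, Subgroup.index_map_subtype]
    rw [h1, h2]
    obtain ⟨k, hk⟩ := IsPGroup.iff_card.mp Q.isPGroup'
    rw [hk]
    exact Nat.Coprime.pow_left k ((hp.coprime_iff_not_dvd.mpr Q.not_dvd_index).mul_right
      (hp.coprime_iff_not_dvd.mpr hnd))
  obtain ⟨C, hC⟩ := Subgroup.exists_right_complement'_of_coprime hP₀c
  have hCtop : C = ⊤ := by
    apply frattini_nongenerating
    rw [eq_top_iff, ← hC.sup_eq_top]
    exact sup_le ((Subgroup.map_subtype_le _).trans le_sup_right) le_sup_left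
  have h1 : Nat.card P₀ = 1 := by
    have := hC.card_mul
    rw [hCtop, Subgroup.card_top] at this
    exact (Nat.mul_eq_right Nat.card_pos.ne').mp this
  rw [Subgroup.card_map_of_injective (frattini G).subtype_injective] at h1
  have := Q.dvd_card_of_dvd_card hcard
  rw [h1] at this
  exact hp.one_lt.ne' (Nat.dvd_one.mp this)

end Cfsg.Agent.S0049
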