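import Cfsg.Statements.S0050
import Cfsg.Agent.Solv.Hall

set_option autoImplicit false
set_option linter.style.haveILetI false
open Cfsg
open scoped Pointwise

namespace Cfsg.Agent.S0050

/-- Frattini argument for Hall subgroups: if L is a solvable normal subgroup and H a subgroup of L of order coprime to its index in L, then L together with the normaliser of H generates the whole group. -/
theorem result {G : Type*} [Group G] [Finite G] (L : Subgroup G) [L.Normal] (hL : Group.IsSolvable L)
    (H : Subgroup G) (hHL : H ≤ L) (hHall : (Nat.card H).Coprime (H.relIndex L)) :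
    L ⊔ Subgroup.normalizer (H : Set G) = ⊤ := by
  rw [eq_top_iff]
  intro g _
  haveI := hL
  obtain ⟨H', hH'⟩ : ∃ H', H' = MulAut.conj g • H := ⟨_, rfl⟩
  have hH'L : H' ≤ L := by
    intro x hx
    rw [hH', Solv.mem_conj_smul] at hx
    simpa [mul_assoc] using (inferInstance : L.Normal).conj_mem _ (hHL hx) g
  have hc : ∀ S : Subgroup G, S ≤ L → Nat.card (S.subgroupOf L) = Nat.card S :=
    fun S hS => Nat.card_congr (Subgroup.subgroupOfEquivOfLe hS).toEquiv
  have hcard : Nat.card L = Nat.card H * H.relIndex L := by
    have := (H.subgroupOf L).card_mul_index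
    rw [hc H hHL] at this
    exact this.symm
  obtain ⟨x, hx⟩ := Solv.hall_conj hcard hHall (H := H'.subgroupOf L) (K := H.subgroupOf L)
    (by rw [hc H' hH'L, hH', Solv.card_conj_smul]) (hc H hHL)
  have := Solv.conj_of_conj_subgroupOf hH'L hHL hx
  rw [hH', ← mul_smul, ← map_mul] at this
  rw [show g = (x : G)⁻¹ * ((x : G) * g) by group]
  exact mul_mem (Subgroup.mem_sup_left (inv_mem x.2))
    (Subgroup.mem_sup_right (Solv.mem_normalizer_of_conj this))

end Cfsg.Agent.S0050
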