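import Cfsg.Statements.S0054
import Mathlib

set_option autoImplicit false
set_option linter.style.haveILetI false
open Cfsg

open scoped Pointwise

namespace Cfsg.Agent.S0054

/-- A regular normal subgroup of a finite 2-transitive group is elementary abelian: it is commutative and all its elements have order dividing one prime. -/
theorem result {G : Type*} [Group G] [Finite G]
    {X : Type*} [Nonempty X] [MulAction G X] (h2 : MulAction.IsMultiplyPretransitive G X 2)
    (N : Subgroup G) [N.Normal] (htrans : MulAction.IsPretransitive N X) (hreg : ∀ x : X, MulAction.stabilizer N x = ⊥) :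
    IsMulCommutative N ∧ ∃ p : ℕ, p.Prime ∧ ∀ n ∈ N, n ^ p = 1 := by
  rw [MulAction.is_two_pretransitive_iff] at h2
  obtain ⟨x₀⟩ := ‹Nonempty X›
  have hinj : ∀ a b : N, a • x₀ = b • x₀ → a = b := by
    intro a b hab
    have : b⁻¹ * a ∈ MulAction.stabilizer N x₀ := by
      rw [MulAction.mem_stabilizer_iff, mul_smul, hab, inv_smul_smul]
    rw [hreg, Subgroup.mem_bot, inv_mul_eq_one] at this
    exact this.symm
  have hconj : ∀ a b : N, a ≠ 1 → b ≠ 1 → ∃ g : G, g * a * g⁻¹ = b := by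
    intro a b ha hb
    have h1 : ∀ c : N, c ≠ 1 → x₀ ≠ c • x₀ := fun c hc h => hc (hinj c 1 (by rw [one_smul, ← h]))
    obtain ⟨g, hg1, hg2⟩ := h2 (h1 a ha) (h1 b hb)
    refine ⟨g, ?_⟩
    have : (⟨g * a * g⁻¹, (inferInstance : N.Normal).conj_mem _ a.2 g⟩ : N) = b := by
      apply hinj
      have hgi : g⁻¹ • x₀ = x₀ := by rw [inv_smul_eq_iff, hg1]
      show (g * (a : G) * g⁻¹) • x₀ = b • x₀
      rw [mul_smul, mul_smul, hgi]
      exact hg2
    exact congrArg Subtype.val this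
  rcases subsingleton_or_nontrivial N with hN | hN
  · exact ⟨⟨⟨fun a b => Subsingleton.elim _ _⟩⟩, 2, Nat.prime_two,
      fun n hn => congrArg Subtype.val (Subsingleton.elim ((⟨n, hn⟩ : N) ^ 2) 1)⟩
  obtain ⟨p, hp, hpd⟩ := Nat.exists_prime_and_dvd (Finite.one_lt_card (α := N)).ne'
  haveI := Fact.mk hp
  obtain ⟨c, hc⟩ := exists_prime_orderOf_dvd_card' p hpd
  have hc1 : c ≠ 1 := fun h => hp.one_lt.ne' (by rw [← hc, h, orderOf_one])
  have hpow : ∀ n : N, n ^ p = 1 := by
    intro n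
    by_cases hn : n = 1
    · rw [hn, one_pow]
    · obtain ⟨g, hg⟩ := hconj c n hc1 hn
      apply Subtype.ext
      rw [Subgroup.coe_pow, Subgroup.coe_one, ← hg, conj_pow, ← Subgroup.coe_pow,
        orderOf_dvd_iff_pow_eq_one.mp hc.dvd, Subgroup.coe_one, mul_one, mul_inv_cancel]
  haveI : Nontrivial (Subgroup.center N) :=
    (show IsPGroup p N from fun n => ⟨1, by rw [pow_one]; exact hpow n⟩).center_nontrivial
  obtain ⟨z, hz⟩ := exists_ne (1 : Subgroup.center N)
  refine ⟨⟨⟨fun a b => ?_⟩⟩, p, hp, fun n hn => congrArg Subtype.val (hpow ⟨n, hn⟩)⟩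
  by_cases ha : a = 1
  · rw [ha, one_mul, mul_one]
  obtain ⟨g, hg⟩ := hconj z.1 a (fun h => hz (Subtype.ext h)) ha
  have h := congrArg Subtype.val (Subgroup.mem_center_iff.mp z.2 ⟨g⁻¹ * b * g, by
    simpa using (inferInstance : N.Normal).conj_mem _ b.2 g⁻¹⟩)
  simp only [Subgroup.coe_mul] at h
  apply Subtype.ext
  rw [Subgroup.coe_mul, Subgroup.coe_mul, ← hg]
  calc g * (z.1 : G) * g⁻¹ * b = g * ((z.1 : G) * (g⁻¹ * b * g)) * g⁻¹ := by group
    _ = g * (g⁻¹ * b * g * z.1) * g⁻¹ := by rw [h]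
    _ = _ := by group

end Cfsg.Agent.S0054
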