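import Cfsg.Statements.S0056
import Cfsg.Agent.Solv.AbelianAction

set_option autoImplicit false
set_option linter.style.haveILetI false
open Cfsg

namespace Cfsg.Agent.S0056

/-- A coprime action on an abelian group that fixes all elements of prime order is trivial. -/
theorem result {G : Type*} [Group G] [Finite G] (A V : Subgroup G) [IsMulCommutative V]
    (hAV : A ≤ Subgroup.normalizer (V : Set G)) (hcop : (Nat.card A).Coprime (Nat.card V))
    (hΩ : ∀ v ∈ V, (orderOf v).Prime → ∀ a ∈ A, a * v = v * a) : A ≤ Subgroup.centralizer (V : Set G) := by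
  have hbot : ⁅V, A⁆ = ⊥ := by
    by_contra hne
    obtain ⟨x, hx, hx1⟩ := (⁅V, A⁆).bot_or_exists_ne_one.resolve_left hne
    obtain ⟨q, hq, hdvd⟩ := Nat.exists_prime_and_dvd (n := orderOf x) (mt orderOf_eq_one_iff.mp hx1)
    have hord : orderOf (x ^ (orderOf x / q)) = q :=
      orderOf_pow_orderOf_div (orderOf_pos x).ne' hdvd
    have hy := pow_mem hx (orderOf x / q)
    have hyV : x ^ (orderOf x / q) ∈ V := Subgroup.le_normalizer_iff_commutator_le_left.mp hAV hy
    have hyC : x ^ (orderOf x / q) ∈ Subgroup.centralizer (A : Set G) :=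
      Subgroup.mem_centralizer_iff.mpr (hΩ _ hyV (hord.symm ▸ hq))
    have h1 := (Solv.centralizer_inf_commutator_eq_bot hAV hcop).le
      (Subgroup.mem_inf.mpr ⟨Subgroup.mem_inf.mpr ⟨hyV, hyC⟩, hy⟩)
    rw [Subgroup.mem_bot] at h1
    rw [h1, orderOf_one] at hord
    exact hq.one_lt.ne hord
  rw [Subgroup.commutator_comm] at hbot
  exact Subgroup.commutator_eq_bot_iff_le_centralizer.mp hbot

end Cfsg.Agent.S0056
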