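import Cfsg.Statements.S0058
import Cfsg.Agent.Solv.AbelianAction
import Cfsg.Agent.Coprime.Basic

set_option autoImplicit false
set_option linter.style.haveILetI false
open Cfsg

namespace Cfsg.Agent.S0058

/-- Generation by centralisers: when a noncyclic abelian group A normalises K with coprime orders, K is generated by the fixed-point subgroups of the nonidentity elements of A. -/
theorem result {G : Type*} [Group G] [Finite G] (A K : Subgroup G)
    [IsMulCommutative A] (hA : ¬ IsCyclic A) (hAK : A ≤ Subgroup.normalizer (K : Set G)) (hcop : (Nat.card A).Coprime (Nat.card K)) :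
    (⨆ a ∈ {a : G | a ∈ A ∧ a ≠ 1}, K ⊓ Subgroup.centralizer {a}) = K := by
  classical
  letI : CommGroup A := { (inferInstance : Group A) with mul_comm := (‹IsMulCommutative A›).is_comm.comm }
  obtain ⟨p, hp, hcard⟩ := Solv.exists_prime_torsion_of_not_cyclic hA
  haveI := Fact.mk hp
  refine le_antisymm (iSup₂_le fun a _ => inf_le_left) ?_
  set E : Subgroup G := ((powMonoidHom p : A →* A).ker).map A.subtype with hE
  have hEA : E ≤ A := Subgroup.map_subtype_le _
  have hEc : IsMulCommutative E := ⟨⟨fun a b => Subtype.ext (congrArg Subtype.val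
    (mul_comm (⟨a, hEA a.2⟩ : A) ⟨b, hEA b.2⟩) :)⟩⟩
  have hpK : ¬ p ∣ Nat.card K := by
    intro h
    have h2 : p ∣ Nat.card A := by
      have : p ∣ Nat.card (powMonoidHom p : A →* A).ker := by
        obtain ⟨k, hk⟩ := IsPGroup.iff_card.mp
          (show IsPGroup p (powMonoidHom p : A →* A).ker from fun g => ⟨1, Subtype.ext (show (g : A) ^ p ^ 1 = 1 by rw [pow_one]; exact g.2)⟩)
        cases k with
        | zero => rw [hk, pow_zero] at hcard; have := Nat.one_lt_pow (n := 2) (by omega) hp.one_lt; omega
        | succ k => rw [hk]; exact dvd_pow_self _ (Nat.succ_ne_zero k)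
      exact this.trans (Subgroup.card_subgroup_dvd_card _)
    exact hp.one_lt.ne' (Nat.eq_one_of_dvd_coprimes hcop h2 h)
  refine le_trans (CoprimeAct.le_iSup_centralizer_elem (p := p) hEc (fun a ha => ?_)
    (by rw [hE, Subgroup.card_map_of_injective A.subtype_injective]; exact hcard) hpK (hEA.trans hAK)) ?_
  · obtain ⟨b, hb, rfl⟩ := ha
    exact congrArg Subtype.val (show b ^ p = 1 from hb)
  · exact iSup_le fun a => le_iSup₂_of_le (a : G) ⟨hEA a.2.1, a.2.2⟩ le_rfl

end Cfsg.Agent.S0058
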