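import Cfsg.Statements.S0059
import Cfsg.Agent.Solv.Glauberman

set_option autoImplicit false
set_option linter.style.haveILetI false
open Cfsg

namespace Cfsg.Agent.S0059

/-- Let a finite group act on a set on which a normal subgroup K of coprime order and index is transitive, with K or the quotient solvable. Then any complement H of K has a fixed point, and any two H-fixed points are interchanged by an element of K centralising H. -/
theorem result {G : Type*} [Group G] [Finite G] {X : Type*} [Nonempty X] [MulAction G X]
    (K H : Subgroup G) [K.Normal] (hc : Subgroup.IsComplement' K H) (hcop : (Nat.card K).Coprime K.index)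
    (hsolv : Group.IsSolvable K ∨ Group.IsSolvable (G ⧸ K)) (htrans : MulAction.IsPretransitive K X) :
    (∃ x : X, ∀ h ∈ H, h • x = x) ∧
    ∀ x y : X, (∀ h ∈ H, h • x = x) → (∀ h ∈ H, h • y = y) → ∃ k ∈ K ⊓ Subgroup.centralizer (H : Set G), k • x = y := by
  have hHc : (Nat.card H).Coprime (Nat.card K) := by
    rw [← hc.symm.index_eq_card]; exact hcop.symm
  have hn : H ≤ Subgroup.normalizer (K : Set G) := by rw [Subgroup.normalizer_eq_top]; exact le_top
  have hs : Group.IsSolvable H ∨ Group.IsSolvable K := by
    rcases hsolv with h | h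
    · exact Or.inr h
    · refine Or.inl ?_
      haveI := h
      refine Group.isSolvable_of_isSolvable_injective (f := (QuotientGroup.mk' K).comp H.subtype) ?_
      rw [injective_iff_map_eq_one]
      intro x hx
      have h2 : (x : G) ∈ K := (QuotientGroup.eq_one_iff _).mp hx
      exact Subtype.ext (Subgroup.mem_bot.mp (hc.disjoint.le_bot ⟨h2, x.2⟩))
  have ht : ∀ x y : X, ∃ k ∈ K, k • x = y := fun x y => by
    obtain ⟨k, hk⟩ := htrans.exists_smul_eq x y
    exact ⟨k, k.2, hk⟩
  exact ⟨Solv.glauberman_fixed hn hHc hs ht,
    fun x y hx hy => Solv.glauberman_conj hn hHc hs (ht x y) hx hy⟩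

end Cfsg.Agent.S0059
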