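import Cfsg.Statements.S0060
import Cfsg.Agent.Solv.Cores
import Cfsg.Agent.Solv.SchurZassenhaus

set_option autoImplicit false
set_option linter.style.haveILetI false
open Pointwise
open Cfsg

open scoped Pointwise

namespace Cfsg.Agent.S0060

/-- Brodkey's Theorem: in a finite group with abelian Sylow p-subgroups and no nontrivial normal p-subgroup, some conjugate of a Sylow p-subgroup meets it trivially. -/
theorem result {G : Type*} [Group G] [Finite G] (p : ℕ) [Fact p.Prime]
    (S : Sylow p G) (hS : IsMulCommutative S) (hOp : Cfsg.pCore p G = ⊥) :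
    ∃ g : G, (S : Subgroup G) ⊓ MulAut.conj g • (S : Subgroup G) = ⊥ := by
  classical
  haveI := Fintype.ofFinite G
  obtain ⟨g, -, hmin⟩ := Finset.exists_min_image (Finset.univ : Finset G)
    (fun g => Nat.card ((S : Subgroup G) ⊓ MulAut.conj g • (S : Subgroup G) : Subgroup G)) ⟨1, Finset.mem_univ 1⟩
  set D := (S : Subgroup G) ⊓ MulAut.conj g • (S : Subgroup G) with hD
  refine ⟨g, ?_⟩
  have hSc : ∀ x ∈ (S : Subgroup G), ∀ y ∈ (S : Subgroup G), x * y = y * x := fun x hx y hy =>
    congrArg Subtype.val (hS.is_comm.comm (⟨x, hx⟩ : (S : Subgroup G)) ⟨y, hy⟩)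
  set C := Subgroup.centralizer (D : Set G) with hC
  have hSg : ((g • S : Sylow p G) : Subgroup G) = MulAut.conj g • (S : Subgroup G) := rfl
  have h1 : ((g • S : Sylow p G) : Subgroup G) ≤ C := by
    intro x hx
    rw [hSg, Cfsg.Agent.Solv.mem_conj_smul] at hx
    refine Subgroup.mem_centralizer_iff.2 fun y hy => ?_
    have hy' : g⁻¹ * y * g ∈ (S : Subgroup G) := Cfsg.Agent.Solv.mem_conj_smul.1 (show y ∈ D from hy).2
    calc y * x = g * ((g⁻¹ * y * g) * (g⁻¹ * x * g)) * g⁻¹ := by group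
      _ = g * ((g⁻¹ * x * g) * (g⁻¹ * y * g)) * g⁻¹ := by rw [hSc _ hy' _ hx]
      _ = x * y := by group
  have hnorm : ∀ t : G, D ≤ MulAut.conj t • (S : Subgroup G) := by
    intro t
    set T := MulAut.conj t • (S : Subgroup G)
    have hTp : IsPGroup p (T ⊓ C : Subgroup G) := by
      refine IsPGroup.to_le ?_ inf_le_left
      exact S.isPGroup'.of_equiv (Subgroup.equivSMul (MulAut.conj t) (S : Subgroup G))
    obtain ⟨R, hR⟩ := (hTp.comap_subtype (K := C)).exists_le_sylow
    obtain ⟨c, hc⟩ := MulAction.exists_smul_eq C R ((g • S).subtype h1)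
    have hsub : MulAut.conj (c : G) • (T ⊓ C) ≤ MulAut.conj g • (S : Subgroup G) := by
      intro x hx
      rw [Cfsg.Agent.Solv.mem_conj_smul] at hx
      have hxC : x ∈ C := by
        have := C.mul_mem (C.mul_mem c.2 hx.2) (C.inv_mem c.2)
        simpa [mul_assoc] using this
      have h2 : c⁻¹ * (⟨x, hxC⟩ : C) * c ∈ (R : Subgroup C) := hR (by
        show ((c : G)⁻¹ * x * (c : G)) ∈ T ⊓ C
        exact hx)
      have h3 : (⟨x, hxC⟩ : C) ∈ ((c • R : Sylow p C) : Subgroup C) := by
        rw [show ((c • R : Sylow p C) : Subgroup C) = MulAut.conj c • (R : Subgroup C) from rfl,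
          Cfsg.Agent.Solv.mem_conj_smul]
        exact h2
      rw [hc, Sylow.coe_subtype, Subgroup.mem_subgroupOf] at h3
      exact h3
    have hle : (S : Subgroup G) ⊓ MulAut.conj ((c : G) * t) • (S : Subgroup G) ≤ D := by
      intro x hx
      refine ⟨hx.1, hsub ?_⟩
      rw [Cfsg.Agent.Solv.mem_conj_smul]
      have hx2 : x ∈ MulAut.conj ((c : G) * t) • (S : Subgroup G) := hx.2
      rw [Cfsg.Agent.Solv.mem_conj_smul] at hx2
      have hxC : x ∈ C := Subgroup.mem_centralizer_iff.2 fun y hy => hSc y (show y ∈ D from hy).1 x hx.1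
      refine ⟨Cfsg.Agent.Solv.mem_conj_smul.2 (by simpa [mul_assoc] using hx2), ?_⟩
      exact C.mul_mem (C.mul_mem (C.inv_mem c.2) hxC) c.2
    have heq := Subgroup.eq_of_le_of_card_ge hle (hmin _ (Finset.mem_univ _))
    intro x hx
    have hx' : x ∈ MulAut.conj ((c : G) * t) • (S : Subgroup G) := (heq.symm ▸ hx : x ∈ (S : Subgroup G) ⊓ MulAut.conj ((c : G) * t) • (S : Subgroup G)).2
    rw [Cfsg.Agent.Solv.mem_conj_smul] at hx' ⊢
    have hxc : (c : G)⁻¹ * x * c = x := by
      rw [mul_assoc, Subgroup.mem_centralizer_iff.1 c.2 x hx, inv_mul_cancel_left]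
    rw [show t⁻¹ * x * t = ((c : G) * t)⁻¹ * x * ((c : G) * t) by
      conv_lhs => rw [← hxc]
      group]
    exact hx'
  rw [← le_bot_iff, ← hOp, Cfsg.Agent.Solv.pCore_eq_iInf p]
  refine le_iInf fun P => ?_
  obtain ⟨t, rfl⟩ := MulAction.exists_smul_eq G S P
  exact hnorm t

end Cfsg.Agent.S0060
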