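import Cfsg.Statements.S0063
import Mathlib

set_option autoImplicit false
set_option linter.style.haveILetI false
open Cfsg

open scoped Pointwise commutatorElement

namespace Cfsg.Agent.S0063

/-- A finite group of prime-power order p ^ m with m > 1 is nilpotent of class at most m - 1. -/
theorem result {G : Type*} [Group G] [Finite G] (p m : ℕ) [Fact p.Prime]
    (hG : Nat.card G = p ^ m) (hm : 1 < m) : Group.nilpotencyClass G ≤ m - 1 := by
  haveI := (IsPGroup.of_card hG).isNilpotent
  have key : ∀ j, Nat.card G = p ^ j → Group.nilpotencyClass G ≤ max 1 (j - 1) := by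
    refine Group.nilpotent_center_quotient_ind
      (P := fun K _ _ => ∀ j, Nat.card K = p ^ j → Group.nilpotencyClass K ≤ max 1 (j - 1)) G ?_ ?_
    · intro K _ _ j _
      rw [Group.nilpotencyClass_zero_iff_subsingleton.mpr inferInstance]
      exact Nat.zero_le _
    · intro K _ _ ih j hj
      have hp : p.Prime := Fact.out
      haveI : Finite K := Nat.finite_of_card_ne_zero (hj ▸ pow_ne_zero _ hp.ne_zero)
      by_cases hab : Subgroup.center K = ⊤
      · refine le_max_of_le_left ?_
        rw [← Subgroup.upperCentralSeries_eq_top_iff_nilpotencyClass_le, Subgroup.upperCentralSeries_one]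
        exact hab
      have hKp : IsPGroup p K := IsPGroup.of_card hj
      haveI : Nontrivial K := by
        rcases subsingleton_or_nontrivial K with h | h
        · exact absurd (Subsingleton.elim _ _) hab
        · exact h
      have hdvd := Subgroup.card_eq_card_quotient_mul_card_subgroup (Subgroup.center K)
      obtain ⟨i, -, hi⟩ := (Nat.dvd_prime_pow hp).mp (hj ▸ Dvd.intro _ hdvd.symm : Nat.card (K ⧸ Subgroup.center K) ∣ p ^ j)
      haveI := hKp.center_nontrivial
      have hlt : i < j := by
        apply (Nat.pow_lt_pow_iff_right hp.one_lt).mp
        rw [← hi, ← hj, hdvd]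
        exact lt_mul_of_one_lt_right Nat.card_pos Finite.one_lt_card
      have hi2 : 2 ≤ i := by
        by_contra hlt2
        apply hab
        haveI : IsCyclic (K ⧸ Subgroup.center K) := by
          interval_cases i
          · haveI : Subsingleton (K ⧸ Subgroup.center K) := (Nat.card_eq_one_iff_unique.mp (by simpa using hi)).1
            infer_instance
          · exact isCyclic_of_prime_card (p := p) (by simpa using hi)
        rw [eq_top_iff]
        intro a _
        rw [Subgroup.mem_center_iff]
        exact fun b => commutative_of_cyclic_center_quotient (QuotientGroup.mk' (Subgroup.center K))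
          (by rw [QuotientGroup.ker_mk']) b a
      have h2 := ih i hi
      rw [Group.nilpotencyClass_eq_quotient_center_plus_one]
      omega
  have := key m hG
  omega

end Cfsg.Agent.S0063
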