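import Cfsg.Statements.S0064
import Cfsg.Agent.Solv.Nilpotent

set_option autoImplicit false
set_option linter.style.haveILetI false
open Cfsg

namespace Cfsg.Agent.S0064

/-- A finite group is nilpotent exactly when each of its subgroups is subnormal. -/
theorem result {G : Type*} [Group G] [Finite G] :
    Group.IsNilpotent G ↔ ∀ H : Subgroup G, H.IsSubnormal := by
  constructor
  · intro h H
    haveI := h
    exact Solv.isSubnormal_of_isNilpotent H
  · intro h
    refine ((Group.isNilpotent_of_finite_tfae (G := G)).out 0 3).mpr fun p hp P => ?_
    haveI := hp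
    have he : (P : Subgroup G) = Cfsg.pCore p G :=
      le_antisymm (Solv.le_pCore_of_isSubnormal (h _) P.isPGroup') (Solv.pCore_le_sylow P)
    rw [he]
    exact (Solv.pCore_mem p).1

end Cfsg.Agent.S0064
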