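import Cfsg.Statements.S0068
import Cfsg.Agent.Frob.Basic

set_option autoImplicit false
set_option linter.style.haveILetI false
open Cfsg

namespace Cfsg.Agent.S0068

/-- Frobenius complements of even order: if H complements a nontrivial normal subgroup K, each nonidentity element of H has trivial centraliser in K, and H has even order, then H contains a unique involution s, K is abelian, and s inverts every element of K. -/
theorem result {G : Type*} [Group G] [Finite G] (K H : Subgroup G) [K.Normal]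
    (hc : Subgroup.IsComplement' K H) (hK : K ≠ ⊥) (hfpf : ∀ h ∈ H, h ≠ 1 → K ⊓ Subgroup.centralizer {h} = ⊥)
    (heven : 2 ∣ Nat.card H) :
    (∃ s ∈ H, orderOf s = 2 ∧ (∀ t ∈ H, orderOf t = 2 → t = s) ∧ ∀ k ∈ K, s * k * s⁻¹ = k⁻¹) ∧ IsMulCommutative K := by
  obtain ⟨s, hs⟩ := exists_prime_orderOf_dvd_card' (G := H) 2 heven
  have hs' : orderOf (s : G) = 2 := by rw [Subgroup.orderOf_coe]; exact hs
  have hinv := Cfsg.Agent.Frob.even_complement hfpf s.2 hs'
  refine ⟨⟨s, s.2, hs', fun t ht ht2 => ?_, hinv⟩, ⟨⟨fun a b => Subtype.ext ?_⟩⟩⟩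
  · have hinv' := Cfsg.Agent.Frob.even_complement hfpf ht ht2
    have hts : t⁻¹ = t := inv_eq_of_mul_eq_one_right (by rw [← sq, ← ht2, pow_orderOf_eq_one])
    by_contra hne
    have h1 : t * (s : G) ≠ 1 := fun e => hne (by rw [← hts]; exact inv_eq_of_mul_eq_one_right e)
    apply hK
    rw [eq_bot_iff, ← hfpf _ (H.mul_mem ht s.2) h1]
    refine fun k hk => ⟨hk, Subgroup.mem_centralizer_singleton_iff.2 ?_⟩
    have h2 : t * (s : G) * k * (t * (s : G))⁻¹ = k := by
      have e : t * (s : G) * k * (t * (s : G))⁻¹ = t * ((s : G) * k * (s : G)⁻¹) * t⁻¹ := by group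
      rw [e, hinv k hk, hinv' _ (K.inv_mem hk), inv_inv]
    exact (mul_inv_eq_iff_eq_mul.1 h2).symm
  · show (a : G) * b = b * a
    have h1 := hinv _ (K.mul_mem a.2 b.2)
    rw [show (s : G) * (a * b) * (s : G)⁻¹ = ((s : G) * a * (s : G)⁻¹) * ((s : G) * b * (s : G)⁻¹) by group,
      hinv a a.2, hinv b b.2, mul_inv_rev] at h1
    have h3 := congrArg (·⁻¹) h1
    simpa [mul_inv_rev] using h3.symm

end Cfsg.Agent.S0068
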