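import Cfsg.Statements.S0070
import Cfsg.Agent.Solv.Fitting

set_option autoImplicit false
set_option linter.style.haveILetI false
open Cfsg

namespace Cfsg.Agent.S0070

/-- The Fitting subgroup commutes with passing to the Frattini quotient: the Fitting subgroup of G modulo its Frattini subgroup is the image of the Fitting subgroup of G. -/
theorem result {G : Type*} [Group G] [Finite G] :
    Cfsg.fittingSubgroup (G ⧸ frattini G) = (Cfsg.fittingSubgroup G).map (QuotientGroup.mk' (frattini G)) := by
  haveI := Solv.fittingSubgroup_normal (G := G)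
  let f := QuotientGroup.mk' (frattini G)
  have hf : Function.Surjective f := QuotientGroup.mk'_surjective _
  haveI := Solv.fittingSubgroup_isNilpotent (G := G)
  refine le_antisymm ?_ (Solv.le_fittingSubgroup (Subgroup.Normal.map inferInstance f hf)
    (Group.nilpotent_of_surjective _ (f.subgroupMap_surjective _)))
  haveI := Solv.fittingSubgroup_normal (G := G ⧸ frattini G)
  haveI := Solv.fittingSubgroup_isNilpotent (G := G ⧸ frattini G)
  obtain ⟨A, hA⟩ : ∃ A, A = (Cfsg.fittingSubgroup (G ⧸ frattini G)).comap f := ⟨_, rfl⟩
  haveI : A.Normal := hA ▸ inferInstance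
  have hAn : Group.IsNilpotent A := by
    refine Solv.isNilpotent_of_frattini A (frattini G) le_rfl ?_
    let g : A →* Cfsg.fittingSubgroup (G ⧸ frattini G) :=
      (f.subgroupMap A).comp (MonoidHom.id A) |> fun φ =>
        (Subgroup.inclusion (by rw [hA, Subgroup.map_comap_eq_self_of_surjective hf])).comp φ
    have hker : g.ker = (frattini G).subgroupOf A := by
      ext x
      rw [MonoidHom.mem_ker, Subgroup.mem_subgroupOf, ← Subtype.coe_inj, ← QuotientGroup.eq_one_iff]
      rfl
    haveI : Group.IsNilpotent g.range := inferInstance
    exact Group.nilpotent_of_mulEquiv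
      ((QuotientGroup.quotientKerEquivRange g).symm.trans (QuotientGroup.quotientMulEquivOfEq hker))
  have h1 := Subgroup.map_mono (f := f) (Solv.le_fittingSubgroup (inferInstance : A.Normal) hAn)
  rw [hA, Subgroup.map_comap_eq_self_of_surjective hf] at h1
  exact h1

end Cfsg.Agent.S0070
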