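import Cfsg.Statements.S0074
import Cfsg.Agent.Transfer.Abelian

set_option autoImplicit false
open Cfsg
open scoped commutatorElement
open Cfsg.Agent.Transfer

namespace Cfsg.Agent.S0074

/-- For an abelian Sylow p-subgroup P, the intersection of P with the derived subgroup of G equals its intersection with the derived subgroup of the normalizer of P. -/
theorem result {G : Type*} [Group G] [Finite G] {p : ℕ} [Fact p.Prime] (P : Sylow p G) (hP : IsMulCommutative P) : commutator G ⊓ (P : Subgroup G) = ⁅Subgroup.normalizer (P : Set G), Subgroup.normalizer (P : Set G)⁆ ⊓ (P : Subgroup G) := by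
  refine le_antisymm (le_inf ?_ inf_le_right) (inf_le_inf_right _ (Subgroup.commutator_mono le_top le_top))
  rw [Subgroup.commutator_inf_eq_focalSubgroup]
  exact (focal_le_of_control _ _ (control_of_abelian P hP)).trans
    (Subgroup.commutator_mono Subgroup.le_normalizer le_rfl)

end Cfsg.Agent.S0074
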