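import Cfsg.Statements.S0076
import Cfsg.Agent.Coprime.SylowFusion

set_option autoImplicit false
open Cfsg

namespace Cfsg.Agent.S0076

/-- Two P-invariant subsets of a Sylow p-subgroup P that are conjugate in G are conjugate under the normalizer of P. -/
theorem result {G : Type*} [Group G] [Finite G] {p : ℕ} [Fact p.Prime] (P : Sylow p G) (X Y : Set G) (hXP : X ⊆ P) (hYP : Y ⊆ P) (hX : ∀ x ∈ P, (fun y => x * y * x⁻¹) '' X = X) (hY : ∀ x ∈ P, (fun y => x * y * x⁻¹) '' Y = Y) (g : G) (hg : (fun y => g * y * g⁻¹) '' X = Y) : ∃ n ∈ Subgroup.normalizer (P : Set G), (fun y => n * y * n⁻¹) '' X = Y := by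
  obtain ⟨k, hk, hkg⟩ := SylowFusion.exists_normalizer_mul P (Subgroup.normalizer Y) g
    (fun s hs => SylowFusion.conj_image_eq_iff.mp (hY s hs))
    (fun s hs => by
      refine SylowFusion.conj_image_eq_iff.mp ?_
      rw [← hg, SylowFusion.conj_image_comp, show g * s * g⁻¹ * g = g * s by group,
        ← SylowFusion.conj_image_comp g s, hX s hs])
  exact ⟨k * g, hkg, by rw [← SylowFusion.conj_image_comp, hg, SylowFusion.conj_image_eq_iff.mpr hk]⟩

end Cfsg.Agent.S0076
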