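import Cfsg.Statements.S0077
import Cfsg.Agent.Transfer.HallComplement
import Cfsg.Agent.Transfer.Abelian

set_option autoImplicit false
open Cfsg
open Cfsg.Agent.Transfer

namespace Cfsg.Agent.S0077

/-- If a subgroup Z of the centre of a Sylow p-subgroup P is weakly closed in P, then P meets the derived subgroup of G exactly where it meets the derived subgroup of the normalizer of Z. -/
theorem result {G : Type*} [Group G] [Finite G] {p : ℕ} [Fact p.Prime] (P : Sylow p G) (Z : Subgroup G) (hZ : Z ≤ Subgroup.centralizer (P : Set G)) (hW : Cfsg.IsWeaklyClosed Z P) : commutator G ⊓ (P : Subgroup G) = ⁅Subgroup.normalizer (Z : Set G), Subgroup.normalizer (Z : Set G)⁆ ⊓ (P : Subgroup G) := by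
  refine le_antisymm ?_ (inf_le_inf_right _ (Subgroup.commutator_mono le_top le_top))
  rw [Subgroup.commutator_inf_eq_focalSubgroup]
  refine le_inf ?_ (Subgroup.focalSubgroup_le _)
  refine (focal_le_of_control _ _ (control_of_weaklyClosed P Z hZ hW)).trans ?_
  refine Subgroup.commutator_mono (fun x hx => ?_) le_rfl
  exact Subgroup.centralizer_le_normalizer _ (Subgroup.mem_centralizer_iff.mpr fun z hz =>
    (Subgroup.mem_centralizer_iff.mp (hZ hz) x hx).symm)

end Cfsg.Agent.S0077
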