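import Cfsg.Statements.S0079
import Cfsg.Agent.Transfer.HallComplement

set_option autoImplicit false
open Cfsg
open Cfsg.Agent.Transfer

namespace Cfsg.Agent.S0079

/-- A nilpotent Hall subgroup has a normal complement exactly when elements of it that are conjugate in the whole group are already conjugate inside it. -/
theorem result {G : Type*} [Group G] [Finite G] (H : Subgroup G) (hH : Group.IsNilpotent H) (hHall : Nat.Coprime (Nat.card H) H.index) : (∃ N : Subgroup G, N.Normal ∧ N.IsComplement' H) ↔ ∀ x ∈ H, ∀ y ∈ H, (∃ g : G, g * x * g⁻¹ = y) → ∃ h ∈ H, h * x * h⁻¹ = y := by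
  refine ⟨?_, fun h => hall_nilpotent_complement H hH hHall h⟩
  rintro ⟨N, hN, hc⟩ x hx y hy ⟨g, hg⟩
  obtain ⟨⟨⟨n, hn⟩, ⟨h, hh⟩⟩, hnh⟩ := (hc.existsUnique g).exists
  simp only at hnh
  refine ⟨h, hh, ?_⟩
  have hy' : h * x * h⁻¹ ∈ H := mul_mem (mul_mem hh hx) (inv_mem hh)
  have h1 : y * (h * x * h⁻¹)⁻¹ ∈ N ⊓ H := by
    refine ⟨?_, H.mul_mem hy (H.inv_mem hy')⟩
    rw [← hg, ← hnh, show n * h * x * (n * h)⁻¹ * (h * x * h⁻¹)⁻¹ =
      n * ((h * x * h⁻¹) * n⁻¹ * (h * x * h⁻¹)⁻¹) by group]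
    exact mul_mem hn (hN.conj_mem _ (inv_mem hn) _)
  rw [hc.disjoint.eq_bot, Subgroup.mem_bot, mul_inv_eq_one] at h1
  exact h1.symm

end Cfsg.Agent.S0079
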