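import Cfsg.Statements.S0080
import Cfsg.Agent.Transfer.Hall

set_option autoImplicit false
open Cfsg
open scoped IsMulCommutative
open Cfsg.Agent.Transfer

namespace Cfsg.Agent.S0080

/-- When the index of H is prime to the order of H/H', the focal subgroup of H is G' ∩ H, and H/(G' ∩ H) has a normal complement. -/
theorem result {G : Type*} [Group G] [Finite G] (H : Subgroup G) (h : Nat.Coprime H.index (⁅H, H⁆.relIndex H)) : Subgroup.focalSubgroup H = commutator G ⊓ H ∧ ∃ N : Subgroup G, N.Normal ∧ N ⊓ H = commutator G ⊓ H ∧ N ⊔ H = ⊤ := by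
  set M := ↥H ⧸ Subgroup.focalSubgroupOf H with hMdef
  have hcard : Nat.card M ∣ ⁅H, H⁆.relIndex H :=
    Subgroup.index_dvd_of_le (K := Subgroup.focalSubgroupOf H) (fun x hx =>
      Subgroup.commutator_le_focalSubgroup H hx)
  have hco : Nat.Coprime (Nat.card M) H.index := (h.coprime_dvd_right hcard).symm
  have hcore : (Subgroup.transferFocal H).ker ⊓ H = Subgroup.focalSubgroup H := by
    refine le_antisymm ?_ (le_inf ((Subgroup.focalSubgroup_le_commutator H).trans
      (Abelianization.commutator_subset_ker _)) (Subgroup.focalSubgroup_le H))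
    rintro x ⟨hx, hxH⟩
    have h1 : ((⟨x, hxH⟩ : H) : M) ^ H.index = 1 := by
      rw [← Subgroup.transferFocal_eq_pow H ⟨x, hxH⟩]
      exact MonoidHom.mem_ker.mp hx
    exact (QuotientGroup.eq_one_iff (N := Subgroup.focalSubgroupOf H) (⟨x, hxH⟩ : H)).mp (eq_one_of_pow_coprime hco h1)
  have heq : Subgroup.focalSubgroup H = commutator G ⊓ H :=
    le_antisymm (le_inf (Subgroup.focalSubgroup_le_commutator H) (Subgroup.focalSubgroup_le H))
      (hcore ▸ inf_le_inf_right H (Abelianization.commutator_subset_ker _))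
  refine ⟨heq, (Subgroup.transferFocal H).ker, inferInstance, hcore.trans heq, ?_⟩
  rw [eq_top_iff]
  intro g _
  obtain ⟨y, hy⟩ := (powCoprime hco).surjective (Subgroup.transferFocal H g)
  obtain ⟨x, rfl⟩ := QuotientGroup.mk_surjective y
  have hmem : g * (x : G)⁻¹ ∈ (Subgroup.transferFocal H).ker := by
    rw [MonoidHom.mem_ker, map_mul, map_inv, Subgroup.transferFocal_eq_pow, ← hy]
    exact mul_inv_cancel _
  have h2 := Subgroup.mul_mem_sup hmem x.2
  rwa [inv_mul_cancel_right] at h2

end Cfsg.Agent.S0080
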