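import Cfsg.Statements.S0082
import Cfsg.Agent.Transfer.AbelianSylow

set_option autoImplicit false
open Cfsg
open Cfsg.Agent.Transfer

namespace Cfsg.Agent.S0082

/-- With a cyclic Sylow p-subgroup, either there is a normal p-complement or the elements of order prime to p generate the whole group. -/
theorem result {G : Type*} [Group G] [Finite G] {p : ℕ} [Fact p.Prime] (P : Sylow p G) (hP : IsCyclic P) : Cfsg.HasNormalPComplement p G ∨ Cfsg.pResidual p G = ⊤ := by
  haveI := hP
  letI : CommGroup ↥(P : Subgroup G) := IsCyclic.commGroup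
  have hab : IsMulCommutative P := ⟨⟨fun a b => mul_comm a b⟩⟩
  obtain ⟨hbot, hsup⟩ := abelian_sylow_decomp P hab
  set A := ⁅(P : Subgroup G), Subgroup.normalizer (P : Set G)⁆ with hA
  set C := (P : Subgroup G) ⊓ Subgroup.centralizer (Subgroup.normalizer (P : Set G) : Set G) with hC
  by_cases hA0 : A = ⊥
  · left
    rw [hA0, bot_sup_eq] at hsup
    refine hasNPC_of_burnside P fun n hn => Subgroup.mem_centralizer_iff.mpr fun x hx => ?_
    have hxC : x ∈ C := by rw [hsup]; exact hx
    exact (Subgroup.mem_centralizer_iff.mp hxC.2 n hn).symm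
  right
  have hC0 : C = ⊥ := by
    by_contra hC0
    have hAP : A ≤ (P : Subgroup G) := le_sup_left.trans hsup.le
    have horder : ∀ B : Subgroup G, B ≤ (P : Subgroup G) → B ≠ ⊥ → ∃ u ∈ B, orderOf u = p := by
      intro B hB hB0
      haveI : Nontrivial B := (Subgroup.nontrivial_iff_ne_bot B).mpr hB0
      obtain ⟨n, hn, hcard⟩ := (P.isPGroup'.to_le hB).nontrivial_iff_card.mp inferInstance
      obtain ⟨u, hu⟩ := exists_prime_orderOf_dvd_card' (G := B) p
        (hcard ▸ dvd_pow_self p hn.ne')
      exact ⟨u, u.2, by rw [Subgroup.orderOf_coe, hu]⟩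
    obtain ⟨u, huA, hu⟩ := horder A hAP hA0
    obtain ⟨v, hvC, hv⟩ := horder C inf_le_left hC0
    classical
    cases nonempty_fintype ↥(P : Subgroup G)
    set u' : ↥(P : Subgroup G) := ⟨u, hAP huA⟩ with hu'
    have hmem : (⟨v, hvC.1⟩ : ↥(P : Subgroup G)) ∈ Subgroup.zpowers u' := by
      have hle : (Finset.univ.filter fun x : ↥(P : Subgroup G) => x ∈ Subgroup.zpowers u') =
          Finset.univ.filter fun x : ↥(P : Subgroup G) => x ^ p = 1 := by
        refine Finset.eq_of_subset_of_card_le (fun x hx => ?_) ?_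
        · simp only [Finset.mem_filter, Finset.mem_univ, true_and] at hx ⊢
          obtain ⟨i, rfl⟩ := Subgroup.mem_zpowers_iff.mp hx
          rw [← zpow_natCast, ← zpow_mul, mul_comm, zpow_mul, zpow_natCast]
          have : u' ^ p = 1 := Subtype.ext (orderOf_dvd_iff_pow_eq_one.mp (dvd_of_eq hu) : u ^ p = 1)
          rw [this, one_zpow]
        · refine (IsCyclic.card_pow_eq_one_le (Fact.out : p.Prime).pos).trans ?_
          rw [← Fintype.card_subtype, ← Nat.card_eq_fintype_card]
          exact le_of_eq (by rw [Nat.card_zpowers, hu', Subgroup.orderOf_mk, hu])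
      have h1 : (⟨v, hvC.1⟩ : ↥(P : Subgroup G)) ∈
          Finset.univ.filter fun x : ↥(P : Subgroup G) => x ^ p = 1 := by
        simp only [Finset.mem_filter, Finset.mem_univ, true_and]
        exact Subtype.ext (orderOf_dvd_iff_pow_eq_one.mp (dvd_of_eq hv) : v ^ p = 1)
      rw [← hle] at h1
      simpa using h1
    have hvA : v ∈ A := by
      obtain ⟨i, hi⟩ := Subgroup.mem_zpowers_iff.mp hmem
      have := congrArg Subtype.val hi
      simp only [hu', SubgroupClass.coe_zpow] at this
      exact this ▸ zpow_mem huA i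
    have hv1 : v ∈ (⊥ : Subgroup G) := hbot ▸ ⟨hvA, hvC⟩
    rw [Subgroup.mem_bot.mp hv1, orderOf_one] at hv
    exact (Fact.out : p.Prime).ne_one hv.symm
  rw [hC0, sup_bot_eq] at hsup
  have hle : (P : Subgroup G) ≤ Cfsg.pResidual p G := by
    rw [← hsup, hA, ← comm_normalizer_eq P hab]; exact inf_le_right
  have := pResidual_sup_sylow P
  rwa [sup_eq_left.mpr hle] at this

end Cfsg.Agent.S0082
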