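import Cfsg.Statements.S0083
import Cfsg.Agent.Transfer.Basic

set_option autoImplicit false
open Cfsg
open scoped commutatorElement
open Cfsg.Agent.Transfer

namespace Cfsg.Agent.S0083

/-- For an abelian Sylow p-subgroup P, a normal p-complement exists exactly when the normalizer of P is an internal direct product of P with some subgroup. -/
theorem result {G : Type*} [Group G] [Finite G] {p : ℕ} [Fact p.Prime] (P : Sylow p G) (hP : IsMulCommutative P) : Cfsg.HasNormalPComplement p G ↔ ∃ Q : Subgroup G, Q ≤ Subgroup.centralizer (P : Set G) ∧ Q ⊓ (P : Subgroup G) = ⊥ ∧ Q ⊔ (P : Subgroup G) = Subgroup.normalizer (P : Set G) := by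
  haveI : IsMulCommutative ↥(P : Subgroup G) := hP
  constructor
  · intro h
    obtain ⟨K, hK, hc⟩ := hasNPC_complement_every h P
    refine ⟨K ⊓ Subgroup.normalizer ((P : Subgroup G) : Set G), ?_, ?_, ?_⟩
    · rintro k ⟨hkK, hkN⟩
      refine Subgroup.mem_centralizer_iff.mpr fun x hx => ?_
      have h1 : ⁅k, x⁆ ∈ K ⊓ (P : Subgroup G) := by
        rw [commutatorElement_def]
        refine ⟨?_, (P : Subgroup G).mul_mem ((Subgroup.mem_normalizer_iff.mp hkN x).mp hx)
          ((P : Subgroup G).inv_mem hx)⟩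
        rw [mul_assoc, mul_assoc]
        exact K.mul_mem hkK (by simpa [mul_assoc] using hK.conj_mem _ (K.inv_mem hkK) x)
      rw [hc.disjoint.eq_bot, Subgroup.mem_bot] at h1
      exact (commutatorElement_eq_one_iff_mul_comm.mp h1).symm
    · exact le_bot_iff.mp ((inf_le_inf_right _ inf_le_left).trans hc.disjoint.eq_bot.le)
    · refine le_antisymm (sup_le inf_le_right Subgroup.le_normalizer) fun g hg => ?_
      have hgt : g ∈ K ⊔ (P : Subgroup G) := hc.sup_eq_top ▸ Subgroup.mem_top g
      obtain ⟨k, hk, x, hx, rfl⟩ := Subgroup.mem_sup_of_normal_left.mp hgt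
      refine Subgroup.mul_mem_sup ⟨hk, ?_⟩ hx
      have := (Subgroup.normalizer ((P : Subgroup G) : Set G)).mul_mem hg
        ((Subgroup.normalizer _).inv_mem (Subgroup.le_normalizer hx))
      simpa using this
  · rintro ⟨Q, hQ, -, hQP⟩
    refine hasNPC_of_burnside P ?_
    refine le_of_eq_of_le hQP.symm (sup_le hQ ?_)
    exact Subgroup.le_centralizer _

end Cfsg.Agent.S0083
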