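import Cfsg.Statements.S0084
import Cfsg.Agent.Transfer.Abelian

set_option autoImplicit false
open Cfsg
open scoped commutatorElement
open Cfsg.Agent.Transfer

namespace Cfsg.Agent.S0084

/-- A group whose Sylow 2-subgroups are Klein four-groups and whose order is prime to 3 has a normal 2-complement. -/
theorem result {G : Type*} [Group G] [Finite G] (T : Sylow 2 G) (hT : IsKleinFour T) (h3 : ¬ 3 ∣ Nat.card G) : Cfsg.HasNormalPComplement 2 G := by
  haveI : IsKleinFour ↥(T : Subgroup G) := hT
  refine hasNPC_of_divisors T IsKleinFour.isMulCommutative fun q hq hqG hq2 d hd hlt => ?_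
  have h4 : Nat.card ↥(T : Subgroup G) = 4 := IsKleinFour.card_four
  have hd' : d = 1 ∨ d = 2 := by
    rw [h4] at hd hlt
    interval_cases d <;> simp_all
  have hq3 : q ≠ 3 := fun e => h3 (e ▸ hqG)
  rw [h4]
  rcases hd' with rfl | rfl
  · intro hdvd
    exact hq3 ((Nat.prime_dvd_prime_iff_eq hq Nat.prime_three).mp hdvd)
  · intro hdvd
    exact hq2 ((Nat.prime_dvd_prime_iff_eq hq Nat.prime_two).mp hdvd)

end Cfsg.Agent.S0084
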