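import Cfsg.Statements.S0085
import Cfsg.Agent.Transfer.Abelian

set_option autoImplicit false
open Cfsg
open scoped commutatorElement
open Cfsg.Agent.Transfer

namespace Cfsg.Agent.S0085

/-- A group whose Sylow 2-subgroups are elementary abelian of order 8 and whose order is prime to 3 and to 7 has a normal 2-complement. -/
theorem result {G : Type*} [Group G] [Finite G] (T : Sylow 2 G) (h8 : Nat.card T = 8) (he : ∀ x : T, x * x = 1) (h3 : ¬ 3 ∣ Nat.card G) (h7 : ¬ 7 ∣ Nat.card G) : Cfsg.HasNormalPComplement 2 G := by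
  have hcomm : IsMulCommutative ↥(T : Subgroup G) := ⟨⟨fun a b => by
    have hinv : ∀ x : ↥(T : Subgroup G), x⁻¹ = x := fun x => inv_eq_of_mul_eq_one_right (he x)
    calc a * b = (a * b)⁻¹ := (hinv _).symm
      _ = b * a := by rw [mul_inv_rev, hinv, hinv]⟩⟩
  refine hasNPC_of_divisors T hcomm fun q hq hqG hq2 d hd hlt => ?_
  rw [h8] at hd hlt ⊢
  have hq3 : q ≠ 3 := fun e => h3 (e ▸ hqG)
  have hq7 : q ≠ 7 := fun e => h7 (e ▸ hqG)
  have hd' : d = 1 ∨ d = 2 ∨ d = 4 := by interval_cases d <;> simp_all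
  rcases hd' with rfl | rfl | rfl <;> intro hdvd
  · exact hq7 ((Nat.prime_dvd_prime_iff_eq hq (by norm_num)).mp hdvd)
  · rcases hq.dvd_mul.mp (show q ∣ 2 * 3 from hdvd) with e | e
    · exact hq2 ((Nat.prime_dvd_prime_iff_eq hq Nat.prime_two).mp e)
    · exact hq3 ((Nat.prime_dvd_prime_iff_eq hq Nat.prime_three).mp e)
  · exact hq2 ((Nat.prime_dvd_prime_iff_eq hq Nat.prime_two).mp
      (hq.dvd_of_dvd_pow (show q ∣ 2 ^ 2 from hdvd)))

end Cfsg.Agent.S0085
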