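import Cfsg.Statements.S0089
import Cfsg.Agent.Transfer.Hall

set_option autoImplicit false
open Cfsg
open Cfsg.Agent.Transfer

namespace Cfsg.Agent.S0089

/-- When all Sylow subgroups are abelian, the derived subgroup meets the centre trivially. -/
theorem result {G : Type*} [Group G] [Finite G] (h : ∀ p : ℕ, p.Prime → ∀ P : Sylow p G, IsMulCommutative P) : commutator G ⊓ Subgroup.center G = ⊥ := by
  rw [eq_bot_iff]
  intro x hx
  refine mem_of_prime_parts ⊥ x fun y hy hpp => ?_
  obtain ⟨q, k, hq, -, hqk⟩ := hpp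
  have hq' : q.Prime := Nat.prime_iff.mpr hq
  haveI : Fact q.Prime := ⟨hq'⟩
  have hz : IsPGroup q (Subgroup.zpowers y) := IsPGroup.of_card (by rw [Nat.card_zpowers, hqk])
  obtain ⟨Q, hQ⟩ := hz.exists_le_sylow
  haveI := h q hq' Q
  have hyx : y ∈ commutator G ⊓ Subgroup.center G := (Subgroup.zpowers_le.mpr hx) hy
  rw [← inf_commutator_center_eq_bot (Q : Subgroup G) Q.card_coprime_index]
  exact ⟨⟨hQ (Subgroup.mem_zpowers y), hyx.1⟩, hyx.2⟩

end Cfsg.Agent.S0089
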