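import Cfsg.Statements.S0091
import Cfsg.Agent.Transfer.Basic

set_option autoImplicit false
open Cfsg
open Cfsg.Agent.Transfer

namespace Cfsg.Agent.S0091

/-- If a nontrivial Sylow p-subgroup controls its own fusion then it is not contained in the derived subgroup. -/
theorem result {G : Type*} [Group G] [Finite G] {p : ℕ} [Fact p.Prime] (P : Sylow p G) (hp : p ∣ Nat.card G) (h : ∀ x ∈ P, ∀ y ∈ P, (∃ g : G, g * x * g⁻¹ = y) → ∃ z ∈ P, z * x * z⁻¹ = y) : ¬ (P : Subgroup G) ≤ commutator G := by
  intro hle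
  have hfoc : Subgroup.focalSubgroup (P : Subgroup G) = ⁅(P : Subgroup G), (P : Subgroup G)⁆ :=
    focal_eq_commutator_of_control _ fun x hx g hg => h x hx _ hg ⟨g, rfl⟩
  have h1 := Subgroup.commutator_inf_eq_focalSubgroup P
  rw [inf_eq_right.mpr hle, hfoc, ← Subgroup.map_subtype_commutator] at h1
  haveI : Nontrivial ↥(P : Subgroup G) := by
    rw [Subgroup.nontrivial_iff_ne_bot]
    exact P.ne_bot_of_dvd_card hp
  haveI : Group.IsNilpotent ↥(P : Subgroup G) := P.isPGroup'.isNilpotent
  refine (Group.IsSolvable.commutator_lt_top_of_nontrivial ↥(P : Subgroup G)).ne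
    (Subgroup.map_injective (P : Subgroup G).subtype_injective ?_)
  rw [← MonoidHom.range_eq_map, Subgroup.range_subtype]
  exact h1.symm

end Cfsg.Agent.S0091
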