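import Cfsg.Statements.S0093
import Cfsg.Agent.Solv.Nilpotent

set_option autoImplicit false
open Cfsg
open scoped commutatorElement
set_option maxHeartbeats 100000

namespace Cfsg.Agent.S0093

/-- Every finite p-group has a critical subgroup: a characteristic subgroup H whose Frattini subgroup and whose commutator with the whole group lie in the centre of H, and whose centralizer is contained in H. -/
theorem result {P : Type*} [Group P] [Finite P] {p : ℕ} [Fact p.Prime] (hP : IsPGroup p P) : ∃ H : Subgroup P, H.Characteristic ∧ (frattini H).map H.subtype ≤ Subgroup.centralizer (H : Set P) ∧ ⁅H, (⊤ : Subgroup P)⁆ ≤ H ⊓ Subgroup.centralizer (H : Set P) ∧ Subgroup.centralizer (H : Set P) ≤ H := by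
  obtain ⟨A, hA, hAmax⟩ := (Set.toFinite {A : Subgroup P | A.Characteristic ∧ ∀ a ∈ A, ∀ b ∈ A, a * b = b * a}).exists_maximal
    ⟨⊥, inferInstance, fun a ha b hb => by rw [Subgroup.mem_bot.mp ha, Subgroup.mem_bot.mp hb]⟩
  obtain ⟨hAc, hAab⟩ := hA
  haveI := hAc
  haveI hAn : A.Normal := Subgroup.normal_of_characteristic A
  set q := QuotientGroup.mk' A with hq
  haveI := hP.isNilpotent
  haveI : Group.IsNilpotent (P ⧸ A) := (hP.to_quotient A).isNilpotent
  let Z : Subgroup (P ⧸ A) :=
    { carrier := {z | z ∈ Subgroup.center (P ⧸ A) ∧ z ^ p = 1}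
      one_mem' := ⟨one_mem _, one_pow p⟩
      mul_mem' := by
        rintro a b ⟨ha, ha'⟩ ⟨hb, hb'⟩
        refine ⟨mul_mem ha hb, ?_⟩
        rw [(show Commute a b from (Subgroup.mem_center_iff.mp hb a)).mul_pow, ha', hb', one_mul]
      inv_mem' := by
        rintro a ⟨ha, ha'⟩
        exact ⟨inv_mem ha, by rw [inv_pow, ha', inv_one]⟩ }
  set H := Subgroup.centralizer (A : Set P) ⊓ Z.comap q with hH
  have hAH : A ≤ H := le_inf
    (fun a ha => Subgroup.mem_centralizer_iff.mpr fun b hb => hAab b hb a ha)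
    (fun a ha => by
      rw [Subgroup.mem_comap, show q a = 1 from (QuotientGroup.eq_one_iff a).mpr ha]; exact Z.one_mem)
  have hHA : ∀ h ∈ H, ∀ g : P, ⁅h, g⁆ ∈ A := by
    intro h hh g
    rw [← QuotientGroup.eq_one_iff]
    show q ⁅h, g⁆ = 1
    rw [map_commutatorElement]
    exact commutatorElement_eq_one_iff_mul_comm.mpr (Subgroup.mem_center_iff.mp hh.2.1 (q g)).symm
  have hAcenH : A ≤ Subgroup.centralizer (H : Set P) := fun a ha =>
    Subgroup.mem_centralizer_iff.mpr fun h hh => (Subgroup.mem_centralizer_iff.mp hh.1 a ha).symm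
  have hHc : H.Characteristic := by
    rw [Subgroup.characteristic_iff_map_le]
    intro φ
    rintro _ ⟨x, hx, rfl⟩
    have hφA : ∀ a, a ∈ A → φ a ∈ A := fun a ha =>
      Subgroup.characteristic_iff_map_le.mp hAc φ ⟨a, ha, rfl⟩
    refine ⟨Subgroup.mem_centralizer_iff.mpr fun a ha => ?_, ?_⟩
    · have h' : φ.symm a ∈ A := Subgroup.characteristic_iff_map_le.mp hAc φ.symm ⟨a, ha, rfl⟩
      have := congrArg φ (Subgroup.mem_centralizer_iff.mp hx.1 _ h')
      simpa using this
    · refine ⟨Subgroup.mem_center_iff.mpr fun z => ?_, ?_⟩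
      · obtain ⟨y, rfl⟩ := QuotientGroup.mk'_surjective A z
        have h1 : φ ⁅x, φ.symm y⁆ ∈ A := hφA _ (hHA x hx (φ.symm y))
        rw [map_commutatorElement, MulEquiv.apply_symm_apply, ← QuotientGroup.eq_one_iff] at h1
        have h2 : ⁅q (φ x), q y⁆ = 1 := by rw [← map_commutatorElement]; exact h1
        exact (commutatorElement_eq_one_iff_mul_comm.mp h2).symm
      · have h1 : x ^ p ∈ A := by
          rw [← QuotientGroup.eq_one_iff]; show q (x ^ p) = 1; rw [map_pow]; exact hx.2.2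
        show q (φ x) ^ p = 1
        rw [← map_pow, ← map_pow]
        exact (QuotientGroup.eq_one_iff _).mpr (hφA _ h1)
  refine ⟨H, hHc, ?_, ?_, ?_⟩
  · rintro _ ⟨x, hx, rfl⟩
    apply hAcenH
    haveI : (A.subgroupOf H).Normal := hAn.comap H.subtype
    letI : CommGroup (↥H ⧸ A.subgroupOf H) :=
      { (inferInstance : Group (↥H ⧸ A.subgroupOf H)) with
        mul_comm := fun a b => by
          obtain ⟨a, rfl⟩ := QuotientGroup.mk'_surjective _ a
          obtain ⟨b, rfl⟩ := QuotientGroup.mk'_surjective _ b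
          refine commutatorElement_eq_one_iff_mul_comm.mp ?_
          rw [← map_commutatorElement]
          exact (QuotientGroup.eq_one_iff _).mpr (Subgroup.mem_subgroupOf.mpr (hHA a a.2 b)) }
    have hel : ∀ z : ↥H ⧸ A.subgroupOf H, z ^ p = 1 := by
      intro z
      obtain ⟨a, rfl⟩ := QuotientGroup.mk'_surjective _ z
      rw [← map_pow]
      refine (QuotientGroup.eq_one_iff _).mpr (Subgroup.mem_subgroupOf.mpr ?_)
      rw [← QuotientGroup.eq_one_iff]
      show q ((a ^ p : H) : P) = 1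
      rw [Subgroup.coe_pow, map_pow]; exact a.2.2.2
    have h1 := frattini_le_comap_frattini_of_surjective (QuotientGroup.mk'_surjective (A.subgroupOf H)) hx
    rw [Subgroup.mem_comap, Cfsg.Agent.Solv.frattini_eq_bot_of_elementary hel, Subgroup.mem_bot] at h1
    exact Subgroup.mem_subgroupOf.mp ((QuotientGroup.eq_one_iff x).mp h1)
  · rw [Subgroup.commutator_le]
    exact fun h hh g _ => ⟨hAH (hHA h hh g), hAcenH (hHA h hh g)⟩
  · haveI := hHc
    set Q := Subgroup.centralizer (H : Set P) with hQ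
    haveI : H.Normal := Subgroup.normal_of_characteristic H
    have hQA : Q ⊓ H ≤ A := by
      have hc : (Q ⊓ H).Characteristic := by
        rw [Subgroup.characteristic_iff_map_le]
        intro φ
        rintro _ ⟨x, hx, rfl⟩
        refine ⟨Subgroup.mem_centralizer_iff.mpr fun a ha => ?_,
          Subgroup.characteristic_iff_map_le.mp hHc φ ⟨x, hx.2, rfl⟩⟩
        have h' : φ.symm a ∈ H := Subgroup.characteristic_iff_map_le.mp hHc φ.symm ⟨a, ha, rfl⟩
        have := congrArg φ (Subgroup.mem_centralizer_iff.mp hx.1 _ h')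
        simpa using this
      exact hAmax ⟨hc, fun a ha b hb => (Subgroup.mem_centralizer_iff.mp hb.1 a ha.2)⟩ (le_inf hAcenH hAH)
    by_contra hle
    have hQn : (Q.map q).Normal :=
      (inferInstance : Q.Normal).map q (QuotientGroup.mk'_surjective A)
    have hne : Q.map q ≠ ⊥ := by
      intro h
      apply hle
      rw [Subgroup.map_eq_bot_iff, hq, QuotientGroup.ker_mk'] at h
      exact h.trans hAH
    have hmeet := Cfsg.Agent.Solv.inf_center_ne_bot hQn hne
    obtain ⟨z, hz, hz1⟩ := (Subgroup.ne_bot_iff_exists_ne_one.mp hmeet)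
      |> fun ⟨z, hz⟩ => (⟨(z : P ⧸ A), z.2, fun h => hz (Subtype.ext h)⟩ :
        ∃ z, z ∈ Q.map q ⊓ Subgroup.center (P ⧸ A) ∧ z ≠ 1)
    obtain ⟨k, hk⟩ := IsPGroup.iff_orderOf.mp (hP.to_quotient A) z
    obtain ⟨j, rfl⟩ : ∃ j, k = j + 1 := ⟨k - 1, by
      rcases k with _ | k
      · exact absurd (orderOf_eq_one_iff.mp (by simpa using hk)) hz1
      · rfl⟩
    have hw1 : z ^ p ^ j ≠ 1 := fun h => by
      have := Nat.le_of_dvd (pow_pos (Fact.out : p.Prime).pos j) (orderOf_dvd_of_pow_eq_one h)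
      rw [hk, pow_succ] at this
      exact absurd this (not_le.mpr (lt_mul_of_one_lt_right (pow_pos (Fact.out : p.Prime).pos j) (Fact.out : p.Prime).one_lt))
    obtain ⟨⟨x, hxQ, hxz⟩, hzc⟩ := Subgroup.pow_mem _ hz (p ^ j)
    have hxH : x ∈ H := ⟨fun a ha => (Subgroup.mem_centralizer_iff.mp hxQ a (hAH ha)), by
      show q x ∈ Z
      rw [hxz]
      exact ⟨hzc, by rw [← pow_mul, ← pow_succ, ← hk, pow_orderOf_eq_one]⟩⟩
    apply hw1
    rw [← hxz]
    exact (QuotientGroup.eq_one_iff x).mpr (hQA ⟨hxQ, hxH⟩)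

end Cfsg.Agent.S0093
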