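import Cfsg.Statements.S0094
import Mathlib

set_option autoImplicit false
open Cfsg
open scoped commutatorElement

namespace Cfsg.Agent.S0094

/-- In a special p-group every central element has order dividing p. -/
theorem result {P : Type*} [Group P] [Finite P] {p : ℕ} [Fact p.Prime] (h : Cfsg.IsSpecial p P) (z : P) (hz : z ∈ Subgroup.center P) : z ^ p = 1 := by
  obtain ⟨hP, hfr, hcm⟩ := h
  haveI := hP.isNilpotent
  have hpow : ∀ a : P, a ^ p ∈ Subgroup.center P := by
    intro a
    rw [← hfr, frattini, Order.radical]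
    simp only [Subgroup.mem_iInf, Set.mem_setOf_eq]
    intro H hH
    haveI : H.Normal := Subgroup.NormalizerCondition.normal_of_coatom H (Group.normalizerCondition_of_isNilpotent (G := P)) hH
    haveI : IsSimpleGroup (P ⧸ H) := by
      haveI : Nontrivial (P ⧸ H) := QuotientGroup.nontrivial_iff.2 hH.1
      refine ⟨fun N _ => ?_⟩
      have hle : H ≤ N.comap (QuotientGroup.mk' H) := fun y hy => by
        rw [Subgroup.mem_comap, show QuotientGroup.mk' H y = 1 from (QuotientGroup.eq_one_iff y).2 hy]
        exact one_mem _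
      rcases hle.lt_or_eq with h | h
      · right
        rw [← Subgroup.map_comap_eq_self_of_surjective (QuotientGroup.mk'_surjective H) N, hH.2 _ h,
          Subgroup.map_top_of_surjective _ (QuotientGroup.mk'_surjective H)]
      · left
        rw [← Subgroup.map_comap_eq_self_of_surjective (QuotientGroup.mk'_surjective H) N, ← h,
          Subgroup.map_eq_bot_iff, QuotientGroup.ker_mk']
    haveI hq : IsPGroup p (P ⧸ H) := hP.to_quotient H
    haveI : Nontrivial (P ⧸ H) := QuotientGroup.nontrivial_iff.2 hH.1
    haveI := hq.center_nontrivial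
    have hc : Subgroup.center (P ⧸ H) = ⊤ :=
      ((inferInstance : (Subgroup.center (P ⧸ H)).Normal).eq_bot_or_eq_top).resolve_left
        ((Subgroup.nontrivial_iff_ne_bot _).1 inferInstance)
    letI : CommGroup (P ⧸ H) := Group.commGroupOfCenterEqTop hc
    have hprime := IsSimpleGroup.prime_card (α := P ⧸ H)
    obtain ⟨k, hk⟩ := IsPGroup.iff_card.1 hq
    have hk1 : Nat.card (P ⧸ H) = p := by
      rw [hk] at hprime ⊢
      rw [Nat.Prime.eq_one_of_pow hprime, pow_one]
    rw [← QuotientGroup.eq_one_iff, QuotientGroup.mk_pow, ← hk1]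
    exact pow_card_eq_one'
  have hle : commutator P ≤ (Subgroup.closure {y : P | y ∈ Subgroup.center P ∧ y ^ p = 1}) := by
    rw [commutator_eq_closure, Subgroup.closure_le]
    rintro _ ⟨a, b, rfl⟩
    refine Subgroup.subset_closure ?_
    have hmem : ⁅a, b⁆ ∈ Subgroup.center P := hcm ▸ Subgroup.commutator_mem_commutator (Subgroup.mem_top a) (Subgroup.mem_top b)
    refine ⟨hmem, ?_⟩
    have hcz := Subgroup.mem_center_iff.1 hmem
    have key : ∀ n : ℕ, a ^ n * b * (a ^ n)⁻¹ = ⁅a, b⁆ ^ n * b := by
      intro n
      induction n with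
      | zero => simp
      | succ n ih =>
        calc a ^ (n + 1) * b * (a ^ (n + 1))⁻¹ = a * (a ^ n * b * (a ^ n)⁻¹) * a⁻¹ := by
              rw [pow_succ']; group
          _ = (a * ⁅a, b⁆ ^ n) * b * a⁻¹ := by rw [ih]; group
          _ = (⁅a, b⁆ ^ n * a) * b * a⁻¹ := by
              rw [((show Commute a ⁅a, b⁆ from hcz a).pow_right n).eq]
          _ = ⁅a, b⁆ ^ (n + 1) * b := by rw [pow_succ, commutatorElement_def]; group
    have h1 := key p
    rw [← Subgroup.mem_center_iff.1 (hpow a) b, mul_inv_cancel_right] at h1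
    exact mul_eq_right.1 h1.symm
  rw [← hcm] at hz
  have hz' := hle hz
  clear hz
  induction hz' using Subgroup.closure_induction with
  | mem y hy => exact hy.2
  | one => exact one_pow p
  | mul y w hy hw h1 h2 =>
    have hyc : y ∈ Subgroup.center P :=
      (Subgroup.closure_le (Subgroup.center P)).2 (fun t ht => ht.1) hy
    rw [(show Commute y w from (Subgroup.mem_center_iff.1 hyc w).symm).mul_pow, h1, h2, one_mul]
  | inv y _ h1 => rw [inv_pow, h1, inv_one]

end Cfsg.Agent.S0094
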