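import Cfsg.Statements.S0095
import Mathlib

set_option autoImplicit false
open Cfsg

namespace Cfsg.Agent.S0095

theorem card_hom_le {E Z : Type*} [CommGroup E] [Finite E] [Group Z] [Finite Z] [IsCyclic Z] :
    Nat.card (E →* Z) ≤ Nat.card E := by
  haveI : Finite (E →* ℂˣ) := Nat.finite_of_card_ne_zero (by
    rw [CommGroup.card_monoidHom_of_hasEnoughRootsOfUnity E ℂ]; exact Nat.card_pos.ne')
  rw [← CommGroup.card_monoidHom_of_hasEnoughRootsOfUnity E ℂ]
  haveI : NeZero (Nat.card Z) := ⟨Nat.card_pos.ne'⟩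
  haveI : IsCyclic (rootsOfUnity (Nat.card Z) ℂ) := inferInstance
  let e : Z ≃* rootsOfUnity (Nat.card Z) ℂ := mulEquivOfCyclicCardEq
    (HasEnoughRootsOfUnity.natCard_rootsOfUnity ℂ (Nat.card Z)).symm
  let f : Z →* ℂˣ := (rootsOfUnity (Nat.card Z) ℂ).subtype.comp e.toMonoidHom
  have hf : Function.Injective f := Subtype.coe_injective.comp e.injective
  exact Nat.card_le_card_of_injective (fun φ => f.comp φ)
    fun a b h => MonoidHom.ext fun x => hf (DFunLike.congr_fun h x)

/-- The order of an extraspecial p-group is an odd power p^(2n+1) of p with n ≥ 1. -/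
theorem result {P : Type*} [Group P] [Finite P] {p : ℕ} [Fact p.Prime] (h : Cfsg.IsExtraspecial p P) : ∃ n : ℕ, 1 ≤ n ∧ Nat.card P = p ^ (2 * n + 1) := by
  classical
  obtain ⟨⟨hP, -, hcom⟩, hZ⟩ := h
  set Z := Subgroup.center P with hZd
  haveI : IsCyclic Z := isCyclic_of_prime_card hZ
  letI : CommGroup Z := IsCyclic.commGroup
  have hc : ∀ g x : P, g * x * g⁻¹ * x⁻¹ ∈ Z := fun g x => by
    rw [← hcom]; exact Subgroup.commutator_mem_commutator (Subgroup.mem_top g) (Subgroup.mem_top x)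
  have hcz : ∀ z ∈ Z, ∀ y : P, y * z = z * y := fun z hz y => Subgroup.mem_center_iff.1 hz y
  -- a maximal abelian subgroup containing the centre
  obtain ⟨A, ⟨hZA, hAc⟩, hmax⟩ := Set.Finite.exists_maximal (Set.toFinite {A : Subgroup P | Z ≤ A ∧ A ≤ Subgroup.centralizer (A : Set P)})
    ⟨Z, le_rfl, fun a ha => Subgroup.mem_centralizer_iff.2 fun z hz => (hcz a ha z)⟩
  have hAA : ∀ x ∈ Subgroup.centralizer (A : Set P), x ∈ A := by
    intro x hx
    let B := A ⊔ Subgroup.zpowers x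
    have h1 : A ≤ Subgroup.centralizer (B : Set P) := by
      refine Subgroup.le_centralizer_iff.1 ?_
      exact sup_le hAc (Subgroup.zpowers_le.2 hx)
    have h2 : Subgroup.zpowers x ≤ Subgroup.centralizer (B : Set P) := by
      refine Subgroup.le_centralizer_iff.1 ?_
      exact sup_le (Subgroup.le_centralizer_iff.1 (Subgroup.zpowers_le.2 hx))
        (Subgroup.le_centralizer _)
    exact hmax ⟨hZA.trans le_sup_left, sup_le h1 h2⟩ le_sup_left
      (Subgroup.mem_sup_right (Subgroup.mem_zpowers x))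
  haveI hAn : A.Normal := ⟨fun a ha g => by
    have := mul_mem (hZA (hc g a)) ha
    rwa [inv_mul_cancel_right] at this⟩
  have hmulL : ∀ g a b : P, g * (a * b) * g⁻¹ * (a * b)⁻¹ = (g * a * g⁻¹ * a⁻¹) * (g * b * g⁻¹ * b⁻¹) := by
    intro g a b
    calc g * (a * b) * g⁻¹ * (a * b)⁻¹ = g * a * g⁻¹ * (g * b * g⁻¹ * b⁻¹) * a⁻¹ := by group
      _ = g * a * g⁻¹ * ((g * b * g⁻¹ * b⁻¹) * a⁻¹) := by group
      _ = g * a * g⁻¹ * (a⁻¹ * (g * b * g⁻¹ * b⁻¹)) := by rw [hcz _ (hc g b) a⁻¹]
      _ = _ := by group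
  have hanti : ∀ g a : P, g * a * g⁻¹ * a⁻¹ = (a * g * a⁻¹ * g⁻¹)⁻¹ := fun g a => by group
  have hmulR : ∀ g k a : P, g * k * a * (g * k)⁻¹ * a⁻¹ = (g * a * g⁻¹ * a⁻¹) * (k * a * k⁻¹ * a⁻¹) := by
    intro g k a
    rw [hanti (g * k) a, hmulL a g k, mul_inv_rev, ← hanti, ← hanti]
    exact hcz _ (hc g a) _
  letI : CommGroup (A ⧸ Z.subgroupOf A) :=
    { (inferInstance : Group (A ⧸ Z.subgroupOf A)) with
      mul_comm := fun a b => by
        obtain ⟨a, rfl⟩ := QuotientGroup.mk_surjective a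
        obtain ⟨b, rfl⟩ := QuotientGroup.mk_surjective b
        exact congrArg _ (Subtype.ext (Subgroup.mem_centralizer_iff.1 (hAc b.2) a a.2)) }
  letI : CommGroup (P ⧸ A) :=
    { (inferInstance : Group (P ⧸ A)) with
      mul_comm := fun a b => by
        obtain ⟨a, rfl⟩ := QuotientGroup.mk_surjective a
        obtain ⟨b, rfl⟩ := QuotientGroup.mk_surjective b
        rw [← QuotientGroup.mk_mul, ← QuotientGroup.mk_mul, QuotientGroup.eq]
        have : (a * b)⁻¹ * (b * a) = b⁻¹ * a⁻¹ * b⁻¹⁻¹ * a⁻¹⁻¹ := by group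
        rw [this]
        exact hZA (hc _ _) }
  -- the commutator pairing in both directions
  let L : P → A →* Z := fun g => MonoidHom.mk' (fun a => ⟨g * a * g⁻¹ * (a : P)⁻¹, hc g a⟩)
    (fun a b => Subtype.ext (hmulL g a b))
  let Φ : P →* (A ⧸ Z.subgroupOf A →* Z) := MonoidHom.mk'
    (fun g => QuotientGroup.lift (Z.subgroupOf A) (L g) fun a ha => Subtype.ext (by
      show g * a * g⁻¹ * (a : P)⁻¹ = 1
      rw [hcz (a : P) ha g]; group))
    (fun g k => QuotientGroup.monoidHom_ext _ (MonoidHom.ext fun a => Subtype.ext (hmulR g k a)))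
  have hΦ : Φ.ker = A := by
    ext g
    rw [MonoidHom.mem_ker]
    constructor
    · intro hg
      refine hAA g (Subgroup.mem_centralizer_iff.2 fun a ha => ?_)
      have : g * a * g⁻¹ * a⁻¹ = 1 :=
        congrArg Subtype.val (DFunLike.congr_fun hg (QuotientGroup.mk (⟨a, ha⟩ : A)))
      calc a * g = (g * a * g⁻¹ * a⁻¹) * a * g := by rw [this, one_mul]
        _ = g * a := by group
    · intro hg
      refine QuotientGroup.monoidHom_ext _ (MonoidHom.ext fun a => Subtype.ext ?_)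
      show g * a * g⁻¹ * (a : P)⁻¹ = 1
      rw [← Subgroup.mem_centralizer_iff.1 (hAc hg) a a.2]; group
  let R : A → P →* Z := fun a => MonoidHom.mk' (fun g => ⟨g * a * g⁻¹ * (a : P)⁻¹, hc g a⟩)
    (fun g k => Subtype.ext (hmulR g k a))
  let Ψ : A →* (P ⧸ A →* Z) := MonoidHom.mk'
    (fun a => QuotientGroup.lift A (R a) fun g hg => Subtype.ext (by
      show g * a * g⁻¹ * (a : P)⁻¹ = 1
      rw [← Subgroup.mem_centralizer_iff.1 (hAc hg) a a.2]; group))
    (fun a b => QuotientGroup.monoidHom_ext _ (MonoidHom.ext fun g => Subtype.ext (hmulL g a b)))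
  have hΨ : Ψ.ker = Z.subgroupOf A := by
    ext a
    rw [MonoidHom.mem_ker, Subgroup.mem_subgroupOf]
    constructor
    · intro ha
      refine Subgroup.mem_center_iff.2 fun g => ?_
      have : g * a * g⁻¹ * (a : P)⁻¹ = 1 :=
        congrArg Subtype.val (DFunLike.congr_fun ha (QuotientGroup.mk g))
      calc g * a = (g * a * g⁻¹ * (a : P)⁻¹) * a * g := by group
        _ = a * g := by rw [this, one_mul]
    · intro ha
      refine QuotientGroup.monoidHom_ext _ (MonoidHom.ext fun g => Subtype.ext ?_)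
      show g * a * g⁻¹ * (a : P)⁻¹ = 1
      rw [hcz (a : P) ha g]; group
  haveI : Finite (A ⧸ Z.subgroupOf A →* Z) := Finite.of_injective _ DFunLike.coe_injective
  haveI : Finite (P ⧸ A →* Z) := Finite.of_injective _ DFunLike.coe_injective
  have h1 : Nat.card (P ⧸ A) ≤ Nat.card (A ⧸ Z.subgroupOf A) := by
    rw [← Subgroup.index_eq_card, show A.index = Φ.ker.index from congrArg _ hΦ.symm, Subgroup.index_ker]
    exact (Nat.card_le_card_of_injective _ Subtype.coe_injective).trans card_hom_le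
  have h2 : Nat.card (A ⧸ Z.subgroupOf A) ≤ Nat.card (P ⧸ A) := by
    rw [← Subgroup.index_eq_card, ← hΨ, Subgroup.index_ker]
    exact (Nat.card_le_card_of_injective _ Subtype.coe_injective).trans card_hom_le
  obtain ⟨n, hn⟩ := IsPGroup.iff_card.1 (hP.to_quotient A)
  have hcard : Nat.card P = p ^ (2 * n + 1) := by
    rw [A.card_eq_card_quotient_mul_card_subgroup, (Z.subgroupOf A).card_eq_card_quotient_mul_card_subgroup,
      le_antisymm h2 h1, hn, Nat.card_congr (Subgroup.subgroupOfEquivOfLe hZA).toEquiv, hZ, pow_succ,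
      two_mul, pow_add, mul_assoc]
  refine ⟨n, ?_, hcard⟩
  by_contra hn0
  obtain rfl : n = 0 := by omega
  have hZtop : Z = ⊤ := Subgroup.eq_top_of_card_eq _ (by rw [hZ, hcard, pow_one])
  have hbot : commutator P = ⊥ := by
    rw [commutator_def, eq_bot_iff]
    refine Subgroup.commutator_le.2 fun a _ b _ => ?_
    rw [Subgroup.mem_bot, commutatorElement_eq_one_iff_mul_comm]
    exact hcz b (hZtop ▸ Subgroup.mem_top b) a
  rw [hbot] at hcom
  rw [← hcom, Subgroup.card_bot] at hZ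
  exact (Fact.out : p.Prime).one_lt.ne hZ

end Cfsg.Agent.S0095
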