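import Mathlib
import Cfsg.Statements.S0841
-- no helpers

set_option autoImplicit false
open Cfsg
open scoped commutatorElement

namespace Cfsg.Agent.S0841

/-- If the commutator subgroup of G lies in the centre, then for all x, y in G and every natural number n one has (x * y) ^ n = x ^ n * y ^ n * c ^ (n * (n - 1) / 2) with c = y⁻¹ * x⁻¹ * y * x. -/
theorem result {G : Type*} [Group G] (hG : commutator G ≤ Subgroup.center G) (x y : G) (n : ℕ) : (x * y) ^ n = x ^ n * y ^ n * (y⁻¹ * x⁻¹ * y * x) ^ (n * (n - 1) / 2) := by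
  set c := y⁻¹ * x⁻¹ * y * x with hc
  have hcz : c ∈ Subgroup.center G := by
    apply hG
    have : c = ⁅y⁻¹, x⁻¹⁆ := by simp [hc, commutatorElement_def]
    rw [this, commutator_def]
    exact Subgroup.commutator_mem_commutator (Subgroup.mem_top _) (Subgroup.mem_top _)
  have hcomm : ∀ g, Commute g c := fun g => Subgroup.mem_center_iff.1 hcz g
  have h1 : ∀ n : ℕ, y ^ n * x = x * y ^ n * c ^ n := by
    intro n
    induction n with
    | zero => simp
    | succ m ih =>
      have hyx : y * x = x * y * c := by rw [hc]; group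
      calc y ^ (m + 1) * x = y ^ m * (y * x) := by rw [pow_succ, mul_assoc]
        _ = y ^ m * x * (y * c) := by rw [hyx, mul_assoc x y c, ← mul_assoc]
        _ = x * y ^ m * (c ^ m * y) * c := by rw [ih]; group
        _ = x * y ^ m * (y * c ^ m) * c := by rw [((hcomm y).pow_right m).eq]
        _ = x * y ^ (m + 1) * c ^ (m + 1) := by rw [pow_succ y, pow_succ c]; group
  induction n with
  | zero => simp
  | succ m ih =>
    have htri : m * (m - 1) / 2 + m = (m + 1) * (m + 1 - 1) / 2 := by
      rw [← Nat.choose_two_right, ← Nat.choose_two_right, Nat.choose_succ_succ', Nat.choose_one_right,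
        add_comm]
    calc (x * y) ^ (m + 1) = x ^ m * y ^ m * (c ^ (m * (m - 1) / 2) * x) * y := by
          rw [pow_succ, ih]; group
      _ = x ^ m * y ^ m * (x * c ^ (m * (m - 1) / 2)) * y := by
          rw [((hcomm x).pow_right _).eq]
      _ = x ^ m * (y ^ m * x) * (c ^ (m * (m - 1) / 2) * y) := by group
      _ = x ^ m * (x * y ^ m * c ^ m) * (y * c ^ (m * (m - 1) / 2)) := by
          rw [h1, ((hcomm y).pow_right _).eq]
      _ = x ^ (m + 1) * y ^ m * (c ^ m * y) * c ^ (m * (m - 1) / 2) := by
          rw [pow_succ x]; group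
      _ = x ^ (m + 1) * y ^ m * (y * c ^ m) * c ^ (m * (m - 1) / 2) := by
          rw [((hcomm y).pow_right _).eq]
      _ = _ := by
          rw [← htri, pow_succ y, pow_add c]
          have : c ^ m * c ^ (m * (m - 1) / 2) = c ^ (m * (m - 1) / 2) * c ^ m := by
            rw [← pow_add, ← pow_add, add_comm]
          simp only [mul_assoc, this]

end Cfsg.Agent.S0841
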