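import Cfsg.Statements.S0096
import Mathlib
import Cfsg.Agent.S0841

set_option autoImplicit false
open Cfsg
open scoped commutatorElement

namespace Cfsg.Agent.S0096

/-- For odd p, in a p-group of class at most two the elements of order dividing p generate a subgroup of exponent dividing p. -/
theorem result {P : Type*} [Group P] [Finite P] {p : ℕ} [Fact p.Prime] (hp : p ≠ 2) (hP : IsPGroup p P) (h2 : ⁅commutator P, (⊤ : Subgroup P)⁆ = ⊥) (g : P) (hg : g ∈ Subgroup.closure {x : P | x ^ p = 1}) : g ^ p = 1 := by
  have hc : commutator P ≤ Subgroup.center P := by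
    rw [Subgroup.commutator_eq_bot_iff_le_centralizer, Subgroup.coe_top, Subgroup.centralizer_univ] at h2
    exact h2
  have key : ∀ x y : P, x ^ p = 1 → y ^ p = 1 → (x * y) ^ p = 1 := by
    intro x y hx hy
    set c := y⁻¹ * x⁻¹ * y * x with hcd
    have hcz : c ∈ Subgroup.center P := hc (by
      have : c = ⁅y⁻¹, x⁻¹⁆ := by simp [hcd, commutatorElement_def]
      rw [this, commutator_def]
      exact Subgroup.commutator_mem_commutator (Subgroup.mem_top _) (Subgroup.mem_top _))
    have hcp : c ^ p = 1 := by
      have h1 : ∀ n : ℕ, y ^ n * x = x * y ^ n * c ^ n := by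
        intro n
        induction n with
        | zero => simp
        | succ n ih =>
          have hyx : y * x = x * y * c := by rw [hcd]; group
          calc y ^ (n + 1) * x = y ^ n * (y * x) := by rw [pow_succ, mul_assoc]
            _ = y ^ n * x * (y * c) := by rw [hyx]; group
            _ = x * y ^ n * (c ^ n * y) * c := by rw [ih]; group
            _ = x * y ^ n * (y * c ^ n) * c := by
              rw [((show Commute y c from Subgroup.mem_center_iff.1 hcz y).pow_right n).eq]
            _ = x * y ^ (n + 1) * c ^ (n + 1) := by rw [pow_succ y, pow_succ c]; group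
      have := h1 p
      rw [hy, one_mul, mul_one] at this
      exact mul_eq_left.1 this.symm
    rw [Cfsg.Agent.S0841.result hc x y p, hx, hy, one_mul, one_mul]
    obtain ⟨k, hk⟩ := (Fact.out : p.Prime).odd_of_ne_two hp
    rw [← hcd, show p * (p - 1) / 2 = p * k by
      rw [show p - 1 = 2 * k by omega, show p * (2 * k) = 2 * (p * k) by ring,
        Nat.mul_div_cancel_left _ two_pos], pow_mul, hcp, one_pow]
  induction hg using Subgroup.closure_induction with
  | mem y hy => exact hy
  | one => exact one_pow p
  | mul y w _ _ h1 h2 => exact key y w h1 h2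
  | inv y _ h1 => rw [inv_pow, h1, inv_one]

end Cfsg.Agent.S0096
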