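import Cfsg.Statements.S0101
import Cfsg.Agent.Transfer.Hall
import Cfsg.Agent.Solv.Nilpotent

set_option autoImplicit false
open Cfsg
open scoped IsMulCommutative
open Cfsg.Agent.Transfer

namespace Cfsg.Agent.S0101

/-- In a perfect central extension, the kernel meets each Sylow p-subgroup P inside the Frattini subgroup of P. -/
theorem result {H : Type*} {G : Type*} [Group H] [Group G] [Finite H] (σ : H →* G) (hσ : Function.Surjective σ) (hc : σ.ker ≤ Subgroup.center H) (hH : commutator H = ⊤) {p : ℕ} [Fact p.Prime] (P : Sylow p H) : σ.ker ⊓ (P : Subgroup H) ≤ (frattini P).map (P : Subgroup H).subtype := by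
  rintro z ⟨hz, hzP⟩
  refine ⟨⟨z, hzP⟩, ?_, rfl⟩
  rw [SetLike.mem_coe, frattini, Order.radical, Subgroup.mem_iInf]
  intro M
  rw [Subgroup.mem_iInf]
  intro hM
  by_contra hzM
  obtain ⟨hMc, hMp⟩ := Cfsg.Agent.Solv.pGroup_coatom P.isPGroup' hM
  set K := M.map (P : Subgroup H).subtype with hK
  have e : K.subgroupOf (P : Subgroup H) = M :=
    Subgroup.comap_map_eq_self_of_injective (P : Subgroup H).subtype_injective _
  haveI : (K.subgroupOf (P : Subgroup H)).Normal := by
    rw [e]; exact Subgroup.Normal.of_commutator_le _ hMc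
  haveI : IsMulCommutative (↥(P : Subgroup H) ⧸ K.subgroupOf (P : Subgroup H)) :=
    Subgroup.Normal.quotient_commutative_iff_commutator_le.mpr (e ▸ hMc)
  have hzc : z ∈ Subgroup.center H := hc hz
  have h1 := pow_index_mem (P : Subgroup H) K z hzP (fun k a _ => by
    have hk : z ^ k ∈ Subgroup.center H := pow_mem hzc k
    rw [Subgroup.mem_center_iff.mp hk a, mul_inv_cancel_right, mul_inv_cancel]
    exact one_mem _)
  have h2 : MonoidHom.transfer (QuotientGroup.mk' (K.subgroupOf (P : Subgroup H))) z = 1 :=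
    Abelianization.commutator_subset_ker _ (hH ▸ Subgroup.mem_top z)
  rw [h2, ← QuotientGroup.mk_pow, eq_comm, QuotientGroup.eq_one_iff] at h1
  obtain ⟨k, hk⟩ := P.isPGroup' ⟨z, hzP⟩
  have hco : Nat.Coprime (orderOf (⟨z, hzP⟩ : ↥(P : Subgroup H))) (P : Subgroup H).index :=
    Nat.Coprime.coprime_dvd_left (orderOf_dvd_natCard _) P.card_coprime_index
  obtain ⟨m, hm⟩ := exists_pow_eq_self_of_coprime hco.symm
  exact hzM (e ▸ hm ▸ pow_mem h1 m)

end Cfsg.Agent.S0101
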