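import Cfsg.Statements.S0104
import Cfsg.Agent.Coprime.SylowFusion

set_option autoImplicit false
open Cfsg

namespace Cfsg.Agent.S0104

/-- A subgroup Z of a Sylow p-subgroup P that is normalized by N_G(P) is weakly closed in P exactly when it is normal in every Sylow p-subgroup containing it. -/
theorem result {G : Type*} [Group G] [Finite G] {p : ℕ} [Fact p.Prime] (P : Sylow p G) (Z : Subgroup G) (hZP : Z ≤ (P : Subgroup G)) (hZN : Subgroup.normalizer (P : Set G) ≤ Subgroup.normalizer (Z : Set G)) : Cfsg.IsWeaklyClosed Z P ↔ ∀ R : Sylow p G, Z ≤ (R : Subgroup G) → (R : Subgroup G) ≤ Subgroup.normalizer (Z : Set G) := by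
  have tr : ∀ (R : Sylow p G) (g : G), g • R = P → ∀ x, x ∈ R ↔ g * x * g⁻¹ ∈ (P : Subgroup G) := by
    intro R g hg x
    rw [← hg, Sylow.coe_subgroup_smul]
    exact (Subgroup.smul_mem_pointwise_smul_iff (a := MulAut.conj g)).symm
  constructor
  · rintro ⟨-, hw⟩ R hZR r hr
    obtain ⟨g, hg⟩ := MulAction.exists_smul_eq G R P
    have hg' : g ∈ Subgroup.normalizer (Z : Set G) := by
      refine Subgroup.mem_normalizer_iff_map_conj_eq.mpr ?_
      refine hw g ?_
      rintro _ ⟨z, hz, rfl⟩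
      exact (tr R g hg z).mp (hZR hz)
    have h1 := hZN (Subgroup.le_normalizer ((tr R g hg r).mp hr))
    have h2 := mul_mem (mul_mem (inv_mem hg') h1) hg'
    have e : g⁻¹ * (g * r * g⁻¹) * g = r := by group
    rwa [e] at h2
  · intro h
    refine ⟨hZP, fun g hg => ?_⟩
    have hZR : Z ≤ ((g⁻¹ • P : Sylow p G) : Subgroup G) := fun z hz =>
      (tr (g⁻¹ • P) g (smul_inv_smul g P) z).mpr (hg ⟨z, hz, rfl⟩)
    have hK := h (g⁻¹ • P) hZR
    obtain ⟨k, hk, hkn⟩ := SylowFusion.exists_normalizer_mul P (Subgroup.normalizer (Z : Set G)) g⁻¹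
      ((Subgroup.le_normalizer).trans hZN) (fun s hs => by
        refine hK ((tr (g⁻¹ • P) g (smul_inv_smul g P) _).mpr ?_)
        have e : g * (g⁻¹ * s * g⁻¹⁻¹) * g⁻¹ = s := by group
        rw [e]; exact hs)
    refine (Subgroup.mem_normalizer_iff_map_conj_eq (H := Z)).mp ?_
    have h2 := mul_mem (inv_mem hk) (hZN hkn)
    have e : k⁻¹ * (k * g⁻¹) = g⁻¹ := by group
    rw [e] at h2
    exact inv_mem_iff.mp h2

end Cfsg.Agent.S0104
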