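import Cfsg.Statements.S0105
import Cfsg.Agent.Transfer.AbelianSylow

set_option autoImplicit false
open Cfsg
open Cfsg.Agent.Transfer

namespace Cfsg.Agent.S0105

/-- With an abelian Sylow p-subgroup P, some quotient of G is isomorphic to the part of P central in N_G(P). -/
theorem result {G : Type*} [Group G] [Finite G] {p : ℕ} [Fact p.Prime] (P : Sylow p G) (hP : IsMulCommutative P) : ∃ (N : Subgroup G) (hN : N.Normal), Nonempty (G ⧸ N ≃* ((P : Subgroup G) ⊓ Subgroup.centralizer (Subgroup.normalizer (P : Set G) : Set G) : Subgroup G)) := by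
  obtain ⟨hbot, hsup⟩ := abelian_sylow_decomp P hP
  set C := (P : Subgroup G) ⊓ Subgroup.centralizer (Subgroup.normalizer (P : Set G) : Set G) with hC
  set A := ⁅(P : Subgroup G), Subgroup.normalizer (P : Set G)⁆ with hA
  have hfoc : Subgroup.focalSubgroup (P : Subgroup G) = A := by
    refine le_antisymm ?_ ?_
    · rw [hA, ← Sylow.coe_coe]; exact focal_le_of_control _ _ (control_of_abelian P hP)
    · rw [hA, ← comm_normalizer_eq P hP, inf_comm]; exact pResidual_inf_le_focal P
  let φ : C →* ↥(P : Subgroup G) ⧸ Subgroup.focalSubgroupOf (P : Subgroup G) :=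
    (QuotientGroup.mk' _).comp (Subgroup.inclusion inf_le_left)
  have hφ : Function.Bijective φ := by
    constructor
    · rw [injective_iff_map_eq_one]
      intro x hx
      have h1 : (x : G) ∈ Subgroup.focalSubgroup (P : Subgroup G) :=
        (QuotientGroup.eq_one_iff (N := Subgroup.focalSubgroupOf (P : Subgroup G)) (Subgroup.inclusion inf_le_left x)).mp hx
      rw [hfoc] at h1
      have h2 : (x : G) ∈ (⊥ : Subgroup G) := hbot ▸ ⟨h1, x.2⟩
      exact Subtype.ext (Subgroup.mem_bot.mp h2)
    · intro y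
      obtain ⟨⟨q, hq⟩, rfl⟩ := QuotientGroup.mk_surjective y
      haveI : IsMulCommutative ↥(P : Subgroup G) := hP
      have hAP : A ≤ (P : Subgroup G) := le_sup_left.trans hsup.le
      have hAC : A ≤ Subgroup.normalizer (C : Set G) := fun a ha =>
        Subgroup.centralizer_le_normalizer _ (Subgroup.mem_centralizer_iff.mpr fun c hc =>
          Subgroup.mem_centralizer_iff.mp ((P : Subgroup G).le_centralizer (hAP ha)) c hc.1)
      have hq' : q ∈ ((A ⊔ C : Subgroup G) : Set G) := by rw [hsup]; exact hq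
      rw [Subgroup.coe_mul_of_left_le_normalizer_right A C hAC] at hq'
      obtain ⟨a, ha, c, hc, rfl⟩ := Set.mem_mul.mp hq'
      refine ⟨⟨c, hc⟩, ?_⟩
      change ((Subgroup.inclusion (inf_le_left : C ≤ (P : Subgroup G)) ⟨c, hc⟩ : ↥(P : Subgroup G)) :
          ↥(P : Subgroup G) ⧸ Subgroup.focalSubgroupOf (P : Subgroup G)) = _
      rw [QuotientGroup.eq, Subgroup.focalSubgroupOf_def, Subgroup.mem_subgroupOf, hfoc]
      change c⁻¹ * (a * c) ∈ A
      have hcomm : a * c = c * a :=
        congrArg Subtype.val (mul_comm' (⟨a, hAP ha⟩ : ↥(P : Subgroup G)) ⟨c, hc.1⟩)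
      rwa [hcomm, inv_mul_cancel_left]
  exact ⟨(Subgroup.transferFocal (P : Subgroup G)).ker, inferInstance,
    ⟨(Subgroup.transferFocal.quotientKerMulEquivQuotientFocalSubroupOf P).trans
      (MulEquiv.ofBijective φ hφ).symm⟩⟩

end Cfsg.Agent.S0105
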