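import Cfsg.Statements.S0111
import Mathlib

set_option autoImplicit false
open Cfsg
open scoped commutatorElement

namespace Cfsg.Agent.S0111

/-- The Thompson transfer lemma states that an involution of a Sylow 2-subgroup P lying outside a subgroup Q of index 2 in P either lies outside some normal subgroup of index 2 in G or is conjugate to an element of Q. -/
theorem result {G : Type*} [Group G] [Finite G] (P : Sylow 2 G) (Q : Subgroup G) (hQP : Q ≤ (P : Subgroup G)) (hQi : Q.relIndex (P : Subgroup G) = 2) (u : G) (hu : orderOf u = 2) (huP : u ∈ (P : Subgroup G)) (huQ : u ∉ Q) : (∃ M : Subgroup G, M.Normal ∧ M.index = 2 ∧ u ∉ M) ∨ ∃ g : G, g * u * g⁻¹ ∈ Q := by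
  classical
  by_cases hex : ∃ g : G, g * u * g⁻¹ ∈ Q
  · exact Or.inr hex
  push Not at hex
  left
  haveI : Fintype (G ⧸ Q) := Fintype.ofFinite _
  set f : G →* Equiv.Perm (G ⧸ Q) := MulAction.toPermHom G (G ⧸ Q) with hf
  have hfix : ∀ c : G ⧸ Q, f u c ≠ c := by
    intro c
    induction c using QuotientGroup.induction_on with
    | _ a =>
      intro h
      apply hex a⁻¹
      have h' : (u * a : G ⧸ Q) = (a : G ⧸ Q) := h
      rw [QuotientGroup.eq] at h'
      have := Q.inv_mem h'
      simpa [mul_assoc] using this
  have hsupp : (f u).support = Finset.univ := Finset.eq_univ_of_forall fun c =>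
    Equiv.Perm.mem_support.mpr (hfix c)
  have hsq : f u ^ 2 = 1 := by rw [← map_pow, ← hu, pow_orderOf_eq_one, map_one]
  have hcard : (Fintype.card (G ⧸ Q)) = 2 * (P : Subgroup G).index := by
    have := Subgroup.relIndex_mul_index hQP
    rw [hQi] at this
    rw [← Nat.card_eq_fintype_card]
    exact this.symm
  have hsign : Equiv.Perm.sign (f u) = -1 := by
    have hct := (Equiv.Perm.cycleType_of_pow_prime_eq_one (σ := f u) (p := 2) hsq)
    rw [Equiv.Perm.sign_of_cycleType, hct, Multiset.sum_replicate, Multiset.card_replicate]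
    have hlen : (f u).cycleType.card * 2 = Fintype.card (G ⧸ Q) := by
      have := (f u).sum_cycleType
      rw [hsupp, Finset.card_univ, hct, Multiset.sum_replicate, smul_eq_mul] at this
      exact this
    have hodd : Odd (f u).cycleType.card := by
      rw [hcard] at hlen
      rw [show (f u).cycleType.card = (P : Subgroup G).index by omega, Nat.odd_iff]
      have := P.not_dvd_index
      omega
    rw [smul_eq_mul, pow_add, Even.neg_one_pow ⟨_, (mul_two _)⟩, one_mul, hodd.neg_one_pow]
  refine ⟨(Equiv.Perm.sign.comp f).ker, inferInstance, ?_, ?_⟩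
  · have hsurj : Function.Surjective (Equiv.Perm.sign.comp f) := by
      intro s
      rcases Int.units_eq_one_or s with rfl | rfl
      · exact ⟨1, map_one _⟩
      · exact ⟨u, hsign⟩
    rw [Subgroup.index_ker, MonoidHom.range_eq_top.mpr hsurj]
    simp
  · intro h
    rw [MonoidHom.mem_ker, MonoidHom.comp_apply, hsign] at h
    exact absurd h (by decide)

end Cfsg.Agent.S0111
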