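import Cfsg.Statements.S0120
import Cfsg.Agent.Transfer.OmegaFour
import Mathlib.GroupTheory.SemidirectProduct

set_option autoImplicit false
open Cfsg
open Cfsg.Agent.Transfer

namespace Cfsg.Agent.S0120

/-- For odd p, a p'-automorphism of a p-group acting trivially on the elements of order dividing p is trivial. -/
theorem result {G : Type*} [Group G] [Finite G] {p : ℕ} [Fact p.Prime] (hp : p ≠ 2) (hG : IsPGroup p G) (a : MulAut G) (ha : Nat.Coprime (orderOf a) p) (h : ∀ x : G, x ^ p = 1 → a x = x) : a = 1 := by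
  let φ : ↥(Subgroup.zpowers a) →* MulAut G := (Subgroup.zpowers a).subtype
  let x : G ⋊[φ] ↥(Subgroup.zpowers a) := SemidirectProduct.inr ⟨a, Subgroup.mem_zpowers a⟩
  haveI : Finite (G ⋊[φ] ↥(Subgroup.zpowers a)) :=
    Finite.of_equiv (G × ↥(Subgroup.zpowers a)) SemidirectProduct.equivProd.symm
  let Q : Subgroup (G ⋊[φ] ↥(Subgroup.zpowers a)) := (SemidirectProduct.inl (φ := φ)).range
  haveI hQn : Q.Normal := by
    show ((SemidirectProduct.inl (φ := φ)).range).Normal
    rw [SemidirectProduct.range_inl_eq_ker_rightHom]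
    infer_instance
  have hx : Nat.Coprime (orderOf x) p := by
    rw [orderOf_injective _ SemidirectProduct.inr_injective, Subgroup.orderOf_mk]
    exact ha
  have hQ : IsPGroup p Q :=
    hG.of_equiv (MonoidHom.ofInjective (SemidirectProduct.inl_injective (φ := φ)))
  have hxQ : x ∈ Subgroup.normalizer (Q : Set (G ⋊[φ] ↥(Subgroup.zpowers a))) := by
    rw [Subgroup.normalizer_eq_top]; exact Subgroup.mem_top x
  have key : ∀ g : G, x * SemidirectProduct.inl g = SemidirectProduct.inl (a g) * x := by
    intro g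
    have := SemidirectProduct.inl_aut (φ := φ) ⟨a, Subgroup.mem_zpowers a⟩ g
    show x * SemidirectProduct.inl g = SemidirectProduct.inl (φ ⟨a, Subgroup.mem_zpowers a⟩ g) * x
    rw [this]
    show x * SemidirectProduct.inl g = SemidirectProduct.inr _ * SemidirectProduct.inl g * SemidirectProduct.inr _⁻¹ * x
    rw [map_inv]
    exact (inv_mul_cancel_right _ _).symm
  have hc := mem_centralizer_of_smallOrder hx Q hQ hxQ (by
    rintro _ ⟨g, rfl⟩ hs
    rcases hs with hs | ⟨h2, -⟩
    · rw [← map_pow] at hs
      have hg : g ^ p = 1 := SemidirectProduct.inl_injective (by rw [hs, map_one])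
      rw [key, h g hg]
    · exact absurd h2 hp)
  ext g
  show a g = g
  have h1 := Subgroup.mem_centralizer_iff.mp hc _ ⟨g, rfl⟩
  rw [key] at h1
  exact (SemidirectProduct.inl_injective (mul_right_cancel h1)).symm

end Cfsg.Agent.S0120
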