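import Cfsg.Statements.S0121

set_option autoImplicit false
open Cfsg

namespace Cfsg.Agent.S0121

/-- A p'-automorphism of a p-group acting trivially on a critical subgroup is trivial. -/
theorem result {G : Type*} [Group G] [Finite G] {p : ℕ} [Fact p.Prime] (hG : IsPGroup p G) (H : Subgroup G) (hH : H.Characteristic) (h1 : (frattini H).map H.subtype ≤ Subgroup.centralizer (H : Set G)) (h2 : ⁅H, (⊤ : Subgroup G)⁆ ≤ H ⊓ Subgroup.centralizer (H : Set G)) (h3 : Subgroup.centralizer (H : Set G) ≤ H) (a : MulAut G) (ha : Nat.Coprime (orderOf a) p) (h : ∀ x ∈ H, a x = x) : a = 1 := by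
  ext g
  show a g = g
  set d := g⁻¹ * a g with hd
  have hnorm : ∀ k ∈ H, g * k * g⁻¹ ∈ H := fun k hk =>
    (Subgroup.normal_of_characteristic H).conj_mem k hk g
  have hdC : d ∈ Subgroup.centralizer (H : Set G) := by
    rw [Subgroup.mem_centralizer_iff]
    intro k hk
    have e := h _ (hnorm k hk)
    rw [map_mul, map_mul, map_inv, h k hk] at e
    calc k * d = g⁻¹ * (g * k * g⁻¹) * a g := by rw [hd]; group
      _ = g⁻¹ * (a g * k * (a g)⁻¹) * a g := by rw [e]
      _ = d * k := by rw [hd]; group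
  have hag : a g = g * d := by rw [hd]; group
  have hpow : ∀ k : ℕ, (a ^ k) g = g * d ^ k := by
    intro k
    induction k with
    | zero => simp
    | succ k ih =>
      rw [pow_succ' a, MulAut.mul_apply, ih, map_mul, map_pow, h d (h3 hdC), hag, mul_assoc, ← pow_succ']
  have h1' : d ^ orderOf a = 1 := by
    have := hpow (orderOf a)
    rw [pow_orderOf_eq_one, MulAut.one_apply] at this
    exact left_eq_mul.mp this
  obtain ⟨j, hj⟩ := IsPGroup.iff_orderOf.mp hG d
  have : d = 1 := orderOf_eq_one_iff.mp (Nat.eq_one_of_dvd_coprimes (a := orderOf a) (b := p ^ j)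
    (ha.pow_right j) (orderOf_dvd_of_pow_eq_one h1') (dvd_of_eq hj))
  rw [hag, this, mul_one]

end Cfsg.Agent.S0121
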