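import Cfsg.Statements.S0131
import Cfsg.Agent.Transfer.Basic

set_option autoImplicit false
open Cfsg
open scoped commutatorElement
open Cfsg.Agent.Transfer

namespace Cfsg.Agent.S0131

/-- P/P' has a normal complement in G exactly when the focal subgroup G' ∩ P is as small as possible, namely P'. -/
theorem result {G : Type*} [Group G] [Finite G] {p : ℕ} [Fact p.Prime] (P : Sylow p G) : (∃ N : Subgroup G, N.Normal ∧ N ⊓ (P : Subgroup G) = ⁅(P : Subgroup G), (P : Subgroup G)⁆ ∧ N ⊔ (P : Subgroup G) = ⊤) ↔ commutator G ⊓ (P : Subgroup G) = ⁅(P : Subgroup G), (P : Subgroup G)⁆ := by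
  constructor
  · rintro ⟨N, hN, hNP, hsup⟩
    refine le_antisymm ?_ (le_inf (Subgroup.commutator_mono le_top le_top)
      (Subgroup.commutator_le.mpr fun a ha b hb =>
        (P : Subgroup G).mul_mem ((P : Subgroup G).mul_mem ((P : Subgroup G).mul_mem ha hb)
          ((P : Subgroup G).inv_mem ha)) ((P : Subgroup G).inv_mem hb)))
    rw [← hNP]
    refine inf_le_inf_right _ (Subgroup.Normal.quotient_commutative_iff_commutator_le.mp ?_)
    refine ⟨⟨fun a b => ?_⟩⟩
    have hrep : ∀ w : G ⧸ N, ∃ z ∈ (P : Subgroup G), (z : G ⧸ N) = w := by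
      intro w
      obtain ⟨g, rfl⟩ := QuotientGroup.mk_surjective w
      have hg : g ∈ N ⊔ (P : Subgroup G) := hsup ▸ Subgroup.mem_top g
      obtain ⟨n, hn, z, hz, rfl⟩ := Subgroup.mem_sup_of_normal_left.mp hg
      exact ⟨z, hz, by rw [QuotientGroup.mk_mul, (QuotientGroup.eq_one_iff n).mpr hn, one_mul]⟩
    obtain ⟨x, hx, rfl⟩ := hrep a
    obtain ⟨y, hy, rfl⟩ := hrep b
    rw [← commutatorElement_eq_one_iff_mul_comm]
    refine ((QuotientGroup.eq_one_iff _).mpr ?_ : ((⁅x, y⁆ : G) : G ⧸ N) = 1)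
    exact (hNP.symm ▸ Subgroup.commutator_mem_commutator hx hy : ⁅x, y⁆ ∈ N ⊓ (P : Subgroup G)).1
  · intro h
    refine ⟨P.transferFocal.ker, inferInstance, ?_, sup_sylow_eq_top (ker_transferFocal_index_pow P) P⟩
    rw [Subgroup.ker_transferFocal_inf_eq_focalSubgroup, ← Subgroup.commutator_inf_eq_focalSubgroup, h]

end Cfsg.Agent.S0131
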