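import Cfsg.Statements.S0132
import Cfsg.Agent.Transfer.Frobenius

set_option autoImplicit false
open Cfsg
open scoped commutatorElement
open Cfsg.Agent.Transfer

namespace Cfsg.Agent.S0132

/-- A minimal non-p-nilpotent finite group is a minimal non-nilpotent group with a normal Sylow p-subgroup. -/
theorem result {G : Type*} [Group G] [Finite G] {p : ℕ} [Fact p.Prime] (h1 : ¬ Cfsg.HasNormalPComplement p G) (h2 : ∀ H : Subgroup G, H ≠ ⊤ → Cfsg.HasNormalPComplement p H) : (∀ H : Subgroup G, H ≠ ⊤ → Group.IsNilpotent H) ∧ ¬ Group.IsNilpotent G ∧ ∀ P : Sylow p G, (P : Subgroup G).Normal := by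
  have hnf : ¬ FrobCond p G := fun h => h1 (hasNPC_of_frobCond h)
  have hloc : ∃ Q : Subgroup G, IsPGroup p Q ∧ ∃ g ∈ Subgroup.normalizer (Q : Set G),
      Nat.Coprime (orderOf g) p ∧ g ∉ Subgroup.centralizer (Q : Set G) := by
    simp only [FrobCond] at hnf
    push Not at hnf
    exact hnf
  obtain ⟨Q, hQ, g, hg, hgc, hgQ⟩ := hloc
  have htop : Q ⊔ Subgroup.zpowers g = ⊤ := by
    by_contra hne
    have hgH : g ∈ Q ⊔ Subgroup.zpowers g := Subgroup.mem_sup_right (Subgroup.mem_zpowers g)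
    have hQH : IsPGroup p ↥(Q.subgroupOf (Q ⊔ Subgroup.zpowers g)) := hQ.comap_subtype
    have hgN : (⟨g, hgH⟩ : ↥(Q ⊔ Subgroup.zpowers g)) ∈ Subgroup.normalizer
        ((Q.subgroupOf (Q ⊔ Subgroup.zpowers g) : Subgroup _) : Set _) :=
      Subgroup.mem_normalizer_iff.mpr fun r => Subgroup.mem_normalizer_iff.mp hg r
    have := frobCond_of_hasNPC (h2 _ hne) _ hQH ⟨g, hgH⟩ hgN (by simpa [← Subgroup.orderOf_coe] using hgc)
    apply hgQ
    rw [Subgroup.mem_centralizer_iff] at this ⊢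
    intro x hx
    exact congrArg Subtype.val (this ⟨x, Subgroup.mem_sup_left hx⟩ hx)
  haveI hQn : Q.Normal := Subgroup.normalizer_eq_top_iff.mp
    (top_le_iff.mp (htop.ge.trans (sup_le Subgroup.le_normalizer (Subgroup.zpowers_le.mpr hg))))
  have hgen : ∀ w : G ⧸ Q, w ∈ Subgroup.zpowers (g : G ⧸ Q) := by
    intro w
    obtain ⟨x, rfl⟩ := QuotientGroup.mk_surjective w
    have hx : x ∈ Q ⊔ Subgroup.zpowers g := htop ▸ Subgroup.mem_top x
    obtain ⟨a, ha, b, hb, rfl⟩ := Subgroup.mem_sup_of_normal_left.mp hx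
    obtain ⟨i, rfl⟩ := Subgroup.mem_zpowers_iff.mp hb
    refine ⟨i, ?_⟩
    simp only [QuotientGroup.mk_mul, QuotientGroup.mk_zpow, (QuotientGroup.eq_one_iff a).mpr ha,
      one_mul]
  haveI hcyc : IsCyclic (G ⧸ Q) := ⟨⟨_, hgen⟩⟩
  have hidx : ¬ p ∣ Q.index := by
    have e : Q.index = orderOf (g : G ⧸ Q) := (orderOf_eq_card_of_forall_mem_zpowers hgen).symm
    rw [e]
    intro hd
    exact (Fact.out : p.Prime).ne_one (Nat.eq_one_of_dvd_coprimes hgc
      (hd.trans (orderOf_map_dvd (QuotientGroup.mk' Q) g)) dvd_rfl)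
  refine ⟨fun H hH => ?_, fun hnil => h1 ?_, fun P => ?_⟩
  · obtain ⟨K, hK, hKc, hKi⟩ := hasNPC_iff.mp (h2 H hH)
    haveI := hK
    haveI : IsCyclic (↥H ⧸ Q.subgroupOf H) := by
      refine isCyclic_of_injective (QuotientGroup.map (Q.subgroupOf H) Q H.subtype le_rfl) ?_
      rw [← MonoidHom.ker_eq_bot_iff, eq_bot_iff]
      intro w hw
      obtain ⟨x, rfl⟩ := QuotientGroup.mk_surjective w
      change ((x : G) : G ⧸ Q) = 1 at hw
      rw [QuotientGroup.eq_one_iff] at hw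
      exact Subgroup.mem_bot.mpr ((QuotientGroup.eq_one_iff x).mpr hw)
    have hKp : IsPGroup p (↥H ⧸ K) := by
      obtain ⟨n, hn⟩ := hKi
      exact IsPGroup.of_card (n := n) hn
    haveI : Group.IsNilpotent (↥H ⧸ K) := hKp.isNilpotent
    haveI : Group.IsNilpotent (↥H ⧸ Q.subgroupOf H) := by
      letI : CommGroup (↥H ⧸ Q.subgroupOf H) := IsCyclic.commGroup
      infer_instance
    refine Subgroup.isNilpotent_of_ker_le_center
      ((QuotientGroup.mk' (Q.subgroupOf H)).prod (QuotientGroup.mk' K)).rangeRestrict ?_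
    rw [MonoidHom.ker_rangeRestrict, MonoidHom.ker_prod, QuotientGroup.ker_mk',
      QuotientGroup.ker_mk']
    have : Q.subgroupOf H ⊓ K = ⊥ := by
      rw [eq_bot_iff]
      rintro x ⟨hxQ, hxK⟩
      obtain ⟨k, hk⟩ := IsPGroup.iff_orderOf.mp hQ ⟨(x : G), hxQ⟩
      rw [← Subgroup.orderOf_coe] at hk
      have hx := (mem_complement_iff hK hKc hKi x).mp hxK
      rw [← Subgroup.orderOf_coe] at hx
      have : orderOf (x : G) = 1 :=
        Nat.eq_one_of_dvd_coprimes (Nat.Coprime.pow_right k hx) dvd_rfl (dvd_of_eq hk)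
      exact Subgroup.mem_bot.mpr (Subtype.ext (orderOf_eq_one_iff.mp this))
    rw [this]
    exact bot_le
  · exact hasNPC_of_nilpotent
  · have e : (P : Subgroup G) = Q := by
      obtain ⟨P', hP'⟩ := hQ.exists_le_sylow
      obtain ⟨k, hk⟩ := IsPGroup.iff_card.mp hQ
      let Q' : Sylow p G := hQ.toSylow hidx
      haveI : ((Q' : Sylow p G) : Subgroup G).Normal := hQn
      haveI := Q'.unique_of_normal hQn
      exact congrArg (fun S : Sylow p G => (S : Subgroup G)) (Subsingleton.elim P Q')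
    exact e ▸ hQn

end Cfsg.Agent.S0132
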