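import Cfsg.Statements.S0137
import Cfsg.Agent.Char.Basic

set_option autoImplicit false
set_option linter.all false
open Cfsg

namespace Cfsg.Agent.S0137

/-- A character value of a finite group has absolute value at most the degree of the representation. -/
theorem result {G : Type*} [Group G] [Finite G] {V : Type*} [AddCommGroup V] [Module ℂ V] [FiniteDimensional ℂ V] (ρ : Representation ℂ G V) (g : G) : ‖ρ.character g‖ ≤ (Module.finrank ℂ V : ℝ) := by
  obtain ⟨b, ω, hb, hω⟩ := Cfsg.Agent.Char.exists_eigenbasis ρ g (isOfFinOrder_of_finite g)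
  rw [Representation.character, Cfsg.Agent.Char.trace_of_eigenbasis _ b ω hb]
  refine (norm_sum_le _ _).trans (le_of_eq ?_)
  simp [Complex.norm_eq_one_of_pow_eq_one (hω _) (orderOf_pos g).ne']

end Cfsg.Agent.S0137
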