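import Cfsg.Statements.S0139
import Cfsg.Agent.Char.Integral

set_option autoImplicit false
set_option linter.all false
open Cfsg

namespace Cfsg.Agent.S0139

/-- The kernel of a complex representation of a finite group is the set of elements where the character equals the degree. -/
theorem result {G : Type*} [Group G] [Finite G] {V : Type*} [AddCommGroup V] [Module ℂ V] [FiniteDimensional ℂ V] (ρ : Representation ℂ G V) (g : G) : ρ.character g = (Module.finrank ℂ V : ℂ) ↔ ρ g = LinearMap.id := by
  constructor
  · intro h
    obtain ⟨c, hc⟩ := (Cfsg.Agent.Char.norm_char_eq_iff ρ g).1 (by rw [h, Complex.norm_natCast])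
    rw [hc]
    rcases Nat.eq_zero_or_pos (Module.finrank ℂ V) with h0 | h0
    · haveI : Subsingleton V := Module.finrank_zero_iff.1 h0
      exact Subsingleton.elim _ _
    · have htr : ρ.character g = c * (Module.finrank ℂ V : ℂ) := by
        show LinearMap.trace ℂ V (ρ g) = _
        rw [hc]; simp
      have h' : c * (Module.finrank ℂ V : ℂ) = 1 * (Module.finrank ℂ V : ℂ) := by
        rw [← htr, one_mul]; exact h
      rw [mul_right_cancel₀ (by exact_mod_cast h0.ne') h', one_smul]
  · intro h
    show LinearMap.trace ℂ V (ρ g) = _
    rw [h, LinearMap.trace_id]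

end Cfsg.Agent.S0139
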