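import Cfsg.Statements.S0140
import Cfsg.Agent.Char.Basic

set_option autoImplicit false
set_option linter.all false
open Cfsg

namespace Cfsg.Agent.S0140

/-- Every value of the character of a complex representation of a finite group is an algebraic integer. -/
theorem result {G : Type*} [Group G] [Finite G] {V : Type*} [AddCommGroup V] [Module ℂ V] [FiniteDimensional ℂ V] (ρ : Representation ℂ G V) (g : G) : IsIntegral ℤ (ρ.character g) := by
  obtain ⟨b, ω, hb, hω⟩ := Cfsg.Agent.Char.exists_eigenbasis ρ g (isOfFinOrder_of_finite g)
  rw [Representation.character, Cfsg.Agent.Char.trace_of_eigenbasis _ b ω hb]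
  exact IsIntegral.sum _ fun i _ => IsIntegral.of_pow (orderOf_pos g) (by rw [hω i]; exact isIntegral_one)

end Cfsg.Agent.S0140
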