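import Cfsg.Statements.S0149
import Cfsg.Agent.Char.Induced

set_option autoImplicit false
set_option linter.all false
open Cfsg

namespace Cfsg.Agent.S0149

/-- Let T be a subset of G meeting each of its conjugates by elements outside its normalizer N only in the identity, and let ψ be a class function of N vanishing on N away from T. Then the function induced from ψ agrees with ψ at every non-identity element of T. -/
theorem result {G : Type*} [Group G] [Fintype G] (T : Set G) (hTI : ∀ g : G, g ∉ Subgroup.normalizer T → ∀ t ∈ T, g * t * g⁻¹ ∈ T → t = 1) (hTN : T ⊆ Subgroup.normalizer T) (ψ : Subgroup.normalizer T → ℂ) (hψ : Cfsg.IsClassFunction (Subgroup.normalizer T) ψ) (hψT : ∀ x : Subgroup.normalizer T, (x : G) ∉ T → ψ x = 0) (t : Subgroup.normalizer T) (htT : (t : G) ∈ T) (ht1 : t ≠ 1) : Cfsg.indFun (Subgroup.normalizer T) ψ t = ψ t := by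
  classical
  let N : Subgroup G := Subgroup.normalizer T
  rw [Char.indFun_eq_of_mem_iff]
  have hE : ∀ x : G, Cfsg.extendByZero N ψ (x⁻¹ * (t : G) * x) = if x ∈ N then ψ t else 0 := by
    intro x
    by_cases hx : x ∈ N
    · have hm : x⁻¹ * (t : G) * x ∈ N := N.mul_mem (N.mul_mem (N.inv_mem hx) t.2) hx
      rw [if_pos hx, Char.extendByZero_of_mem N ψ hm]
      have h := hψ t ⟨x⁻¹, N.inv_mem hx⟩
      rw [← h]
      exact congrArg ψ (Subtype.ext (by simp [mul_assoc]))
    · rw [if_neg hx]
      by_cases hm : x⁻¹ * (t : G) * x ∈ N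
      · rw [Char.extendByZero_of_mem N ψ hm]
        refine hψT _ fun hT => ht1 (Subtype.ext ?_)
        exact hTI x⁻¹ (fun h => hx (by simpa using N.inv_mem h)) t htT (by simpa using hT)
      · exact Char.extendByZero_of_not_mem N ψ hm
  show (Nat.card N : ℂ)⁻¹ * ∑ x : G, Cfsg.extendByZero N ψ (x⁻¹ * (t : G) * x) = _
  simp only [hE, ← Finset.sum_filter, Finset.sum_const, nsmul_eq_mul]
  rw [← Fintype.card_subtype, ← Nat.card_eq_fintype_card, ← mul_assoc]
  have : (Nat.card N : ℂ) ≠ 0 := by exact_mod_cast Nat.card_pos.ne'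
  show (Nat.card N : ℂ)⁻¹ * (Nat.card {x : G // x ∈ N} : ℂ) * ψ t = ψ t
  rw [inv_mul_cancel₀ this, one_mul]

end Cfsg.Agent.S0149
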