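import Cfsg.Statements.S0155
import Cfsg.Agent.Char.Basic

set_option autoImplicit false
set_option linter.all false
open Cfsg

namespace Cfsg.Agent.S0155

/-- The character of the left regular representation of a finite group takes the value |G| at the identity and 0 at every other element. -/
theorem result {G : Type*} [Group G] [Fintype G] [DecidableEq G] (g : G) : (Representation.leftRegular ℂ G).character g = if g = 1 then (Nat.card G : ℂ) else 0 := by
  classical
  split_ifs with h
  · subst h
    rw [Representation.char_one]
    norm_cast
    rw [Module.finrank_eq_card_basis (MonoidAlgebra.basis G ℂ)]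
    simp [Nat.card_eq_fintype_card]
  · rw [Representation.character, LinearMap.trace_eq_matrix_trace ℂ (MonoidAlgebra.basis G ℂ), Matrix.trace]
    refine Finset.sum_eq_zero fun x _ => ?_
    simp [LinearMap.toMatrix_apply, MonoidAlgebra.basis, h]

end Cfsg.Agent.S0155
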