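import Cfsg.Statements.S0158
import Cfsg.Agent.CharLead.Equiv
import Cfsg.Agent.Char.Irr
import Mathlib.LinearAlgebra.Matrix.Kronecker
-- import your own Cfsg.Agent.* helpers here

set_option autoImplicit false
open Cfsg

open scoped Kronecker BigOperators ComplexConjugate

namespace Cfsg.Agent.S0158

theorem fsInd_le {G : Type*} [Group G] [Fintype G] (χ : G → ℂ) (hχ : Cfsg.IsCharacter G χ) : ∃ a b : ℕ, b ≤ a ∧
    (Nat.card G : ℂ)⁻¹ * ∑ g : G, χ g * χ g = (a : ℂ) ∧ (Nat.card G : ℂ)⁻¹ * ∑ s : G, χ (s * s) = 2 * (b : ℂ) - a := by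
  classical
  obtain ⟨n, ρ, rfl⟩ := hχ
  let A : G → Matrix (Fin n) (Fin n) ℂ := fun g => LinearMap.toMatrix' (ρ g)
  have hA : ∀ g h, A (g * h) = A g * A h := fun g h => by
    show LinearMap.toMatrix' (ρ (g * h)) = _
    rw [map_mul, LinearMap.toMatrix'_mul]
  let K : G → Matrix (Fin n × Fin n) (Fin n × Fin n) ℂ := fun g => A g ⊗ₖ A g
  have hK : ∀ g h, K g * K h = K (g * h) := fun g h => by
    show A g ⊗ₖ A g * (A h ⊗ₖ A h) = A (g * h) ⊗ₖ A (g * h)
    rw [hA, Matrix.mul_kronecker_mul]
  let c : ℂ := (Nat.card G : ℂ)⁻¹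
  have hc : c * (Nat.card G : ℂ) = 1 := inv_mul_cancel₀ (by exact_mod_cast Nat.card_pos.ne')
  let E : Matrix (Fin n × Fin n) (Fin n × Fin n) ℂ := c • ∑ g : G, K g
  have hKE : ∀ g, K g * E = E := fun g => by
    show K g * (c • _) = c • _
    rw [Matrix.mul_smul, Finset.mul_sum]
    congr 1
    simp only [hK]
    exact Equiv.sum_comp (Equiv.mulLeft g) K
  have hEE : E * E = E := by
    show (c • ∑ g : G, K g) * E = E
    rw [Matrix.smul_mul, Finset.sum_mul]
    simp only [hKE, Finset.sum_const, Finset.card_univ, ← Nat.card_eq_fintype_card]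
    rw [← Nat.cast_smul_eq_nsmul ℂ, smul_smul, hc, one_smul]
  let S : Matrix (Fin n × Fin n) (Fin n × Fin n) ℂ := fun i j => if i.swap = j then 1 else 0
  have hSmul : ∀ (M : Matrix (Fin n × Fin n) (Fin n × Fin n) ℂ) i j, (S * M) i j = M i.swap j := by
    intro M i j; rw [Matrix.mul_apply]; simp [S]
  have hmulS : ∀ (M : Matrix (Fin n × Fin n) (Fin n × Fin n) ℂ) i j, (M * S) i j = M i j.swap := by
    intro M i j
    rw [Matrix.mul_apply, Finset.sum_eq_single j.swap]
    · simp [S]
    · intro b _ hb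
      have : b.swap ≠ j := fun h => hb (by rw [← h, Prod.swap_swap])
      simp [S, this]
    · simp
  have hSK : ∀ g, S * K g = K g * S := fun g => by
    ext i j
    rw [hSmul, hmulS]
    simp [K, Matrix.kroneckerMap_apply, mul_comm]
  have hSE : S * E = E * S := by
    show S * (c • _) = (c • _) * S
    rw [Matrix.mul_smul, Matrix.smul_mul, Finset.mul_sum, Finset.sum_mul]
    simp only [hSK]
  have hSS : S * S = 1 := by
    ext i j
    rw [hSmul]
    simp [S, Matrix.one_apply, Prod.swap_swap]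
  let P : Matrix (Fin n × Fin n) (Fin n × Fin n) ℂ := (2 : ℂ)⁻¹ • (E + S * E)
  have hP : P * P = P := by
    have h1 : E * (S * E) = S * E := by rw [← mul_assoc, ← hSE, mul_assoc, hEE]
    have h2 : S * E * E = S * E := by rw [mul_assoc, hEE]
    have h3 : S * E * (S * E) = E := by
      rw [mul_assoc, h1, ← mul_assoc, hSS, one_mul]
    show ((2 : ℂ)⁻¹ • (E + S * E)) * ((2 : ℂ)⁻¹ • (E + S * E)) = _
    rw [Matrix.smul_mul, Matrix.mul_smul, smul_smul, add_mul, mul_add, mul_add, hEE, h1, h2, h3]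
    module
  have hEP : E * P = P := by
    show E * ((2 : ℂ)⁻¹ • (E + S * E)) = _
    rw [Matrix.mul_smul, mul_add, hEE, ← mul_assoc, ← hSE, mul_assoc, hEE]
  have htr : ∀ (M : Matrix (Fin n × Fin n) (Fin n × Fin n) ℂ), M * M = M →
      M.trace = (Module.finrank ℂ (LinearMap.range M.toLin') : ℂ) := fun M h => by
    have hi : IsIdempotentElem M.toLin' := by
      show M.toLin' * M.toLin' = M.toLin'
      rw [Module.End.mul_eq_comp, ← Matrix.toLin'_mul, h]
    rw [← Matrix.trace_toLin'_eq]
    exact LinearMap.IsProj.trace (LinearMap.IsIdempotentElem.isProj_range _ hi)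
  set a := Module.finrank ℂ (LinearMap.range E.toLin') with hadef
  set b := Module.finrank ℂ (LinearMap.range P.toLin') with hbdef
  have ha : E.trace = (a : ℂ) := htr E hEE
  have hb : P.trace = (b : ℂ) := htr P hP
  have hba : b ≤ a := by
    refine Submodule.finrank_mono ?_
    rw [← hEP, Matrix.toLin'_mul]
    exact LinearMap.range_comp_le_range _ _
  have hchar : ∀ g, ρ.character g = (A g).trace := fun g => by
    show LinearMap.trace ℂ _ (ρ g) = _
    rw [LinearMap.trace_eq_matrix_trace ℂ (Pi.basisFun ℂ (Fin n)), LinearMap.toMatrix_eq_toMatrix']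
  have hsqv : E.trace = (Nat.card G : ℂ)⁻¹ * ∑ g : G, ρ.character g * ρ.character g := by
    show (c • ∑ g : G, K g).trace = _
    rw [Matrix.trace_smul, Matrix.trace_sum, smul_eq_mul]
    congr 1
    exact Finset.sum_congr rfl fun g _ => by rw [hchar]; exact Matrix.trace_kronecker _ _
  have hval : (Nat.card G : ℂ)⁻¹ * ∑ s : G, ρ.character (s * s) = (S * E).trace := by
    show _ = (S * (c • _)).trace
    rw [Matrix.mul_smul, Matrix.trace_smul, smul_eq_mul]
    show c * _ = _
    congr 1
    rw [Finset.mul_sum, Matrix.trace_sum]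
    refine Finset.sum_congr rfl fun g _ => ?_
    have : ρ.character (g * g) = (A g * A g).trace := by
      rw [← hA]
      show LinearMap.trace ℂ _ (ρ (g * g)) = _
      rw [LinearMap.trace_eq_matrix_trace ℂ (Pi.basisFun ℂ (Fin n)), LinearMap.toMatrix_eq_toMatrix']
    rw [this]
    simp only [Matrix.trace, Matrix.diag, hSmul, Fintype.sum_prod_type]
    simp [K, Matrix.mul_apply, Matrix.kroneckerMap_apply]
    rw [Finset.sum_comm]
  have : (S * E).trace = 2 * P.trace - E.trace := by
    show _ = 2 * ((2 : ℂ)⁻¹ • (E + S * E)).trace - _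
    rw [Matrix.trace_smul, Matrix.trace_add, smul_eq_mul]
    ring
  exact ⟨a, b, hba, hsqv ▸ ha, by rw [hval, this, ha, hb]⟩

/-- The Frobenius–Schur indicator of an irreducible complex representation of a finite group — the average over s of the character at s * s — is 0, 1 or −1, and it vanishes exactly when some character value is not real. -/
theorem result {G : Type*} [Group G] [Fintype G] {V : Type*} [AddCommGroup V] [Module ℂ V] [FiniteDimensional ℂ V] (ρ : Representation ℂ G V) [ρ.IsIrreducible] : ((Nat.card G : ℂ)⁻¹ * ∑ s : G, ρ.character (s * s) = 0 ∨ (Nat.card G : ℂ)⁻¹ * ∑ s : G, ρ.character (s * s) = 1 ∨ (Nat.card G : ℂ)⁻¹ * ∑ s : G, ρ.character (s * s) = -1) ∧ ((Nat.card G : ℂ)⁻¹ * ∑ s : G, ρ.character (s * s) = 0 ↔ ∃ s : G, (ρ.character s).im ≠ 0) := by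
  classical
  have hirr := Cfsg.Agent.Char.isIrrCharacter_of_rep ρ
  let X : Cfsg.IrrCharacter G := ⟨ρ.character, hirr⟩
  let Y : Cfsg.IrrCharacter G := ⟨_, Cfsg.Agent.Char.isIrrCharacter_conj hirr⟩
  obtain ⟨a, b, hba, ha, hb⟩ := fsInd_le ρ.character (Cfsg.Agent.Char.isCharacter_of_isIrrCharacter hirr)
  have hinner : Cfsg.classInner (X : G → ℂ) (Y : G → ℂ) = (a : ℂ) := by
    rw [← ha]
    simp [Cfsg.classInner, X, Y]
  by_cases hXY : X = Y
  · have ha1 : a = 1 := by
      rw [← hXY, Cfsg.Agent.Char.classInner_irr_self] at hinner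
      exact_mod_cast hinner.symm
    have hreal : ¬ ∃ s : G, (ρ.character s).im ≠ 0 := by
      rintro ⟨s, hs⟩
      have h := congrFun (congrArg Subtype.val hXY) s
      exact hs (Complex.conj_eq_iff_im.1 h.symm)
    subst ha1
    rcases (by omega : b = 0 ∨ b = 1) with rfl | rfl
    · rw [hb]; norm_num; exact not_exists.1 hreal |> fun h s => not_not.1 (h s)
    · rw [hb]; norm_num; exact not_exists.1 hreal |> fun h s => not_not.1 (h s)
  · have ha0 : a = 0 := by
      rw [Cfsg.Agent.Char.classInner_irr_of_ne hXY] at hinner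
      exact_mod_cast hinner.symm
    subst ha0
    obtain rfl : b = 0 := by omega
    refine ⟨Or.inl (by rw [hb]; simp), ⟨fun _ => ?_, fun _ => by rw [hb]; simp⟩⟩
    by_contra hall
    push Not at hall
    exact hXY (Subtype.ext (funext fun s => (Complex.conj_eq_iff_im.2 (hall s)).symm))

end Cfsg.Agent.S0158
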