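import Cfsg.Statements.S0160
import Cfsg.Agent.CharLead.Basic

set_option autoImplicit false
open Cfsg
open scoped ComplexConjugate

namespace Cfsg.Agent.S0160

/-- A finite group has as many real-valued irreducible complex characters as conjugacy classes closed under taking inverses. -/
theorem result {G : Type*} [Group G] [Finite G] : Nat.card {χ : Cfsg.IrrCharacter G // ∀ g : G, ((χ : G → ℂ) g).im = 0} = Nat.card {C : ConjClasses G // ∀ g : G, ConjClasses.mk g = C → IsConj g g⁻¹} := by
  classical
  let τ : ConjClasses G → ConjClasses G := Quotient.map (fun g : G => g⁻¹) (fun a b h => by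
    obtain ⟨c, hc⟩ := isConj_iff.1 h
    exact isConj_iff.2 ⟨c, by rw [← hc]; group⟩)
  have hτ : ∀ g : G, τ (ConjClasses.mk g) = ConjClasses.mk g⁻¹ := fun g => rfl
  have hinv : Function.Involutive τ := by
    intro C
    obtain ⟨g, rfl⟩ := ConjClasses.mk_surjective C
    rw [hτ, hτ, inv_inv]
  have h := CharLead.card_fixed_eq (fun χ : Cfsg.IrrCharacter G => Char.irrConj χ) τ hinv.bijective (by
    intro χ g g' hg
    rw [hτ] at hg
    show conj ((χ : G → ℂ) g') = _
    rw [CharLead.irr_eq_of_isConj χ (ConjClasses.mk_eq_mk_iff_isConj.1 hg), Char.irr_apply_inv]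
    simp)
  calc Nat.card {χ : Cfsg.IrrCharacter G // ∀ g : G, ((χ : G → ℂ) g).im = 0}
      = Nat.card {χ : Cfsg.IrrCharacter G // Char.irrConj χ = χ} :=
        Nat.card_congr (Equiv.subtypeEquivRight fun χ => by
          rw [Subtype.ext_iff, funext_iff]
          exact forall_congr' fun g => Complex.conj_eq_iff_im.symm)
    _ = Nat.card {C : ConjClasses G // τ C = C} := h
    _ = _ := Nat.card_congr (Equiv.subtypeEquivRight fun C => by
        obtain ⟨c, rfl⟩ := ConjClasses.mk_surjective C
        rw [hτ]
        constructor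
        · intro hc g hg
          rw [← ConjClasses.mk_eq_mk_iff_isConj, ← hτ g, hg, hτ, hc]
        · intro hc
          exact (ConjClasses.mk_eq_mk_iff_isConj.2 (hc c rfl)).symm)

end Cfsg.Agent.S0160
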