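import Cfsg.Statements.S0162
import Mathlib
import Cfsg.Agent.Char.Irr

set_option autoImplicit false
open Cfsg

namespace Cfsg.Agent.S0162

/-- If a finite group has odd order, its order is congruent to its number of conjugacy classes modulo 16. -/
theorem result {G : Type*} [Group G] [Finite G] (hodd : Odd (Nat.card G)) : Nat.card G ≡ Nat.card (ConjClasses G) [MOD 16] := by
  classical
  haveI := Fintype.ofFinite G
  choose d hd using fun χ : Cfsg.IrrCharacter G => Char.irr_degree_dvd_card χ
  have hsum : ∑ χ : Cfsg.IrrCharacter G, d χ ^ 2 = Nat.card G := by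
    have := Char.sum_irr_sq (G := G)
    simp only [(hd _).2.2] at this
    exact_mod_cast this
  have hk : Nat.card (ConjClasses G) = ∑ _χ : Cfsg.IrrCharacter G, 1 := by
    rw [← Char.card_irr_eq_card_conjClasses]; simp
  rw [← ZMod.natCast_eq_natCast_iff, ← hsum, hk, ← sub_eq_zero]
  push_cast
  rw [← Finset.sum_sub_distrib]
  refine Finset.sum_involution (fun χ _ => Char.irrConj χ) ?_ ?_ (fun _ _ => Finset.mem_univ _) ?_
  · intro χ _
    have hc : d (Char.irrConj χ) = d χ := by
      have h1 := (hd (Char.irrConj χ)).2.2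
      rw [show (Char.irrConj χ : G → ℂ) 1 = (starRingEnd ℂ) ((χ : G → ℂ) 1) from rfl,
        (hd χ).2.2, Complex.conj_natCast] at h1
      exact_mod_cast h1.symm
    rw [hc]
    obtain ⟨k, hk⟩ := hodd.of_dvd_nat (hd χ).2.1
    obtain ⟨m, hm⟩ := Nat.even_mul_succ_self k
    have hdm : d χ ^ 2 = 8 * m + 1 := by rw [hk]; linarith
    have : ((d χ : ZMod 16)) ^ 2 = 8 * (m : ZMod 16) + 1 := by exact_mod_cast congrArg (Nat.cast : ℕ → ZMod 16) hdm
    have h16 : (16 : ZMod 16) = 0 := rfl
    rw [this]
    linear_combination (m : ZMod 16) * h16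
  · intro χ _ hne heq
    apply hne
    have h1 := Char.eq_one_of_real_of_odd hodd χ fun g => congrFun (congrArg Subtype.val heq) g
    have h2 : d χ = 1 := by
      have h3 := (hd χ).2.2
      rw [h1] at h3
      simp only at h3; exact_mod_cast h3.symm
    rw [h2]; simp
  · intro χ _
    exact Subtype.ext (funext fun g => Complex.conj_conj _)

end Cfsg.Agent.S0162
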