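import Cfsg.Statements.S0176
import Cfsg.Agent.CharLead.Clifford
import Cfsg.Agent.CharLead.Linear
import Mathlib

set_option autoImplicit false
open Cfsg
set_option maxHeartbeats 1000000

namespace Cfsg.Agent.S0176

open Cfsg.Agent.Char Cfsg.Agent.CharLead in
theorem indFun_comap {G Q : Type*} [Group G] [Fintype G] [Group Q] [Fintype Q] (f : G →* Q)
    (hf : Function.Surjective f) (B : Subgroup Q) (lam : B →* ℂˣ) (g : G) :
    Cfsg.indFun (B.comap f) (fun h => ((lam.comp (f.subgroupComap B) h : ℂˣ) : ℂ)) g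
      = Cfsg.indFun B (fun h => (lam h : ℂ)) (f g) := by
  classical
  have hext : ∀ y : G, Cfsg.extendByZero (B.comap f) (fun h => ((lam.comp (f.subgroupComap B) h : ℂˣ) : ℂ)) y
      = Cfsg.extendByZero B (fun h => (lam h : ℂ)) (f y) := by
    intro y
    by_cases hy : f y ∈ B
    · rw [extendByZero_of_mem B _ hy, extendByZero_of_mem (B.comap f) _ (show y ∈ B.comap f from hy)]
      rfl
    · rw [extendByZero_of_not_mem B _ hy, extendByZero_of_not_mem (B.comap f) _ (show y ∉ B.comap f from hy)]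
  have hker : ∀ q : Q, (Finset.univ.filter fun x : G => f x = q).card = Nat.card f.ker := by
    intro q
    obtain ⟨x₀, rfl⟩ := hf q
    rw [← Fintype.card_subtype, ← Nat.card_eq_fintype_card]
    exact Nat.card_congr
      { toFun := fun x => ⟨x₀⁻¹ * x.1, by rw [MonoidHom.mem_ker, map_mul, x.2, map_inv, inv_mul_cancel]⟩
        invFun := fun k => ⟨x₀ * k.1, by rw [map_mul, k.2, mul_one]⟩
        left_inv := fun x => Subtype.ext (mul_inv_cancel_left _ _)
        right_inv := fun k => Subtype.ext (inv_mul_cancel_left _ _) }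
  have hcard : Nat.card (B.comap f) = Nat.card f.ker * Nat.card B := by
    have h1 := (B.comap f).card_mul_index
    rw [Subgroup.index_comap_of_surjective B hf] at h1
    have h2 := f.ker.card_mul_index
    rw [Subgroup.index_ker, MonoidHom.range_eq_top.2 hf, Subgroup.card_top, ← B.card_mul_index, ← mul_assoc] at h2
    exact Nat.eq_of_mul_eq_mul_right (Nat.pos_of_ne_zero B.index_ne_zero_of_finite) (h1.trans h2.symm)
  rw [indFun_eq_of_mem_iff, indFun_eq_of_mem_iff]
  simp only [hext, map_mul, map_inv]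
  rw [← Finset.sum_fiberwise Finset.univ f, Finset.sum_congr rfl (fun q _ => by
    rw [Finset.sum_congr rfl (fun x hx => by rw [(Finset.mem_filter.1 hx).2] :
      ∀ x ∈ Finset.univ.filter (fun x : G => f x = q), Cfsg.extendByZero B (fun h => (lam h : ℂ)) ((f x)⁻¹ * f g * f x)
        = Cfsg.extendByZero B (fun h => (lam h : ℂ)) (q⁻¹ * f g * q)), Finset.sum_const, hker, nsmul_eq_mul] :
    ∀ q ∈ (Finset.univ : Finset Q), ∑ x ∈ Finset.univ.filter (fun x : G => f x = q),
      Cfsg.extendByZero B (fun h => (lam h : ℂ)) ((f x)⁻¹ * f g * f x)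
      = (Nat.card f.ker : ℂ) * Cfsg.extendByZero B (fun h => (lam h : ℂ)) (q⁻¹ * f g * q)),
    ← Finset.mul_sum, ← mul_assoc, hcard, Nat.cast_mul, mul_inv, mul_comm (Nat.card f.ker : ℂ)⁻¹,
    mul_assoc (Nat.card B : ℂ)⁻¹, inv_mul_cancel₀ (by exact_mod_cast Nat.card_pos.ne'), mul_one]

theorem indFun_congr {G : Type*} [Group G] [Fintype G] {H₁ H₂ : Subgroup G} (h : H₁ = H₂)
    (f : H₁ → ℂ) (f' : H₂ → ℂ) (hf : ∀ x : H₁, f x = f' ⟨x, h ▸ x.2⟩) : Cfsg.indFun H₁ f = Cfsg.indFun H₂ f' := by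
  subst h
  rw [show f = f' from funext hf]

open Cfsg.Agent.Char Cfsg.Agent.CharLead in
theorem monomial.{w} : ∀ (n : ℕ) (G : Type w) [Group G] [Fintype G], Nat.card G = n → Group.IsNilpotent G →
    ∀ χ : Cfsg.IrrCharacter G, ∃ (H : Subgroup G) (lam : H →* ℂˣ), (χ : G → ℂ) = Cfsg.indFun H (fun h => (lam h : ℂ)) := by
  intro n
  induction n using Nat.strong_induction_on with
  | _ n IH =>
  intro G _ _ hn hnil χ
  classical
  haveI := hnil
  by_cases hK : irrKer χ = ⊥
  swap
  · haveI := irrKer_normal χ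
    haveI := Fintype.ofFinite (G ⧸ irrKer χ)
    obtain ⟨ψ, hψ, hψe⟩ := isIrrCharacter_descend (irrKer χ) χ.2 fun g hg => (mem_irrKer χ g).1 hg
    obtain ⟨B, lam, hB⟩ := IH (Nat.card (G ⧸ irrKer χ)) (by
      rw [← hn, (irrKer χ).card_eq_card_quotient_mul_card_subgroup]
      exact lt_mul_right Nat.card_pos ((Subgroup.one_lt_card_iff_ne_bot _).2 hK)) (G ⧸ irrKer χ) rfl inferInstance ⟨ψ, hψ⟩
    refine ⟨B.comap (QuotientGroup.mk' (irrKer χ)), lam.comp ((QuotientGroup.mk' (irrKer χ)).subgroupComap B), funext fun g => ?_⟩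
    rw [indFun_comap _ (QuotientGroup.mk'_surjective _), hψe g]
    exact congrFun hB _
  obtain ⟨m, ρ, hρ, hχ⟩ := χ.2
  haveI := hρ
  have hfaith : ∀ g : G, ρ g = 1 → g = 1 := fun g hg => by
    rw [← Subgroup.mem_bot, ← hK, mem_irrKer, ← hχ]
    exact (rep_eq_one_iff_char ρ g).2 hg
  by_cases hab : ∀ a b : G, a * b = b * a
  · have h1 : (χ : G → ℂ) 1 = 1 := irr_apply_one_eq_one_of_comm hab χ
    have hmul := irr_mul_of_apply_one_eq_one χ.2 h1
    let f : G →* ℂ := { toFun := (χ : G → ℂ), map_one' := h1, map_mul' := hmul }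
    refine ⟨⊤, f.toHomUnits.comp (⊤ : Subgroup G).subtype, funext fun g => ?_⟩
    rw [indFun_eq_of_mem_iff, Finset.sum_congr rfl (fun x _ => by
      rw [extendByZero_of_mem _ _ (Subgroup.mem_top _)]
      show _ = f g
      rw [MonoidHom.comp_apply, MonoidHom.coe_toHomUnits]
      show f (x⁻¹ * g * x) = f g
      rw [hab x⁻¹ g, inv_mul_cancel_right] : ∀ x ∈ (Finset.univ : Finset G), Cfsg.extendByZero (⊤ : Subgroup G)
        (fun h => ((f.toHomUnits.comp (⊤ : Subgroup G).subtype h : ℂˣ) : ℂ)) (x⁻¹ * g * x) = f g),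
      Finset.sum_const, Finset.card_univ, nsmul_eq_mul, ← mul_assoc, Subgroup.card_top,
      ← Nat.card_eq_fintype_card, inv_mul_cancel₀ (by exact_mod_cast Nat.card_pos.ne'), one_mul]
    rfl
  -- a noncentral abelian normal subgroup
  obtain ⟨A, hA, hAc, hAn⟩ : ∃ A : Subgroup G, A.Normal ∧ (∀ a ∈ A, ∀ b ∈ A, a * b = b * a) ∧
      ¬ A ≤ Subgroup.center G := by
    set Z := Subgroup.center G with hZ
    have hne : Z ≠ ⊤ := fun e => hab fun a b => (Subgroup.mem_center_iff.1 (e ▸ Subgroup.mem_top a : a ∈ Z) b).symm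
    haveI : Nontrivial (G ⧸ Z) := Finite.one_lt_card_iff_nontrivial.1
      (by rw [← Subgroup.index_eq_card]; exact Subgroup.one_lt_index_of_ne_top hne)
    obtain ⟨c, hc, hc1⟩ := (Subgroup.center (G ⧸ Z)).bot_or_exists_ne_one.resolve_left
      (Group.IsNilpotent.center_ne_bot _)
    obtain ⟨a, rfl⟩ := QuotientGroup.mk_surjective c
    refine ⟨(Subgroup.zpowers (QuotientGroup.mk a : G ⧸ Z)).comap (QuotientGroup.mk' Z), ?_, ?_, ?_⟩
    · refine Subgroup.Normal.comap ⟨fun x hx q => ?_⟩ _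
      obtain ⟨i, rfl⟩ := Subgroup.mem_zpowers_iff.1 hx
      rw [Subgroup.mem_center_iff.1 (zpow_mem hc i) q, mul_inv_cancel_right]
      exact hx
    · have key : ∀ x : G, (QuotientGroup.mk x : G ⧸ Z) ∈ Subgroup.zpowers (QuotientGroup.mk a : G ⧸ Z) →
          ∃ i : ℤ, ∃ z ∈ Z, x = a ^ i * z := by
        intro x hx
        obtain ⟨i, hi⟩ := Subgroup.mem_zpowers_iff.1 hx
        rw [← QuotientGroup.mk_zpow, QuotientGroup.eq] at hi
        exact ⟨i, _, hi, (mul_inv_cancel_left _ _).symm⟩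
      intro x hx y hy
      obtain ⟨i, z, hz, rfl⟩ := key x hx
      obtain ⟨j, w, hw, rfl⟩ := key y hy
      have e1 : Commute (a ^ i) (a ^ j) := (Commute.refl a).zpow_zpow i j
      have e2 : ∀ u : G, Commute z u := fun u => (Subgroup.mem_center_iff.1 hz u).symm
      have e3 : ∀ u : G, Commute w u := fun u => (Subgroup.mem_center_iff.1 hw u).symm
      exact ((e1.mul_right (e3 _).symm).mul_left ((e2 _).mul_right (e2 _))).eq
    · intro h
      exact hc1 ((QuotientGroup.eq_one_iff a).2 (h (Subgroup.mem_zpowers (QuotientGroup.mk a : G ⧸ Z))))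
  haveI := hA
  haveI := Fintype.ofFinite A
  obtain ⟨θ, hθ⟩ : ∃ θ : Cfsg.IrrCharacter A, Cfsg.classInner (fun a : A => (χ : G → ℂ) a) (θ : A → ℂ) ≠ 0 := by
    by_contra hne
    push Not at hne
    obtain ⟨d, hd0, hd⟩ := irr_apply_one χ
    have h := congrFun (classFunction_expand (isClassFunction_of_isCharacter
      (isCharacter_comp (isCharacter_of_isIrrCharacter χ.2) A.subtype))) 1
    simp only [Finset.sum_apply, Pi.smul_apply] at h
    rw [Finset.sum_eq_zero (fun η _ => by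
      rw [show Cfsg.classInner (fun x => (χ : G → ℂ) (A.subtype x)) (η : A → ℂ) = 0 from hne η, zero_smul]), map_one, hd] at h
    exact hd0.ne' (by exact_mod_cast h)
  let T := inertiaGroup A (θ : A → ℂ)
  haveI := Fintype.ofFinite T
  by_cases htop : T = ⊤
  · exfalso
    refine hAn fun a ha => Subgroup.mem_center_iff.2 fun g => ?_
    obtain ⟨c, hc⟩ : ∃ c : ℂ, ρ a = c • LinearMap.id := by
      refine (norm_char_eq_iff ρ a).1 ?_
      have h := congrFun (res_eq_smul_sum_conj A χ θ hθ) (⟨a, ha⟩ : A)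
      have hd := degree_eq_mul_index A χ θ hθ
      rw [show (inertiaGroup A (θ : A → ℂ)) = ⊤ from htop, Subgroup.index_top, Nat.cast_one, mul_one] at hd
      have hθ1 : (θ : A → ℂ) 1 = 1 := irr_apply_one_eq_one_of_comm (fun x y => Subtype.ext (hAc x x.2 y y.2)) θ
      rw [hθ1, mul_one] at hd
      have hset : {ψ : A → ℂ | ∃ g : G, ψ = conjFn A (θ : A → ℂ) g} = {(θ : A → ℂ)} := by
        ext ψ
        refine ⟨?_, fun e => ⟨1, by rw [conjFn_one]; exact e⟩⟩
        rintro ⟨g, rfl⟩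
        exact (htop ▸ Subgroup.mem_top g : g ∈ T)
      rw [hset, finsum_mem_singleton, Pi.smul_apply, smul_eq_mul, ← hd] at h
      have hnorm : ‖(θ : A → ℂ) ⟨a, ha⟩‖ = 1 := by
        refine Complex.norm_eq_one_of_pow_eq_one (n := orderOf (⟨a, ha⟩ : A)) ?_ (orderOf_pos _).ne'
        let f : A →* ℂ := { toFun := (θ : A → ℂ), map_one' := hθ1, map_mul' := irr_mul_of_apply_one_eq_one θ.2 hθ1 }
        show f ⟨a, ha⟩ ^ _ = 1
        rw [← map_pow, pow_orderOf_eq_one, map_one]
      rw [← hχ] at h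
      rw [h, norm_mul, hnorm, mul_one, ρ.char_one, Complex.norm_natCast]
    have h1 : ρ ((a * g)⁻¹ * (g * a)) = 1 := by
      have e1 : ρ (g * a) = ρ (a * g) := by
        rw [map_mul, map_mul, hc, smul_mul_assoc, mul_smul_comm]
        rfl
      rw [map_mul, e1, ← map_mul, inv_mul_cancel, map_one]
    exact (inv_mul_eq_one.1 (hfaith _ h1)).symm
  obtain ⟨ψ, hψ, -⟩ := clifford_correspondence A θ T (fun g => Iff.rfl) (le_inertiaGroup A θ) χ hθ
  obtain ⟨B, lam, hB⟩ := IH (Nat.card T) (hn ▸ lt_of_le_of_ne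
    (Nat.le_of_dvd Nat.card_pos (Subgroup.card_subgroup_dvd_card T))
    (fun e => htop (Subgroup.eq_top_of_card_eq T e))) T rfl inferInstance ψ
  let e := B.equivMapOfInjective T.subtype T.subtype_injective
  refine ⟨B.map T.subtype, lam.comp e.symm.toMonoidHom, ?_⟩
  rw [← hψ, ← indFun_trans (B.map T.subtype) T (Subgroup.map_subtype_le B), hB]
  congr 1
  refine indFun_congr (Subgroup.comap_map_eq_self_of_injective T.subtype_injective B).symm _ _ fun x => ?_
  show (lam x : ℂ) = (lam (e.symm _) : ℂ)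
  congr 2
  rw [eq_comm, MulEquiv.symm_apply_eq]
  rfl

/-- A finite nilpotent group is an M-group: each irreducible complex character is induced from a homomorphism of some subgroup into ℂˣ. -/
theorem result {G : Type*} [Group G] [Fintype G] [Group.IsNilpotent G] (χ : G → ℂ) (hχ : Cfsg.IsIrrCharacter G χ) : ∃ (H : Subgroup G) (lam : H →* ℂˣ), χ = Cfsg.indFun H (fun h => (lam h : ℂ)) := by
  exact monomial _ G rfl inferInstance ⟨χ, hχ⟩

end Cfsg.Agent.S0176
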