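import Cfsg.Statements.S0163
import Cfsg.Agent.CharLead.LinSpan
import Cfsg.Agent.Char.Brauer
import Cfsg.Agent.S0176
import Mathlib

set_option autoImplicit false
open Cfsg

namespace Cfsg.Agent.S0163

theorem elementary_nilpotent {E : Type*} [Group E] [Finite E] {p : ℕ} (hp : p.Prime)
    (h : Cfsg.IsElementary p E) : Group.IsNilpotent E := by
  haveI := Fact.mk hp
  obtain ⟨x, hx, -, k, hk⟩ := h
  have hle : Subgroup.zpowers x ≤ Subgroup.center E := Subgroup.zpowers_le.2 hx
  haveI : (Subgroup.zpowers x).Normal := ⟨fun z hz g => by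
    rw [Subgroup.mem_center_iff.1 (hle hz) g, mul_inv_cancel_right]; exact hz⟩
  haveI : Group.IsNilpotent (E ⧸ Subgroup.zpowers x) :=
    (IsPGroup.of_card (p := p) (n := k) (by rw [← Subgroup.index_eq_card, hk])).isNilpotent
  exact Subgroup.isNilpotent_of_ker_le_center (QuotientGroup.mk' (Subgroup.zpowers x))
    (by rw [QuotientGroup.ker_mk']; exact hle)

theorem elementary_subgroup {G : Type*} [Group G] [Finite G] {p : ℕ} (hp : p.Prime) {E : Subgroup G}
    (h : Cfsg.IsElementary p E) {H : Subgroup G} (hle : H ≤ E) : Cfsg.IsElementary p H := by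
  obtain ⟨x, hx, hcop, k, hk⟩ := h
  let f : H →* E := Subgroup.inclusion hle
  set Z := Subgroup.zpowers x
  have hZc : Z ≤ Subgroup.center E := Subgroup.zpowers_le.2 hx
  haveI : Z.Normal := ⟨fun z hz g => by
    rw [Subgroup.mem_center_iff.1 (hZc hz) g, mul_inv_cancel_right]; exact hz⟩
  let W := Z.comap f
  haveI : IsCyclic W := by
    let g : W →* Z := { toFun := fun w => ⟨f w.1, w.2⟩, map_one' := rfl, map_mul' := fun _ _ => rfl }
    exact isCyclic_of_injective g fun a b hab =>
      Subtype.ext (Subgroup.inclusion_injective hle (congrArg Subtype.val hab))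
  obtain ⟨y, hy⟩ := IsCyclic.exists_generator (α := W)
  have hW : Subgroup.zpowers (y : H) = W := by
    refine le_antisymm (Subgroup.zpowers_le.2 y.2) fun w hw => ?_
    obtain ⟨i, hi⟩ := Subgroup.mem_zpowers_iff.1 (hy ⟨w, hw⟩)
    exact ⟨i, congrArg Subtype.val hi⟩
  refine ⟨y, Subgroup.mem_center_iff.2 fun z => Subgroup.inclusion_injective hle
    (by rw [map_mul, map_mul]; exact Subgroup.mem_center_iff.1 (hZc y.2) _), ?_, ?_⟩
  · have h1 : orderOf (f (y : H)) ∣ orderOf x := by
      obtain ⟨i, hi⟩ := Subgroup.mem_zpowers_iff.1 (show f (y : H) ∈ Z from y.2)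
      rw [← hi]
      exact orderOf_dvd_of_pow_eq_one (by rw [← zpow_natCast, ← zpow_mul, mul_comm, zpow_mul, zpow_natCast, pow_orderOf_eq_one, one_zpow])
    rw [orderOf_injective f (Subgroup.inclusion_injective hle)] at h1
    exact hcop.coprime_dvd_left h1
  · rw [hW]
    have h1 : W.index ∣ p ^ k := by
      rw [Subgroup.index_comap, ← hk]
      exact Subgroup.relIndex_dvd_index_of_normal Z _
    obtain ⟨j, -, hj⟩ := (Nat.dvd_prime_pow hp).1 h1
    exact ⟨j, hj⟩

/-- Brauer's induction Theorem: every character of a finite group is a ℤ-linear combination of functions induced from linear characters (homomorphisms to ℂˣ) of elementary subgroups. -/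
theorem result {G : Type*} [Group G] [Fintype G] (χ : G → ℂ) (hχ : Cfsg.IsCharacter G χ) : ∃ l : List ((E : Subgroup G) × ((E →* ℂˣ) × ℤ)), (∀ t ∈ l, ∃ p : ℕ, p.Prime ∧ Cfsg.IsElementary p t.1) ∧ χ = (l.map fun t => (t.2.2 : ℂ) • Cfsg.indFun t.1 (fun e => (t.2.1 e : ℂ))).sum := by
  classical
  suffices key : ∀ f : G → ℂ, f ∈ Cfsg.Agent.Char.elemSpan G →
      f ∈ Cfsg.Agent.CharLead.linSpan (fun E : Subgroup G => ∃ p : ℕ, p.Prime ∧ Cfsg.IsElementary p E) by
    obtain ⟨l, hl, he⟩ := Cfsg.Agent.CharLead.linSpan_list (key χ (Cfsg.Agent.Char.isCharacter_mem_elemSpan hχ))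
    exact ⟨l, hl, he⟩
  intro f hf
  induction hf using AddSubgroup.closure_induction with
  | mem f hf =>
    obtain ⟨E, p, φ, hp, hE, hφ, rfl⟩ := hf
    haveI := Fintype.ofFinite E
    haveI := elementary_nilpotent hp hE
    choose c hc using fun η : Cfsg.IrrCharacter E => Cfsg.Agent.Char.exists_nat_classInner hφ η
    rw [show φ = ∑ η : Cfsg.IrrCharacter E, (c η : ℂ) • (η : E → ℂ) by
      conv_lhs => rw [Cfsg.Agent.Char.classFunction_expand (Cfsg.Agent.Char.isClassFunction_of_isCharacter hφ)]
      simp only [hc]]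
    have hsum : ∀ s : Finset (Cfsg.IrrCharacter E), Cfsg.indFun E (∑ η ∈ s, (c η : ℂ) • (η : E → ℂ)) ∈
        Cfsg.Agent.CharLead.linSpan (fun E : Subgroup G => ∃ p : ℕ, p.Prime ∧ Cfsg.IsElementary p E) := by
      intro s
      induction s using Finset.induction_on with
      | empty =>
        rw [Finset.sum_empty, show (0 : E → ℂ) = (0 : ℂ) • (fun _ => 0) from (zero_smul ℂ _).symm,
          Cfsg.Agent.Char.indFun_smul, zero_smul]
        exact zero_mem _
      | @insert η s hη ih =>
        rw [Finset.sum_insert hη, Cfsg.Agent.Char.indFun_add, Cfsg.Agent.Char.indFun_smul, Nat.cast_smul_eq_nsmul]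
        refine add_mem (AddSubgroup.nsmul_mem _ ?_ _) ih
        obtain ⟨B, lam, hB⟩ := Cfsg.Agent.S0176.monomial _ E rfl inferInstance η
        let e := B.equivMapOfInjective E.subtype E.subtype_injective
        refine AddSubgroup.subset_closure ⟨B.map E.subtype, lam.comp e.symm.toMonoidHom,
          ⟨p, hp, elementary_subgroup hp hE (Subgroup.map_subtype_le B)⟩, ?_⟩
        rw [hB, ← Cfsg.Agent.Char.indFun_trans (B.map E.subtype) E (Subgroup.map_subtype_le B)]
        congr 1
        refine Cfsg.Agent.S0176.indFun_congr (Subgroup.comap_map_eq_self_of_injective E.subtype_injective B).symm _ _ fun x => ?_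
        show (lam x : ℂ) = (lam (e.symm _) : ℂ)
        congr 2
        rw [eq_comm, MulEquiv.symm_apply_eq]
        rfl
    exact hsum _
  | zero => exact zero_mem _
  | add u v _ _ hu hv => exact add_mem hu hv
  | neg u _ hu => exact neg_mem hu

end Cfsg.Agent.S0163
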