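import Cfsg.Statements.S0165
import Cfsg.Agent.Blocks.RegMat
import Cfsg.Agent.Blocks.BlockKernel

set_option autoImplicit false
set_option linter.all false
open Cfsg

namespace Cfsg.Agent.S0165

/-- If p ^ n is the exact power of the prime p dividing the order of a finite group and p ^ n divides the degree of an irreducible complex representation, then its character vanishes at every element of order divisible by p. -/
theorem result {G : Type*} [Group G] [Finite G] {V : Type*} [AddCommGroup V] [Module ℂ V] [FiniteDimensional ℂ V] (ρ : Representation ℂ G V) [ρ.IsIrreducible] (p n : ℕ) (hp : p.Prime) (hn : p ^ n ∣ Nat.card G) (hn' : ¬ p ^ (n + 1) ∣ Nat.card G) (hdeg : p ^ n ∣ Module.finrank ℂ V) (x : G) (hx : p ∣ orderOf x) : ρ.character x = 0 := by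
  classical
  haveI := Fintype.ofFinite G
  obtain ⟨M, hM⟩ := Cfsg.Agent.Blocks.exists_modularIdeal hp
  have hirr := Cfsg.Agent.Char.isIrrCharacter_of_rep ρ
  let χ : Cfsg.IrrCharacter G := ⟨ρ.character, hirr⟩
  have hd : Cfsg.charDegree (χ : G → ℂ) = Module.finrank ℂ V := by
    have h1 := (Cfsg.Agent.Blocks.irr_charDegree χ).1
    have h2 : (χ : G → ℂ) 1 = (Module.finrank ℂ V : ℂ) := ρ.char_one
    rw [h2] at h1
    exact_mod_cast h1.symm
  have hn0 : (Nat.card G).factorization p = n := by
    have h1 := (hp.pow_dvd_iff_le_factorization Nat.card_pos.ne').1 hn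
    have h2 := mt (hp.pow_dvd_iff_le_factorization Nat.card_pos.ne').2 hn'
    omega
  have hv : (Cfsg.charDegree (χ : G → ℂ)).factorization p = (Nat.card G).factorization p := by
    refine le_antisymm (Cfsg.Agent.Blocks.degree_factorization_le χ p) ?_
    rw [hn0, hd]
    refine (hp.pow_dvd_iff_le_factorization ?_).1 hdeg
    rw [← hd]; exact (Cfsg.Agent.Blocks.irr_charDegree χ).2
  have h1 := Cfsg.Agent.Blocks.pow_dvd_regVal hM χ χ
  rw [hv] at h1
  have h2 := Cfsg.Agent.Blocks.regVal_self_le hp χ
  exact h2.2 (le_antisymm h2.1 (Int.le_of_dvd (Cfsg.Agent.Blocks.regVal_self_pos hp χ) h1)) x hx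

end Cfsg.Agent.S0165
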