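import Cfsg.Statements.S0168
import Mathlib
import Cfsg.Agent.CharLead.Kernel

set_option autoImplicit false
open Cfsg

namespace Cfsg.Agent.S0168

/-- The Burnside–Brauer Theorem. Let χ be the character of a faithful complex representation of a finite group, taking m distinct values. Then every irreducible character has nonzero inner product with χ ^ i for some i < m. -/
theorem result {G : Type*} [Group G] [Fintype G] {V : Type*} [AddCommGroup V] [Module ℂ V] [FiniteDimensional ℂ V] (ρ : Representation ℂ G V) (hfaithful : Function.Injective ρ) (ψ : G → ℂ) (hψ : Cfsg.IsIrrCharacter G ψ) : ∃ i : ℕ, i < Nat.card (Set.range ρ.character) ∧ Cfsg.classInner (fun g => ρ.character g ^ i) ψ ≠ 0 := by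
  classical
  by_contra hcon
  push Not at hcon
  set A : Finset ℂ := Finset.univ.image ρ.character with hA
  have hcard : Nat.card (Set.range ρ.character) = A.card := by
    rw [← Nat.card_eq_finsetCard]
    refine Nat.card_congr (Equiv.subtypeEquivRight fun z => ?_)
    simp [hA]
  have hsum : ∀ i : ℕ, i < A.card → ∑ g : G, ρ.character g ^ i * (starRingEnd ℂ) (ψ g) = 0 := by
    intro i hi
    have h := hcon i (hcard ▸ hi)
    rw [Cfsg.classInner, mul_eq_zero] at h
    exact h.resolve_left (inv_ne_zero (by exact_mod_cast Nat.card_pos.ne'))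
  set v := ρ.character 1 with hv
  have hvA : v ∈ A := Finset.mem_image.2 ⟨1, Finset.mem_univ _, rfl⟩
  set P : Polynomial ℂ := ∏ a ∈ A.erase v, (Polynomial.X - Polynomial.C a) with hP
  have hdeg : P.natDegree < A.card := by
    rw [hP, Polynomial.natDegree_finsetProd_X_sub_C_eq_card, Finset.card_erase_of_mem hvA]
    have : 0 < A.card := Finset.card_pos.2 ⟨v, hvA⟩
    omega
  have hzero : ∑ g : G, P.eval (ρ.character g) * (starRingEnd ℂ) (ψ g) = 0 := by
    simp only [Polynomial.eval_eq_sum_range' (n := A.card) hdeg, Finset.sum_mul]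
    rw [Finset.sum_comm]
    refine Finset.sum_eq_zero fun i hi => ?_
    simp only [mul_assoc, ← Finset.mul_sum, hsum i (Finset.mem_range.1 hi), mul_zero]
  rw [Finset.sum_eq_single 1] at hzero
  · rw [mul_eq_zero] at hzero
    rcases hzero with h | h
    · rw [hP, Polynomial.eval_prod, Finset.prod_eq_zero_iff] at h
      obtain ⟨a, ha, h⟩ := h
      rw [Polynomial.eval_sub, Polynomial.eval_X, Polynomial.eval_C, sub_eq_zero] at h
      exact (Finset.mem_erase.1 ha).1 h.symm
    · exact Char.irr_one_ne_zero ⟨ψ, hψ⟩ (by simpa using h)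
  · intro g _ hg
    rw [mul_eq_zero]
    left
    rw [hP, Polynomial.eval_prod]
    refine Finset.prod_eq_zero (i := ρ.character g) (Finset.mem_erase.2 ⟨?_, by simp [hA]⟩) (by simp)
    intro he
    exact hg (hfaithful (((CharLead.rep_eq_one_iff_char ρ g).1 he).trans (map_one ρ).symm))
  · simp

end Cfsg.Agent.S0168
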