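import Cfsg.Statements.S0169
import Cfsg.Agent.CharLead.Central
import Cfsg.Agent.CharLead.Linear
import Cfsg.Agent.Char.Induced
import Mathlib

set_option autoImplicit false
open Cfsg
set_option maxHeartbeats 1000000

namespace Cfsg.Agent.S0169

open Cfsg.Agent.Char Cfsg.Agent.CharLead in
theorem degree_dvd_index.{w} : ∀ (n : ℕ) (G : Type w) [Group G] [Finite G], Nat.card G = n →
    ∀ (A : Subgroup G), A.Normal → (∀ a ∈ A, ∀ b ∈ A, a * b = b * a) →
    ∀ χ : Cfsg.IrrCharacter G, ∃ d : ℕ, (χ : G → ℂ) 1 = d ∧ d ∣ A.index := by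
  intro n
  induction n using Nat.strong_induction_on with
  | _ n IH =>
  intro G _ _ hn A hA hAc χ
  classical
  haveI := Fintype.ofFinite G
  haveI := Fintype.ofFinite A
  haveI := hA
  obtain ⟨d, hd0, hd⟩ := irr_apply_one χ
  refine ⟨d, hd, ?_⟩
  have hres : Cfsg.IsCharacter A (fun a : A => (χ : G → ℂ) a) :=
    isCharacter_comp (isCharacter_of_isIrrCharacter χ.2) A.subtype
  -- a linear constituent of the restriction
  obtain ⟨θ, hθ⟩ : ∃ θ : Cfsg.IrrCharacter A, Cfsg.classInner (fun a : A => (χ : G → ℂ) a) (θ : A → ℂ) ≠ 0 := by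
    by_contra hne
    push Not at hne
    have h := congrFun (classFunction_expand (isClassFunction_of_isCharacter hres)) 1
    simp only [hne, zero_smul, Finset.sum_const_zero, Pi.zero_apply] at h
    rw [OneMemClass.coe_one, hd] at h
    exact hd0.ne' (by exact_mod_cast h)
  have hθ1 : (θ : A → ℂ) 1 = 1 :=
    irr_apply_one_eq_one_of_comm (fun a b => Subtype.ext (hAc a a.2 b b.2)) θ
  obtain ⟨e, he⟩ := exists_nat_classInner hres θ
  let T : Subgroup G :=
    { carrier := {g | conjFn A (θ : A → ℂ) g = θ}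
      one_mem' := conjFn_one A _
      mul_mem' := fun {a b} ha hb => by
        show conjFn A (θ : A → ℂ) (a * b) = θ
        rw [conjFn_mul, show conjFn A (θ : A → ℂ) a = θ from ha]
        exact hb
      inv_mem' := fun {a} ha => by
        show conjFn A (θ : A → ℂ) a⁻¹ = θ
        conv_lhs => rw [← show conjFn A (θ : A → ℂ) a = θ from ha, ← conjFn_mul, mul_inv_cancel, conjFn_one] }
  have hT : ∀ x y : G, conjFn A (θ : A → ℂ) x = conjFn A (θ : A → ℂ) y ↔ x * y⁻¹ ∈ T := by
    intro x y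
    show _ ↔ conjFn A (θ : A → ℂ) (x * y⁻¹) = θ
    constructor
    · intro h
      rw [conjFn_mul, h, ← conjFn_mul, mul_inv_cancel, conjFn_one]
    · intro h
      conv_rhs => rw [← h, ← conjFn_mul, inv_mul_cancel_right]
  have hclif := res_eq_smul_sum_conj A χ θ hθ
  have hAT : A ≤ T := fun a ha => by
    funext x
    show (θ : A → ℂ) ⟨a * x * a⁻¹, hA.conj_mem x x.2 a⟩ = (θ : A → ℂ) x
    have e : (⟨a * x * a⁻¹, hA.conj_mem x x.2 a⟩ : A) = x :=
      Subtype.ext (show a * x * a⁻¹ = x by rw [hAc a ha x x.2, mul_inv_cancel_right])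
    rw [e]
  -- the degree in terms of the stabilizer
  have hde : d = e * T.index := by
    have h := congrFun hclif 1
    rw [Pi.smul_apply, smul_eq_mul, he, OneMemClass.coe_one, hd] at h
    have hfin : ({ψ : A → ℂ | ∃ g : G, ψ = conjFn A (θ : A → ℂ) g}).Finite :=
      Set.Finite.subset (Set.finite_range fun g : G => conjFn A (θ : A → ℂ) g) (by
        rintro ψ ⟨g, rfl⟩; exact ⟨g, rfl⟩)
    rw [finsum_mem_eq_finite_toFinset_sum _ hfin, Finset.sum_apply, Finset.sum_congr rfl (fun ψ hψ => by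
      obtain ⟨g, rfl⟩ := hfin.mem_toFinset.1 hψ
      show (θ : A → ℂ) ⟨g * ((1 : A) : G) * g⁻¹, hA.conj_mem _ (1 : A).2 g⟩ = 1
      have e : (⟨g * ((1 : A) : G) * g⁻¹, hA.conj_mem _ (1 : A).2 g⟩ : A) = 1 := Subtype.ext (by simp)
      rw [e, hθ1] : ∀ ψ ∈ hfin.toFinset, ψ 1 = (1 : ℂ)), Finset.sum_const, nsmul_eq_mul, mul_one] at h
    have hcard : hfin.toFinset.card = T.index := by
      rw [← Set.ncard_eq_toFinset_card _ hfin, Subgroup.index, ← Nat.card_coe_set_eq]
      refine (Nat.card_eq_of_bijective (fun q : G ⧸ T => (⟨conjFn A (θ : A → ℂ) q.out⁻¹, _, rfl⟩ :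
        {ψ : A → ℂ | ∃ g : G, ψ = conjFn A (θ : A → ℂ) g})) ⟨fun p q h => ?_, ?_⟩).symm
      · have h' := (hT _ _).1 (congrArg Subtype.val h)
        rw [inv_inv] at h'
        rw [← QuotientGroup.out_eq' p, ← QuotientGroup.out_eq' q]
        exact QuotientGroup.eq.2 h'
      · rintro ⟨_, g, rfl⟩
        refine ⟨QuotientGroup.mk g⁻¹, Subtype.ext ((hT _ _).2 ?_)⟩
        exact QuotientGroup.eq.1 (QuotientGroup.out_eq' (QuotientGroup.mk g⁻¹ : G ⧸ T))
    rw [hcard] at h
    exact_mod_cast h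
  by_cases htop : T = ⊤
  · -- the abelian subgroup acts by scalars
    obtain ⟨m, ρ, hρ, hχ⟩ := χ.2
    haveI := hρ
    have hm : m = d := by
      rw [← hχ, ρ.char_one, Module.finrank_fin_fun] at hd
      exact_mod_cast hd
    have hscal : ∀ a ∈ A, ∃ c : ℂ, ρ a = c • LinearMap.id := by
      intro a ha
      refine (norm_char_eq_iff ρ a).1 ?_
      have h := congrFun hclif (⟨a, ha⟩ : A)
      rw [Pi.smul_apply, smul_eq_mul, he] at h
      have hset : {ψ : A → ℂ | ∃ g : G, ψ = conjFn A (θ : A → ℂ) g} = {(θ : A → ℂ)} := by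
        ext ψ
        refine ⟨?_, fun e => ⟨1, by rw [conjFn_one]; exact e⟩⟩
        rintro ⟨g, rfl⟩
        have hg : g ∈ T := htop ▸ Subgroup.mem_top g
        exact hg
      rw [hset, finsum_mem_singleton] at h
      have hnorm : ‖(θ : A → ℂ) ⟨a, ha⟩‖ = 1 := by
        obtain ⟨k, σ, hirr, hσ⟩ := θ.2
        haveI := hirr
        have hk : k = 1 := by
          rw [← hσ, σ.char_one, Module.finrank_fin_fun] at hθ1
          exact_mod_cast hθ1
        subst hk
        rw [← hσ]
        obtain ⟨c, hc⟩ : ∃ c : ℂ, σ ⟨a, ha⟩ = c • LinearMap.id :=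
          exists_smul_id_of_commute σ _ fun g => by
            rw [← map_mul, ← map_mul, show (⟨a, ha⟩ : A) * g = g * ⟨a, ha⟩ from Subtype.ext (hAc a ha g g.2)]
        have h1 := (norm_char_eq_iff σ ⟨a, ha⟩).2 ⟨c, hc⟩
        rw [h1, Module.finrank_fin_fun, Nat.cast_one]
      rw [htop, Subgroup.index_top, mul_one] at hde
      show ‖ρ.character a‖ = _
      rw [hχ, h, norm_mul, hnorm, mul_one, Complex.norm_natCast, Module.finrank_fin_fun, hm, hde]
    have hN : ∀ g ∈ MonoidHom.ker ρ, (χ : G → ℂ) g = (χ : G → ℂ) 1 := fun g hg => by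
      rw [← hχ]; exact (rep_eq_one_iff_char ρ g).2 hg
    obtain ⟨ψ, ⟨k, σ, hσ, rfl⟩, hψ⟩ := isIrrCharacter_descend (MonoidHom.ker ρ) χ.2 hN
    haveI := hσ
    have hk : k = d := by
      rw [hψ 1, map_one, σ.char_one, Module.finrank_fin_fun] at hd
      exact_mod_cast hd
    have hc : A.map (QuotientGroup.mk' (MonoidHom.ker ρ)) ≤ Subgroup.center _ := by
      rintro _ ⟨a, ha, rfl⟩
      refine Subgroup.mem_center_iff.2 fun q => ?_
      obtain ⟨g, rfl⟩ := QuotientGroup.mk'_surjective _ q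
      obtain ⟨c, hc⟩ := hscal a ha
      rw [← map_mul, ← map_mul, QuotientGroup.mk'_eq_mk']
      refine ⟨(g * a)⁻¹ * (a * g), ?_, mul_inv_cancel_left _ _⟩
      rw [MonoidHom.mem_ker]
      have e1 : ρ (a * g) = ρ (g * a) := by
        rw [map_mul, map_mul, hc, smul_mul_assoc, mul_smul_comm]
        rfl
      rw [map_mul, e1, ← map_mul, inv_mul_cancel, map_one]
    have h := finrank_dvd_index_central σ _ hc
    rw [Module.finrank_fin_fun, hk] at h
    refine h.trans (Subgroup.index_map_dvd _ (QuotientGroup.mk'_surjective _))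
  -- descend to the stabilizer
  haveI := Fintype.ofFinite T
  have hlt : Nat.card T < n := hn ▸ lt_of_le_of_ne (Nat.le_of_dvd Nat.card_pos (Subgroup.card_subgroup_dvd_card T))
    (fun e => htop (Subgroup.eq_top_of_card_eq T e))
  let A' : Subgroup T := A.subgroupOf T
  haveI := Fintype.ofFinite A'
  let ε : A' ≃* A := Subgroup.subgroupOfEquivOfLe hAT
  let θ' : Cfsg.IrrCharacter A' := ⟨fun a => (θ : A → ℂ) (ε a),
    isIrrCharacter_comp_of_surjective θ.2 ε.toMonoidHom ε.surjective⟩
  have htrans : ∀ f : A → ℂ, Cfsg.classInner (fun a : A' => f (ε a)) (θ' : A' → ℂ) = Cfsg.classInner f (θ : A → ℂ) := by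
    intro f
    simp only [Cfsg.classInner]
    rw [Nat.card_congr ε.toEquiv]
    congr 1
    exact Equiv.sum_comp ε.toEquiv (fun a : A => f a * (starRingEnd ℂ) ((θ : A → ℂ) a))
  have hresT : Cfsg.IsCharacter T (fun t : T => (χ : G → ℂ) t) :=
    isCharacter_comp (isCharacter_of_isIrrCharacter χ.2) T.subtype
  choose m hm using fun η : Cfsg.IrrCharacter T => exists_nat_classInner hresT η
  choose b hb using fun η : Cfsg.IrrCharacter T => exists_nat_classInner
    (isCharacter_comp (isCharacter_of_isIrrCharacter η.2) A'.subtype) θ'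
  have hb' : ∀ η : Cfsg.IrrCharacter T,
      Cfsg.classInner (fun a : A' => (η : T → ℂ) a) (θ' : A' → ℂ) = b η := hb
  have hexp : (fun t : T => (χ : G → ℂ) t) = ∑ η : Cfsg.IrrCharacter T, (m η : ℂ) • (η : T → ℂ) := by
    conv_lhs => rw [classFunction_expand (isClassFunction_of_isCharacter hresT)]
    simp only [hm]
  have hsum : e = ∑ η : Cfsg.IrrCharacter T, m η * b η := by
    have h := htrans (fun a : A => (χ : G → ℂ) a)
    rw [he, show (fun a : A' => (χ : G → ℂ) (ε a : A)) = ∑ η : Cfsg.IrrCharacter T,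
        (m η : ℂ) • fun a : A' => (η : T → ℂ) a from by
      funext a
      have h1 := congrFun hexp (a : T)
      rw [Finset.sum_apply] at h1 ⊢
      exact h1, classInner_sum_left] at h
    simp only [classInner_smul_left, hb'] at h
    exact_mod_cast h.symm
  have he0 : e ≠ 0 := fun h => hθ (by rw [he, h, Nat.cast_zero])
  obtain ⟨η, -, hη⟩ := Finset.exists_ne_zero_of_sum_ne_zero (hsum ▸ he0)
  obtain ⟨hmη, hbη⟩ := mul_ne_zero_iff.1 hη
  obtain ⟨k, hk, hkdvd⟩ := IH _ hlt T rfl A' (hA.subgroupOf T)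
    (fun a ha c hc => Subtype.ext (hAc a ha c hc)) η
  -- Clifford inside the stabilizer
  have hkb : k = b η := by
    have h := congrFun (res_eq_smul_sum_conj A' η θ' (by rw [hb']; exact_mod_cast hbη)) 1
    have hset : {ψ : A' → ℂ | ∃ g : T, ψ = conjFn A' (θ' : A' → ℂ) g} = {(θ' : A' → ℂ)} := by
      ext ψ
      refine ⟨?_, fun e => ⟨1, by rw [conjFn_one]; exact e⟩⟩
      rintro ⟨g, rfl⟩
      funext a
      exact congrFun (g.2 : conjFn A (θ : A → ℂ) g = θ) (ε a)
    rw [hset, finsum_mem_singleton, Pi.smul_apply, smul_eq_mul, hb', OneMemClass.coe_one, hk,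
      show (θ' : A' → ℂ) 1 = 1 by
        show (θ : A → ℂ) (ε 1) = 1
        rw [map_one, hθ1], mul_one] at h
    exact_mod_cast h
  -- the induced character contains χ
  have hind : Cfsg.IsCharacter G (Cfsg.indFun T (η : T → ℂ)) :=
    indFun_isCharacter T (isCharacter_of_isIrrCharacter η.2)
  choose c hc using fun ξ : Cfsg.IrrCharacter G => exists_nat_classInner hind ξ
  choose u hu0 hu using fun ξ : Cfsg.IrrCharacter G => irr_apply_one ξ
  have hcχ : c χ = m η := by
    have h := classInner_indFun T (η : T → ℂ) (irr_isClassFunction χ)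
    rw [hc, ← classInner_conj_symm, hm] at h
    rw [Complex.conj_natCast] at h
    exact_mod_cast h
  have htot : T.index * k = ∑ ξ : Cfsg.IrrCharacter G, c ξ * u ξ := by
    have h := congrFun (classFunction_expand (indFun_isClassFunction T (η : T → ℂ))) 1
    rw [indFun_apply_one, hk, Finset.sum_apply] at h
    simp only [Pi.smul_apply, smul_eq_mul, hc, hu] at h
    exact_mod_cast h
  have hge : d ≤ T.index * k := by
    rw [htot]
    refine le_trans ?_ (Finset.single_le_sum (fun ξ _ => Nat.zero_le (c ξ * u ξ)) (Finset.mem_univ χ))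
    have : u χ = d := by
      have := hu χ
      rw [hd] at this
      exact_mod_cast this.symm
    rw [this, hcχ]
    exact Nat.le_mul_of_pos_left _ (Nat.pos_of_ne_zero hmη)
  have hle : k ≤ e := by
    rw [hsum, hkb]
    exact le_trans (Nat.le_mul_of_pos_left _ (Nat.pos_of_ne_zero hmη))
      (Finset.single_le_sum (fun ξ _ => Nat.zero_le (m ξ * b ξ)) (Finset.mem_univ η))
  have hek : e = k := by
    refine le_antisymm ?_ hle
    rw [hde, mul_comm] at hge
    exact Nat.le_of_mul_le_mul_left hge (Nat.pos_of_ne_zero T.index_ne_zero_of_finite)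
  rw [hde, hek, ← Subgroup.relIndex_mul_index hAT]
  exact mul_dvd_mul_right hkdvd _

open Cfsg.Agent.Char in
/-- Itô's Theorem on character degrees: the degree of an irreducible complex representation of a finite group divides the index of any abelian normal subgroup. -/
theorem result {G : Type*} [Group G] [Finite G] {V : Type*} [AddCommGroup V] [Module ℂ V] [FiniteDimensional ℂ V] (ρ : Representation ℂ G V) [ρ.IsIrreducible] (H : Subgroup G) [H.Normal] (hH : ∀ a ∈ H, ∀ b ∈ H, a * b = b * a) : Module.finrank ℂ V ∣ H.index := by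
  classical
  haveI := Fintype.ofFinite G
  obtain ⟨d, hd, hdvd⟩ := degree_dvd_index (Nat.card G) G rfl H inferInstance hH
    ⟨ρ.character, isIrrCharacter_of_rep ρ⟩
  rw [show ((⟨ρ.character, isIrrCharacter_of_rep ρ⟩ : Cfsg.IrrCharacter G) : G → ℂ) 1 = (Module.finrank ℂ V : ℂ)
    from ρ.char_one] at hd
  rwa [show Module.finrank ℂ V = d by exact_mod_cast hd]

end Cfsg.Agent.S0169
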