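import Cfsg.Statements.S0171
import Mathlib
import Cfsg.Agent.Char.Induced
import Cfsg.Agent.Char.Irr
import Cfsg.Agent.CharLead.Basic

set_option autoImplicit false
open Cfsg

namespace Cfsg.Agent.S0171

/-- Let G = K H with K normal, K ⊓ H trivial, and no non-identity element of H commuting with a non-identity element of K (a Frobenius group with kernel K and complement H). Then every non-principal irreducible character of K induces to an irreducible character of G. -/
theorem result {G : Type*} [Group G] [Fintype G] (K H : Subgroup G) [K.Normal] (hKH : K ⊓ H = ⊥) (hKH' : K ⊔ H = ⊤) (hfpf : ∀ h ∈ H, h ≠ 1 → ∀ k ∈ K, h * k = k * h → k = 1) (τ : K → ℂ) (hτ : Cfsg.IsIrrCharacter K τ) (hτ1 : τ ≠ fun _ => 1) : Cfsg.IsIrrCharacter G (Cfsg.indFun K τ) := by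
  classical
  haveI := Fintype.ofFinite K
  set θ : Cfsg.IrrCharacter K := ⟨τ, hτ⟩
  refine Char.isIrrCharacter_of_inner_self
    (Char.indFun_isCharacter K (Char.isCharacter_of_isIrrCharacter hτ)) ?_
  have key : ∀ x : G, Char.conjFn K τ x = τ ↔ x ∈ K := by
    intro x
    constructor
    · intro hx
      by_contra hxK
      obtain ⟨k, hk, h, hh, rfl⟩ := Subgroup.mem_sup_of_normal_left.1 (hKH' ▸ Subgroup.mem_top x)
      have hh1 : h ≠ 1 := by rintro rfl; exact hxK (by simpa using hk)
      set e := Char.conjEquiv K (k * h)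
      let τc : ConjClasses K → ConjClasses K := ConjClasses.map e.toMonoidHom
      have hbij : Function.Bijective τc := by
        refine Function.bijective_iff_has_inverse.2 ⟨ConjClasses.map e.symm.toMonoidHom, ?_, ?_⟩ <;>
        · intro C
          obtain ⟨a, rfl⟩ := ConjClasses.exists_rep C
          first
            | (show ConjClasses.mk (e.symm (e a)) = ConjClasses.mk a; rw [MulEquiv.symm_apply_apply])
            | (show ConjClasses.mk (e (e.symm a)) = ConjClasses.mk a; rw [MulEquiv.apply_symm_apply])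
      have hcount := CharLead.card_fixed_eq (fun ψ : Cfsg.IrrCharacter K => Char.conjIrr K ψ (k * h)⁻¹)
        τc hbij (by
          intro ψ a a' ha
          have : IsConj a' (e a) := ConjClasses.mk_eq_mk_iff_isConj.1 ha
          show Char.conjFn K (ψ : K → ℂ) (k * h)⁻¹ a' = (ψ : K → ℂ) a
          rw [CharLead.irr_eq_of_isConj (Char.conjIrr K ψ (k * h)⁻¹) this |>.trans rfl |> (fun q => (show Char.conjFn K (ψ : K → ℂ) (k * h)⁻¹ a' = Char.conjFn K (ψ : K → ℂ) (k * h)⁻¹ (e a) from q))]
          show (ψ : K → ℂ) _ = (ψ : K → ℂ) a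
          refine congrArg (ψ : K → ℂ) ?_
          apply Subtype.ext
          show (k * h)⁻¹ * ((k * h) * a * (k * h)⁻¹) * (k * h)⁻¹⁻¹ = a
          group)
      have hone : Nat.card {C : ConjClasses K // τc C = C} = 1 := by
        rw [Nat.card_eq_one_iff_unique]
        refine ⟨⟨fun C D => ?_⟩, ⟨⟨ConjClasses.mk 1, show ConjClasses.mk (e 1) = ConjClasses.mk 1 by rw [map_one]⟩⟩⟩
        suffices hh' : ∀ C, τc C = C → C = ConjClasses.mk 1 from
          Subtype.ext ((hh' C.1 C.2).trans (hh' D.1 D.2).symm)
        intro C hC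
        obtain ⟨a, rfl⟩ := ConjClasses.exists_rep C
        have hca : IsConj (e a) a := ConjClasses.mk_eq_mk_iff_isConj.1 hC
        obtain ⟨u, hu⟩ := isConj_iff.1 hca
        have hu' : (u : G) * ((k * h) * a * (k * h)⁻¹) * (u : G)⁻¹ = a := congrArg Subtype.val hu
        set m : G := (u : G) * k with hm
        have hmK : m ∈ K := mul_mem u.2 hk
        have hma : (m * h) * a = a * (m * h) := by
          calc (m * h) * a = ((u : G) * ((k * h) * a * (k * h)⁻¹) * (u : G)⁻¹) * (m * h) := by
                rw [hm]; group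
            _ = a * (m * h) := by rw [hu']
        -- `m * h` is a conjugate of `h` under `K`
        have hinj : Function.Injective (fun y : K => (⟨(y : G) * (h * (y : G)⁻¹ * h⁻¹),
            mul_mem y.2 ((inferInstance : K.Normal).conj_mem _ (inv_mem y.2) h)⟩ : K)) := by
          intro y y' e'
          have e1 : (y : G) * (h * (y : G)⁻¹ * h⁻¹) = (y' : G) * (h * (y' : G)⁻¹ * h⁻¹) :=
            congrArg Subtype.val e'
          have e2 : h * ((y' : G)⁻¹ * y) = ((y' : G)⁻¹ * y) * h := by
            calc h * ((y' : G)⁻¹ * y)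
                = (y' : G)⁻¹ * ((y' : G) * (h * (y' : G)⁻¹ * h⁻¹)) * h * y := by group
              _ = (y' : G)⁻¹ * ((y : G) * (h * (y : G)⁻¹ * h⁻¹)) * h * y := by rw [e1]
              _ = ((y' : G)⁻¹ * y) * h := by group
          have := hfpf h hh hh1 _ (mul_mem (inv_mem y'.2) y.2) e2
          exact Subtype.ext (inv_mul_eq_one.1 this).symm
        obtain ⟨y, hy⟩ := Finite.surjective_of_injective hinj ⟨m, hmK⟩
        have hy' : (y : G) * (h * (y : G)⁻¹ * h⁻¹) = m := congrArg Subtype.val hy
        have hfix : h * ((y : G)⁻¹ * a * y) = ((y : G)⁻¹ * a * y) * h := by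
          calc h * ((y : G)⁻¹ * a * y) = (y : G)⁻¹ * ((m * h) * a) * y := by rw [← hy']; group
            _ = (y : G)⁻¹ * (a * (m * h)) * y := by rw [hma]
            _ = ((y : G)⁻¹ * a * y) * h := by rw [← hy']; group
        have h3 := hfpf h hh hh1 _ (mul_mem (mul_mem (inv_mem y.2) a.2) y.2) hfix
        have h4 : (a : G) = 1 := by
          calc (a : G) = (y : G) * ((y : G)⁻¹ * a * y) * (y : G)⁻¹ := by group
            _ = 1 := by rw [h3]; group
        rw [show a = 1 from Subtype.ext h4]
      rw [hone, Nat.card_eq_one_iff_unique] at hcount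
      obtain ⟨hs, -⟩ := hcount
      have hx' : Char.conjFn K τ (k * h)⁻¹ = τ := by
        conv_lhs => rw [← hx]
        rw [← Char.conjFn_mul, mul_inv_cancel, Char.conjFn_one]
      have h5 := hs.elim ⟨θ, Subtype.ext hx'⟩ ⟨Char.oneIrr K, Subtype.ext (funext fun _ => rfl)⟩
      exact hτ1 (congrArg (fun z => ((z.1 : Cfsg.IrrCharacter K) : K → ℂ)) h5)
    · intro hx
      funext n
      exact (Char.irr_isClassFunction θ) n ⟨x, hx⟩
  have h1 := Char.classInner_indFun_irr (G := G) K θ θ
  rw [Nat.card_congr (Equiv.subtypeEquivRight key)] at h1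
  exact mul_left_cancel₀ (Nat.cast_ne_zero.2 Nat.card_pos.ne') (h1.trans (mul_one _).symm)

end Cfsg.Agent.S0171
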