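import Cfsg.Statements.S0173
import Cfsg.Agent.CharLead.Basic

set_option autoImplicit false
open Cfsg

namespace Cfsg.Agent.S0173

/-- Brauer's permutation lemma for a single automorphism: the number of conjugacy classes mapped to themselves equals the number of irreducible complex characters χ with χ ∘ α = χ. -/
theorem result {G : Type*} [Group G] [Finite G] (α : G ≃* G) : Nat.card {C : ConjClasses G // ConjClasses.map α.toMonoidHom C = C} = Nat.card {χ : Cfsg.IrrCharacter G // (χ : G → ℂ) ∘ α = (χ : G → ℂ)} := by
  haveI : Finite (ConjClasses G) := Finite.of_surjective _ ConjClasses.mk_surjective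
  let σ : Cfsg.IrrCharacter G → Cfsg.IrrCharacter G := fun χ =>
    ⟨(χ : G → ℂ) ∘ α, Char.isIrrCharacter_comp_of_surjective χ.2 α.toMonoidHom α.surjective⟩
  let e : ConjClasses G ≃ ConjClasses G :=
    { toFun := ConjClasses.map α.symm.toMonoidHom
      invFun := ConjClasses.map α.toMonoidHom
      left_inv := fun C => by
        obtain ⟨g, rfl⟩ := ConjClasses.mk_surjective C
        exact congrArg ConjClasses.mk (α.apply_symm_apply g)
      right_inv := fun C => by
        obtain ⟨g, rfl⟩ := ConjClasses.mk_surjective C
        exact congrArg ConjClasses.mk (α.symm_apply_apply g) }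
  have h := CharLead.card_fixed_eq σ e e.bijective (by
    intro χ g g' hg
    have h1 : IsConj g' (α.symm g) := ConjClasses.mk_eq_mk_iff_isConj.1 hg
    have h2 := CharLead.irr_eq_of_isConj χ (α.toMonoidHom.map_isConj h1)
    show (χ : G → ℂ) (α g') = _
    simpa using h2)
  calc Nat.card {C : ConjClasses G // ConjClasses.map α.toMonoidHom C = C}
      = Nat.card {C : ConjClasses G // e C = C} := Nat.card_congr (Equiv.subtypeEquivRight fun C => by
          constructor
          · intro hC
            calc e C = e (e.symm C) := congrArg e hC.symm
              _ = C := e.apply_symm_apply C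
          · intro hC
            calc e.symm C = e.symm (e C) := congrArg e.symm hC.symm
              _ = C := e.symm_apply_apply C)
    _ = Nat.card {χ : Cfsg.IrrCharacter G // σ χ = χ} := h.symm
    _ = _ := Nat.card_congr (Equiv.subtypeEquivRight fun χ => Subtype.ext_iff)

end Cfsg.Agent.S0173
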