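import Cfsg.Statements.S0175
import Mathlib
import Cfsg.Agent.CharLead.Kernel
import Cfsg.Agent.Char.Induced

set_option autoImplicit false
open Cfsg

namespace Cfsg.Agent.S0175

/-- Taketa's Theorem on M-groups: if every irreducible complex character of a finite group is induced from a linear character (a homomorphism to ℂˣ) of some subgroup, the group is solvable. -/
theorem result {G : Type*} [Group G] [Fintype G] (hM : ∀ χ : G → ℂ, Cfsg.IsIrrCharacter G χ → ∃ (H : Subgroup G) (lam : H →* ℂˣ), χ = Cfsg.indFun H (fun h => (lam h : ℂ))) : Group.IsSolvable G := by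
  classical
  choose d hd using fun χ : Cfsg.IrrCharacter G => Char.irr_degree_dvd_card χ
  suffices key : ∀ n : ℕ, ∀ χ : Cfsg.IrrCharacter G, d χ ≤ n →
      ∃ m : ℕ, derivedSeries G m ≤ CharLead.irrKer χ by
    choose m hm using fun χ => key (d χ) χ le_rfl
    refine ⟨⟨Finset.univ.sup m, ?_⟩⟩
    rw [eq_bot_iff]
    intro g hg
    rw [Subgroup.mem_bot]
    exact CharLead.eq_one_of_forall_mem_irrKer g fun χ =>
      hm χ (derivedSeries_antitone G (Finset.le_sup (Finset.mem_univ χ)) hg)
  intro n
  induction n with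
  | zero =>
    intro χ h
    have := (hd χ).1
    omega
  | succ n ih =>
    intro χ hχn
    obtain ⟨H, lam, hlam⟩ := hM χ χ.2
    haveI := Fintype.ofFinite H
    have hdχ : d χ = H.index := by
      have h1 := (hd χ).2.2
      rw [hlam, Char.indFun_apply_one] at h1
      simp at h1
      exact_mod_cast h1.symm
    have hone : Cfsg.IsCharacter H (fun _ => (1 : ℂ)) :=
      Char.isCharacter_of_isIrrCharacter Char.isIrrCharacter_one
    set π : G → ℂ := Cfsg.indFun H (fun _ => (1 : ℂ)) with hπ
    have hπc : Cfsg.IsCharacter G π := Char.indFun_isCharacter H hone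
    choose c hc using fun η : Cfsg.IrrCharacter G => Char.exists_nat_classInner hπc η
    have hexp : π = ∑ η : Cfsg.IrrCharacter G, (c η : ℂ) • (η : G → ℂ) := by
      simp only [← hc]
      exact Char.classFunction_expand (Char.indFun_isClassFunction H _)
    have hone' : c (Char.oneIrr G) = 1 := by
      have h1 := hc (Char.oneIrr G)
      rw [hπ, Char.classInner_indFun H _ (Char.irr_isClassFunction _)] at h1
      simp [Cfsg.classInner, ← Nat.card_eq_fintype_card] at h1
      exact_mod_cast h1.symm
    have hdeg : ∑ η : Cfsg.IrrCharacter G, c η * d η = d χ := by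
      have h1 := congrFun hexp 1
      rw [hπ, Char.indFun_apply_one, Finset.sum_apply] at h1
      simp only [Pi.smul_apply, smul_eq_mul, (hd _).2.2, mul_one] at h1
      rw [hdχ]
      exact_mod_cast h1.symm
    have hd1 : d (Char.oneIrr G) = 1 := by
      have := (hd (Char.oneIrr G)).2.2
      simp at this
      exact_mod_cast this.symm
    have hsmall : ∀ η : Cfsg.IrrCharacter G, η ≠ Char.oneIrr G → c η ≠ 0 → d η ≤ n := by
      intro η hne hc0
      rw [← Finset.add_sum_erase _ _ (Finset.mem_univ (Char.oneIrr G)), hone', hd1] at hdeg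
      have h1 : c η * d η ≤ ∑ x ∈ Finset.univ.erase (Char.oneIrr G), c x * d x :=
        Finset.single_le_sum (f := fun x => c x * d x) (fun _ _ => Nat.zero_le _)
          (Finset.mem_erase.2 ⟨hne, Finset.mem_univ _⟩)
      have h2 : d η ≤ c η * d η := Nat.le_mul_of_pos_left _ (Nat.pos_of_ne_zero hc0)
      omega
    have hex : ∀ η : Cfsg.IrrCharacter G, ∃ m, η ≠ Char.oneIrr G → c η ≠ 0 →
        derivedSeries G m ≤ CharLead.irrKer η := by
      intro η
      by_cases h : η ≠ Char.oneIrr G ∧ c η ≠ 0
      · exact (ih η (hsmall η h.1 h.2)).imp fun m hm _ _ => hm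
      · exact ⟨0, fun h1 h2 => absurd ⟨h1, h2⟩ h⟩
    choose m hm using hex
    set M := Finset.univ.sup m
    have hcore : ∀ g ∈ derivedSeries G M, ∀ x : G, x⁻¹ * g * x ∈ H := by
      intro g hg
      have heq : π g = π 1 := by
        rw [hexp, Finset.sum_apply, Finset.sum_apply]
        refine Finset.sum_congr rfl fun η _ => ?_
        simp only [Pi.smul_apply, smul_eq_mul]
        by_cases hc0 : c η = 0
        · simp [hc0]
        by_cases h1 : η = Char.oneIrr G
        · subst h1; simp
        rw [(CharLead.mem_irrKer η g).1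
          (hm η h1 hc0 (derivedSeries_antitone G (Finset.le_sup (Finset.mem_univ η)) hg))]
      rw [hπ] at heq
      unfold Cfsg.indFun at heq
      have hH : (Nat.card H : ℂ)⁻¹ ≠ 0 := inv_ne_zero (by exact_mod_cast Nat.card_pos.ne')
      have h2 := mul_left_cancel₀ hH heq
      simp only [mul_one, inv_mul_cancel, Char.extendByZero_of_mem H _ H.one_mem] at h2
      have h3 : ∀ x : G, Cfsg.extendByZero H (fun _ => (1 : ℂ)) (x⁻¹ * g * x)
          = ((if x⁻¹ * g * x ∈ H then 1 else 0 : ℕ) : ℂ) := fun x => by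
        by_cases hx : x⁻¹ * g * x ∈ H
        · simp [Char.extendByZero_of_mem H _ hx, hx]
        · simp [Char.extendByZero_of_not_mem H _ hx, hx]
      simp only [h3] at h2
      simp only [Finset.sum_const, nsmul_eq_mul, mul_one, ← Nat.cast_sum, Nat.cast_inj,
        Finset.sum_boole, Nat.cast_id] at h2
      intro x
      have h4 := Finset.eq_univ_of_card _ h2
      simpa using Finset.eq_univ_iff_forall.1 h4 x
    refine ⟨M + 1, ?_⟩
    rw [derivedSeries_succ, Subgroup.commutator_le]
    intro a ha b hb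
    rw [CharLead.mem_irrKer, hlam]
    unfold Cfsg.indFun
    congr 1
    refine Finset.sum_congr rfl fun x _ => ?_
    have e : x⁻¹ * (a * b * a⁻¹ * b⁻¹) * x = (x⁻¹ * a * x) * (x⁻¹ * b * x) * (x⁻¹ * a * x)⁻¹
        * (x⁻¹ * b * x)⁻¹ := by group
    rw [commutatorElement_def, e, mul_one, inv_mul_cancel]
    have ha' := hcore a ha x
    have hb' := hcore b hb x
    rw [Char.extendByZero_of_mem H _ (mul_mem (mul_mem (mul_mem ha' hb') (inv_mem ha')) (inv_mem hb')),
      Char.extendByZero_of_mem H _ H.one_mem]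
    congr 1
    have : (⟨_, mul_mem (mul_mem (mul_mem ha' hb') (inv_mem ha')) (inv_mem hb')⟩ : H)
        = (⟨_, ha'⟩ : H) * ⟨_, hb'⟩ * (⟨_, ha'⟩ : H)⁻¹ * (⟨_, hb'⟩ : H)⁻¹ := rfl
    rw [this, map_mul, map_mul, map_mul, map_inv, map_inv]
    have h5 : (⟨1, H.one_mem⟩ : H) = 1 := rfl
    rw [h5, map_one, mul_right_comm, mul_inv_cancel_right, mul_inv_cancel]

end Cfsg.Agent.S0175
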