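import Cfsg.Statements.S0177
import Cfsg.Agent.CharLead.QuasiElem
import Cfsg.Agent.CharLead.LinSpan
import Mathlib

set_option autoImplicit false
open Cfsg

namespace Cfsg.Agent.S0177

/-- The Artin induction Theorem: for a character χ of a finite group, |G| • χ is a ℤ-linear combination of functions induced from homomorphisms of cyclic subgroups into ℂˣ. -/
theorem result {G : Type*} [Group G] [Fintype G] (χ : G → ℂ) (hχ : Cfsg.IsCharacter G χ) : ∃ l : List ((A : Subgroup G) × ((A →* ℂˣ) × ℤ)), (∀ t ∈ l, IsCyclic t.1) ∧ (Nat.card G : ℂ) • χ = (l.map fun t => (t.2.2 : ℂ) • Cfsg.indFun t.1 (fun a => (t.2.1 a : ℂ))).sum := by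
  classical
  let M : AddSubgroup (G → ℤ) :=
    { carrier := {f | χ * (fun g => (f g : ℂ)) ∈ Cfsg.Agent.CharLead.linSpan (fun A : Subgroup G => IsCyclic A)}
      zero_mem' := by
        show χ * (fun g => ((0 : G → ℤ) g : ℂ)) ∈ Cfsg.Agent.CharLead.linSpan (fun A : Subgroup G => IsCyclic A)
        rw [show χ * (fun g => ((0 : G → ℤ) g : ℂ)) = 0 from funext fun g => by simp]
        exact zero_mem _
      add_mem' := fun {a b} ha hb => by
        show χ * (fun g => ((a + b) g : ℂ)) ∈ Cfsg.Agent.CharLead.linSpan (fun A : Subgroup G => IsCyclic A)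
        rw [show χ * (fun g => ((a + b) g : ℂ)) = χ * (fun g => (a g : ℂ)) + χ * (fun g => (b g : ℂ)) from
          funext fun g => by simp [mul_add]]
        exact add_mem ha hb
      neg_mem' := fun {a} ha => by
        show χ * (fun g => ((-a) g : ℂ)) ∈ Cfsg.Agent.CharLead.linSpan (fun A : Subgroup G => IsCyclic A)
        rw [show χ * (fun g => ((-a) g : ℂ)) = -(χ * (fun g => (a g : ℂ))) from funext fun g => by simp]
        exact neg_mem ha }
  have hM : ∀ C : Subgroup G, IsCyclic C → Cfsg.Agent.Char.permFix C ∈ M := by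
    intro C hC
    haveI := hC
    letI : CommGroup C := IsCyclic.commGroup
    show χ * (fun g => (Cfsg.Agent.Char.permFix C g : ℂ)) ∈ Cfsg.Agent.CharLead.linSpan (fun A : Subgroup G => IsCyclic A)
    rw [show (fun g => (Cfsg.Agent.Char.permFix C g : ℂ)) = Cfsg.indFun C (fun _ : C => (1 : ℂ)) from
      funext fun g => (Cfsg.Agent.Char.indFun_one_eq_permFix C g).symm,
      Cfsg.Agent.Char.mul_indFun (Cfsg.Agent.Char.isClassFunction_of_isCharacter hχ)]
    refine Cfsg.Agent.CharLead.indFun_mem_linSpan_of_abelian (P := fun A : Subgroup G => IsCyclic A) hC (fun a b => mul_comm a b) ?_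
    exact Cfsg.Agent.Char.isCharacter_mul (Cfsg.Agent.Char.isCharacter_comp hχ C.subtype)
      (Cfsg.Agent.Char.isCharacter_of_isIrrCharacter Cfsg.Agent.Char.isIrrCharacter_one)
  have hmem : ∑ D : Subgroup G, Cfsg.Agent.CharLead.genCount D ∈ M :=
    sum_mem fun D _ => Cfsg.Agent.CharLead.genCount_mem hM D
  refine (fun h => ?_) (Cfsg.Agent.CharLead.linSpan_list hmem)
  obtain ⟨l, hl, he⟩ := h
  refine ⟨l, hl, Eq.trans ?_ he⟩
  funext g
  have h1 := Cfsg.Agent.CharLead.sum_mul_genCount (fun _ : Subgroup G => (1 : ℤ)) g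
  simp only [one_mul, Finset.sum_const, Finset.card_univ, nsmul_eq_mul, mul_one] at h1
  simp only [Pi.smul_apply, Pi.mul_apply, Finset.sum_apply, smul_eq_mul, h1, Int.cast_natCast, Nat.card_eq_fintype_card]
  rw [mul_comm]

end Cfsg.Agent.S0177
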