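import Cfsg.Statements.S0180
import Cfsg.Agent.CharLead.Equiv
import Cfsg.Agent.Char.Irr
-- import your own Cfsg.Agent.* helpers here

set_option autoImplicit false
open Cfsg

namespace Cfsg.Agent.S0180

theorem galois_char {G : Type*} [Group G] [Finite G] (χ : Cfsg.IrrCharacter G) (g : G) :
    IsIntegral ℚ ((χ : G → ℂ) g) ∧ ∃ hK : (χ : G → ℂ) g ∈ algebraicClosure ℚ ℂ,
      (∀ σ : algebraicClosure ℚ ℂ →ₐ[ℚ] ℂ, ∃ k : ℕ, k.Coprime (Nat.card G) ∧ σ ⟨_, hK⟩ = (χ : G → ℂ) (g ^ k)) ∧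
      ∀ m : ℕ, m.Coprime (Nat.card G) → ∃ σ : algebraicClosure ℚ ℂ →ₐ[ℚ] ℂ, σ ⟨_, hK⟩ = (χ : G → ℂ) (g ^ m) := by
  classical
  have hint : IsIntegral ℚ ((χ : G → ℂ) g) :=
    (Cfsg.Agent.Char.isCharacter_isIntegral (Cfsg.Agent.Char.isCharacter_of_isIrrCharacter χ.2) g).tower_top
  obtain ⟨d, ρ, hρ, he⟩ := χ.2
  set N := Nat.card G
  have hN : 0 < N := Nat.card_pos
  let K := algebraicClosure ℚ ℂ
  have hK : (χ : G → ℂ) g ∈ K := mem_algebraicClosure_iff'.2 hint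
  obtain ⟨ζ, hζ⟩ : ∃ ζ : ℂ, IsPrimitiveRoot ζ N := ⟨_, Complex.isPrimitiveRoot_exp N hN.ne'⟩
  have hrootK : ∀ z : ℂ, z ^ N = 1 → z ∈ K := fun z hz =>
    mem_algebraicClosure_iff'.2 (IsIntegral.of_pow hN (by rw [hz]; exact isIntegral_one))
  have hζK : ζ ∈ K := hrootK ζ hζ.pow_eq_one
  have key : ∀ (σ : K →ₐ[ℚ] ℂ) (k : ℕ), σ ⟨ζ, hζK⟩ = ζ ^ k → σ ⟨(χ : G → ℂ) g, hK⟩ = (χ : G → ℂ) (g ^ k) := by
    intro σ k hk
    obtain ⟨b, ω, hb, hω⟩ := Cfsg.Agent.Char.exists_eigenbasis ρ g (isOfFinOrder_of_finite g)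
    have hωN : ∀ i, ω i ^ N = 1 := fun i => by
      obtain ⟨m, hm⟩ := orderOf_dvd_natCard g
      rw [show N = orderOf g * m from hm, pow_mul, hω i, one_pow]
    have hg : (χ : G → ℂ) g = ∑ i, ω i := by
      rw [← he]; exact Cfsg.Agent.Char.trace_of_eigenbasis _ b ω hb
    have hgk : (χ : G → ℂ) (g ^ k) = ∑ i, ω i ^ k := by
      rw [← he]
      show LinearMap.trace ℂ _ (ρ (g ^ k)) = _
      rw [map_pow]
      have hpow : ∀ (m : ℕ) i, (ρ g ^ m) (b i) = ω i ^ m • b i := by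
        intro m i
        induction m with
        | zero => simp
        | succ m ih => rw [pow_succ', Module.End.mul_apply, ih, map_smul, hb, smul_smul, ← pow_succ]
      exact Cfsg.Agent.Char.trace_of_eigenbasis _ b _ fun i => hpow k i
    have hsum : (⟨(χ : G → ℂ) g, hK⟩ : K) = ∑ i, (⟨ω i, hrootK _ (hωN i)⟩ : K) :=
      Subtype.ext (by push_cast; exact hg)
    rw [hgk, hsum, map_sum]
    refine Finset.sum_congr rfl fun i _ => ?_
    haveI : NeZero N := ⟨hN.ne'⟩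
    obtain ⟨j, -, hj⟩ := hζ.eq_pow_of_pow_eq_one (hωN i)
    have : (⟨ω i, hrootK _ (hωN i)⟩ : K) = ⟨ζ, hζK⟩ ^ j := Subtype.ext (by push_cast; exact hj.symm)
    rw [this, map_pow, hk, ← hj, ← pow_mul, ← pow_mul, mul_comm]
  have hζint : IsIntegral ℚ ζ := mem_algebraicClosure_iff'.1 hζK
  refine ⟨hint, hK, fun σ => ?_, fun m hm => ?_⟩
  · have hσζ : IsPrimitiveRoot (σ ⟨ζ, hζK⟩) N := by
      have : IsPrimitiveRoot (⟨ζ, hζK⟩ : K) N :=
        IsPrimitiveRoot.of_map_of_injective (f := K.val) hζ K.val.injective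
      exact this.map_of_injective (RingHom.injective σ.toRingHom)
    haveI : NeZero N := ⟨hN.ne'⟩
    obtain ⟨k, -, hkcop, hk⟩ := (hζ.isPrimitiveRoot_iff).1 hσζ
    exact ⟨k, hkcop, key σ k hk.symm⟩
  · have hroot : Polynomial.aeval (ζ ^ m) (minpoly ℚ ζ) = 0 := by
      rw [← Polynomial.cyclotomic_eq_minpoly_rat hζ hN, Polynomial.aeval_def, Polynomial.eval₂_eq_eval_map,
        Polynomial.map_cyclotomic]
      exact (hζ.pow_of_coprime m hm).isRoot_cyclotomic hN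
    obtain ⟨σ, hσ⟩ := IntermediateField.exists_algHom_of_splits_of_aeval (E := K) (F := ℚ) (K := ℂ)
      (x := (⟨ζ, hζK⟩ : K)) (y := ζ ^ m)
      (fun x => ⟨IntermediateField.isIntegral_iff.2 (mem_algebraicClosure_iff'.1 x.2), IsAlgClosed.splits _⟩)
      (by rw [IntermediateField.minpoly_eq]; exact hroot)
    exact ⟨σ, key σ m hσ⟩

/-- Every irreducible complex character of a finite group takes only rational values if and only if g is conjugate to g ^ m for every element g and every m coprime to the group order. -/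
theorem result {G : Type*} [Group G] [Finite G] : (∀ χ : Cfsg.IrrCharacter G, ∀ g : G, ∃ q : ℚ, (χ : G → ℂ) g = (q : ℂ)) ↔ ∀ m : ℕ, m.Coprime (Nat.card G) → ∀ g : G, IsConj g (g ^ m) := by
  classical
  constructor
  · intro h m hm g
    refine Cfsg.Agent.Char.isConj_of_forall_irr_eq fun χ => ?_
    obtain ⟨-, hK, -, h2⟩ := galois_char χ g
    obtain ⟨σ, hσ⟩ := h2 m hm
    obtain ⟨q, hq⟩ := h χ g
    have : (⟨(χ : G → ℂ) g, hK⟩ : algebraicClosure ℚ ℂ) = algebraMap ℚ _ q := Subtype.ext hq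
    rw [← hσ, this, AlgHom.commutes]
    exact hq
  · intro h χ g
    obtain ⟨hint, hK, h1, -⟩ := galois_char χ g
    have hfix : ∀ σ : algebraicClosure ℚ ℂ →ₐ[ℚ] ℂ, σ ⟨_, hK⟩ = (χ : G → ℂ) g := fun σ => by
      obtain ⟨k, hk, hσ⟩ := h1 σ
      rw [hσ]
      obtain ⟨y, hy⟩ := isConj_iff.1 (h k hk g)
      rw [← hy]
      exact Cfsg.Agent.Char.isClassFunction_of_isCharacter (Cfsg.Agent.Char.isCharacter_of_isIrrCharacter χ.2) g y
    set P := (χ : G → ℂ) g
    have hroots : ∀ β ∈ (minpoly ℚ P).aroots ℂ, β = P := by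
      intro β hβ
      rw [Polynomial.mem_aroots] at hβ
      obtain ⟨σ, hσ⟩ := IntermediateField.exists_algHom_of_splits_of_aeval (E := algebraicClosure ℚ ℂ) (F := ℚ) (K := ℂ)
        (x := (⟨P, hK⟩ : algebraicClosure ℚ ℂ)) (y := β)
        (fun x => ⟨IntermediateField.isIntegral_iff.2 (mem_algebraicClosure_iff'.1 x.2), IsAlgClosed.splits _⟩)
        (by rw [IntermediateField.minpoly_eq]; exact hβ.2)
      exact hσ.symm.trans (hfix σ)
    have hsep : (minpoly ℚ P).Separable := (minpoly.irreducible hint).separable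
    have hnd : ((minpoly ℚ P).aroots ℂ).Nodup := Polynomial.nodup_roots hsep.map
    have hcard : ((minpoly ℚ P).aroots ℂ).card = (minpoly ℚ P).natDegree :=
      IsAlgClosed.card_aroots_eq_natDegree
    have hle : ((minpoly ℚ P).aroots ℂ).card ≤ 1 := by
      rw [← Multiset.toFinset_card_of_nodup hnd]
      exact Finset.card_le_one.2 fun a ha b hb => by
        rw [hroots a (Multiset.mem_toFinset.1 ha), hroots b (Multiset.mem_toFinset.1 hb)]
    have hdeg1 : (minpoly ℚ P).natDegree = 1 := by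
      have := minpoly.natDegree_pos hint
      omega
    obtain ⟨q, hq⟩ := minpoly.natDegree_eq_one_iff.1 hdeg1
    exact ⟨q, hq.symm⟩

end Cfsg.Agent.S0180
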