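import Cfsg.Statements.S0184
import Mathlib
import Cfsg.Agent.CharLead.Kernel

set_option autoImplicit false
open Cfsg

namespace Cfsg.Agent.S0184

/-- A finite p-group admits a faithful irreducible complex representation if and only if its centre is cyclic. -/
theorem result {G : Type*} [Group G] [Finite G] (p : ℕ) [Fact p.Prime] (hG : IsPGroup p G) : (∃ (n : ℕ) (ρ : Representation ℂ G (Fin n → ℂ)), ρ.IsIrreducible ∧ Function.Injective ρ) ↔ IsCyclic (Subgroup.center G) := by
  constructor
  · rintro ⟨n, ρ, hρ, hinj⟩
    haveI := hρ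
    have hscal : ∀ z : Subgroup.center G, ∃ c : ℂ, ρ z = c • LinearMap.id := fun z =>
      Char.exists_smul_id_of_commute ρ _ fun y => by
        rw [← map_mul, ← map_mul, Subgroup.mem_center_iff.1 z.2 y]
    choose c hc using hscal
    haveI := Char.nontrivial_of_isIrreducible ρ
    have huniq : ∀ a b : ℂ, a • (LinearMap.id : (Fin n → ℂ) →ₗ[ℂ] (Fin n → ℂ)) = b • LinearMap.id →
        a = b := by
      intro a b h
      obtain ⟨v, hv⟩ := exists_ne (0 : Fin n → ℂ)
      exact smul_left_injective ℂ hv (by simpa using LinearMap.congr_fun h v)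
    let f : Subgroup.center G →* ℂ :=
      { toFun := c
        map_one' := huniq _ _ (by rw [← hc, Subgroup.coe_one, map_one, one_smul]; rfl)
        map_mul' := fun a b => huniq _ _ (by
          rw [← hc, Subgroup.coe_mul, map_mul, hc, hc, smul_mul_smul_comm]; rfl) }
    refine isCyclic_of_injective_ringHom f ?_
    intro a b h
    apply Subtype.ext
    apply hinj
    rw [hc, hc, show c a = c b from h]
  · intro hcyc
    rcases subsingleton_or_nontrivial G with hG1 | hG1
    · obtain ⟨m, ρ, hρ, -⟩ := (Char.oneIrr G).2
      exact ⟨m, ρ, hρ, Function.injective_of_subsingleton _⟩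
    haveI := hG.center_nontrivial
    obtain ⟨k, hk⟩ := IsPGroup.iff_card.1 (hG.to_subgroup (Subgroup.center G))
    have hpdvd : p ∣ Nat.card (Subgroup.center G) := by
      rw [hk]
      refine dvd_pow_self p ?_
      rintro rfl
      exact Finite.one_lt_card.ne' hk
    obtain ⟨z, hz⟩ := exists_prime_orderOf_dvd_card' p hpdvd
    obtain ⟨χ, hχ⟩ : ∃ χ : Cfsg.IrrCharacter G, (z : G) ∉ CharLead.irrKer χ := by
      by_contra hall
      push Not at hall
      have : z = 1 := Subtype.ext (CharLead.eq_one_of_forall_mem_irrKer _ hall)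
      rw [this, orderOf_one] at hz
      exact (Fact.out : p.Prime).ne_one hz.symm
    obtain ⟨m, ρ, hρ, hchar⟩ := χ.2
    refine ⟨m, ρ, hρ, ?_⟩
    rw [injective_iff_map_eq_one]
    by_contra hne
    push Not at hne
    obtain ⟨g, hg, hg1⟩ := hne
    haveI := CharLead.irrKer_normal χ
    have hmem : g ∈ CharLead.irrKer χ := by
      rw [CharLead.mem_irrKer, ← hchar, CharLead.rep_eq_one_iff_char]
      exact hg
    apply hχ
    -- the kernel meets the centre in a subgroup containing the unique subgroup of order p
    haveI : Nontrivial (CharLead.irrKer χ) := ⟨⟨⟨g, hmem⟩, 1, fun e => hg1 (congrArg Subtype.val e)⟩⟩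
    have hmeet : Nontrivial ((CharLead.irrKer χ ⊓ Subgroup.center G : Subgroup G)) := by
      have hact : p ∣ Nat.card (CharLead.irrKer χ) := by
        obtain ⟨j, hj⟩ := IsPGroup.iff_card.1 (hG.to_subgroup (CharLead.irrKer χ))
        rw [hj]
        refine dvd_pow_self p ?_
        rintro rfl
        exact Finite.one_lt_card.ne' hj
      let _ : MulAction (ConjAct G) (CharLead.irrKer χ) := inferInstance
      have hfix1 : (1 : CharLead.irrKer χ) ∈ MulAction.fixedPoints (ConjAct G) (CharLead.irrKer χ) :=
        fun c => smul_one c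
      obtain ⟨b, hb, hb1⟩ := IsPGroup.exists_fixed_point_of_prime_dvd_card_of_fixed_point
        (hG.of_equiv ConjAct.toConjAct) (CharLead.irrKer χ) hact hfix1
      refine ⟨⟨⟨(b : G), b.2, ?_⟩, 1, fun e => hb1 (Subtype.ext (congrArg Subtype.val e).symm)⟩⟩
      show (b : G) ∈ Subgroup.center G
      rw [Subgroup.mem_center_iff]
      intro y
      have h := congrArg Subtype.val (hb (ConjAct.toConjAct y))
      rw [ConjAct.Subgroup.val_conj_smul, ConjAct.toConjAct_smul] at h
      calc y * (b : G) = (y * (b : G) * y⁻¹) * y := by group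
        _ = (b : G) * y := by rw [h]
    obtain ⟨j, hj⟩ := IsPGroup.iff_card.1
      (hG.to_subgroup (CharLead.irrKer χ ⊓ Subgroup.center G))
    have hpd : p ∣ Nat.card ((CharLead.irrKer χ).subgroupOf (Subgroup.center G)) := by
      rw [← Subgroup.inf_subgroupOf_right, Nat.card_congr
        (Subgroup.subgroupOfEquivOfLe (inf_le_right : CharLead.irrKer χ ⊓ Subgroup.center G ≤ _)).toEquiv, hj]
      refine dvd_pow_self p ?_
      rintro rfl
      exact Finite.one_lt_card.ne' hj
    have hle : Subgroup.zpowers z ≤ (CharLead.irrKer χ).subgroupOf (Subgroup.center G) := by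
      classical
      haveI := Fintype.ofFinite (Subgroup.center G)
      have hle' := IsCyclic.card_pow_eq_one_le (α := Subgroup.center G) (Fact.out : p.Prime).pos
      obtain ⟨u, hu⟩ := exists_prime_orderOf_dvd_card' p hpd
      have hu' : orderOf (u : Subgroup.center G) = p := by rw [Subgroup.orderOf_coe, hu]
      have hsub : ((Subgroup.zpowers (u : Subgroup.center G) : Subgroup (Subgroup.center G)) :
          Set (Subgroup.center G)).toFinset = Finset.univ.filter fun x => x ^ p = 1 := by
        refine Finset.eq_of_subset_of_card_le ?_ ?_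
        · intro x hx
          rw [Set.mem_toFinset] at hx
          obtain ⟨i, rfl⟩ := Subgroup.mem_zpowers_iff.1 hx
          simp only [Finset.mem_filter_univ]
          rw [← zpow_natCast, zpow_comm, zpow_natCast, ← hu', pow_orderOf_eq_one, one_zpow]
        · rw [Set.toFinset_card, ← Nat.card_eq_fintype_card]
          refine hle'.trans (le_of_eq ?_)
          exact (hu'.symm.trans (Nat.card_zpowers _).symm)
      have hzu : z ∈ Subgroup.zpowers (u : Subgroup.center G) := by
        have : z ∈ Finset.univ.filter fun x : Subgroup.center G => x ^ p = 1 := by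
          simp [← hz, pow_orderOf_eq_one]
        rw [← hsub, Set.mem_toFinset] at this
        exact this
      rw [Subgroup.zpowers_le]
      exact (Subgroup.zpowers_le.2 u.2) hzu
    exact hle (Subgroup.mem_zpowers z)

end Cfsg.Agent.S0184
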