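import Cfsg.Statements.S0185
import Mathlib
import Cfsg.Agent.CharLead.Kernel
import Cfsg.Agent.CharLead.Linear

set_option autoImplicit false
open Cfsg

namespace Cfsg.Agent.S0185

/-- If a finite group has a faithful complex representation of degree less than the smallest prime dividing its order, the group is abelian. -/
theorem result {G : Type*} [Group G] [Finite G] {V : Type*} [AddCommGroup V] [Module ℂ V] [FiniteDimensional ℂ V] (ρ : Representation ℂ G V) (hfaithful : Function.Injective ρ) (hdeg : ∀ p : ℕ, p.Prime → p ∣ Nat.card G → Module.finrank ℂ V < p) (a b : G) : a * b = b * a := by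
  obtain ⟨l₀, hsum₀⟩ := Char.exists_list_irr (Char.isCharacter_of_rep ρ)
  obtain ⟨l, hl, hsum⟩ : ∃ l : List (G → ℂ), (∀ y ∈ l, Cfsg.IsIrrCharacter G y) ∧ ρ.character = l.sum :=
    ⟨_, fun y hy => by obtain ⟨ψ, -, rfl⟩ := List.mem_map.1 hy; exact ψ.2, hsum₀⟩
  have hap : ∀ (m : List (G → ℂ)) (y : G), m.sum y = (m.map fun f => f y).sum := by
    intro m y
    induction m with
    | nil => simp
    | cons f m ihm => simp [ihm]
  apply mul_inv_eq_one.1
  apply hfaithful
  rw [map_one, ← CharLead.rep_eq_one_iff_char, hsum, hap, hap]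
  refine congrArg List.sum (List.map_congr_left fun θ hθ => ?_)
  obtain ⟨d, hdpos, hdvd, hd⟩ := Char.irr_degree_dvd_card ⟨θ, hl θ hθ⟩
  have hle : d ≤ Module.finrank ℂ V := by
    obtain ⟨l1, l2, rfl⟩ := List.append_of_mem hθ
    have h1 := congrArg Complex.re (congrFun hsum 1)
    rw [ρ.char_one, hap] at h1
    have hnn : ∀ (m : List (G → ℂ)), (∀ y ∈ m, Cfsg.IsIrrCharacter G y) →
        0 ≤ ((m.map fun y : G → ℂ => y 1).sum).re := by
      intro m
      induction m with
      | nil => simp
      | cons y m ihm =>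
        intro hm
        obtain ⟨k, -, hk⟩ := Char.irr_apply_one ⟨y, hm y List.mem_cons_self⟩
        rw [List.map_cons, List.sum_cons, Complex.add_re, show y 1 = k from hk, Complex.natCast_re]
        have := ihm fun w hw => hm w (List.mem_cons_of_mem _ hw)
        positivity
    rw [List.map_append, List.map_cons, List.sum_append, List.sum_cons, Complex.add_re,
      Complex.add_re, show θ 1 = d from hd] at h1
    simp only [Complex.natCast_re] at h1
    have e1 := hnn l1 fun y hy => hl y (List.mem_append_left _ hy)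
    have e2 := hnn l2 fun y hy => hl y (List.mem_append_right _ (List.mem_cons_of_mem _ hy))
    exact_mod_cast (by linarith : (d : ℝ) ≤ Module.finrank ℂ V)
  have hd1 : d = 1 := by
    by_contra hne
    obtain ⟨p, hp, hpd⟩ := Nat.exists_prime_and_dvd hne
    have := hdeg p hp (hpd.trans hdvd)
    have := Nat.le_of_dvd hdpos hpd
    omega
  subst hd1
  have hθ1 : θ 1 = 1 := by simpa using hd
  have hmul := CharLead.irr_mul_of_apply_one_eq_one (hl θ hθ) hθ1
  have hab : θ (a * b) = θ (b * a) := by rw [hmul, hmul, mul_comm]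
  calc θ (a * b * (b * a)⁻¹) = θ (b * a * (b * a)⁻¹) := by rw [hmul, hab, ← hmul]
    _ = θ 1 := by rw [mul_inv_cancel]

end Cfsg.Agent.S0185
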