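import Cfsg.Statements.S0186
import Cfsg.Agent.CharLead.Kernel
import Cfsg.Agent.CharLead.Linear
import Cfsg.Agent.Char.Irr
-- import your own Cfsg.Agent.* helpers here

set_option autoImplicit false
open Cfsg

namespace Cfsg.Agent.S0186

/-- Let G be a finite simple group of order n and p a prime dividing n. If G has more than n / p^2 conjugacy classes, then every Sylow p-subgroup of G is abelian. -/
theorem result {G : Type*} [Group G] [Finite G] [IsSimpleGroup G] (p : ℕ) [Fact p.Prime] (hp : p ∣ Nat.card G) (hmany : Nat.card G < p ^ 2 * Nat.card (ConjClasses G)) (P : Sylow p G) (a b : G) (ha : a ∈ P) (hb : b ∈ P) : a * b = b * a := by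
  classical
  haveI := Fintype.ofFinite G
  have hp' : p.Prime := Fact.out
  by_contra hne
  -- a non-abelian Sylow subgroup has order divisible by p^3
  have hp2 : p ^ 2 ∣ Nat.card G := by
    obtain ⟨k, hk⟩ := IsPGroup.iff_card.1 P.isPGroup'
    by_contra hnd
    have hk2 : k < 2 := by
      by_contra hh
      exact hnd ((Nat.pow_dvd_pow p (not_lt.1 hh)).trans (hk ▸ Subgroup.card_subgroup_dvd_card (P : Subgroup G)))
    have hcyc : IsCyclic (P : Subgroup G) := by
      interval_cases k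
      · haveI : Subsingleton (P : Subgroup G) := (Nat.card_eq_one_iff_unique.1 (by simpa using hk)).1
        infer_instance
      · exact isCyclic_of_prime_card (p := p) (by simpa using hk)
    exact hne (congrArg Subtype.val ((IsCyclic.commGroup (α := (P : Subgroup G))).mul_comm ⟨a, ha⟩ ⟨b, hb⟩))
  choose d hd0 hdd hd using fun χ : Cfsg.IrrCharacter G => Cfsg.Agent.Char.irr_degree_dvd_card χ
  -- degrees below p belong to the trivial character only
  have hsmall : ∀ χ : Cfsg.IrrCharacter G, d χ < p → Cfsg.Agent.CharLead.irrKer χ = ⊤ := by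
    intro χ hlt
    haveI := Cfsg.Agent.CharLead.irrKer_normal χ
    refine ((inferInstance : (Cfsg.Agent.CharLead.irrKer χ).Normal).eq_bot_or_eq_top).resolve_left fun hbot => hne ?_
    let x : (P : Subgroup G) := ⟨a, ha⟩
    let y : (P : Subgroup G) := ⟨b, hb⟩
    have hres := Cfsg.Agent.Char.isCharacter_comp (Cfsg.Agent.Char.isCharacter_of_isIrrCharacter χ.2) (P : Subgroup G).subtype
    choose c hc using fun φ : Cfsg.IrrCharacter (P : Subgroup G) => Cfsg.Agent.Char.exists_nat_classInner hres φ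
    have hexp := Cfsg.Agent.Char.classFunction_expand (Cfsg.Agent.Char.isClassFunction_of_isCharacter hres)
    choose e he0 hed he using fun φ : Cfsg.IrrCharacter (P : Subgroup G) => Cfsg.Agent.Char.irr_degree_dvd_card φ
    have hsum : (d χ : ℂ) = ∑ φ : Cfsg.IrrCharacter (P : Subgroup G), (c φ : ℂ) * e φ := by
      have h := congrFun hexp 1
      simp only [Finset.sum_apply, Pi.smul_apply, smul_eq_mul, hc, he] at h
      rw [← h, ← hd χ]
      simp
    have hsum' : d χ = ∑ φ : Cfsg.IrrCharacter (P : Subgroup G), c φ * e φ := by exact_mod_cast hsum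
    have hlin : ∀ φ : Cfsg.IrrCharacter (P : Subgroup G), c φ ≠ 0 → (φ : ↥(P : Subgroup G) → ℂ) 1 = 1 := by
      intro φ hφ
      have hle : c φ * e φ ≤ d χ := hsum' ▸ Finset.single_le_sum (f := fun φ => c φ * e φ) (fun _ _ => Nat.zero_le _) (Finset.mem_univ φ)
      have hle' : e φ < p := lt_of_le_of_lt ((Nat.le_mul_of_pos_left _ (Nat.pos_of_ne_zero hφ)).trans hle) hlt
      obtain ⟨k, hk⟩ := IsPGroup.iff_card.1 P.isPGroup'
      have h := hed φ
      rw [hk] at h
      obtain ⟨j, -, hj⟩ := (Nat.dvd_prime_pow hp').1 h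
      have hj0 : j = 0 := by
        by_contra hj0
        have := Nat.le_self_pow hj0 p
        omega
      rw [he φ, hj, hj0, pow_zero, Nat.cast_one]
    have hmem : ((x * y * x⁻¹ * y⁻¹ : (P : Subgroup G)) : G) ∈ Cfsg.Agent.CharLead.irrKer χ := by
      rw [Cfsg.Agent.CharLead.mem_irrKer]
      show (fun h => (χ : G → ℂ) ((P : Subgroup G).subtype h)) (x * y * x⁻¹ * y⁻¹) = (fun h => (χ : G → ℂ) ((P : Subgroup G).subtype h)) 1
      rw [hexp]
      simp only [Finset.sum_apply, Pi.smul_apply, smul_eq_mul, hc]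
      refine Finset.sum_congr rfl fun φ _ => ?_
      by_cases hφ : c φ = 0
      · simp [hφ]
      congr 1
      have hm := Cfsg.Agent.CharLead.irr_mul_of_apply_one_eq_one φ.2 (hlin φ hφ)
      have hi : ∀ g, (φ : ↥(P : Subgroup G) → ℂ) g * (φ : ↥(P : Subgroup G) → ℂ) g⁻¹ = 1 := fun g => by
        rw [← hm, mul_inv_cancel, hlin φ hφ]
      rw [hm, hm, hm, hlin φ hφ]
      calc _ = ((φ : ↥(P : Subgroup G) → ℂ) x * (φ : ↥(P : Subgroup G) → ℂ) x⁻¹) * ((φ : ↥(P : Subgroup G) → ℂ) y * (φ : ↥(P : Subgroup G) → ℂ) y⁻¹) := by ring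
        _ = 1 := by rw [hi, hi, one_mul]
    rw [hbot, Subgroup.mem_bot] at hmem
    simp only [Subgroup.coe_mul, Subgroup.coe_inv, x, y] at hmem
    calc a * b = a * b * a⁻¹ * b⁻¹ * (b * a) := by group
      _ = b * a := by rw [hmem, one_mul]
  have hsq : ∀ K : Subgroup G, ∀ hK : K.Normal,
      ∑ χ ∈ Finset.univ.filter (fun χ : Cfsg.IrrCharacter G => K ≤ Cfsg.Agent.CharLead.irrKer χ), d χ ^ 2 = K.index := by
    intro K hK
    haveI := hK
    have h := Cfsg.Agent.CharLead.sum_sq_quotient K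
    simp only [hd] at h
    exact_mod_cast h
  have hall : ∑ χ : Cfsg.IrrCharacter G, d χ ^ 2 = Nat.card G := by
    have h := hsq ⊥ inferInstance
    rwa [Finset.filter_true_of_mem (fun χ _ => bot_le), Subgroup.index_bot] at h
  set T := Finset.univ.filter (fun χ : Cfsg.IrrCharacter G => ⊤ ≤ Cfsg.Agent.CharLead.irrKer χ) with hT
  have htriv : ∑ χ ∈ T, d χ ^ 2 = 1 := by simpa [hT] using hsq ⊤ inferInstance
  have hTcard : T.card ≤ 1 := by
    rw [← htriv, Finset.card_eq_sum_ones]
    exact Finset.sum_le_sum fun χ _ => Nat.one_le_pow _ _ (hd0 χ)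
  have hsplit := Finset.sum_add_sum_compl T (fun χ => d χ ^ 2)
  rw [htriv, hall] at hsplit
  have hlow : Tᶜ.card * p ^ 2 ≤ ∑ χ ∈ Tᶜ, d χ ^ 2 := by
    refine le_of_eq_of_le (by rw [Finset.sum_const, smul_eq_mul]) (Finset.sum_le_sum (f := fun _ => p ^ 2) fun χ hχ => Nat.pow_le_pow_left ?_ 2)
    by_contra hlt
    refine Finset.mem_compl.1 hχ ?_
    simp [hT, hsmall χ (not_le.1 hlt)]
  have hcardk : Nat.card (ConjClasses G) = T.card + Tᶜ.card := by
    rw [← Cfsg.Agent.Char.card_irr_eq_card_conjClasses, Nat.card_eq_fintype_card, Finset.card_add_card_compl]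
  obtain ⟨q, hq⟩ := hp2
  rw [hcardk] at hmany
  rw [hq] at hmany hsplit
  have h1 : q < T.card + Tᶜ.card := Nat.lt_of_mul_lt_mul_left hmany
  have h2 : p ^ 2 * q ≤ p ^ 2 * Tᶜ.card := Nat.mul_le_mul_left _ (by omega)
  rw [mul_comm] at hlow
  omega

end Cfsg.Agent.S0186
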