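import Cfsg.Statements.S0187
import Cfsg.Agent.Char.Basic

set_option autoImplicit false
set_option linter.all false
open Cfsg

namespace Cfsg.Agent.S0187

/-- A finite group is commutative if and only if every irreducible complex character has degree 1. -/
theorem result {G : Type*} [Group G] [Finite G] : (∀ a b : G, a * b = b * a) ↔ ∀ χ : Cfsg.IrrCharacter G, (χ : G → ℂ) 1 = 1 := by
  classical
  constructor
  · intro hab χ
    obtain ⟨n, ρ, hρ, he⟩ := χ.2
    haveI : IsMulCommutative G := ⟨⟨hab⟩⟩
    have := Representation.IsIrreducible.finrank_eq_one_of_isMulCommutative ρ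
    simp at this
    rw [← he, Representation.char_one]
    simp [this]
  · intro h a b
    have hsum := Cfsg.Agent.Char.sum_irr_sq (G := G)
    simp only [h, one_pow, Finset.sum_const, Finset.card_univ, nsmul_eq_mul, mul_one] at hsum
    have hk : Nat.card (ConjClasses G) = Nat.card G := by
      rw [← Cfsg.Agent.Char.card_irr_eq_card_conjClasses, Nat.card_eq_fintype_card]
      exact_mod_cast hsum
    haveI := Fintype.ofFinite G
    haveI : Finite (ConjClasses G) := Finite.of_surjective _ ConjClasses.mk_surjective
    haveI : Fintype (ConjClasses G) := Fintype.ofFinite _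
    have hb : Function.Bijective (ConjClasses.mk : G → ConjClasses G) := by
      rw [Fintype.bijective_iff_surjective_and_card]
      exact ⟨ConjClasses.mk_surjective, by simpa [Nat.card_eq_fintype_card] using hk.symm⟩
    have := hb.1 (ConjClasses.mk_eq_mk_iff_isConj.2
      (show IsConj (a * b) (b * a) from isConj_iff.2 ⟨a⁻¹, by group⟩))
    exact this

end Cfsg.Agent.S0187
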