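import Cfsg.Statements.S0188
import Cfsg.Agent.CharLead.Basic

set_option autoImplicit false
open Cfsg

namespace Cfsg.Agent.S0188

/-- The irreducible complex characters of G × H are precisely the functions (g, h) ↦ φ g * ψ h with φ, ψ irreducible characters of G and H. -/
theorem result {G : Type*} [Group G] [Finite G] {H : Type*} [Group H] [Finite H] (θ : G × H → ℂ) : Cfsg.IsIrrCharacter (G × H) θ ↔ ∃ (φ : G → ℂ) (ψ : H → ℂ), Cfsg.IsIrrCharacter G φ ∧ Cfsg.IsIrrCharacter H ψ ∧ θ = fun x => φ x.1 * ψ x.2 := by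
  classical
  haveI := Fintype.ofFinite G
  haveI := Fintype.ofFinite H
  have hfac : ∀ (f f' : G → ℂ) (k k' : H → ℂ),
      Cfsg.classInner (fun x : G × H => f x.1 * k x.2) (fun x => f' x.1 * k' x.2)
        = Cfsg.classInner f f' * Cfsg.classInner k k' := by
    intro f f' k k'
    simp only [Cfsg.classInner, map_mul, Nat.card_prod, Nat.cast_mul, mul_inv]
    rw [Fintype.sum_prod_type]
    simp_rw [show ∀ a b, f a * k b * ((starRingEnd ℂ) (f' a) * (starRingEnd ℂ) (k' b))
      = (f a * (starRingEnd ℂ) (f' a)) * (k b * (starRingEnd ℂ) (k' b)) from fun a b => by ring]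
    rw [← Fintype.sum_mul_sum]
    ring
  have hirr : ∀ (φ : Cfsg.IrrCharacter G) (ψ : Cfsg.IrrCharacter H),
      Cfsg.IsIrrCharacter (G × H) (fun x => (φ : G → ℂ) x.1 * (ψ : H → ℂ) x.2) := by
    intro φ ψ
    refine Char.isIrrCharacter_of_inner_self (Char.isCharacter_mul
      (Char.isCharacter_comp (Char.isCharacter_of_isIrrCharacter φ.2) (MonoidHom.fst G H))
      (Char.isCharacter_comp (Char.isCharacter_of_isIrrCharacter ψ.2) (MonoidHom.snd G H))) ?_
    rw [hfac, Char.classInner_irr_self, Char.classInner_irr_self, one_mul]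
  constructor
  · intro hθ
    by_contra hne
    push Not at hne
    have hcf := Char.irr_isClassFunction (⟨θ, hθ⟩ : Cfsg.IrrCharacter (G × H))
    have hz : ∀ (φ : Cfsg.IrrCharacter G) (ψ : Cfsg.IrrCharacter H),
        Cfsg.classInner θ (fun x : G × H => (φ : G → ℂ) x.1 * (ψ : H → ℂ) x.2) = 0 := fun φ ψ =>
      Char.classInner_irr_of_ne (χ := ⟨θ, hθ⟩) (ψ := ⟨_, hirr φ ψ⟩) fun e =>
        hne φ ψ φ.2 ψ.2 (congrArg Subtype.val e)
    let c : Cfsg.IrrCharacter G → H → ℂ := fun φ h =>
      Cfsg.classInner (fun a => θ (a, h)) (φ : G → ℂ)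
    have hc : ∀ φ, c φ = 0 := by
      intro φ
      refine Char.eq_zero_of_inner_irr_eq_zero ?_ fun ψ => ?_
      · intro h y
        simp only [c]
        congr 1
        funext a
        simpa using hcf (a, h) (1, y)
      · rw [← hz φ ψ]
        simp only [c, Cfsg.classInner, map_mul, Nat.card_prod, Nat.cast_mul, mul_inv,
          Fintype.sum_prod_type, Finset.mul_sum, Finset.sum_mul]
        rw [Finset.sum_comm]
        exact Finset.sum_congr rfl fun a _ => Finset.sum_congr rfl fun b _ => by ring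
    have hzero : θ = 0 := by
      funext x
      have hsl : Cfsg.IsClassFunction G (fun a => θ (a, x.2)) := fun a y => by
        simpa using hcf (a, x.2) (y, 1)
      have := congrFun (Char.eq_zero_of_inner_irr_eq_zero hsl fun φ => congrFun (hc φ) x.2) x.1
      exact this
    have h1 := Char.classInner_irr_self (⟨θ, hθ⟩ : Cfsg.IrrCharacter (G × H))
    simp only [hzero] at h1
    simp [Cfsg.classInner] at h1
  · rintro ⟨φ, ψ, hφ, hψ, rfl⟩
    exact hirr ⟨φ, hφ⟩ ⟨ψ, hψ⟩

end Cfsg.Agent.S0188
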