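import Cfsg.Statements.S0190
import Cfsg.Agent.Char.Induced

set_option autoImplicit false
set_option linter.all false
open Cfsg

namespace Cfsg.Agent.S0190

/-- For a transitive action of a finite group on X, the permutation character g ↦ (number of fixed points of g) is the function induced from the principal character of the stabilizer of any point. -/
theorem result {G : Type*} [Group G] [Fintype G] (X : Type*) [MulAction G X] [Finite X] [MulAction.IsPretransitive G X] (x : X) : (fun g : G => (Nat.card (MulAction.fixedBy X g) : ℂ)) = Cfsg.indFun (MulAction.stabilizer G x) (fun _ => 1) := by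
  classical
  funext g
  haveI := Fintype.ofFinite X
  let S := MulAction.stabilizer G x
  rw [Char.indFun_eq_of_mem_iff]
  have hE : ∀ h : G, Cfsg.extendByZero S (fun _ => (1 : ℂ)) (h⁻¹ * g * h)
      = if g • (h • x) = h • x then 1 else 0 := by
    intro h
    have hiff : h⁻¹ * g * h ∈ S ↔ g • (h • x) = h • x := by
      rw [MulAction.mem_stabilizer_iff, mul_smul, mul_smul, inv_smul_eq_iff]
    by_cases hh : h⁻¹ * g * h ∈ S
    · rw [Char.extendByZero_of_mem S _ hh, if_pos (hiff.1 hh)]
    · rw [Char.extendByZero_of_not_mem S _ hh, if_neg fun h' => hh (hiff.2 h')]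
  simp only [S] at hE
  simp only [hE]
  rw [← Finset.sum_fiberwise_of_maps_to (g := fun h : G => h • x) (t := (Finset.univ : Finset X))
    (fun h _ => Finset.mem_univ _)]
  have hfib : ∀ y : X, ∑ h ∈ Finset.univ.filter (fun h : G => h • x = y),
      (if g • (h • x) = h • x then (1 : ℂ) else 0)
      = (Nat.card S : ℂ) * if g • y = y then 1 else 0 := by
    intro y
    rw [Finset.sum_congr rfl (fun h hh => by rw [(Finset.mem_filter.1 hh).2]), Finset.sum_const,
      nsmul_eq_mul]
    congr 2
    obtain ⟨h0, rfl⟩ := MulAction.exists_smul_eq G x y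
    rw [← Fintype.card_subtype, ← Nat.card_eq_fintype_card]
    refine Nat.card_congr ⟨fun h => ⟨h0⁻¹ * h.1, ?_⟩, fun a => ⟨h0 * a.1, ?_⟩, fun h => ?_, fun a => ?_⟩
    · rw [MulAction.mem_stabilizer_iff, mul_smul, h.2, inv_smul_smul]
    · rw [mul_smul, MulAction.mem_stabilizer_iff.1 a.2]
    · ext; simp
    · ext; simp
  rw [Finset.sum_congr rfl fun y _ => hfib y, ← Finset.mul_sum, Finset.sum_boole, ← mul_assoc,
    inv_mul_cancel₀ (by exact_mod_cast Nat.card_pos.ne'), one_mul, ← Fintype.card_subtype,
    ← Nat.card_eq_fintype_card]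
  rfl

end Cfsg.Agent.S0190
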