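import Cfsg.Statements.S0194
import Cfsg.Agent.Char.Induced
import Cfsg.Agent.Char.Irr

set_option autoImplicit false
set_option linter.all false
open scoped ComplexConjugate
open Cfsg

namespace Cfsg.Agent.S0194

/-- Let G have odd order, H be a normal subgroup and θ a non-principal irreducible character of H. Then the function induced from θ is orthogonal to its complex conjugate. -/
theorem result {G : Type*} [Group G] [Fintype G] (hodd : Odd (Nat.card G)) (H : Subgroup G) [H.Normal] (θ : H → ℂ) (hθ : Cfsg.IsIrrCharacter H θ) (hθ1 : θ ≠ fun _ => 1) : Cfsg.classInner (fun g => conj (Cfsg.indFun H θ g)) (Cfsg.indFun H θ) = 0 := by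
  classical
  have hconj : (fun g => conj (Cfsg.indFun H θ g)) = Cfsg.indFun H (fun h => conj (θ h)) := by
    funext g
    simp only [Char.indFun_eq_of_mem_iff, map_mul, map_inv₀, Complex.conj_natCast, map_sum]
    congr 1
    refine Finset.sum_congr rfl fun x _ => ?_
    by_cases hx : x⁻¹ * g * x ∈ H
    · rw [Char.extendByZero_of_mem H _ hx, Char.extendByZero_of_mem H _ hx]
    · rw [Char.extendByZero_of_not_mem H _ hx, Char.extendByZero_of_not_mem H _ hx, map_zero]
  rw [hconj, Char.classInner_indFun_indFun, Finset.sum_eq_zero fun x _ => ?_, mul_zero]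
  refine Char.classInner_irr_of_ne (χ := Char.irrConj ⟨θ, hθ⟩) (ψ := Char.conjIrr H ⟨θ, hθ⟩ x)
    fun he => hθ1 ?_
  have he' : (fun h => conj (θ h)) = Char.conjFn H θ x := congrArg Subtype.val he
  have hx2 : Char.conjFn H θ (x * x) = θ := by
    rw [Char.conjFn_mul, ← he']
    funext n
    show conj (θ _) = θ n
    have := congrFun he' n
    simp only [Char.conjFn] at this
    rw [← this]
    simp
  have hpow : ∀ k : ℕ, Char.conjFn H θ ((x * x) ^ k) = θ := by
    intro k
    induction k with
    | zero => rw [pow_zero, Char.conjFn_one]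
    | succ k ih => rw [pow_succ, Char.conjFn_mul, ih, hx2]
  obtain ⟨k, hk⟩ := hodd
  have hxk : (x * x) ^ (k + 1) = x := by
    have h1 : x ^ (2 * k + 1) = 1 := by rw [← hk]; exact pow_card_eq_one'
    rw [← sq, ← pow_mul, show 2 * (k + 1) = 2 * k + 1 + 1 by ring, pow_succ, h1, one_mul]
  have hfix := hpow (k + 1)
  rw [hxk, ← he'] at hfix
  refine Char.eq_one_of_real_of_odd ?_ ⟨θ, hθ⟩ (fun g => congrFun hfix g)
  exact Odd.of_dvd_nat ⟨k, hk⟩ (Subgroup.card_subgroup_dvd_card H)

end Cfsg.Agent.S0194
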