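import Mathlib
import Cfsg.Statements.S0196
-- no helpers

set_option autoImplicit false
open Cfsg

namespace Cfsg.Agent.S0196

/-- Let A be a subgroup of a finite group G that equals the centralizer of each of its non-identity elements, and let N be its normalizer. Then the index of A in N divides |A| − 1 (N/A permutes the non-identity elements of A in orbits of full length). -/
theorem result {G : Type*} [Group G] [Finite G] (A : Subgroup G) (hA : ∀ x ∈ A, x ≠ 1 → Subgroup.centralizer ({x} : Set G) = A) : (A.subgroupOf (Subgroup.normalizer (A : Set G))).index ∣ Nat.card A - 1 := by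
  classical
  set N := Subgroup.normalizer (A : Set G)
  let X := {x : G // x ∈ A ∧ x ≠ 1}
  letI act : MulAction N X :=
    { smul := fun n x => ⟨(n : G) * x.1 * (n : G)⁻¹,
        (Subgroup.mem_normalizer_iff.1 n.2 x.1).1 x.2.1, fun e => x.2.2 (conj_eq_one_iff.1 e)⟩
      one_smul := fun x => Subtype.ext (by
        show ((1 : N) : G) * x.1 * ((1 : N) : G)⁻¹ = x.1
        simp)
      mul_smul := fun a b x => Subtype.ext (by
        show ((a * b : N) : G) * x.1 * ((a * b : N) : G)⁻¹
          = (a : G) * ((b : G) * x.1 * (b : G)⁻¹) * (a : G)⁻¹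
        push_cast
        group) }
  have hstab : ∀ x : X, MulAction.stabilizer N x = A.subgroupOf N := by
    intro x
    ext n
    rw [MulAction.mem_stabilizer_iff, Subgroup.mem_subgroupOf, ← hA x.1 x.2.1 x.2.2,
      Subgroup.mem_centralizer_singleton_iff, Subtype.ext_iff]
    exact mul_inv_eq_iff_eq_mul
  have hX : Nat.card X = Nat.card A - 1 := by
    haveI := Fintype.ofFinite G
    have e : X ≃ {a : A // a ≠ 1} :=
      { toFun := fun x => ⟨⟨x.1, x.2.1⟩, fun h => x.2.2 (congrArg Subtype.val h)⟩
        invFun := fun a => ⟨a.1.1, a.1.2, fun h => a.2 (Subtype.ext h)⟩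
        left_inv := fun _ => rfl
        right_inv := fun _ => rfl }
    rw [Nat.card_congr e, Nat.card_eq_fintype_card, Nat.card_eq_fintype_card,
      Fintype.card_subtype_compl, Fintype.card_subtype_eq]
  rw [← hX, Nat.card_congr (MulAction.selfEquivSigmaOrbitsQuotientStabilizer N X)]
  haveI : Finite X := Subtype.finite
  haveI := Fintype.ofFinite (Quotient (MulAction.orbitRel N X))
  rw [Nat.card_sigma]
  refine Finset.dvd_sum fun ω _ => ?_
  rw [hstab]
  exact dvd_rfl

end Cfsg.Agent.S0196
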