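import Cfsg.Statements.S0199
import Cfsg.Agent.Transfer.BaerSuzuki

set_option autoImplicit false
open Cfsg


namespace Cfsg.Agent.S0199

/-- Baer–Suzuki Theorem: a p-subgroup X of a finite group such that X and any of its conjugates generate a p-group is contained in a normal p-subgroup. -/
theorem result {G : Type*} [Group G] [Finite G] {p : ℕ} [Fact p.Prime] (X : Subgroup G) (hX : IsPGroup p X) (h : ∀ g : G, IsPGroup p ↥(X ⊔ X.map (MulAut.conj g).toMonoidHom)) : ∃ N : Subgroup G, N.Normal ∧ IsPGroup p N ∧ X ≤ N := by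
  set D : Set G := {u | ∃ g : G, ∃ x ∈ X, g * x * g⁻¹ = u} with hD
  have hD' : ∀ g : G, ∀ d ∈ D, g * d * g⁻¹ ∈ D := by
    rintro g _ ⟨k, x, hx, rfl⟩
    exact ⟨g * k, x, hx, by simp [mul_assoc]⟩
  refine ⟨Subgroup.closure D, ⟨fun u hu g => ?_⟩, ?_,
    fun x hx => Subgroup.subset_closure ⟨1, x, hx, by simp⟩⟩
  · have hle : (Subgroup.closure D).map (MulAut.conj g).toMonoidHom ≤ Subgroup.closure D := by
      rw [MonoidHom.map_closure]
      exact Subgroup.closure_mono (by rintro _ ⟨d, hd, rfl⟩; exact hD' g d hd)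
    exact hle (Subgroup.mem_map_of_mem _ hu)
  · refine Cfsg.Agent.BaerSuzuki.isPGroup_closure D hD' ?_
    rintro _ ⟨g, x, hx, rfl⟩ _ ⟨k, y, hy, rfl⟩
    refine ((h (g⁻¹ * k)).map (MulAut.conj g).toMonoidHom).to_le ((Subgroup.closure_le _).mpr ?_)
    rintro u (rfl | rfl)
    · exact ⟨x, Subgroup.mem_sup_left hx, by simp⟩
    · exact ⟨g⁻¹ * k * y * (g⁻¹ * k)⁻¹, Subgroup.mem_sup_right ⟨y, hy, by simp only [MulEquiv.coe_toMonoidHom, MulAut.conj_apply]⟩, by simp only [MulEquiv.coe_toMonoidHom, MulAut.conj_apply]; group⟩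

end Cfsg.Agent.S0199
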