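import Cfsg.Statements.S0200
import Cfsg.Agent.Transfer.BaerSuzuki

set_option autoImplicit false
open Cfsg


namespace Cfsg.Agent.S0200

/-- An involution lying in no normal 2-subgroup of a finite group inverts a nontrivial element of odd order (a consequence of the Baer–Suzuki Theorem). -/
theorem result {G : Type*} [Group G] [Finite G] (t : G) (ht : orderOf t = 2) (hO : ∀ N : Subgroup G, N.Normal → IsPGroup 2 N → t ∉ N) : ∃ h : G, h ≠ 1 ∧ Odd (orderOf h) ∧ t * h * t⁻¹ = h⁻¹ := by
  exact Cfsg.Agent.BaerSuzuki.exists_inverted t (by rw [← ht]; exact pow_orderOf_eq_one t) hO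

end Cfsg.Agent.S0200
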