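import Cfsg.Statements.S0203
import Cfsg.Agent.Transfer.Klein
import Cfsg.Agent.Transfer.Basic

set_option autoImplicit false
open Cfsg
open Cfsg.Agent.Transfer

namespace Cfsg.Agent.S0203

/-- If a Sylow 2-subgroup P of a finite group G is a Klein four-group, then G has three classes of involutions if and only if P has a normal complement in G. -/
theorem result {G : Type*} [Group G] [Finite G] (P : Sylow 2 G) (hP : IsKleinFour (P : Subgroup G)) : Nat.card {C : ConjClasses G // ∃ t : G, orderOf t = 2 ∧ ConjClasses.mk t = C} = 3 ↔ ∃ N : Subgroup G, N.Normal ∧ Subgroup.IsComplement' N (P : Subgroup G) := by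
  haveI : Fact (Nat.Prime 2) := ⟨Nat.prime_two⟩
  constructor
  · intro h3
    refine hasNPC_complement_every (hasNPC_of_burnside P ?_) P
    by_contra h
    exact absurd ((klein_one P hP h).symm.trans h3) (by decide)
  · rintro ⟨N, hN, hc⟩
    exact klein_three P hP (normalizer_le_of_complement P (isMulCommutative_klein P hP) N hN hc)

end Cfsg.Agent.S0203
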