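import Cfsg.Statements.S0206
import Cfsg.Agent.Invol.Basic

set_option autoImplicit false
open Cfsg
open Cfsg.Agent

namespace Cfsg.Agent.S0206

/-- Two distinct involutions x, y of a finite group generate a subgroup isomorphic to the dihedral group of order 2·|xy|. -/
theorem result {G : Type*} [Group G] [Finite G] (x y : G) (hx : orderOf x = 2) (hy : orderOf y = 2) (hxy : x ≠ y) : Nonempty (↥(Subgroup.closure ({x, y} : Set G)) ≃* DihedralGroup (orderOf (x * y))) := by
  have hz : ∀ i : ZMod (orderOf (x * y)), ∀ k : ℤ, ((k : ZMod (orderOf (x * y))) = i) →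
      (x * y) ^ (i.val : ℤ) = (x * y) ^ k := by
    intro i k hk
    haveI : NeZero (orderOf (x * y)) := ⟨(orderOf_pos _).ne'⟩
    rw [zpow_eq_zpow_iff_modEq, ← ZMod.intCast_eq_intCast_iff, hk]
    simp
  let F : DihedralGroup (orderOf (x * y)) → G
    | .r i => (x * y) ^ (i.val : ℤ)
    | .sr i => x * (x * y) ^ (i.val : ℤ)
  haveI : NeZero (orderOf (x * y)) := ⟨(orderOf_pos _).ne'⟩
  let f : DihedralGroup (orderOf (x * y)) →* G :=
    { toFun := F
      map_one' := by
        change (x * y) ^ ((0 : ZMod (orderOf (x * y))).val : ℤ) = 1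
        simp
      map_mul' := by
        rintro (i | i) (j | j)
        · show (x * y) ^ ((i + j).val : ℤ) = _ * _
          rw [hz (i + j) (i.val + j.val) (by simp), zpow_add]
        · show x * (x * y) ^ ((j - i).val : ℤ) = _ * (x * _)
          rw [hz (j - i) (-(i.val : ℤ) + j.val) (by simp; ring), zpow_add, ← mul_assoc,
            Invol.mul_zpow_comm hx hy, neg_neg, mul_assoc]
        · show x * (x * y) ^ ((i + j).val : ℤ) = (x * _) * _
          rw [hz (i + j) (i.val + j.val) (by simp), zpow_add, mul_assoc]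
        · show (x * y) ^ ((j - i).val : ℤ) = (x * _) * (x * _)
          rw [hz (j - i) (-(i.val : ℤ) + j.val) (by simp; ring), Invol.mul_zpow_comm hx hy,
            mul_assoc ((x * y) ^ (-(i.val : ℤ))), ← mul_assoc x x, Invol.mul_self hx, one_mul,
            zpow_add] }
  have hinj : Function.Injective f := by
    rw [injective_iff_map_eq_one]
    rintro (i | i) hi
    · change (x * y) ^ (i.val : ℤ) = 1 at hi
      rw [zpow_natCast, ← orderOf_dvd_iff_pow_eq_one] at hi
      have h0 := Nat.eq_zero_of_dvd_of_lt hi i.val_lt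
      rw [ZMod.val_eq_zero] at h0
      subst h0
      rfl
    · change x * (x * y) ^ (i.val : ℤ) = 1 at hi
      exfalso
      apply Invol.not_mem_zpowers hx hy
      have hm : ((x * y) ^ (i.val : ℤ))⁻¹ ∈ Subgroup.zpowers (x * y) :=
        inv_mem (zpow_mem (Subgroup.mem_zpowers _) _)
      rwa [← eq_inv_of_mul_eq_one_left hi] at hm
  have hrange : f.range = Subgroup.closure ({x, y} : Set G) := by
    apply le_antisymm
    · rintro _ ⟨(i | i), rfl⟩
      · exact Invol.zpow_mem_pair _
      · exact mul_mem (Subgroup.subset_closure (by simp)) (Invol.zpow_mem_pair _)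
    · rw [Subgroup.closure_le]
      rintro g (rfl | rfl)
      · refine ⟨DihedralGroup.sr 0, ?_⟩
        change g * (g * y) ^ ((0 : ZMod (orderOf (g * y))).val : ℤ) = g
        simp
      · refine ⟨DihedralGroup.sr ((1 : ℤ) : ZMod (orderOf (x * g))), ?_⟩
        change x * (x * g) ^ ((((1 : ℤ) : ZMod (orderOf (x * g)))).val : ℤ) = g
        rw [hz _ 1 rfl, zpow_one, ← mul_assoc, Invol.mul_self hx, one_mul]
  exact ⟨((MonoidHom.ofInjective hinj).trans (MulEquiv.subgroupCongr hrange)).symm⟩

end Cfsg.Agent.S0206
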