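import Cfsg.Statements.S0208
import Cfsg.Agent.Invol.Basic

set_option autoImplicit false
open Cfsg
open Cfsg.Agent

namespace Cfsg.Agent.S0208

/-- If x, y are involutions and xy has odd order, then some element of the subgroup generated by x and y conjugates x to y. -/
theorem result {G : Type*} [Group G] [Finite G] (x y : G) (hx : orderOf x = 2) (hy : orderOf y = 2) (hodd : Odd (orderOf (x * y))) : ∃ d ∈ Subgroup.closure ({x, y} : Set G), d * x * d⁻¹ = y := by
  exact Invol.exists_conj_of_odd hx hy hodd

end Cfsg.Agent.S0208
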