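import Cfsg.Statements.S0211
import Cfsg.Agent.Invol.Basic

set_option autoImplicit false
open Cfsg
open Cfsg.Agent

namespace Cfsg.Agent.S0211

/-- Let x, y be involutions with xy of even order n and z = (xy)^(n/2). Then xz is conjugate to x by an element of the subgroup generated by x, y if and only if 4 divides n. -/
theorem result {G : Type*} [Group G] [Finite G] (x y : G) (hx : orderOf x = 2) (hy : orderOf y = 2) (heven : Even (orderOf (x * y))) : (∃ d ∈ Subgroup.closure ({x, y} : Set G), d * x * d⁻¹ = x * (x * y) ^ (orderOf (x * y) / 2)) ↔ 4 ∣ orderOf (x * y) := by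
  obtain ⟨m, hm⟩ := heven
  set n := orderOf (x * y) with hn
  have h0 : 0 < n := orderOf_pos _
  have hw : x * (x * y) ^ (n / 2) = (x * y) ^ (-((n / 2 : ℕ) : ℤ)) * x := by
    rw [← zpow_natCast, Invol.mul_zpow_comm hx hy]
  constructor
  · rintro ⟨d, hd, e⟩
    obtain ⟨k, hk⟩ := Invol.conj_left hx hy hd
    rw [hk, hw] at e
    have h2 := mul_right_cancel e
    rw [zpow_eq_zpow_iff_modEq, Int.modEq_iff_dvd, ← hn] at h2
    obtain ⟨c, hc⟩ := h2
    rw [show n / 2 = m by omega] at hc
    have h3 : (n : ℤ) = 2 * (m : ℤ) := by rw [hm]; push_cast; ring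
    rw [h3] at hc
    have h4 : (m : ℤ) = 2 * (-k - (m : ℤ) * c) := by
      rw [mul_sub, ← mul_assoc]; linarith
    have : 2 ∣ m := by
      have : (2 : ℤ) ∣ (m : ℤ) := ⟨_, h4⟩
      exact_mod_cast this
    omega
  · intro h4
    obtain ⟨j, hj⟩ := h4
    refine ⟨(x * y) ^ (j : ℤ), Invol.zpow_mem_pair _, ?_⟩
    have := Invol.zpow_conj hx hy (j : ℤ) 0
    simp only [zpow_zero, one_mul, add_zero] at this
    rw [this, hw, show n / 2 = 2 * j by omega]
    congr 1
    rw [zpow_eq_zpow_iff_modEq, Int.modEq_iff_dvd, ← hn, hj]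
    exact ⟨-1, by push_cast; ring⟩

end Cfsg.Agent.S0211
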