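import Cfsg.Statements.S0212
import Cfsg.Agent.Invol.BrauerFowler

set_option autoImplicit false
open Cfsg
open Cfsg.Agent

namespace Cfsg.Agent.S0212

/-- The Brauer–Fowler bound: if G is a finite simple group and t an involution of G whose centralizer has order n, then |G| ≤ (2n^2)!. -/
theorem result {G : Type*} [Group G] [Finite G] [IsSimpleGroup G] (t : G) (ht : orderOf t = 2) : Nat.card G ≤ Nat.factorial (2 * (Nat.card (Subgroup.centralizer ({t} : Set G))) ^ 2) := by
  classical
  rcases (inferInstance : (Subgroup.center G).Normal).eq_bot_or_eq_top with hz | hz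
  · obtain ⟨x, -, hne, hle⟩ := Invol.exists_small_index t ht hz
    set H := Subgroup.centralizer ({x} : Set G)
    haveI : Fintype (G ⧸ H) := Fintype.ofFinite _
    have hker : (MulAction.toPermHom G (G ⧸ H)).ker = ⊥ := by
      rw [← Subgroup.normalCore_eq_ker]
      rcases H.normalCore_normal.eq_bot_or_eq_top with h | h
      · exact h
      · exact absurd (top_le_iff.mp (h ▸ H.normalCore_le)) hne
    refine le_trans (Nat.card_le_card_of_injective _ ((MonoidHom.ker_eq_bot_iff _).mp hker)) ?_
    rw [Nat.card_perm]
    exact Nat.factorial_le hle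
  · have hn : (Subgroup.zpowers t).Normal := ⟨fun a ha g => by
      rw [Subgroup.mem_center_iff.mp (hz ▸ Subgroup.mem_top a) g, mul_inv_cancel_right]
      exact ha⟩
    rcases hn.eq_bot_or_eq_top with h | h
    · exact absurd (Subgroup.zpowers_eq_bot.mp h) (Invol.ne_one ht)
    · have hG : Nat.card G = 2 := by
        rw [← Subgroup.card_top, ← h, Nat.card_zpowers, ht]
      rw [hG]
      refine le_trans (le_of_eq (by rfl : 2 = Nat.factorial 2)) (Nat.factorial_le ?_)
      have : 1 ≤ Nat.card (Subgroup.centralizer ({t} : Set G)) := Nat.card_pos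
      nlinarith

end Cfsg.Agent.S0212
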