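import Cfsg.Statements.S0213
import Cfsg.Agent.Invol.BrauerFowler

set_option autoImplicit false
open Cfsg
open Cfsg.Agent

namespace Cfsg.Agent.S0213

/-- Thompson Order Formula, two-class case: if every involution of the finite group G is conjugate to exactly one of the non-conjugate involutions x₁, x₂, and nᵢ is the number of pairs (u, v) with u conjugate to x₁, v conjugate to x₂ and xᵢ in the cyclic group generated by uv, then |G| = |C(x₂)| n₁ + |C(x₁)| n₂. -/
theorem result {G : Type*} [Group G] [Finite G] (x₁ x₂ : G) (h₁ : orderOf x₁ = 2) (h₂ : orderOf x₂ = 2) (hnc : ¬ IsConj x₁ x₂) (hall : ∀ t : G, orderOf t = 2 → IsConj x₁ t ∨ IsConj x₂ t) : Nat.card G = Nat.card (Subgroup.centralizer ({x₂} : Set G)) * Nat.card {p : G × G // IsConj x₁ p.1 ∧ IsConj x₂ p.2 ∧ x₁ ∈ Subgroup.zpowers (p.1 * p.2)} + Nat.card (Subgroup.centralizer ({x₁} : Set G)) * Nat.card {p : G × G // IsConj x₁ p.1 ∧ IsConj x₂ p.2 ∧ x₂ ∈ Subgroup.zpowers (p.1 * p.2)} := by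
  classical
  haveI : Fintype G := Fintype.ofFinite G
  set f : G → ℕ := fun a =>
    Nat.card {p : G × G // IsConj x₁ p.1 ∧ IsConj x₂ p.2 ∧ a ∈ Subgroup.zpowers (p.1 * p.2)}
    with hf
  have hord : ∀ {x g : G}, orderOf x = 2 → IsConj x g → orderOf g = 2 := by
    intro x g hx hg
    obtain ⟨c, rfl⟩ := isConj_iff.mp hg
    rw [Invol.orderOf_conj', hx]
  have hinv : ∀ g a : G, f (g * a * g⁻¹) = f a := by
    intro g a
    have hc : ∀ x b : G, IsConj x (g * b * g⁻¹) ↔ IsConj x b := fun x b =>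
      ⟨fun h => h.trans (isConj_iff.mpr ⟨g⁻¹, by simp [mul_assoc]⟩),
        fun h => h.trans (isConj_iff.mpr ⟨g, rfl⟩)⟩
    refine (Nat.card_congr (Equiv.subtypeEquiv
      ((MulAut.conj g).toEquiv.prodCongr (MulAut.conj g).toEquiv) fun p => ?_)).symm
    change _ ↔ IsConj x₁ (g * p.1 * g⁻¹) ∧ IsConj x₂ (g * p.2 * g⁻¹) ∧
      g * a * g⁻¹ ∈ Subgroup.zpowers (g * p.1 * g⁻¹ * (g * p.2 * g⁻¹))
    rw [hc, hc]
    refine and_congr_right fun _ => and_congr_right fun _ => ?_
    constructor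
    · intro h
      obtain ⟨k, hk⟩ := Subgroup.mem_zpowers_iff.mp h
      refine Subgroup.mem_zpowers_iff.mpr ⟨k, ?_⟩
      rw [← hk, show g * p.1 * g⁻¹ * (g * p.2 * g⁻¹) = g * (p.1 * p.2) * g⁻¹ by group, conj_zpow]
    · intro h
      obtain ⟨k, hk⟩ := Subgroup.mem_zpowers_iff.mp h
      refine Subgroup.mem_zpowers_iff.mpr ⟨k, ?_⟩
      rw [show g * p.1 * g⁻¹ * (g * p.2 * g⁻¹) = g * (p.1 * p.2) * g⁻¹ by group, conj_zpow] at hk
      exact mul_left_cancel (mul_right_cancel hk)
  set K₁ : Finset G := Finset.univ.filter fun g : G => IsConj x₁ g with hK₁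
  set K₂ : Finset G := Finset.univ.filter fun g : G => IsConj x₂ g with hK₂
  have hdisj : Disjoint K₁ K₂ := by
    rw [Finset.disjoint_filter]
    exact fun g _ h h' => hnc (h.trans h'.symm)
  have huniq : ∀ p ∈ K₁ ×ˢ K₂, ((K₁ ∪ K₂).filter fun a =>
      a ∈ Subgroup.zpowers (p.1 * p.2)).card = 1 := by
    rintro ⟨u, v⟩ hp
    simp only [Finset.mem_product, hK₁, hK₂, Finset.mem_filter, Finset.mem_univ, true_and] at hp
    have hu := hord h₁ hp.1
    have hv := hord h₂ hp.2
    have he : Even (orderOf (u * v)) := by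
      rw [← Nat.not_odd_iff_even]
      exact fun ho => hnc (hp.1.trans ((Invol.isConj_of_odd hu hv ho).trans hp.2.symm))
    obtain ⟨hw, -, -⟩ := Invol.half_pow hu hv he
    rw [Finset.card_eq_one]
    refine ⟨(u * v) ^ (orderOf (u * v) / 2), Finset.eq_singleton_iff_unique_mem.mpr ⟨?_, ?_⟩⟩
    · simp only [hK₁, hK₂, Finset.mem_filter, Finset.mem_union, Finset.mem_univ, true_and]
      exact ⟨hall _ hw, Subgroup.pow_mem _ (Subgroup.mem_zpowers _) _⟩
    · intro a ha
      simp only [hK₁, hK₂, Finset.mem_filter, Finset.mem_union, Finset.mem_univ, true_and] at ha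
      obtain ⟨ha, haz⟩ := ha
      have ha2 : orderOf a = 2 := ha.elim (hord h₁) (hord h₂)
      have := Invol.eq_of_cyclic (G := ↥(Subgroup.zpowers (u * v))) inferInstance
        (a := ⟨a, haz⟩) (b := ⟨_, Subgroup.pow_mem _ (Subgroup.mem_zpowers _) _⟩)
        (by rw [← Subgroup.orderOf_coe]; exact ha2)
        (by rw [← Subgroup.orderOf_coe]; exact hw)
      exact congrArg Subtype.val this
  have hfc : ∀ a : G, ((K₁ ×ˢ K₂).filter fun p =>
      a ∈ Subgroup.zpowers (p.1 * p.2)).card = f a := by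
    intro a
    rw [hf]
    simp only
    rw [Nat.card_eq_fintype_card, Fintype.card_subtype]
    congr 1
    ext p
    simp [hK₁, hK₂, and_assoc]
  have hcount : K₁.card * K₂.card = K₁.card * f x₁ + K₂.card * f x₂ := by
    calc K₁.card * K₂.card
        = ∑ p ∈ K₁ ×ˢ K₂, ((K₁ ∪ K₂).filter fun a =>
            a ∈ Subgroup.zpowers (p.1 * p.2)).card := by
          rw [Finset.sum_congr rfl huniq]; simp
      _ = ∑ a ∈ K₁ ∪ K₂, f a := by
          simp only [← hfc, Finset.card_filter]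
          exact Finset.sum_comm
      _ = _ := by
          rw [Finset.sum_union hdisj]
          congr 1 <;>
          · rw [Finset.sum_const_nat fun a ha => ?_]
            simp only [hK₁, hK₂, Finset.mem_filter, Finset.mem_univ, true_and] at ha
            obtain ⟨g, rfl⟩ := isConj_iff.mp ha
            exact hinv g _
  have e1 := Invol.card_isConj_mul x₁
  have e2 := Invol.card_isConj_mul x₂
  rw [Nat.card_eq_fintype_card (α := {g : G // IsConj x₁ g}), Fintype.card_subtype, ← hK₁] at e1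
  rw [Nat.card_eq_fintype_card (α := {g : G // IsConj x₂ g}), Fintype.card_subtype, ← hK₂] at e2
  set c₁ := Nat.card (Subgroup.centralizer ({x₁} : Set G))
  set c₂ := Nat.card (Subgroup.centralizer ({x₂} : Set G))
  change Nat.card G = c₂ * f x₁ + c₁ * f x₂
  refine Nat.eq_of_mul_eq_mul_left (Nat.card_pos (α := G)) ?_
  calc Nat.card G * Nat.card G = (K₁.card * c₁) * (K₂.card * c₂) := by rw [e1, e2]
    _ = (K₁.card * K₂.card) * (c₁ * c₂) := by ring
    _ = (K₁.card * c₁) * (c₂ * f x₁) + (K₂.card * c₂) * (c₁ * f x₂) := by rw [hcount]; ring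
    _ = _ := by rw [e1, e2]; ring

end Cfsg.Agent.S0213
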