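import Cfsg.Statements.S0216
import Cfsg.Agent.Invol.Basic

set_option autoImplicit false
open Cfsg
open Cfsg.Agent

namespace Cfsg.Agent.S0216

/-- For an involution u in a Sylow 2-subgroup P of a finite group G, the following are equivalent: no G-conjugate of u other than u lies in P; every commutator of u with an element of G has odd order. -/
theorem result {G : Type*} [Group G] [Finite G] (P : Sylow 2 G) (u : G) (hu : orderOf u = 2) (huP : u ∈ P) : (∀ g : G, g * u * g⁻¹ ∈ P → g * u * g⁻¹ = u) ↔ (∀ g : G, Odd (orderOf (u * g * u⁻¹ * g⁻¹))) := by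
  have key : ∀ g : G, u * g * u⁻¹ * g⁻¹ = u * (g * u * g⁻¹) := fun g => by
    rw [Invol.inv_eq hu]
    group
  constructor
  · intro h g
    rw [key]
    exact Invol.odd_of_isolated hu h (isConj_iff.mpr ⟨g, rfl⟩)
  · intro h g hg
    have hm : u * (g * u * g⁻¹) ∈ (P : Subgroup G) := mul_mem huP hg
    obtain ⟨k, hk⟩ := IsPGroup.iff_orderOf.mp P.2 ⟨_, hm⟩
    rw [← Subgroup.orderOf_coe] at hk
    have ho := h g
    rw [key, hk] at ho
    rcases Nat.eq_zero_or_pos k with rfl | hkp
    · rw [pow_zero, orderOf_eq_one_iff] at hk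
      rw [← inv_eq_of_mul_eq_one_right hk, Invol.inv_eq hu]
    · exact absurd ho (Nat.not_odd_iff_even.mpr ((even_iff_two_dvd).mpr (dvd_pow_self 2 hkp.ne')))

end Cfsg.Agent.S0216
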