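import Cfsg.Statements.S0218
import Mathlib

set_option autoImplicit false
open Cfsg

namespace Cfsg.Agent.S0218

/-- The generalized quaternion group of order 2^(n+3) contains exactly one element of order 2. -/
theorem result (n : ℕ) : Nat.card {x : QuaternionGroup (2 ^ (n + 1)) // orderOf x = 2} = 1 := by
  rw [Nat.card_eq_one_iff_exists]
  set N := 2 ^ (n + 1) with hN
  haveI : NeZero N := ⟨by positivity⟩
  have hN0 : (N : ZMod (2 * N)) ≠ 0 := by
    rw [Ne, ZMod.natCast_eq_zero_iff]
    intro h
    have := Nat.le_of_dvd (Nat.pos_of_ne_zero (NeZero.ne N)) h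
    have := NeZero.ne N
    omega
  have hord : orderOf (QuaternionGroup.a (N : ZMod (2 * N))) = 2 := by
    refine orderOf_eq_prime ?_ ?_
    · rw [pow_two, QuaternionGroup.a_mul_a, ← Nat.cast_add, ← two_mul, ZMod.natCast_self,
        QuaternionGroup.a_zero]
    · rw [← QuaternionGroup.a_zero]
      exact fun h => hN0 (QuaternionGroup.a.inj h)
  refine ⟨⟨_, hord⟩, ?_⟩
  rintro ⟨x, hx⟩
  apply Subtype.ext
  cases x with
  | a i =>
    obtain ⟨h2, h1⟩ := orderOf_eq_prime_iff.mp hx
    rw [pow_two, QuaternionGroup.a_mul_a, ← QuaternionGroup.a_zero] at h2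
    have h3 := QuaternionGroup.a.inj h2
    rw [← ZMod.natCast_zmod_val i, ← Nat.cast_add, ZMod.natCast_eq_zero_iff] at h3
    have hlt := i.val_lt
    obtain ⟨c, hc⟩ := h3
    have hi0 : i.val ≠ 0 := fun h => h1 (by
      rw [(ZMod.val_eq_zero i).mp h, QuaternionGroup.a_zero])
    have hc1 : c = 1 := by
      rcases c with _ | _ | c
      · omega
      · rfl
      · nlinarith
    subst hc1
    change QuaternionGroup.a i = QuaternionGroup.a (N : ZMod (2 * N))
    rw [← ZMod.natCast_zmod_val i, show i.val = N by omega]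
  | xa i =>
    rw [QuaternionGroup.orderOf_xa] at hx
    omega

end Cfsg.Agent.S0218
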