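import Cfsg.Statements.S0220
import Cfsg.Agent.Invol.Index

set_option autoImplicit false
open Cfsg
open Cfsg.Agent

namespace Cfsg.Agent.S0220

/-- If x is an involution of a finite group G and a Sylow 2-subgroup of the centralizer of x is cyclic, then G has a subgroup of index 2; in particular G is not simple unless it has order 2. -/
theorem result {G : Type*} [Group G] [Finite G] (x : G) (hx : orderOf x = 2) (S : Sylow 2 ↥(Subgroup.centralizer ({x} : Set G))) (hS : IsCyclic (S : Subgroup ↥(Subgroup.centralizer ({x} : Set G)))) : ∃ H : Subgroup G, H.index = 2 := by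
  obtain ⟨P, hP⟩ := (Invol.isPGroup_zpowers hx).exists_le_sylow
  have hxP : x ∈ (P : Subgroup G) := hP (Subgroup.mem_zpowers x)
  let C := Subgroup.centralizer ({x} : Set G)
  have hcyc : IsCyclic ((P : Subgroup G).subgroupOf C) := by
    obtain ⟨R, hR⟩ := (P.2.comap_subtype (K := C)).exists_le_sylow
    have e := Sylow.equiv S R
    haveI : IsCyclic ↥(R : Subgroup ↥C) :=
      e.isCyclic.mp hS
    exact isCyclic_of_injective (Subgroup.inclusion hR) (Subgroup.inclusion_injective hR)
  haveI : Nontrivial (P : Subgroup G) :=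
    ⟨⟨⟨x, hxP⟩, 1, fun h => Invol.ne_one hx (congrArg Subtype.val h :)⟩⟩
  haveI := P.2.center_nontrivial
  obtain ⟨k, hk⟩ := IsPGroup.iff_card.mp (P.2.to_subgroup (Subgroup.center ↥(P : Subgroup G)))
  have hk0 : 2 ∣ Nat.card (Subgroup.center ↥(P : Subgroup G)) := by
    rw [hk]
    refine dvd_pow_self 2 ?_
    rintro rfl
    rw [pow_zero] at hk
    exact Finite.one_lt_card.ne' hk
  obtain ⟨z, hz⟩ := exists_prime_orderOf_dvd_card' 2 hk0
  have hz' : orderOf ((z : ↥(P : Subgroup G)) : G) = 2 := by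
    rw [Subgroup.orderOf_coe, Subgroup.orderOf_coe, hz]
  have hzC : ∀ w ∈ (P : Subgroup G), ((z : ↥(P : Subgroup G)) : G) * w =
      w * ((z : ↥(P : Subgroup G)) : G) := fun w hw =>
    (congrArg Subtype.val (Subgroup.mem_center_iff.mp z.2 ⟨w, hw⟩)).symm
  have hzx : ((z : ↥(P : Subgroup G)) : G) = x := by
    have hzc : ((z : ↥(P : Subgroup G)) : G) ∈ C :=
      Subgroup.mem_centralizer_singleton_iff.mpr (hzC x hxP)
    have hxc : x ∈ C := Subgroup.mem_centralizer_singleton_iff.mpr rfl
    have := Invol.eq_of_cyclic hcyc (a := ⟨⟨_, hzc⟩, (z : ↥(P : Subgroup G)).2⟩)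
      (b := ⟨⟨x, hxc⟩, hxP⟩) (by rw [← Subgroup.orderOf_coe, ← Subgroup.orderOf_coe]; exact hz')
      (by rw [← Subgroup.orderOf_coe, ← Subgroup.orderOf_coe]; exact hx)
    exact congrArg (fun w : ↥((P : Subgroup G).subgroupOf C) => ((w : ↥C) : G)) this
  have hPC : (P : Subgroup G) ≤ C := fun w hw => by
    refine Subgroup.mem_centralizer_singleton_iff.mpr ?_
    have := hzC w hw
    rw [hzx] at this
    exact this.symm
  refine Invol.exists_index_two_of_cyclic (even_iff_two_dvd.mpr ?_) P
    (isCyclic_of_surjective (Subgroup.subgroupOfEquivOfLe hPC).toMonoidHom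
      (Subgroup.subgroupOfEquivOfLe hPC).surjective)
  rw [← hx]
  exact orderOf_dvd_natCard x

end Cfsg.Agent.S0220
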