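import Cfsg.Statements.S0229
import Cfsg.Agent.Invol.Basic

set_option autoImplicit false
open Cfsg
open Cfsg.Agent

namespace Cfsg.Agent.S0229

/-- Let t be an involution of a Sylow 2-subgroup S of a finite group G, conjugate in G to no other element of S, and let s be an involution of G not conjugate to t. Then the order of st is twice an odd number. -/
theorem result {G : Type*} [Group G] [Finite G] (S : Sylow 2 G) (t : G) (ht : orderOf t = 2) (htS : t ∈ S) (hiso : ∀ g : G, g * t * g⁻¹ ∈ S → g * t * g⁻¹ = t) (s : G) (hs : orderOf s = 2) (hns : ¬ IsConj s t) : orderOf (s * t) % 4 = 2 := by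
  rcases Nat.even_or_odd (orderOf (s * t)) with he | ho
  · obtain ⟨m, hm⟩ := he
    have h0 := orderOf_pos (s * t)
    rcases Nat.even_or_odd m with ⟨j, hj⟩ | ⟨j, hj⟩
    · exfalso
      have he2 : Even (orderOf (t * s)) := by
        rw [show orderOf (t * s) = orderOf (s * t) from by
          rw [show t * s = (s * t)⁻¹ by rw [mul_inv_rev, Invol.inv_eq hs, Invol.inv_eq ht],
            orderOf_inv]]
        exact ⟨m, hm⟩
      obtain ⟨hw, hcw, -⟩ := Invol.half_pow ht hs he2
      have hn : orderOf (t * s) = orderOf (s * t) := by
        rw [show t * s = (s * t)⁻¹ by rw [mul_inv_rev, Invol.inv_eq hs, Invol.inv_eq ht],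
          orderOf_inv]
      have hc : IsConj t ((t * s) ^ (orderOf (t * s) / 2) * t) := by
        refine isConj_iff.mpr ⟨(t * s) ^ (j : ℤ), ?_⟩
        have := Invol.zpow_conj ht hs (j : ℤ) 0
        simp only [zpow_zero, one_mul, add_zero] at this
        rw [this, ← zpow_natCast, show orderOf (t * s) / 2 = 2 * j by omega]
        push_cast
        rfl
      have := Invol.commute_conj_eq ht hiso (IsConj.refl t) hc
        (hcw.symm.mul_right (Commute.refl t))
      exact Invol.ne_one hw (by simpa using this.symm)
    · omega
  · exact absurd (Invol.isConj_of_odd hs ht ho) hns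

end Cfsg.Agent.S0229
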