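import Cfsg.Statements.S0231
import Cfsg.Agent.Invol.Basic

set_option autoImplicit false
open scoped Pointwise
open Cfsg
open Cfsg.Agent

namespace Cfsg.Agent.S0231

/-- Let T be a Sylow 2-subgroup of the finite group G which is not normal and which intersects every other Sylow 2-subgroup trivially. Then G has a single conjugacy class of involutions. -/
theorem result {G : Type*} [Group G] [Finite G] (T : Sylow 2 G) (hnn : ¬ (T : Subgroup G).Normal) (hTI : ∀ g : G, MulAut.conj g • (T : Subgroup G) ≠ T → MulAut.conj g • (T : Subgroup G) ⊓ T = ⊥) (s t : G) (hs : orderOf s = 2) (ht : orderOf t = 2) : IsConj s t := by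
  have huniq : ∀ (Q R : Sylow 2 G) (a : G), a ≠ 1 → a ∈ Q → a ∈ R → Q = R := by
    intro Q R a ha hQ hR
    obtain ⟨g, rfl⟩ := MulAction.exists_smul_eq G T Q
    obtain ⟨k, rfl⟩ := MulAction.exists_smul_eq G T R
    by_contra hne
    have h1 : MulAut.conj (g⁻¹ * k) • (T : Subgroup G) ≠ T := by
      intro e
      apply hne
      apply Sylow.ext
      rw [Sylow.coe_subgroup_smul, Sylow.coe_subgroup_smul]
      conv_lhs => rw [← e, smul_smul, ← map_mul, mul_inv_cancel_left]
    have h2 := hTI _ h1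
    have hmem : (MulAut.conj g)⁻¹ • a ∈ MulAut.conj (g⁻¹ * k) • (T : Subgroup G) ⊓ T := by
      refine ⟨?_, ?_⟩
      · have h3 : a ∈ MulAut.conj k • (T : Subgroup G) := by
          rw [← Sylow.coe_subgroup_smul]; exact hR
        rw [map_mul, map_inv, mul_smul]
        exact Subgroup.smul_mem_pointwise_smul _ _ _ h3
      · have h3 : a ∈ MulAut.conj g • (T : Subgroup G) := by
          rw [← Sylow.coe_subgroup_smul]; exact hQ
        exact Subgroup.mem_pointwise_smul_iff_inv_smul_mem.mp h3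
    rw [h2, Subgroup.mem_bot] at hmem
    apply ha
    have := congrArg (fun z => MulAut.conj g • z) hmem
    have h4 : g⁻¹ * (g * a * g⁻¹) * g = 1 → a = 1 := fun h5 => by simpa [mul_assoc] using h5
    first
      | exact h4 (by simpa [smul_smul] using this)
      | simpa [smul_smul, mul_assoc] using this
  have hsyl : ∀ a : G, orderOf a = 2 → ∃ Q : Sylow 2 G, a ∈ Q := by
    intro a ha
    obtain ⟨Q, hQ⟩ := (Invol.isPGroup_zpowers ha).exists_le_sylow
    exact ⟨Q, hQ (Subgroup.mem_zpowers a)⟩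
  have hcomm : ∀ (Q : Sylow 2 G) (a b : G), orderOf a = 2 → orderOf b = 2 → a ∈ Q →
      Commute a b → b ∈ Q := by
    intro Q a b ha hb haQ hab
    obtain ⟨h, h1, h2⟩ := Invol.exists_conj_pair_mem T ha hb hab
    have hb' : b ∈ MulAut.conj h⁻¹ • (T : Subgroup G) := by
      rw [Subgroup.mem_pointwise_smul_iff_inv_smul_mem, ← map_inv, inv_inv]
      exact h2
    have ha' : a ∈ MulAut.conj h⁻¹ • (T : Subgroup G) := by
      rw [Subgroup.mem_pointwise_smul_iff_inv_smul_mem, ← map_inv, inv_inv]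
      exact h1
    rw [← Sylow.coe_subgroup_smul] at ha' hb'
    exact (huniq Q (h⁻¹ • T) a (Invol.ne_one ha) haQ ha') ▸ hb'
  have hdiff : ∀ (Q R : Sylow 2 G) (a b : G), orderOf a = 2 → orderOf b = 2 → a ∈ Q → b ∈ R →
      Q ≠ R → IsConj a b := by
    intro Q R a b ha hb haQ hbR hne
    rcases Nat.even_or_odd (orderOf (a * b)) with he | ho
    · obtain ⟨hw, hca, hcb⟩ := Invol.half_pow ha hb he
      have hwQ := hcomm Q a _ ha hw haQ hca.symm
      have hwR := hcomm R b _ hb hw hbR hcb.symm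
      exact absurd (huniq Q R _ (Invol.ne_one hw) hwQ hwR) hne
    · exact Invol.isConj_of_odd ha hb ho
  obtain ⟨Q, hQ⟩ := hsyl s hs
  obtain ⟨R, hR⟩ := hsyl t ht
  by_cases hQR : Q = R
  · subst hQR
    obtain ⟨g, hg⟩ : ∃ g : G, g • Q ≠ Q := by
      by_contra hall
      push Not at hall
      apply hnn
      obtain ⟨g, rfl⟩ := MulAction.exists_smul_eq G Q T
      rw [hall g]
      exact Subgroup.normalizer_eq_top_iff.mp (eq_top_iff.mpr fun k _ =>
        Sylow.smul_eq_iff_mem_normalizer.mp (hall k))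
    have hmem : g * s * g⁻¹ ∈ g • Q := by
      change g * s * g⁻¹ ∈ ((g • Q : Sylow 2 G) : Subgroup G)
      rw [Sylow.coe_subgroup_smul]
      exact Subgroup.smul_mem_pointwise_smul _ _ _ hQ
    have hu : orderOf (g * s * g⁻¹) = 2 := (Invol.orderOf_conj' g s).trans hs
    exact (hdiff Q _ s _ hs hu hQ hmem (Ne.symm hg)).trans
      (hdiff _ Q _ t hu ht hmem hR hg)
  · exact hdiff Q R s t hs ht hQ hR hQR

end Cfsg.Agent.S0231
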