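import Cfsg.Statements.S0240
import Cfsg.Agent.Invol.Basic

set_option autoImplicit false
open Cfsg
open Cfsg.Agent

namespace Cfsg.Agent.S0240

/-- Let G be a finite group with n involutions and H a subgroup with |H|·(n+1) > |G|. Then some nontrivial h ∈ H is strongly real in G: an involution t of G satisfies t h t⁻¹ = h⁻¹. -/
theorem result {G : Type*} [Group G] [Finite G] (H : Subgroup G) (hH : Nat.card G < Nat.card H * (Nat.card {t : G // orderOf t = 2} + 1)) : ∃ h : G, h ∈ H ∧ h ≠ 1 ∧ ∃ t : G, orderOf t = 2 ∧ t * h * t⁻¹ = h⁻¹ := by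
  classical
  haveI : Fintype G := Fintype.ofFinite G
  let S : Finset G := insert 1 (Finset.univ.filter fun t : G => orderOf t = 2)
  have hS : S.card = Nat.card {t : G // orderOf t = 2} + 1 := by
    rw [Finset.card_insert_of_notMem (by simp), Nat.card_eq_fintype_card, Fintype.card_subtype]
  have hlt : (Finset.univ : Finset (G ⧸ H)).card < S.card := by
    rw [Finset.card_univ, hS, ← Nat.card_eq_fintype_card]
    refine Nat.lt_of_mul_lt_mul_left (a := Nat.card H) ?_
    change Nat.card H * H.index < _
    rwa [H.card_mul_index]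
  obtain ⟨a, ha, b, hb, hne, heq⟩ := Finset.exists_ne_map_eq_of_card_lt_of_maps_to hlt
    (f := fun g : G => (g : G ⧸ H)) (fun _ _ => Finset.mem_univ _)
  have hab := QuotientGroup.eq.mp heq
  simp only [S, Finset.mem_insert, Finset.mem_filter, Finset.mem_univ, true_and] at ha hb
  rcases ha with rfl | ha
  · rcases hb with rfl | hb
    · exact absurd rfl hne
    · refine ⟨b, by simpa using hab, Invol.ne_one hb, b, hb, ?_⟩
      rw [mul_inv_cancel_right, Invol.inv_eq hb]
  · rcases hb with rfl | hb
    · refine ⟨a, by simpa [Invol.inv_eq ha] using hab, Invol.ne_one ha, a, ha, ?_⟩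
      rw [mul_inv_cancel_right, Invol.inv_eq ha]
    · rw [Invol.inv_eq ha] at hab
      refine ⟨a * b, hab, fun h => hne ?_, a, ha, Invol.conj_prod ha hb⟩
      rw [← Invol.inv_eq ha]
      exact (eq_inv_of_mul_eq_one_right h).symm

end Cfsg.Agent.S0240
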