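import Cfsg.Statements.S0244
import Mathlib

set_option autoImplicit false
open Cfsg

namespace Cfsg.Agent.S0244

/-- Sp_2 = SL_2: a matrix on Fin 1 ⊕ Fin 1 lies in Mathlib's symplectic group iff its determinant is 1. -/
theorem result {R : Type*} [CommRing R] (A : Matrix (Fin 1 ⊕ Fin 1) (Fin 1 ⊕ Fin 1) R) : A ∈ Matrix.symplecticGroup (Fin 1) R ↔ A.det = 1 := by
  have h2 : A * Matrix.J (Fin 1) R * A.transpose = A.det • Matrix.J (Fin 1) R := by
    rw [← Matrix.det_submatrix_equiv_self finSumFinEquiv.symm A, Matrix.det_fin_two]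
    ext i j
    rcases i with i | i <;> rcases j with j | j <;>
      (obtain rfl := Subsingleton.elim i 0; obtain rfl := Subsingleton.elim j 0;
       simp [Matrix.mul_apply, Matrix.J, Fintype.sum_sum_type, Matrix.fromBlocks, finSumFinEquiv, Fin.addCases]) <;> ring
  rw [SymplecticGroup.mem_iff, h2]
  constructor
  · intro h
    have h3 := congrFun (congrFun h (Sum.inr 0)) (Sum.inl 0)
    simpa [Matrix.J, Matrix.fromBlocks] using h3
  · intro h
    rw [h, one_smul]

end Cfsg.Agent.S0244
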