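import Cfsg.Statements.S0246
import Mathlib
import Cfsg.Agent.Classical.SympGen

set_option autoImplicit false
open Cfsg

namespace Cfsg.Agent.S0246
open Cfsg.Agent.Classical.Symp

/-- The centre of Sp_{2m}(q), m at least 1, is {1, -1}: it has order gcd(2, q-1). -/
theorem result {F : Type*} [Field F] [Fintype F] {q : ℕ} (hF : Fintype.card F = q) (m : ℕ) (hm : 1 ≤ m) : Nat.card (Subgroup.center (Matrix.symplecticGroup (Fin m) F)) = Nat.gcd 2 (q - 1) := by
  classical
  let i : Fin m := ⟨0, by omega⟩
  have hscal : ∀ a : F, a ^ 2 = 1 → (a • (1 : Matrix (Fin m ⊕ Fin m) (Fin m ⊕ Fin m) F)) ∈ Matrix.symplecticGroup (Fin m) F := by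
    intro a ha
    rw [SymplecticGroup.mem_iff']
    simp [smul_smul, ← pow_two, ha]
  let φ : {a : F // a ^ 2 = 1} → Subgroup.center (Matrix.symplecticGroup (Fin m) F) := fun a =>
    ⟨⟨_, hscal a.1 a.2⟩, Subgroup.mem_center_iff.2 fun g => Subtype.ext (by simp)⟩
  have hbij : Function.Bijective φ := by
    refine ⟨fun a b hab => ?_, fun g => ?_⟩
    · have := congrFun (congrFun (congrArg (fun x => ((x.1 : Matrix.symplecticGroup (Fin m) F) : Matrix (Fin m ⊕ Fin m) (Fin m ⊕ Fin m) F)) hab) (Sum.inl i)) (Sum.inl i)
      exact Subtype.ext (by simpa [φ] using this)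
    · obtain ⟨g, hg⟩ := g
      have h1 : ∀ v : Fin m ⊕ Fin m → F, ∃ a : F, act g v = a • v := by
        intro v
        by_cases hv : v = 0
        · exact ⟨0, by simp [hv, act]⟩
        obtain ⟨x, hx⟩ := exists_form_ne hv
        have e := conj_T g v 1
        rw [← Subgroup.mem_center_iff.1 hg (T v 1), mul_inv_cancel_right] at e
        have e2 := congrArg (fun y => act y x) e
        simp only [act_T, one_mul, add_right_inj] at e2
        have hxv : form F m x v ≠ 0 := by rwa [form_swap, neg_ne_zero]
        refine ⟨form F m x v / form F m x (act g v), ?_⟩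
        have hne : form F m x (act g v) ≠ 0 := by
          intro h0
          rw [h0, zero_smul] at e2
          exact hxv (by simpa [hv] using e2)
        rw [div_eq_inv_mul, mul_smul, e2, smul_smul, inv_mul_cancel₀ hne, one_smul]
      choose a ha using h1
      obtain ⟨b, hb⟩ := LinearMap.exists_eq_smul_id_of_forall_notLinearIndependent
        (f := Matrix.mulVecLin (g : Matrix (Fin m ⊕ Fin m) (Fin m ⊕ Fin m) F)) fun v => by
          intro hli
          have := LinearIndependent.pair_iff.1 hli (a v) (-1) (by
            change a v • v + (-1 : F) • act g v = 0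
            rw [ha]; simp)
          simp at this
      have hgb : ∀ v, act g v = b • v := fun v => LinearMap.congr_fun hb v
      have hb2 : b ^ 2 = 1 := by
        have e := act_form g (Pi.single (Sum.inr i) 1) (Pi.single (Sum.inl i) 1)
        rw [hgb, hgb] at e
        simpa [form_inl, pow_two] using e
      refine ⟨⟨b, hb2⟩, Subtype.ext (ext_act fun v => ?_)⟩
      rw [hgb]
      simp [φ, act, Matrix.smul_mulVec]
  rw [← Nat.card_eq_of_bijective φ hbij]
  have hset : Nat.card {a : F // a ^ 2 = 1} = ({1, -1} : Finset F).card := by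
    rw [Nat.card_eq_fintype_card, Fintype.card_subtype]
    congr 1
    ext a
    simp
  rw [hset, ← hF]
  by_cases h2 : (2 : F) = 0
  · haveI : CharP F 2 := CharP.ringChar_of_prime_eq_zero Nat.prime_two h2 ▸ ringChar.charP F
    obtain ⟨k, -, hk⟩ := FiniteField.card F 2
    have h11 : (-1 : F) = 1 := by linear_combination (-1 : F) * h2
    rw [h11, Finset.pair_eq_singleton, Finset.card_singleton, hk, eq_comm]
    refine Nat.coprime_iff_gcd_eq_one.1 ((Nat.prime_two.coprime_iff_not_dvd).2 ?_)
    have : 2 ∣ 2 ^ (k : ℕ) := dvd_pow_self 2 k.pos.ne'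
    have := Nat.one_le_two_pow (n := (k : ℕ))
    omega
  · have h11 : (1 : F) ≠ -1 := fun h => h2 (by linear_combination h)
    rw [Finset.card_pair h11, eq_comm]
    apply Nat.gcd_eq_left
    have : Fintype.card F % 2 = 1 := FiniteField.odd_card_of_char_ne_two (fun h => h2 (by
      haveI : CharP F 2 := ringChar.of_eq h
      exact CharP.cast_eq_zero F 2))
    omega

end Cfsg.Agent.S0246
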