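import Cfsg.Statements.S0250
import Mathlib
import Cfsg.Agent.Classical.SL

set_option autoImplicit false
open Cfsg

namespace Cfsg.Agent.S0250

/-- SL_2(2) is isomorphic to S_3. -/
theorem result {F : Type*} [Field F] [Fintype F] (hF : Fintype.card F = 2) : Nonempty (Matrix.SpecialLinearGroup (Fin 2) F ≃* Equiv.Perm (Fin 3)) := by
  classical
  haveI : Fintype (Projectivization F (Fin 2 → F)) := Fintype.ofFinite _
  have hc : Nat.card (Projectivization F (Fin 2 → F)) = 3 := by
    rw [Projectivization.card_of_finrank_two F (Fin 2 → F) (Module.finrank_fin_fun F), Nat.card_eq_fintype_card, hF]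
  let e : Projectivization F (Fin 2 → F) ≃ Fin 3 := Finite.equivFinOfCardEq hc
  have h2 := Classical.card_PSL_mul (ι := Fin 2) (F := F)
  have h3 := Classical.card_SL_mul (F := F) 2 (by norm_num)
  rw [Fintype.card_fin, hF] at h2
  rw [hF, Fin.prod_univ_two] at h3
  norm_num [-Nat.card_eq_fintype_card] at h2 h3
  let π := QuotientGroup.mk' (Subgroup.center (Matrix.SpecialLinearGroup (Fin 2) F))
  have hπ : Function.Bijective π := (Nat.bijective_iff_surjective_and_card π).mpr ⟨QuotientGroup.mk'_surjective _, h2.symm⟩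
  let ψ : Matrix.ProjectiveSpecialLinearGroup (Fin 2) F →* Equiv.Perm (Fin 3) :=
    e.permCongrHom.toMonoidHom.comp (MulAction.toPermHom _ (Projectivization F (Fin 2 → F)))
  have hinj : Function.Injective ψ := e.permCongrHom.injective.comp MulAction.toPerm_injective
  have hψ : Function.Bijective ψ := (Nat.bijective_iff_injective_and_card ψ).mpr ⟨hinj, by
    rw [Nat.card_perm, Nat.card_fin, show Nat.factorial 3 = 6 from rfl]; omega⟩
  exact ⟨(MulEquiv.ofBijective π hπ).trans (MulEquiv.ofBijective ψ hψ)⟩

end Cfsg.Agent.S0250
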