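import Cfsg.Statements.S0251
import Mathlib
import Cfsg.Agent.Classical.SL

set_option autoImplicit false
open Cfsg

namespace Cfsg.Agent.S0251

/-- PSL_2(3) is isomorphic to A_4. -/
theorem result {F : Type*} [Field F] [Fintype F] (hF : Fintype.card F = 3) : Nonempty (Matrix.ProjectiveSpecialLinearGroup (Fin 2) F ≃* alternatingGroup (Fin 4)) := by
  classical
  haveI : Fintype (Projectivization F (Fin 2 → F)) := Fintype.ofFinite _
  have hc : Nat.card (Projectivization F (Fin 2 → F)) = 4 := by
    rw [Projectivization.card_of_finrank_two F (Fin 2 → F) (Module.finrank_fin_fun F), Nat.card_eq_fintype_card, hF]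
  let e : Projectivization F (Fin 2 → F) ≃ Fin 4 := Finite.equivFinOfCardEq hc
  let ψ : Matrix.ProjectiveSpecialLinearGroup (Fin 2) F →* Equiv.Perm (Fin 4) :=
    e.permCongrHom.toMonoidHom.comp (MulAction.toPermHom _ (Projectivization F (Fin 2 → F)))
  have hinj : Function.Injective ψ := e.permCongrHom.injective.comp MulAction.toPerm_injective
  have hr : ψ.range.index = 2 := by
    have h1 := ψ.range.card_mul_index
    have h2 := Classical.card_PSL_mul (ι := Fin 2) (F := F)
    have h3 := Classical.card_SL_mul (F := F) 2 (by norm_num)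
    rw [Fintype.card_fin, hF] at h2
    rw [hF, Fin.prod_univ_two] at h3
    norm_num [-Nat.card_eq_fintype_card] at h2 h3
    rw [← Nat.card_congr (MonoidHom.ofInjective hinj).toEquiv, Nat.card_perm, Nat.card_fin, show Nat.factorial 4 = 24 from rfl,
      show Nat.card (Matrix.ProjectiveSpecialLinearGroup (Fin 2) F) = 12 by omega] at h1
    omega
  exact ⟨(MonoidHom.ofInjective hinj).trans (MulEquiv.subgroupCongr (Equiv.Perm.eq_alternatingGroup_of_index_eq_two hr))⟩

end Cfsg.Agent.S0251
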