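import Cfsg.Statements.S0494

set_option autoImplicit false
open Cfsg

namespace Cfsg.Agent.S0494

/-- A simple group of order 60 is isomorphic to the alternating group of degree 5. -/
theorem result {G : Type*} [Group G] [Finite G] [IsSimpleGroup G]
    (h : Nat.card G = 60) : Nonempty (G ≃* alternatingGroup (Fin 5)) := by
  classical
  haveI : Fact (Nat.Prime 5) := ⟨by norm_num⟩
  haveI : Fintype G := Fintype.ofFinite G
  -- a nontrivial permutation representation is injective, with even image
  have key : ∀ (X : Type u_1) [Fintype X] [DecidableEq X] (φ : G →* Equiv.Perm X), φ ≠ 1 →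
      Function.Injective φ ∧ ∀ g, φ g ∈ alternatingGroup X := by
    intro X _ _ φ hφ
    have hinj : Function.Injective φ := by
      rcases (φ.normal_ker).eq_bot_or_eq_top with hk | hk
      · exact (MonoidHom.ker_eq_bot_iff φ).1 hk
      · exact absurd (MonoidHom.ext fun g => MonoidHom.mem_ker.1 (hk ▸ Subgroup.mem_top g)) hφ
    refine ⟨hinj, fun g => ?_⟩
    rcases ((Equiv.Perm.sign.comp φ).normal_ker).eq_bot_or_eq_top with hk | hk
    · have := Nat.card_le_card_of_injective _ ((MonoidHom.ker_eq_bot_iff _).1 hk)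
      rw [h, Nat.card_eq_fintype_card, Fintype.card_units_int] at this
      omega
    · exact MonoidHom.mem_ker.1 (hk ▸ Subgroup.mem_top g :
        g ∈ (Equiv.Perm.sign.comp φ).ker)
  -- six Sylow 5-subgroups
  obtain ⟨P⟩ : Nonempty (Sylow 5 G) := inferInstance
  have hP : Nat.card ↥(P : Subgroup G) = 5 := by
    rw [P.card_eq_multiplicity, h]
    have : (60 : ℕ).factorization 5 = 1 := by
      rw [show (60 : ℕ) = 5 ^ 1 * 12 by norm_num, Nat.factorization_mul (by norm_num) (by norm_num)]
      simp [Nat.factorization_eq_zero_of_not_dvd, (Fact.out : Nat.Prime 5).factorization_self]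
    rw [this, pow_one]
  have hindex : (P : Subgroup G).index = 12 := by
    have := (P : Subgroup G).card_mul_index
    rw [hP, h] at this
    omega
  have hn6 : Nat.card (Sylow 5 G) = 6 := by
    have hd : Nat.card (Sylow 5 G) ∣ 12 := hindex ▸ P.card_dvd_index
    have hm : Nat.card (Sylow 5 G) % 5 = 1 := card_sylow_modEq_one 5 G
    have hne : Nat.card (Sylow 5 G) ≠ 1 := by
      intro e
      haveI : Subsingleton (Sylow 5 G) := (Nat.card_eq_one_iff_unique.1 e).1
      haveI := P.normal_of_subsingleton
      rcases (inferInstance : (P : Subgroup G).Normal).eq_bot_or_eq_top with e' | e'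
      · rw [e', Subgroup.card_bot] at hP; omega
      · rw [e', Subgroup.card_top, h] at hP; omega
    have := Nat.le_of_dvd (by norm_num) hd
    interval_cases Nat.card (Sylow 5 G) <;> simp_all
  haveI : Fintype (Sylow 5 G) := Fintype.ofFinite _
  obtain ⟨hφi, hφa⟩ := key (Sylow 5 G) (MulAction.toPermHom G (Sylow 5 G)) (by
    intro e
    haveI : Subsingleton (Sylow 5 G) := ⟨fun a b => by
      obtain ⟨g, rfl⟩ := MulAction.exists_smul_eq G a b
      exact (congrArg (fun f : Equiv.Perm (Sylow 5 G) => f a) (DFunLike.congr_fun e g)).symm⟩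
    rw [Nat.card_unique] at hn6
    omega)
  let φ : G →* ↥(alternatingGroup (Sylow 5 G)) := (MulAction.toPermHom G (Sylow 5 G)).codRestrict _ hφa
  have hφ : Function.Injective φ := fun a b e => hφi (congrArg Subtype.val e)
  set R := φ.range with hR
  haveI : Nontrivial (Sylow 5 G) := Finite.one_lt_card_iff_nontrivial.1 (by omega)
  have hcardR : Nat.card ↥R = 60 := by
    rw [← h]; exact (Nat.card_congr (MonoidHom.ofInjective hφ).toEquiv).symm
  have hcardA : Nat.card ↥(alternatingGroup (Sylow 5 G)) = 360 := by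
    rw [nat_card_alternatingGroup, hn6]; rfl
  have hindexR : R.index = 6 := by
    have := R.card_mul_index
    rw [hcardR, hcardA] at this
    omega
  haveI : IsSimpleGroup ↥(alternatingGroup (Sylow 5 G)) := alternatingGroup.isSimpleGroup (by omega)
  let Ψ := MulAction.toPermHom ↥(alternatingGroup (Sylow 5 G)) (↥(alternatingGroup (Sylow 5 G)) ⧸ R)
  have hΨ : Function.Injective Ψ := by
    rcases (Ψ.normal_ker).eq_bot_or_eq_top with hk | hk
    · exact (MonoidHom.ker_eq_bot_iff Ψ).1 hk
    · exfalso
      have hle : Ψ.ker ≤ R := fun x hx => by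
        have := congrArg (fun f : Equiv.Perm _ => f ((1 : ↥(alternatingGroup (Sylow 5 G))) : _ ⧸ R))
          (MonoidHom.mem_ker.1 hx)
        simpa [Ψ, QuotientGroup.eq] using this
      rw [hk] at hle
      rw [top_le_iff.1 hle, Subgroup.index_top] at hindexR
      omega
  haveI : Fintype (↥(alternatingGroup (Sylow 5 G)) ⧸ R) := Fintype.ofFinite _
  set b : ↥(alternatingGroup (Sylow 5 G)) ⧸ R := ((1 : ↥(alternatingGroup (Sylow 5 G))) : _ ⧸ R) with hb
  let χ : G →* Equiv.Perm (↥(alternatingGroup (Sylow 5 G)) ⧸ R) := Ψ.comp φ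
  have hfix : ∀ g, χ g b = b := fun g => by
    show φ g • b = b
    rw [hb, MulAction.Quotient.smul_coe, smul_eq_mul, mul_one, QuotientGroup.eq, mul_one]
    exact R.inv_mem ⟨g, rfl⟩
  have hpres : ∀ g x, (χ g x ≠ b) ↔ x ≠ b := fun g x => not_congr
    ⟨fun e => (χ g).injective (e.trans (hfix g).symm), fun e => by rw [e, hfix]⟩
  let θ : G →* Equiv.Perm {x : ↥(alternatingGroup (Sylow 5 G)) ⧸ R // x ≠ b} :=
    { toFun := fun g => (χ g).subtypePerm (hpres g)
      map_one' := Equiv.ext fun x => Subtype.ext (by simp)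
      map_mul' := fun a c => Equiv.ext fun x => Subtype.ext (by simp; rfl) }
  have hθ1 : ∀ g, θ g = 1 → g = 1 := by
    intro g hg
    refine (hΨ.comp hφ) (show χ g = χ 1 from ?_)
    rw [map_one]
    refine Equiv.ext fun x => ?_
    by_cases hx : x = b
    · rw [hx, hfix]; rfl
    · exact congrArg Subtype.val (congrArg (fun f : Equiv.Perm _ => f (⟨x, hx⟩ : {x // x ≠ b})) hg)
  haveI : Nontrivial G := IsSimpleGroup.toNontrivial
  obtain ⟨hθi, hθa⟩ := key _ θ (by
    intro e
    obtain ⟨g, hg⟩ := exists_ne (1 : G)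
    exact hg (hθ1 g (DFunLike.congr_fun e g)))
  have hcard5 : Fintype.card {x : ↥(alternatingGroup (Sylow 5 G)) ⧸ R // x ≠ b} = 5 := by
    rw [Fintype.card_subtype_compl, Fintype.card_subtype_eq, ← Nat.card_eq_fintype_card]
    change R.index - 1 = 5
    omega
  let e := (Fintype.equivFinOfCardEq hcard5).altCongrHom
  let Θ : G →* ↥(alternatingGroup (Fin 5)) := e.toMonoidHom.comp (θ.codRestrict _ hθa)
  refine ⟨MulEquiv.ofBijective Θ ?_⟩
  have hΘ : Function.Injective Θ := fun a c hac => hθi (congrArg Subtype.val (e.injective hac))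
  refine hΘ.bijective_of_nat_card_le ?_
  rw [nat_card_alternatingGroup, h, Nat.card_eq_fintype_card, Fintype.card_fin]
  rfl

end Cfsg.Agent.S0494
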