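import Cfsg.Statements.S0253
import Mathlib
import Cfsg.Agent.S0494
import Cfsg.Agent.Classical.SL

set_option autoImplicit false
open Cfsg

namespace Cfsg.Agent.S0253

/-- PSL_2(5) is isomorphic to A_5. -/
theorem result {F : Type*} [Field F] [Fintype F] (hF : Fintype.card F = 5) : Nonempty (Matrix.ProjectiveSpecialLinearGroup (Fin 2) F ≃* alternatingGroup (Fin 5)) := by
  haveI : IsSimpleGroup (Matrix.ProjectiveSpecialLinearGroup (Fin 2) F) :=
    Matrix.ProjectiveSpecialLinearGroup.rank_two_simple (by simp [Nat.card_eq_fintype_card, hF])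
  refine Cfsg.Agent.S0494.result ?_
  have h1 := Classical.card_PSL_mul (ι := Fin 2) (F := F)
  have h2 := Classical.card_SL_mul (F := F) 2 (by norm_num)
  rw [Fintype.card_fin, hF] at h1
  rw [hF, Fin.prod_univ_two] at h2
  norm_num at h1 h2 ⊢
  omega

end Cfsg.Agent.S0253
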