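import Cfsg.Statements.S0263
import Cfsg.Agent.Classical.SL

set_option autoImplicit false
open Cfsg

namespace Cfsg.Agent.S0263

/-- A Sylow p-subgroup of GL_n(q), p the characteristic, has order q^(n(n-1)/2). -/
theorem result {F : Type*} [Field F] [Fintype F] {q : ℕ} (hF : Fintype.card F = q) (p : ℕ) [Fact p.Prime] [CharP F p] (n : ℕ) (P : Sylow p (Matrix.GeneralLinearGroup (Fin n) F)) : Nat.card P = q ^ (n * (n - 1) / 2) := by
  subst hF
  obtain ⟨k, hp, hq⟩ := FiniteField.card F p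
  set q := Fintype.card F with hqdef
  have h1 : 1 ≤ q := Fintype.card_pos
  have hsplit : ∏ i : Fin n, (q ^ n - q ^ (i : ℕ)) =
      q ^ (n * (n - 1) / 2) * ∏ i : Fin n, (q ^ (n - (i : ℕ)) - 1) := by
    rw [← Finset.sum_range_id n, ← Fin.sum_univ_eq_sum_range (fun i => i) n,
      ← Finset.prod_pow_eq_pow_sum, ← Finset.prod_mul_distrib]
    refine Finset.prod_congr rfl fun i _ => ?_
    rw [Nat.mul_sub, mul_one, ← pow_add, Nat.add_sub_cancel' i.2.le]
  have hndvd : ¬ p ∣ ∏ i : Fin n, (q ^ (n - (i : ℕ)) - 1) := by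
    rw [Prime.dvd_finsetProd_iff hp.prime]
    rintro ⟨i, -, hi⟩
    have h2 : p ∣ q ^ (n - (i : ℕ)) := dvd_pow (hq ▸ dvd_pow_self p k.ne_zero) (by omega)
    have h3 : 1 ≤ q ^ (n - (i : ℕ)) := Nat.one_le_pow _ _ h1
    have := Nat.dvd_sub h2 hi
    rw [Nat.sub_sub_self h3, Nat.dvd_one] at this
    exact hp.one_lt.ne' this
  have hne : ∏ i : Fin n, (q ^ (n - (i : ℕ)) - 1) ≠ 0 := fun h => hndvd (h ▸ dvd_zero p)
  have hq0 : q ^ (n * (n - 1) / 2) ≠ 0 := pow_ne_zero _ (by omega)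
  rw [Sylow.card_eq_multiplicity, Matrix.card_GL_field, hsplit, Nat.factorization_mul hq0 hne]
  simp only [Finsupp.add_apply, Nat.factorization_eq_zero_of_not_dvd hndvd, add_zero]
  rw [hq, ← pow_mul, Nat.Prime.factorization_pow hp, Finsupp.single_eq_same]

end Cfsg.Agent.S0263
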