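import Cfsg.Statements.S0264
import Cfsg.Agent.Classical.SL

set_option autoImplicit false
open Cfsg

namespace Cfsg.Agent.S0264

/-- GL_n(F)' = SL_n(F) (as the kernel of det), for every field F and every n, except n = 2 over the field of two elements. -/
theorem result {F : Type*} [Field F] (n : ℕ) (h : n = 2 → ∃ a : F, a ≠ 0 ∧ a ≠ 1) : commutator (Matrix.GeneralLinearGroup (Fin n) F) = (Matrix.GeneralLinearGroup.det : Matrix.GeneralLinearGroup (Fin n) F →* Fˣ).ker := by
  open scoped commutatorElement in
  refine le_antisymm (Abelianization.commutator_subset_ker _) ?_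
  rw [← Classical.toGL_range, MonoidHom.range_eq_map, Subgroup.map_le_iff_le_comap]
  rw [Classical.eq_top_of_transvection_mem (Subgroup.comap Matrix.SpecialLinearGroup.toGL (commutator (Matrix.GeneralLinearGroup (Fin n) F))) ?_]
  intro i j hij c
  show Matrix.SpecialLinearGroup.toGL (Classical.tv hij c) ∈ commutator (Matrix.GeneralLinearGroup (Fin n) F)
  by_cases h3 : 3 ≤ n
  · have h1 := Classical.tv_mem_commutatorSet (F := F) (by simpa using h3) hij c
    obtain ⟨x, y, hxy⟩ := h1
    rw [← hxy, commutatorElement_def, map_mul, map_mul, map_mul, map_inv, map_inv, ← commutatorElement_def]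
    exact Subgroup.commutator_mem_commutator (Subgroup.mem_top _) (Subgroup.mem_top _)
  · have hn2 : n = 2 := by
      have h1 := i.2
      have h2 := j.2
      have h4 : (i : ℕ) ≠ j := fun e => hij (Fin.ext e)
      omega
    obtain ⟨a, ha0, ha1⟩ := h hn2
    have hd : ∀ k, (if k = i then a else (1 : F)) ≠ 0 := fun k => by split_ifs <;> simp [ha0]
    let D : Matrix.GeneralLinearGroup (Fin n) F := Matrix.GeneralLinearGroup.mkOfDetNeZero
      (Matrix.diagonal fun k => if k = i then a else (1 : F)) (by
        rw [Matrix.det_diagonal]; exact Finset.prod_ne_zero_iff.2 fun k _ => hd k)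
    have key : D * Matrix.SpecialLinearGroup.toGL (Classical.tv hij (c / (a - 1))) =
        Matrix.SpecialLinearGroup.toGL (Classical.tv hij c) *
          Matrix.SpecialLinearGroup.toGL (Classical.tv hij (c / (a - 1))) * D := by
      rw [← map_mul, Classical.tv, Classical.tv, ← Matrix.SpecialLinearGroup.transvection_add]
      refine Units.ext ?_
      show (Matrix.diagonal fun k => if k = i then a else (1 : F)) * (1 + Matrix.single i j (c / (a - 1))) =
        (1 + Matrix.single i j (c + c / (a - 1))) * Matrix.diagonal fun k => if k = i then a else (1 : F)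
      ext k l
      simp only [Matrix.diagonal_mul, Matrix.mul_diagonal, Matrix.add_apply, Matrix.one_apply, Matrix.single_apply]
      have hne : a - 1 ≠ 0 := sub_ne_zero.2 ha1
      rcases eq_or_ne k i with rfl | hk
      · rcases eq_or_ne l j with rfl | hl
        · simp [hij, Ne.symm hij]; field_simp; ring
        · rcases eq_or_ne l k with rfl | hlk
          · simp [Ne.symm hl]
          · simp [Ne.symm hl, Ne.symm hlk]
      · rcases eq_or_ne l k with rfl | hlk
        · simp [hk, Ne.symm hk]
        · simp [Ne.symm hk, Ne.symm hlk]
    have h5 : ⁅D, Matrix.SpecialLinearGroup.toGL (Classical.tv hij (c / (a - 1)))⁆ =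
        Matrix.SpecialLinearGroup.toGL (Classical.tv hij c) := by
      rw [commutatorElement_def, key]; group
    rw [← h5]
    exact Subgroup.commutator_mem_commutator (Subgroup.mem_top _) (Subgroup.mem_top _)

end Cfsg.Agent.S0264
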