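import Cfsg.Statements.S0268
import Mathlib

set_option autoImplicit false
open Cfsg

namespace Cfsg.Agent.S0268

/-- For q odd, -1 is the unique involution of SL_2(q). -/
theorem result {F : Type*} [Field F] [Fintype F] (hF : Odd (Fintype.card F)) (g : Matrix.SpecialLinearGroup (Fin 2) F) (h1 : g ≠ 1) (h2 : g * g = 1) : (g : Matrix (Fin 2) (Fin 2) F) = -1 := by
  have hdet := Matrix.det_fin_two (g : Matrix (Fin 2) (Fin 2) F)
  rw [g.det_coe] at hdet
  have hm : (g : Matrix (Fin 2) (Fin 2) F) * g = 1 := congrArg Subtype.val h2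
  have e00 := congrFun (congrFun hm 0) 0
  have e01 := congrFun (congrFun hm 0) 1
  have e10 := congrFun (congrFun hm 1) 0
  have e11 := congrFun (congrFun hm 1) 1
  simp [Matrix.mul_apply, Fin.sum_univ_two] at e00 e01 e10 e11
  have two : (2 : F) ≠ 0 := by
    intro h
    haveI : CharP F 2 := CharP.ringChar_of_prime_eq_zero Nat.prime_two h ▸ ringChar.charP F
    obtain ⟨k, hk, hkc⟩ := FiniteField.card F 2
    rw [hkc, Nat.odd_pow_iff (PNat.pos k).ne'] at hF
    exact absurd hF (by decide)
  set A := (g : Matrix (Fin 2) (Fin 2) F) with hA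
  have hs : A 0 0 + A 1 1 ≠ 0 := by
    intro h
    apply two
    linear_combination (-1 : F) * e00 + hdet + A 0 0 * h
  have hb : A 0 1 = 0 := (mul_eq_zero.1 (show A 0 1 * (A 0 0 + A 1 1) = 0 by linear_combination e01)).resolve_right hs
  have hc : A 1 0 = 0 := (mul_eq_zero.1 (show A 1 0 * (A 0 0 + A 1 1) = 0 by linear_combination e10)).resolve_right hs
  simp [hb, hc] at e00 hdet
  rcases mul_self_eq_one_iff.1 e00 with h | h
  · refine absurd (Subtype.ext ?_) h1
    rw [h, one_mul] at hdet
    ext i j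
    fin_cases i <;> fin_cases j <;> simp [← hA, h, hb, hc, ← hdet]
  · rw [h] at hdet
    have hd : A 1 1 = -1 := by linear_combination hdet
    ext i j
    fin_cases i <;> fin_cases j <;> simp [h, hb, hc, hd]

end Cfsg.Agent.S0268
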