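import Cfsg.Statements.S0270
import Mathlib
import Cfsg.Agent.Classical.SympGen

set_option autoImplicit false
open Cfsg

namespace Cfsg.Agent.S0270
open Cfsg.Agent.Classical.Symp

/-- PSp_{2m}(q) is simple for m at least 2 and (m, q) other than (2, 2). -/
theorem result {F : Type*} [Field F] [Fintype F] (m : ℕ) (hm : 2 ≤ m) (h : m = 2 → 3 ≤ Fintype.card F) : IsSimpleGroup (Cfsg.PSp m F) := by
  have hperf : commutator (Matrix.symplecticGroup (Fin m) F) = ⊤ := perfect (by
    rw [Nat.card_eq_fintype_card]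
    rcases Nat.lt_or_ge m 3 with h3 | h3
    · exact Or.inr (Or.inl ⟨by omega, h (by omega)⟩)
    · exact Or.inl h3)
  set Z := Subgroup.center (Matrix.symplecticGroup (Fin m) F) with hZ
  have hZne : Z ≠ ⊤ := by
    intro htop
    have h1 : commutator (Matrix.symplecticGroup (Fin m) F) = ⊥ := by
      rw [eq_bot_iff, commutator_def, Subgroup.commutator_le]
      intro x _ y _
      rw [Subgroup.mem_bot, commutatorElement_eq_one_iff_mul_comm]
      exact Subgroup.mem_center_iff.1 (show y ∈ Z by rw [htop]; trivial) x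
    rw [hperf] at h1
    have h2 : T (F := F) (m := m) (Pi.single (Sum.inl ⟨0, by omega⟩) 1) 1 = 1 := Subgroup.mem_bot.1 (h1 ▸ Subgroup.mem_top _)
    have h3 := congrFun (congrArg (fun g => act g (Pi.single (Sum.inr ⟨0, by omega⟩) 1)) h2) (Sum.inl ⟨0, by omega⟩)
    simp [act_T, act_one, form_inl] at h3
  haveI : Nontrivial (Cfsg.PSp m F) := QuotientGroup.nontrivial_iff.2 hZne
  refine ⟨fun N hN => ?_⟩
  set π := QuotientGroup.mk' Z with hπ
  by_cases hle : N.comap π ≤ Z
  · left
    rw [eq_bot_iff]
    intro x hx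
    obtain ⟨g, rfl⟩ := QuotientGroup.mk'_surjective Z x
    exact Subgroup.mem_bot.2 ((QuotientGroup.eq_one_iff g).2 (hle hx))
  · right
    haveI := hN.comap π
    have := normal_eq_top hperf hle
    rw [← Subgroup.map_comap_eq_self_of_surjective (QuotientGroup.mk'_surjective Z) N, this,
      Subgroup.map_top_of_surjective _ (QuotientGroup.mk'_surjective Z)]

end Cfsg.Agent.S0270
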