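import Cfsg.Statements.S0276
import Mathlib
import Cfsg.Agent.Fus.PSL2

set_option autoImplicit false
open Cfsg

namespace Cfsg.Agent.S0276

theorem exists_klein {F : Type*} [Field F] [Fintype F] (hodd : Fintype.card F % 2 = 1) :
    ∃ V : Subgroup (Matrix.ProjectiveSpecialLinearGroup (Fin 2) F), Nat.card V = 4 ∧ ∀ g ∈ V, g * g = 1 := by
  obtain ⟨a, b, hab⟩ := Cfsg.Agent.Fus.exists_sq_add_sq_eq hodd (-1 : F)
  let w : Matrix.SpecialLinearGroup (Fin 2) F := ⟨!![0, 1; -1, 0], by rw [Matrix.det_fin_two_of]; ring⟩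
  let M : Matrix.SpecialLinearGroup (Fin 2) F := ⟨!![a, b; b, -a], by rw [Matrix.det_fin_two_of]; linear_combination -hab⟩
  have hcen : ∀ z : Matrix.SpecialLinearGroup (Fin 2) F, (z : Matrix (Fin 2) (Fin 2) F) = -1 → z ∈ Subgroup.center _ := by
    intro z hz
    rw [Subgroup.mem_center_iff]
    intro g
    apply Subtype.ext
    rw [Matrix.SpecialLinearGroup.coe_mul, Matrix.SpecialLinearGroup.coe_mul, hz, mul_neg, mul_one, neg_mul, one_mul]
  have hnc : ∀ z : Matrix.SpecialLinearGroup (Fin 2) F, (z : Matrix (Fin 2) (Fin 2) F) 0 1 ≠ 0 ∨ (z : Matrix (Fin 2) (Fin 2) F) 0 0 ≠ (z : Matrix (Fin 2) (Fin 2) F) 1 1 →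
      (QuotientGroup.mk z : Matrix.ProjectiveSpecialLinearGroup (Fin 2) F) ≠ 1 := by
    intro z hz h
    rw [QuotientGroup.eq_one_iff, Matrix.SpecialLinearGroup.mem_center_iff] at h
    obtain ⟨r, -, hr⟩ := h
    rw [← hr] at hz
    simp at hz
  let W : Matrix.ProjectiveSpecialLinearGroup (Fin 2) F := QuotientGroup.mk w
  let N : Matrix.ProjectiveSpecialLinearGroup (Fin 2) F := QuotientGroup.mk M
  have hW2 : W * W = 1 := by
    show (QuotientGroup.mk (w * w) : Matrix.ProjectiveSpecialLinearGroup (Fin 2) F) = 1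
    rw [QuotientGroup.eq_one_iff]
    apply hcen
    simp only [Matrix.SpecialLinearGroup.coe_mul]
    ext i j; fin_cases i <;> fin_cases j <;> simp [w, Matrix.SpecialLinearGroup.coe_mul, Matrix.mul_apply, Fin.sum_univ_two, Matrix.one_apply]
  have hN2 : N * N = 1 := by
    show (QuotientGroup.mk (M * M) : Matrix.ProjectiveSpecialLinearGroup (Fin 2) F) = 1
    rw [QuotientGroup.eq_one_iff]
    apply hcen
    simp only [Matrix.SpecialLinearGroup.coe_mul]
    ext i j; fin_cases i <;> fin_cases j <;> simp [M, Matrix.SpecialLinearGroup.coe_mul, Matrix.mul_apply, Fin.sum_univ_two, Matrix.one_apply] <;>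
      first | linear_combination hab | linear_combination -hab | ring
  have hWN2 : W * N * (W * N) = 1 := by
    show (QuotientGroup.mk (w * M * (w * M)) : Matrix.ProjectiveSpecialLinearGroup (Fin 2) F) = 1
    rw [QuotientGroup.eq_one_iff]
    apply hcen
    simp only [Matrix.SpecialLinearGroup.coe_mul]
    ext i j; fin_cases i <;> fin_cases j <;> simp [w, M, Matrix.SpecialLinearGroup.coe_mul, Matrix.mul_apply, Fin.sum_univ_two, Matrix.one_apply] <;>
      first | linear_combination hab | linear_combination -hab | ring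
  have hW1 : W ≠ 1 := hnc w (Or.inl (by simp [w]))
  have hne : ∀ z, (a ≠ 0 ∨ b ≠ 0) → z = M → (QuotientGroup.mk z : Matrix.ProjectiveSpecialLinearGroup (Fin 2) F) ≠ 1 := by
    rintro z h rfl
    refine hnc M ?_
    by_cases hb : b = 0
    · right
      simp [M]
      intro e
      have ha := h.resolve_right (not_not.mpr hb)
      have h2 := Cfsg.Agent.Fus.two_ne_zero_of_odd hodd
      exact ha ((mul_eq_zero.mp (by linear_combination e : (2 : F) * a = 0)).resolve_left h2)
    · left; simpa [M] using hb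
  have hab0 : a ≠ 0 ∨ b ≠ 0 := by
    by_contra h
    push Not at h
    rw [h.1, h.2] at hab
    norm_num at hab
  have hN1 : N ≠ 1 := hne M hab0 rfl
  have hWN1 : W * N ≠ 1 := by
    refine hnc (w * M) ?_
    simp only [Matrix.SpecialLinearGroup.coe_mul]
    by_cases ha : a = 0
    · right
      have hb := hab0.resolve_left (not_not.mpr ha)
      simp [w, M, Matrix.SpecialLinearGroup.coe_mul, Matrix.mul_apply, Fin.sum_univ_two]
      intro e
      have h2 := Cfsg.Agent.Fus.two_ne_zero_of_odd hodd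
      exact hb ((mul_eq_zero.mp (by linear_combination e : (2 : F) * b = 0)).resolve_left h2)
    · left; simpa [w, M, Matrix.SpecialLinearGroup.coe_mul, Matrix.mul_apply, Fin.sum_univ_two] using ha
  have iW : W⁻¹ = W := inv_eq_of_mul_eq_one_right hW2
  have iN : N⁻¹ = N := inv_eq_of_mul_eq_one_right hN2
  have hcomm : N * W = W * N := by
    have h := inv_eq_of_mul_eq_one_right hWN2
    rw [mul_inv_rev, iW, iN] at h
    exact h
  let φ : Multiplicative (ZMod 2) × Multiplicative (ZMod 2) → Matrix.ProjectiveSpecialLinearGroup (Fin 2) F :=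
    fun c => W ^ (Multiplicative.toAdd c.1).val * N ^ (Multiplicative.toAdd c.2).val
  let V : Subgroup (Matrix.ProjectiveSpecialLinearGroup (Fin 2) F) :=
    { carrier := {1, W, N, W * N}
      mul_mem' := by
        have t1 : W * (W * N) = N := by rw [← mul_assoc, hW2, one_mul]
        have t2 : N * (W * N) = W := by rw [← mul_assoc, hcomm, mul_assoc, hN2, mul_one]
        have t3 : W * N * W = N := by rw [mul_assoc, hcomm, ← mul_assoc, hW2, one_mul]
        have t4 : W * N * N = W := by rw [mul_assoc, hN2, mul_one]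
        rintro x y (rfl | rfl | rfl | rfl) (rfl | rfl | rfl | rfl) <;>
          simp [hW2, hN2, hWN2, hcomm, t1, t2, t3, t4]
      one_mem' := Or.inl rfl
      inv_mem' := by
        rintro x (rfl | rfl | rfl | rfl) <;> simp [iW, iN, mul_inv_rev, hcomm] }
  have hd : W ≠ N := fun h => hWN1 (by rw [← h]; exact hW2)
  refine ⟨V, ?_, ?_⟩
  · show Nat.card ({1, W, N, W * N} : Set (Matrix.ProjectiveSpecialLinearGroup (Fin 2) F)) = 4
    rw [Nat.card_coe_set_eq, Set.ncard_eq_four]
    exact ⟨1, W, N, W * N, hW1.symm, hN1.symm, hWN1.symm, hd, fun h => hN1 (mul_left_cancel (h.symm.trans (mul_one W).symm)),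
      fun h => hW1 (mul_right_cancel (h.symm.trans (one_mul N).symm)), rfl⟩
  · rintro g (rfl | rfl | rfl | rfl)
    exacts [one_mul 1, hW2, hN2, hWN2]



/-- For q = 3 or 5 mod 8 the Sylow 2-subgroups of PSL_2(q) are elementary abelian of order 4. -/
theorem result {F : Type*} [Field F] [Fintype F] {q : ℕ} (hF : Fintype.card F = q) (hq : q % 8 = 3 ∨ q % 8 = 5) (P : Sylow 2 (Matrix.ProjectiveSpecialLinearGroup (Fin 2) F)) : IsKleinFour (P : Subgroup (Matrix.ProjectiveSpecialLinearGroup (Fin 2) F)) := by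
  classical
  subst hF
  have hodd : Fintype.card F % 2 = 1 := by omega
  obtain ⟨V, hV4, hV2⟩ := exists_klein hodd
  set q := Fintype.card F with hqdef
  have h1 := Classical.card_PSL_mul (ι := Fin 2) (F := F)
  have h2 := Classical.card_SL_mul (F := F) 2 (by norm_num)
  rw [Fintype.card_fin, ← hqdef] at h1
  rw [Fin.prod_univ_two, ← hqdef] at h2
  have hg : Nat.gcd 2 (q - 1) = 2 := Nat.gcd_eq_left (by omega)
  rw [hg] at h1
  simp only [Fin.val_zero, Fin.val_one, pow_zero, pow_one] at h2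
  have hV' : IsPGroup 2 V := IsPGroup.of_card (n := 2) (by rw [hV4]; norm_num)
  obtain ⟨Q, hQ⟩ := hV'.exists_le_sylow
  have hnd : ¬ 8 ∣ Nat.card (Matrix.ProjectiveSpecialLinearGroup (Fin 2) F) := by
    rintro ⟨c, hc⟩
    rw [hc] at h1
    obtain ⟨s, hs⟩ : ∃ s, q = 8 * s + 3 ∨ q = 8 * s + 5 := ⟨q / 8, by omega⟩
    have h3 : Nat.card (Matrix.SpecialLinearGroup (Fin 2) F) * (q - 1) = q * (q - 1) * ((q + 1) * (q - 1)) := by
      rw [mul_comm, h2, ← Nat.sq_sub_sq q 1, one_pow]
      have e : q ^ 2 - q = q * (q - 1) := by rw [Nat.mul_sub, mul_one, sq]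
      rw [e]; ring
    have h4 : Nat.card (Matrix.SpecialLinearGroup (Fin 2) F) = q * ((q + 1) * (q - 1)) :=
      Nat.eq_of_mul_eq_mul_right (show 0 < q - 1 by omega) (h3.trans (by ring))
    rw [← h1] at h4
    rcases hs with hs | hs
    · rw [hs, show 8 * s + 3 - 1 = 2 * (4 * s + 1) by omega] at h4
      have e : 2 * (8 * c) = 8 * ((8 * s + 3) * (2 * s + 1) * (4 * s + 1)) := by rw [h4]; ring
      have hodd2 : Odd ((8 * s + 3) * (2 * s + 1) * (4 * s + 1)) :=
        (Odd.mul (Odd.mul ⟨4 * s + 1, by ring⟩ ⟨s, rfl⟩) ⟨2 * s, by ring⟩)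
      obtain ⟨r, hr⟩ := hodd2
      omega
    · rw [hs, show 8 * s + 5 - 1 = 4 * (2 * s + 1) by omega] at h4
      have e : 2 * (8 * c) = 8 * ((8 * s + 5) * (4 * s + 3) * (2 * s + 1)) := by rw [h4]; ring
      have hodd2 : Odd ((8 * s + 5) * (4 * s + 3) * (2 * s + 1)) :=
        (Odd.mul (Odd.mul ⟨4 * s + 2, by ring⟩ ⟨2 * s + 1, by ring⟩) ⟨s, rfl⟩)
      obtain ⟨r, hr⟩ := hodd2
      omega
  have hQV : V = (Q : Subgroup (Matrix.ProjectiveSpecialLinearGroup (Fin 2) F)) := by
    refine Subgroup.eq_of_le_of_card_ge hQ ?_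
    obtain ⟨k, hk⟩ := Q.isPGroup'.exists_card_eq
    rw [hV4, hk]
    by_contra hlt
    push Not at hlt
    have h3 : 3 ≤ k := by
      by_contra hk3
      have := Nat.pow_le_pow_right (show 0 < 2 by norm_num) (show k ≤ 2 by omega)
      omega
    exact hnd ((Nat.pow_dvd_pow 2 h3).trans (hk ▸ Subgroup.card_subgroup_dvd_card _))
  let e := P.equiv Q
  have hPc : Nat.card (P : Subgroup (Matrix.ProjectiveSpecialLinearGroup (Fin 2) F)) = 4 := by
    rw [Nat.card_congr e.toEquiv, ← hQV, hV4]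
  refine ⟨hPc, ?_⟩
  haveI : Nontrivial (P : Subgroup (Matrix.ProjectiveSpecialLinearGroup (Fin 2) F)) := Finite.one_lt_card_iff_nontrivial.mp (by omega)
  refine (Nat.dvd_prime Nat.prime_two).mp (Monoid.exponent_dvd_of_forall_pow_eq_one fun g => ?_) |>.resolve_left (fun h =>
    not_subsingleton (P : Subgroup (Matrix.ProjectiveSpecialLinearGroup (Fin 2) F)) (Monoid.exp_eq_one_iff.mp h))
  apply e.injective
  rw [map_pow, map_one, pow_two]
  exact Subtype.ext (hV2 _ (by rw [hQV]; exact (e g).2))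

end Cfsg.Agent.S0276
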