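import Cfsg.Statements.S0307
import Cfsg.Agent.Classical.SL

set_option autoImplicit false
open Cfsg

namespace Cfsg.Agent.S0307

/-- PSL_n(q) is normal in PGL_n(q) with cyclic quotient of order gcd(n, q-1): the image of the natural map PSL_n → PGL_n is the kernel of a surjective homomorphism onto the cyclic group of that order. -/
theorem result {F : Type*} [Field F] [Fintype F] {q : ℕ} (hF : Fintype.card F = q) (n : ℕ) (hn : 1 ≤ n) : ∃ g : Matrix.ProjGenLinGroup (Fin n) F →* Multiplicative (ZMod (Nat.gcd n (q - 1))), Function.Surjective g ∧ g.ker = (Matrix.ProjectiveSpecialLinearGroup.toPGL : Matrix.ProjectiveSpecialLinearGroup (Fin n) F →* Matrix.ProjGenLinGroup (Fin n) F).range := by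
  subst hF
  have : Nonempty (Fin n) := ⟨⟨0, hn⟩⟩
  set N : Subgroup Fˣ := (powMonoidHom (α := Fˣ) n).range
  have hcard : Nat.card (Fˣ ⧸ N) = Nat.gcd n (Fintype.card F - 1) := by
    show N.index = _
    rw [IsCyclic.index_powMonoidHom_range, Nat.card_units, Nat.card_eq_fintype_card (α := F), Nat.gcd_comm]
  have hcyc : IsCyclic (Fˣ ⧸ N) := isCyclic_of_surjective (QuotientGroup.mk' N) (QuotientGroup.mk'_surjective N)
  let e : (Fˣ ⧸ N) ≃* Multiplicative (ZMod (Nat.gcd n (Fintype.card F - 1))) :=
    (zmodCyclicMulEquiv hcyc).symm.trans (hcard ▸ MulEquiv.refl _)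
  let f : Matrix.GeneralLinearGroup (Fin n) F →* Multiplicative (ZMod (Nat.gcd n (Fintype.card F - 1))) :=
    e.toMonoidHom.comp ((QuotientGroup.mk' N).comp Matrix.GeneralLinearGroup.det)
  have hf : f.comp (Matrix.GeneralLinearGroup.scalar (Fin n)) = 1 := by
    refine MonoidHom.ext fun u => ?_
    have : Matrix.GeneralLinearGroup.det (Matrix.GeneralLinearGroup.scalar (Fin n) u) ∈ N :=
      ⟨u, Units.ext (by simp)⟩
    show e (QuotientGroup.mk' N _) = 1
    rw [QuotientGroup.mk'_apply, (QuotientGroup.eq_one_iff _).2 this, map_one]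
  refine ⟨Matrix.ProjGenLinGroup.lift f hf, ?_, ?_⟩
  · intro y
    obtain ⟨r, hr⟩ := QuotientGroup.mk'_surjective N (e.symm y)
    obtain ⟨g, hg⟩ := Classical.det_GL_surjective (ι := Fin n) r
    refine ⟨Matrix.ProjGenLinGroup.mk g, ?_⟩
    rw [Matrix.ProjGenLinGroup.lift_mk]
    show e (QuotientGroup.mk' N (Matrix.GeneralLinearGroup.det g)) = y
    rw [hg, hr, MulEquiv.apply_symm_apply]
  · ext x
    induction x using Matrix.ProjGenLinGroup.induction_on with
    | mk g =>
      rw [MonoidHom.mem_ker, Matrix.ProjGenLinGroup.lift_mk]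
      show e (QuotientGroup.mk' N (Matrix.GeneralLinearGroup.det g)) = 1 ↔ _
      rw [EmbeddingLike.map_eq_one_iff, QuotientGroup.mk'_apply, QuotientGroup.eq_one_iff]
      constructor
      · rintro ⟨r, hr⟩
        have hsl : g * Matrix.GeneralLinearGroup.scalar (Fin n) r⁻¹ ∈
            (Matrix.GeneralLinearGroup.det : Matrix.GeneralLinearGroup (Fin n) F →* Fˣ).ker := by
          have hdet : Matrix.GeneralLinearGroup.det (Matrix.GeneralLinearGroup.scalar (Fin n) r⁻¹) = (r ^ n)⁻¹ :=
            Units.ext (by simp)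
          rw [MonoidHom.mem_ker, map_mul, hdet, ← hr]; simp
        rw [← Classical.toGL_range] at hsl
        obtain ⟨A, hA⟩ := hsl
        refine ⟨QuotientGroup.mk A, ?_⟩
        rw [Matrix.ProjectiveSpecialLinearGroup.toPGL_mk, hA, map_mul, Matrix.ProjGenLinGroup.mk_scalar, mul_one]
      · rintro ⟨A, hA⟩
        induction A using QuotientGroup.induction_on with
        | _ A =>
          rw [Matrix.ProjectiveSpecialLinearGroup.toPGL_mk, Matrix.ProjGenLinGroup.mk_eq_mk_iff] at hA
          obtain ⟨u, hu⟩ := hA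
          refine ⟨u, ?_⟩
          have hA1 : Matrix.GeneralLinearGroup.det (Matrix.SpecialLinearGroup.toGL A) = 1 := Units.ext A.2
          rw [← hu, map_mul, hA1, one_mul]
          exact Units.ext (by simp)

end Cfsg.Agent.S0307
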