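import Cfsg.Statements.S0315
import Cfsg.Agent.BN.Basic

set_option autoImplicit false
open Cfsg

namespace Cfsg.Agent.S0315

/-- Standard parabolic subgroups intersect as the index sets do: `P_J ⊓ P_K = P_{J ∩ K}`. -/
theorem result {G : Type*} [Group G] (P : Cfsg.BNPair G) {J K : Set G}
    (hJ : J ⊆ P.S) (hK : K ⊆ P.S) : P.parabolic J ⊓ P.parabolic K = P.parabolic (J ∩ K) := by
  refine le_antisymm ?_ (le_inf ((BN.parabolic_le_iff P (fun x hx => hJ hx.1) hJ).2 Set.inter_subset_left)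
    ((BN.parabolic_le_iff P (fun x hx => hJ hx.1) hK).2 Set.inter_subset_right))
  have hB : P.B ≤ P.parabolic J ⊓ P.parabolic K := le_inf le_sup_left le_sup_left
  conv_lhs => rw [BN.exists_eq_parabolic P _ hB]
  refine (BN.parabolic_le_iff P (fun x hx => hx.1) (fun x hx => hJ hx.1)).2 (fun x hx => ?_)
  exact ⟨BN.mem_of_mem_parabolic P hJ hx.1 (Subgroup.mem_inf.1 hx.2).1, BN.mem_of_mem_parabolic P hK hx.1 (Subgroup.mem_inf.1 hx.2).2⟩

end Cfsg.Agent.S0315
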