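import Cfsg.Statements.S0316
import Cfsg.Agent.BN.Basic

set_option autoImplicit false
open Cfsg

namespace Cfsg.Agent.S0316

/-- The map `J ↦ P_J` is a lattice isomorphism from the power set of the set of distinguished generators onto the
subgroups containing `B`. -/
theorem result {G : Type*} [Group G] (P : Cfsg.BNPair G) :
    ∃ e : Set P.S ≃o {M : Subgroup G // P.B ≤ M},
      ∀ J : Set P.S, ((e J : {M : Subgroup G // P.B ≤ M}) : Subgroup G) = P.parabolic (Subtype.val '' J) := by
  have himg : ∀ J : Set P.S, Subtype.val '' J ⊆ P.S := by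
    rintro J _ ⟨x, _, rfl⟩; exact x.2
  let f : Set P.S → {M : Subgroup G // P.B ≤ M} := fun J => ⟨P.parabolic (Subtype.val '' J), le_sup_left⟩
  have hle : ∀ J K : Set P.S, f J ≤ f K ↔ J ≤ K := by
    intro J K
    refine (BN.parabolic_le_iff P (himg J) (himg K)).trans ?_
    exact Set.image_subset_image_iff Subtype.val_injective
  have hsurj : Function.Surjective f := by
    intro M
    refine ⟨{s : P.S | (s : G) ∈ M.1}, Subtype.ext ?_⟩
    show P.parabolic _ = M.1
    conv_rhs => rw [BN.exists_eq_parabolic P M.1 M.2]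
    congr 1
    ext x
    constructor
    · rintro ⟨y, hy, rfl⟩; exact ⟨y.2, hy⟩
    · rintro ⟨hx, hxM⟩; exact ⟨⟨x, hx⟩, hxM, rfl⟩
  exact ⟨OrderIso.ofRelIsoLT (RelIso.mk (Equiv.ofBijective f ⟨fun J K h => le_antisymm ((hle J K).1 h.le) ((hle K J).1 h.ge), hsurj⟩)
    (fun {a b} => by simp only [lt_iff_le_not_ge]; simp [Equiv.ofBijective, hle])), fun J => rfl⟩

end Cfsg.Agent.S0316
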