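import Cfsg.Statements.S0318
import Cfsg.Agent.BN.Basic

set_option autoImplicit false
open Cfsg

namespace Cfsg.Agent.S0318

/-- For `n ∈ N`, the subgroup generated by `B` and `n` coincides with the subgroup generated by `B` and the
conjugate `n B n⁻¹`. -/
theorem result {G : Type*} [Group G] (P : Cfsg.BNPair G) {n : G}
    (hn : n ∈ P.N) :
    P.B ⊔ Subgroup.closure {n} = P.B ⊔ P.B.map (MulAut.conj n).toMonoidHom := by
  refine le_antisymm (sup_le le_sup_left ((Subgroup.closure_le _).2 ?_)) (sup_le le_sup_left ?_)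
  · rintro x (rfl : x = n)
    exact (BN.word_of_conj_le P hn _ le_sup_left (fun b hb => Subgroup.mem_sup_right (Subgroup.mem_map.2 ⟨b, hb, rfl⟩))).1
  · rintro x ⟨b, hb, rfl⟩
    have hn' : n ∈ P.B ⊔ Subgroup.closure {n} := Subgroup.mem_sup_right (Subgroup.subset_closure rfl)
    exact mul_mem (mul_mem hn' (Subgroup.mem_sup_left hb)) (inv_mem hn')

end Cfsg.Agent.S0318
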