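import Cfsg.Statements.S0321
import Cfsg.Agent.BN.Basic

set_option autoImplicit false
open Cfsg

namespace Cfsg.Agent.S0321

/-- For `n ∈ N` not in `B`, the union `B ∪ B n B` is (the underlying set of) a subgroup exactly when `n` agrees
modulo `B ⊓ N` with one of the distinguished representatives; thus the distinguished involutions are
determined by `B` and `N`. -/
theorem result {G : Type*} [Group G] (P : Cfsg.BNPair G) {n : G}
    (hn : n ∈ P.N) (hnB : n ∉ P.B) :
    (∃ H : Subgroup G, (H : Set G) = (P.B : Set G) ∪ DoubleCoset.doubleCoset n (P.B : Set G) P.B) ↔ ∃ s ∈ P.S, s⁻¹ * n ∈ P.B := by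
  constructor
  · rintro ⟨H, hH⟩
    have hB : P.B ≤ H := fun b hb => by
      show b ∈ (H : Set G); rw [hH]; exact Or.inl hb
    have hnH : n ∈ H := by show n ∈ (H : Set G); rw [hH]; exact Or.inr (BN.self_mem_cell P n)
    obtain ⟨-, l, hl⟩ := BN.word_of_conj_le P hn H hB
      (fun b hb => mul_mem (mul_mem hnH (hB hb)) (inv_mem hnH))
    match l, hl with
    | [], hl => exact absurd (by simpa using (Subgroup.mem_inf.1 hl.2).1) hnB
    | t :: l, hl =>
      obtain ⟨htS, htH⟩ := hl.1 t List.mem_cons_self
      refine ⟨t, htS, ?_⟩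
      have : t ∈ (H : Set G) := htH
      rw [hH] at this
      rcases this with h | h
      · exact absurd h (BN.not_mem_B P htS)
      · exact (BN.cell_inj P (P.subset htS) hn).1 (BN.cell_eq P h)
  · rintro ⟨s, hs, hsn⟩
    refine ⟨P.parabolic {s}, Set.ext fun g => ?_⟩
    have hJ : ({s} : Set G) ⊆ P.S := Set.singleton_subset_iff.2 hs
    have hcell : BN.cell P n = BN.cell P s := ((BN.cell_inj P (P.subset hs) hn).2 hsn).symm
    show g ∈ P.parabolic {s} ↔ g ∈ (P.B : Set G) ∪ BN.cell P n
    constructor
    · intro hg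
      obtain ⟨w, hw, hgw⟩ := (BN.mem_parabolic_iff P hJ g).1 hg
      have hwsup : w ∈ Subgroup.closure ({s} : Set G) ⊔ BN.torus P := Subgroup.mem_sup_left hw
      obtain ⟨l, hl, hlen⟩ := BN.exists_reduced_sub P hJ hwsup
      have hwN := BN.closure_le_N P hJ hw
      match l, hl, hlen with
      | [], hl, _ =>
        left
        have hwB : w ∈ P.B := by simpa using (Subgroup.mem_inf.1 hl.2).1
        obtain ⟨a, ha, b, hb, rfl⟩ := (BN.mem_cell P).1 hgw
        exact mul_mem (mul_mem ha hwB) hb
      | [t], hl, _ =>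
        right
        have ht : t = s := hl.1 t (by simp)
        subst ht
        have h2 : t⁻¹ * w ∈ P.B := by simpa using (Subgroup.mem_inf.1 hl.2).1
        rw [hcell, (BN.cell_inj P (P.subset hs) hwN).2 h2]
        exact hgw
      | t :: u :: l, hl, hlen =>
        exfalso
        have ht : t = s := hl.1 t (by simp)
        have hu : u = s := hl.1 u (by simp)
        subst ht; subst hu
        have h1 := (hl.tail P).tail P
        rw [← mul_assoc, ← mul_inv_rev] at h1
        have h2 := BN.IsWord.torus_mul P hJ h1 (BN.sq_mem_torus P hs)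
        rw [mul_inv_cancel_left] at h2
        have := BN.len_le P (h2.mono P hJ)
        simp at hlen
        omega
    · rintro (hg | hg)
      · exact Subgroup.mem_sup_left hg
      · rw [hcell] at hg
        exact (BN.mem_parabolic_iff P hJ g).2 ⟨s, Subgroup.subset_closure rfl, hg⟩

end Cfsg.Agent.S0321
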