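import Cfsg.Statements.S0322
import Cfsg.Agent.BN.Basic

set_option autoImplicit false
open Cfsg

namespace Cfsg.Agent.S0322

/-- A group with a (B,N)-pair of rank one acts doubly transitively on the left cosets of `B`. -/
theorem result {G : Type*} [Group G] (P : Cfsg.BNPair G) (h : P.rank = 1) : MulAction.IsMultiplyPretransitive G (G ⧸ P.B) 2 := by
  obtain ⟨s, hs⟩ := Set.ncard_eq_one.1 (show P.S.ncard = 1 by rw [← Nat.card_coe_set_eq]; exact h)
  have hsS : s ∈ P.S := by rw [hs]; rfl
  have hcov : ∀ g : G, g ∉ P.B → ∃ a ∈ P.B, ∃ b ∈ P.B, g = a * s * b := by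
    intro g hg
    obtain ⟨n, hn, hgn⟩ := BN.bruhat P g
    obtain ⟨l, hl, hlen⟩ := BN.exists_reduced P hn
    match l, hl, hlen with
    | [], hl, _ =>
      exfalso; apply hg
      have hwB : n ∈ P.B := by simpa using (Subgroup.mem_inf.1 hl.2).1
      obtain ⟨a, ha, b, hb, rfl⟩ := (BN.mem_cell P).1 hgn
      exact mul_mem (mul_mem ha hwB) hb
    | [t], hl, _ =>
      have ht := hl.1 t (by simp)
      rw [hs] at ht
      have ht' : t = s := ht
      subst ht'
      have h2 : t⁻¹ * n ∈ P.B := by simpa using (Subgroup.mem_inf.1 hl.2).1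
      rw [← (BN.cell_inj P (P.subset hsS) hn).2 h2] at hgn
      exact (BN.mem_cell P).1 hgn
    | t :: u :: l, hl, hlen =>
      exfalso
      have ht := hl.1 t (by simp)
      have hu := hl.1 u (by simp)
      rw [hs] at ht hu
      have ht' : t = s := ht
      have hu' : u = s := hu
      subst ht'; subst hu'
      have h1 := (hl.tail P).tail P
      rw [← mul_assoc, ← mul_inv_rev] at h1
      have h2 := BN.IsWord.torus_mul P (le_refl _) h1 (BN.sq_mem_torus P hsS)
      rw [mul_inv_cancel_left] at h2
      have := BN.len_le P h2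
      simp at hlen
      omega
  rw [MulAction.is_two_pretransitive_iff]
  have key : ∀ x y : G ⧸ P.B, x ≠ y → ∃ g : G, g • (QuotientGroup.mk 1 : G ⧸ P.B) = x ∧ g • (QuotientGroup.mk s : G ⧸ P.B) = y := by
    intro x y hxy
    induction x using QuotientGroup.induction_on with
    | _ x =>
      induction y using QuotientGroup.induction_on with
      | _ y =>
        have hne : x⁻¹ * y ∉ P.B := fun hb => hxy (QuotientGroup.eq.2 hb)
        obtain ⟨a, ha, b, hb, hab⟩ := hcov _ hne
        refine ⟨x * a, ?_, ?_⟩
        · rw [MulAction.Quotient.smul_mk]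
          exact QuotientGroup.eq.2 (by simpa using inv_mem ha)
        · rw [MulAction.Quotient.smul_mk]
          refine QuotientGroup.eq.2 ?_
          have : ((x * a) • s)⁻¹ * y = b := by
            rw [smul_eq_mul]
            have e : y = x * (x⁻¹ * y) := by group
            rw [e, hab]; group
          rw [this]; exact hb
  intro a b c d hab hcd
  obtain ⟨g, hg1, hg2⟩ := key a b hab
  obtain ⟨k, hk1, hk2⟩ := key c d hcd
  exact ⟨k * g⁻¹, by rw [mul_smul, ← hg1, inv_smul_smul, hk1], by rw [mul_smul, ← hg2, inv_smul_smul, hk2]⟩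

end Cfsg.Agent.S0322
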