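import Cfsg.Statements.S0323
import Cfsg.Agent.BN.Basic

set_option autoImplicit false
open scoped Pointwise
open Cfsg

namespace Cfsg.Agent.S0323

/-- A doubly transitive action on a set with at least three points yields a (B,N)-pair of rank one:
`B` is the stabiliser of a point `x`, `N` the setwise stabiliser of a pair `{x, y}`. -/
theorem result {G Ω : Type*} [Group G] [MulAction G Ω]
    (h2 : MulAction.IsMultiplyPretransitive G Ω 2) {x y z : Ω} (hxy : x ≠ y) (hyz : y ≠ z) (hxz : x ≠ z) :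
    ∃ P : Cfsg.BNPair G, P.B = MulAction.stabilizer G x ∧
      P.N = MulAction.stabilizer G ({x, y} : Set Ω) ∧ P.rank = 1 := by
  haveI := h2
  rw [MulAction.is_two_pretransitive_iff] at h2
  obtain ⟨s, hsx, hsy⟩ := h2 (a := x) (b := y) (c := y) (d := x) hxy hxy.symm
  let B : Subgroup G := MulAction.stabilizer G x
  let N : Subgroup G := MulAction.stabilizer G ({x, y} : Set Ω)
  have hmB : ∀ g : G, g ∈ B ↔ g • x = x := fun g => Iff.rfl
  have hsB : s ∉ B := fun h => hxy (((hmB s).1 h).symm.trans hsx)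
  have hsN : s ∈ N := by
    refine MulAction.mem_stabilizer_iff.2 ?_
    rw [Set.smul_set_insert, Set.smul_set_singleton, hsx, hsy, Set.pair_comm]
  have hN : ∀ n ∈ N, (n • x = x ∧ n • y = y) ∨ (n • x = y ∧ n • y = x) := by
    intro n hn
    have h := MulAction.mem_stabilizer_iff.1 hn
    rw [Set.smul_set_insert, Set.smul_set_singleton] at h
    rcases Set.pair_eq_pair_iff.1 h with h | h
    · exact Or.inl h
    · exact Or.inr h
  have hcov : ∀ g : G, g ∈ (B : Set G) ∨ g ∈ DoubleCoset.doubleCoset s (B : Set G) B := by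
    intro g
    by_cases hg : g • x = x
    · exact Or.inl hg
    · obtain ⟨b, hbx, hby⟩ := h2 (a := x) (b := y) (c := x) (d := g • x) hxy (Ne.symm hg)
      refine Or.inr (DoubleCoset.mem_doubleCoset.2 ⟨b, hbx, s⁻¹ * b⁻¹ * g, ?_, by group⟩)
      show (s⁻¹ * b⁻¹ * g) • x = x
      rw [mul_smul, mul_smul, ← hby, inv_smul_smul, inv_smul_eq_iff, hsx]
  have hgen : ∀ n ∈ N, n ∈ B ⊓ N ∨ s⁻¹ * n ∈ B ⊓ N := by
    intro n hn
    rcases hN n hn with ⟨h, -⟩ | ⟨h, -⟩
    · exact Or.inl (Subgroup.mem_inf.2 ⟨h, hn⟩)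
    · refine Or.inr (Subgroup.mem_inf.2 ⟨?_, mul_mem (inv_mem hsN) hn⟩)
      show (s⁻¹ * n) • x = x
      rw [mul_smul, h, inv_smul_eq_iff, hsx]
  refine ⟨{ B := B, N := N, S := {s}, sup_eq_top := ?_, conj_mem := ?_, subset := ?_, sq_mem := ?_, inj := ?_, closure_sup := ?_, mul_mem_union := ?_, conj_ne := ?_ }, rfl, rfl, ?_⟩
  · refine top_le_iff.1 (fun g _ => ?_)
    rcases hcov g with h | h
    · exact Subgroup.mem_sup_left h
    · obtain ⟨a, ha, b, hb, rfl⟩ := DoubleCoset.mem_doubleCoset.1 h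
      exact mul_mem (mul_mem (Subgroup.mem_sup_left ha) (Subgroup.mem_sup_right hsN)) (Subgroup.mem_sup_left hb)
  · intro n hn t ht
    have htx : t • x = x := (Subgroup.mem_inf.1 ht).1
    have hty : t • y = y := by
      rcases hN t (Subgroup.mem_inf.1 ht).2 with h | h
      · exact h.2
      · exact absurd (htx.symm.trans h.1) hxy
    show (n * t * n⁻¹) • x = x
    rcases hN n hn with ⟨h, h'⟩ | ⟨h, h'⟩
    · have : n⁻¹ • x = x := by rw [inv_smul_eq_iff, h]
      rw [mul_smul, mul_smul, this, htx, h]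
    · have : n⁻¹ • x = y := by rw [inv_smul_eq_iff, h']
      rw [mul_smul, mul_smul, this, hty, h']
  · exact Set.singleton_subset_iff.2 hsN
  · intro s' hs'
    rw [Set.mem_singleton_iff] at hs'
    subst hs'
    show (s' * s') • x = x
    rw [mul_smul, hsx, hsy]
  · rintro _ rfl _ rfl _; rfl
  · refine le_antisymm (sup_le ((Subgroup.closure_le _).2 (Set.singleton_subset_iff.2 hsN)) inf_le_right) ?_
    intro n hn
    rcases hgen n hn with h | h
    · exact Subgroup.mem_sup_right h
    · have := mul_mem (Subgroup.mem_sup_left (T := B ⊓ N) (Subgroup.subset_closure (Set.mem_singleton s))) (Subgroup.mem_sup_right (S := Subgroup.closure {s}) h)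
      rwa [mul_inv_cancel_left] at this
  · intro s' hs' n hn b hb
    rw [Set.mem_singleton_iff] at hs'
    subst hs'
    have e : ∀ {m : G}, m ∈ B → DoubleCoset.doubleCoset m (B : Set G) B = (B : Set G) := by
      intro m hm; ext g
      simp only [DoubleCoset.mem_doubleCoset, SetLike.mem_coe]
      exact ⟨by rintro ⟨a, ha, c, hc, rfl⟩; exact mul_mem (mul_mem ha hm) hc,
        fun hg => ⟨g * m⁻¹, mul_mem hg (inv_mem hm), 1, one_mem _, by group⟩⟩
    have e2 : ∀ {m : G}, s'⁻¹ * m ∈ B → DoubleCoset.doubleCoset m (B : Set G) B = DoubleCoset.doubleCoset s' (B : Set G) B := by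
      intro m hm
      exact DoubleCoset.doubleCoset_eq_of_mem (DoubleCoset.mem_doubleCoset.2 ⟨1, one_mem _, s'⁻¹ * m, hm, by group⟩)
    rcases hgen n hn with h | h
    · have hnB := (Subgroup.mem_inf.1 h).1
      rw [e hnB, e2 (show s'⁻¹ * (s' * n) ∈ B by rwa [inv_mul_cancel_left])]
      exact (hcov _).symm
    · have hnB := (Subgroup.mem_inf.1 h).1
      have hsn : s' * n ∈ B := by
        have : s' * n = (s' * s') * (s'⁻¹ * n) := by group
        rw [this]
        refine mul_mem ?_ hnB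
        show (s' * s') • x = x
        rw [mul_smul, hsx, hsy]
      rw [e hsn, e2 hnB]
      exact hcov _
  · intro s' hs' h
    rw [Set.mem_singleton_iff] at hs'
    subst hs'
    obtain ⟨b, hbx, hby⟩ := h2 (a := x) (b := y) (c := x) (d := z) hxy hxz
    have hm : s' * b * s' ∈ (B : Set G) := h ▸ ⟨b, hbx, rfl⟩
    have h4 : (s' * b * s') • x = x := hm
    rw [mul_smul, mul_smul, hsx, hby] at h4
    exact hyz (MulAction.injective s' (hsy.trans h4.symm))
  · show Nat.card ({s} : Set G) = 1
    simp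

end Cfsg.Agent.S0323
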