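import Cfsg.Statements.S0326
import Mathlib

set_option autoImplicit false
open Cfsg

namespace Cfsg.Agent.S0326

/-- The Suzuki–Tits ovoid over a finite field with `q` elements has `q² + 1` points. -/
theorem result {F : Type*} [Field F] [Fintype F] (m : ℕ) :
    Nat.card (Cfsg.suzukiOvoid F m) = Fintype.card F ^ 2 + 1 := by
  classical
  let v : F × F → (Fin 4 → F) := fun p => ![p.1 * p.2 + p.1 ^ (2 ^ (m + 1) + 2) + p.2 ^ (2 ^ (m + 1)), p.2, p.1, 1]
  have hv : ∀ p, v p ≠ 0 := fun p h => one_ne_zero (congrFun h 3)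
  have hinf : (![1, 0, 0, 0] : Fin 4 → F) ≠ 0 := fun h => one_ne_zero (congrFun h 0)
  let φ : Option (F × F) → Projectivization F (Fin 4 → F) := fun o =>
    o.elim (Projectivization.mk F _ hinf) (fun p => Projectivization.mk F (v p) (hv p))
  have hinj : Function.Injective φ := by
    rintro (_ | p) (_ | p') h
    · rfl
    · obtain ⟨a, ha⟩ := (Projectivization.mk_eq_mk_iff' F _ _ hinf (hv p')).1 h
      have h3 : a = 0 := by simpa [v] using congrFun ha 3
      exact absurd (by rw [← ha, h3, zero_smul]) hinf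
    · obtain ⟨a, ha⟩ := (Projectivization.mk_eq_mk_iff' F _ _ (hv p) hinf).1 h
      have h3 : (0 : F) = 1 := by simpa [v] using congrFun ha 3
      exact absurd h3 zero_ne_one
    · obtain ⟨a, ha⟩ := (Projectivization.mk_eq_mk_iff' F _ _ (hv p) (hv p')).1 h
      have h3 : a = 1 := by simpa [v] using congrFun ha 3
      subst h3
      have h1 : p'.2 = p.2 := by simpa [v] using congrFun ha 1
      have h2 : p'.1 = p.1 := by simpa [v] using congrFun ha 2
      rw [Prod.ext h2 h1]
  have : Cfsg.suzukiOvoid F m = Set.range φ := by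
    ext P
    constructor
    · rintro ⟨w, hw, rfl, rfl | ⟨x, y, rfl⟩⟩
      · exact ⟨none, rfl⟩
      · exact ⟨some (x, y), rfl⟩
    · rintro ⟨_ | p, rfl⟩
      · exact ⟨_, hinf, rfl, Or.inl rfl⟩
      · exact ⟨_, hv p, rfl, Or.inr ⟨p.1, p.2, rfl⟩⟩
  rw [this, Nat.card_range_of_injective hinj, Finite.card_option, Nat.card_prod, Nat.card_eq_fintype_card, pow_two]

end Cfsg.Agent.S0326
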