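import Cfsg.Statements.S0350
-- import your own Cfsg.Agent.* helpers here

set_option autoImplicit false
open Cfsg

namespace Cfsg.Agent.S0350

/-- Counting pairs (t-subset, block containing it) in two ways: the number of blocks of a Steiner system with parameters (t, k, v), multiplied by C(k, t), equals C(v, t). -/
theorem result {α : Type*} [Fintype α] [DecidableEq α] {t k : ℕ} {B : Set (Finset α)} (hB : Cfsg.IsSteinerSystem t k B) : B.ncard * Nat.choose k t = Nat.choose (Fintype.card α) t := by
  classical
  have hBf : B.ncard = (Finset.univ.filter fun b => b ∈ B).card := by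
    rw [← Set.ncard_coe_finset]; simp
  rw [hBf, ← Finset.card_univ (α := α), ← Finset.card_powersetCard t Finset.univ]
  have hdisj : ((Finset.univ.filter fun b => b ∈ B : Finset (Finset α)) : Set (Finset α)).PairwiseDisjoint
      (fun b => Finset.powersetCard t b) := by
    intro a ha b hb hab
    rw [Function.onFun, Finset.disjoint_left]
    intro s hsa hsb
    rw [Finset.mem_powersetCard] at hsa hsb
    simp only [Finset.coe_filter, Finset.mem_univ, true_and] at ha hb
    exact hab ((hB.2 s hsa.2).unique ⟨ha, hsa.1⟩ ⟨hb, hsb.1⟩)
  have e : Finset.powersetCard t (Finset.univ : Finset α) =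
      (Finset.univ.filter fun b => b ∈ B).biUnion (fun b => Finset.powersetCard t b) := by
    ext s
    simp only [Finset.mem_powersetCard, Finset.mem_biUnion, Finset.mem_filter, Finset.mem_univ, true_and, Finset.subset_univ]
    constructor
    · intro hs
      obtain ⟨b, ⟨hb, hsb⟩, -⟩ := hB.2 s hs
      exact ⟨b, hb, hsb, hs⟩
    · rintro ⟨b, -, -, hs⟩
      exact hs
  rw [e, Finset.card_biUnion hdisj, Finset.sum_congr rfl (fun b hb => by
    rw [Finset.card_powersetCard, hB.1 b (Finset.mem_filter.1 hb).2]), Finset.sum_const, smul_eq_mul]

end Cfsg.Agent.S0350
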