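import Cfsg.Statements.S0351
import Mathlib

set_option autoImplicit false
open Cfsg

namespace Cfsg.Agent.S0351

/-- Derived design: removing a point p from the blocks through p of an S(t+1, k+1, v) yields an S(t, k, v-1) on the points other than p. -/
theorem result {α : Type*} [Fintype α] [DecidableEq α] {t k : ℕ} {B : Set (Finset α)} (hB : Cfsg.IsSteinerSystem (t + 1) (k + 1) B) (p : α) : Cfsg.IsSteinerSystem t k {b' : Finset {a : α // a ≠ p} | ∃ b ∈ B, p ∈ b ∧ b' = Finset.subtype (fun a => a ≠ p) b} := by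
  obtain ⟨h1, h2⟩ := hB
  refine ⟨?_, fun s hs => ?_⟩
  · rintro b' ⟨b, hb, hp, rfl⟩
    rw [Finset.card_subtype, Finset.filter_ne', Finset.card_erase_of_mem hp, h1 b hb]
    omega
  have hpS : p ∉ s.map (Function.Embedding.subtype _) := by simp
  obtain ⟨b, ⟨hb, hSb⟩, hu⟩ := h2 (insert p (s.map (Function.Embedding.subtype _))) (by rw [Finset.card_insert_of_notMem hpS, Finset.card_map, hs])
  rw [Finset.insert_subset_iff] at hSb
  refine ⟨_, ⟨⟨b, hb, hSb.1, rfl⟩, fun a ha => ?_⟩, ?_⟩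
  · rw [Finset.mem_subtype]
    exact hSb.2 (Finset.mem_map_of_mem _ ha)
  · rintro y ⟨⟨b2, hb2, hp2, rfl⟩, hy⟩
    rw [hu b2 ⟨hb2, Finset.insert_subset hp2 fun a ha => ?_⟩]
    obtain ⟨a', ha', rfl⟩ := Finset.mem_map.1 ha
    exact Finset.mem_subtype.1 (hy ha')

end Cfsg.Agent.S0351
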