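import Cfsg.Statements.S0368
import Cfsg.Agent.M24.Trans

set_option autoImplicit false
open scoped Pointwise
open Cfsg

namespace Cfsg.Agent.S0368

/-- The permutation group preserving the length-24 code is transitive on dodecads. -/
theorem result (d d' : Finset Cfsg.GolayPt) (hd : d ∈ Cfsg.dodecads) (hd' : d' ∈ Cfsg.dodecads) : ∃ g : Cfsg.M24, g • d = d' := by
  obtain ⟨a, ha, rfl⟩ := Cfsg.Agent.M24.exists_map_dodecad hd
  obtain ⟨b, hb, rfl⟩ := Cfsg.Agent.M24.exists_map_dodecad hd'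
  exact ⟨⟨b * a⁻¹, Cfsg.M24.mul_mem hb (Cfsg.M24.inv_mem ha)⟩, by simp [Subgroup.smul_def, mul_smul]⟩

end Cfsg.Agent.S0368
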