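import Cfsg.Statements.S0369
import Cfsg.Agent.M24.Canon

set_option autoImplicit false
open Cfsg

namespace Cfsg.Agent.S0369

open scoped Pointwise


/-- Twelve independent octads. -/
def octBasis : List ℕ := [13062145, 4845570, 13938692, 7221256, 10170384, 11952160, 15515712, 2019456, 4038912, 8077824, 11654144, 14919680]

/-- The group of the length-24 code coincides with the automorphism group of its octad system. -/
theorem result : Cfsg.M24 = Cfsg.setSystemAut Cfsg.octads := by
  ext g
  constructor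
  · intro hg
    refine (MulAction.mem_stabilizer_set_iff_smul_set_subset (Set.toFinite _)).2 ?_
    rintro _ ⟨s, hs, rfl⟩
    exact (Cfsg.Agent.M24.smul_mem_octads hg).2 hs
  · intro hg
    refine Cfsg.Agent.M24.mem_M24_of_rows fun r hr => ?_
    have hle : ∀ m ∈ octBasis, Cfsg.Agent.M24.toWord m ∈
        Cfsg.golayCode.comap (LinearMap.funLeft (ZMod 2) (ZMod 2) g.symm) := by
      intro m hm
      have hok : ∀ m ∈ octBasis, m < 2 ^ 24 ∧ Cfsg.Agent.M24.inCode m = true ∧ Cfsg.Agent.M24.pc m = 8 := by decide +kernel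
      obtain ⟨h1, h2, h3⟩ := hok m hm
      have ho : Cfsg.Agent.M24.toSet m ∈ Cfsg.octads := Cfsg.Agent.M24.mem_octads_iff.2 (by rw [Cfsg.Agent.M24.toMask_toSet h1]; exact ⟨h2, h3⟩)
      have ho' : g • Cfsg.Agent.M24.toSet m ∈ Cfsg.octads := by
        have := Set.smul_mem_smul_set (a := g) ho
        rwa [MulAction.mem_stabilizer_iff.1 hg] at this
      obtain ⟨v, hv, hs⟩ := ho'.1
      rw [Submodule.mem_comap]
      have : LinearMap.funLeft (ZMod 2) (ZMod 2) g.symm (Cfsg.Agent.M24.toWord m) = v := by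
        rw [← Cfsg.Agent.M24.toWord_support v, hs, ← Cfsg.Agent.M24.toWord_support (LinearMap.funLeft _ _ _ _)]
        rw [show Cfsg.support₂ (LinearMap.funLeft (ZMod 2) (ZMod 2) g.symm (Cfsg.Agent.M24.toWord m)) = g • Cfsg.Agent.M24.toSet m from
          (Cfsg.Agent.M24.support_comp g (Cfsg.Agent.M24.toWord m)).trans (by rw [Cfsg.Agent.M24.support_toWord])]
      rw [this]; exact hv
    have hrows : Cfsg.Agent.M24.rows = ([1, 2, 4, 8, 16, 32, 64, 128, 256, 512, 1024, 2048] : List ℕ).map (Cfsg.Agent.M24.comb octBasis) := by decide +kernel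
    rw [hrows] at hr
    obtain ⟨c, -, rfl⟩ := List.mem_map.1 hr
    exact ⟨_, Submodule.mem_comap.1 (Cfsg.Agent.M24.comb_mem _ _ hle c),
      (Cfsg.Agent.M24.support_comp g (Cfsg.Agent.M24.toWord (Cfsg.Agent.M24.comb octBasis c))).trans (by rw [Cfsg.Agent.M24.support_toWord])⟩

end Cfsg.Agent.S0369
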