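import Cfsg.Statements.S0377
import Cfsg.Agent.M24.Simple

set_option autoImplicit false
open Cfsg

namespace Cfsg.Agent.S0377

/-- A point stabiliser in the group of the length-24 code is simple. -/
theorem result (p : Cfsg.GolayPt) : IsSimpleGroup (MulAction.stabilizer Cfsg.M24 p) := by
  obtain ⟨g, hg, hp⟩ := Cfsg.Agent.M24.exists_map_pts (n := 1) (by norm_num) ![Cfsg.Agent.M24.pt 0] ![p]
    (Function.injective_of_subsingleton _) (Function.injective_of_subsingleton _)
  have hp : g (Cfsg.Agent.M24.pt 0) = p := hp 0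
  subst hp
  have := Cfsg.Agent.M24.isSimpleGroup_fix_one
  refine Cfsg.Agent.M24.isSimpleGroup_of_conj (H := Cfsg.Agent.M24.fixAll [1])
    (Cfsg.M24.subtype.comp (MulAction.stabilizer Cfsg.M24 _).subtype)
    (Subtype.val_injective.comp Subtype.val_injective) g fun v => ⟨?_, fun hv => ?_⟩
  · rintro ⟨⟨⟨w, hw⟩, hs⟩, rfl⟩
    refine ⟨Cfsg.M24.mul_mem (Cfsg.M24.mul_mem (Cfsg.M24.inv_mem hg) hw) hg, fun m hm => ?_⟩
    rw [List.mem_singleton] at hm; subst hm
    refine (Cfsg.Agent.M24.smul_toSet_two_pow_iff (i := 0) (j := 0) _ (by norm_num) (by norm_num)).2 ?_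
    have e : w (g (Cfsg.Agent.M24.pt 0)) = g (Cfsg.Agent.M24.pt 0) := hs
    simp [e]
  · have hw : v ∈ Cfsg.M24 := by
      have := Cfsg.M24.mul_mem (Cfsg.M24.mul_mem hg hv.1) (Cfsg.M24.inv_mem hg)
      simpa [mul_assoc] using this
    refine ⟨⟨⟨v, hw⟩, ?_⟩, rfl⟩
    have e := Cfsg.Agent.M24.fixAll_point hv (i := 0) (by norm_num) (by simp)
    simp [Equiv.symm_apply_eq] at e
    exact MulAction.mem_stabilizer_iff.2 e

end Cfsg.Agent.S0377
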