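import Cfsg.Statements.S0379
import Cfsg.Agent.M24.Simple

set_option autoImplicit false
open Cfsg

namespace Cfsg.Agent.S0379

/-- A two-point stabiliser in the group of the length-24 code is simple. -/
theorem result (p q : Cfsg.GolayPt) (hpq : p ≠ q) : IsSimpleGroup ↥(MulAction.stabilizer Cfsg.M24 p ⊓ MulAction.stabilizer Cfsg.M24 q) := by
  obtain ⟨g, hg, hp⟩ := Cfsg.Agent.M24.exists_map_pts (n := 2) (by norm_num) ![Cfsg.Agent.M24.pt 0, Cfsg.Agent.M24.pt 1] ![p, q]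
    (by decide +kernel) (by intro i j; fin_cases i <;> fin_cases j <;> simp [hpq, Ne.symm hpq])
  have hq : g (Cfsg.Agent.M24.pt 1) = q := hp 1
  have hp : g (Cfsg.Agent.M24.pt 0) = p := hp 0
  subst hp hq
  have := Cfsg.Agent.M24.isSimpleGroup_fix_two
  refine Cfsg.Agent.M24.isSimpleGroup_of_conj (H := Cfsg.Agent.M24.fixAll [2, 1])
    (Cfsg.M24.subtype.comp (Subgroup.subtype _))
    (Subtype.val_injective.comp Subtype.val_injective) g fun v => ⟨?_, fun hv => ?_⟩
  · rintro ⟨⟨⟨w, hw⟩, hs0, hs1⟩, rfl⟩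
    refine ⟨Cfsg.M24.mul_mem (Cfsg.M24.mul_mem (Cfsg.M24.inv_mem hg) hw) hg, fun m hm => ?_⟩
    simp only [List.mem_cons, List.not_mem_nil, or_false] at hm
    rcases hm with rfl | rfl
    · refine (Cfsg.Agent.M24.smul_toSet_two_pow_iff (i := 1) (j := 1) _ (by norm_num) (by norm_num)).2 ?_
      have e : w (g (Cfsg.Agent.M24.pt 1)) = g (Cfsg.Agent.M24.pt 1) := hs1
      simp [e]
    · refine (Cfsg.Agent.M24.smul_toSet_two_pow_iff (i := 0) (j := 0) _ (by norm_num) (by norm_num)).2 ?_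
      have e : w (g (Cfsg.Agent.M24.pt 0)) = g (Cfsg.Agent.M24.pt 0) := hs0
      simp [e]
  · have hw : v ∈ Cfsg.M24 := by
      have := Cfsg.M24.mul_mem (Cfsg.M24.mul_mem hg hv.1) (Cfsg.M24.inv_mem hg)
      simpa [mul_assoc] using this
    have e := Cfsg.Agent.M24.fixAll_point hv (i := 0) (by norm_num) (by simp)
    have e1 := Cfsg.Agent.M24.fixAll_point hv (i := 1) (by norm_num) (by simp)
    simp [Equiv.symm_apply_eq] at e e1
    exact ⟨⟨⟨v, hw⟩, MulAction.mem_stabilizer_iff.2 e, MulAction.mem_stabilizer_iff.2 e1⟩, rfl⟩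

end Cfsg.Agent.S0379
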