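import Cfsg.Statements.S0383
import Cfsg.Agent.M24.Simple

set_option autoImplicit false
open scoped Pointwise
open Cfsg

namespace Cfsg.Agent.S0383

/-- A dodecad stabiliser in the group of the length-24 code is simple. -/
theorem result (d : Finset Cfsg.GolayPt) (hd : d ∈ Cfsg.dodecads) : IsSimpleGroup (MulAction.stabilizer Cfsg.M24 d) := by
  obtain ⟨g, hg, rfl⟩ := Cfsg.Agent.M24.exists_map_dodecad hd
  have := Cfsg.Agent.M24.isSimpleGroup_fix_dod
  refine Cfsg.Agent.M24.isSimpleGroup_of_conj (H := Cfsg.Agent.M24.fixAll [Cfsg.Agent.M24.dod0])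
    (Cfsg.M24.subtype.comp (Subgroup.subtype _))
    (Subtype.val_injective.comp Subtype.val_injective) g fun v => ⟨?_, fun hv => ?_⟩
  · rintro ⟨⟨⟨w, hw⟩, hs⟩, rfl⟩
    refine ⟨Cfsg.M24.mul_mem (Cfsg.M24.mul_mem (Cfsg.M24.inv_mem hg) hw) hg, fun m hm => ?_⟩
    rw [List.mem_singleton] at hm; subst hm
    have e : w • (g • Cfsg.Agent.M24.toSet Cfsg.Agent.M24.dod0) = g • Cfsg.Agent.M24.toSet Cfsg.Agent.M24.dod0 := hs
    rw [mul_smul, mul_smul]
    show g⁻¹ • w • g • _ = _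
    rw [e, inv_smul_smul]
  · have hw : v ∈ Cfsg.M24 := by
      have := Cfsg.M24.mul_mem (Cfsg.M24.mul_mem hg hv.1) (Cfsg.M24.inv_mem hg)
      simpa [mul_assoc] using this
    have e := hv.2 _ List.mem_cons_self
    rw [mul_smul, mul_smul, inv_smul_eq_iff] at e
    exact ⟨⟨⟨v, hw⟩, MulAction.mem_stabilizer_iff.2 e⟩, rfl⟩

end Cfsg.Agent.S0383
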