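import Cfsg.Statements.S0384
import Cfsg.Agent.M24.Orders

set_option autoImplicit false
open scoped Pointwise
open Cfsg

namespace Cfsg.Agent.S0384

/-- A dodecad stabiliser is sharply 5-transitive on the dodecad. -/
theorem result (d : Finset Cfsg.GolayPt) (hd : d ∈ Cfsg.dodecads) (x y : Fin 5 ↪ Cfsg.GolayPt) (hx : ∀ i, x i ∈ d) (hy : ∀ i, y i ∈ d) : ∃! g : MulAction.stabilizer Cfsg.M24 d, ∀ i, ((g : Cfsg.M24) : Equiv.Perm Cfsg.GolayPt) (x i) = y i := by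
  obtain ⟨g, hg, rfl⟩ := Cfsg.Agent.M24.exists_map_dodecad hd
  have key : ∀ z : Fin 5 ↪ Cfsg.GolayPt, (∀ i, z i ∈ g • Cfsg.Agent.M24.toSet Cfsg.Agent.M24.dod0) →
      ∃ u ∈ Cfsg.Agent.M24.fixAll [Cfsg.Agent.M24.dod0],
        ∀ i : Fin 5, u (Cfsg.Agent.M24.pt (Cfsg.Agent.M24.dodFive[i.val]'(by simp [Cfsg.Agent.M24.dodFive])).1) = g⁻¹ (z i) := by
    intro z hz
    have hz' : ∀ i, (Cfsg.Agent.M24.dod0).testBit (Cfsg.Agent.M24.ix (g⁻¹ (z i))) = true := by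
      intro i
      have h := hz i
      rw [Finset.mem_smul_finset] at h
      obtain ⟨w, hw, e⟩ := h
      rw [← e]
      simpa [Equiv.Perm.smul_def] using Cfsg.Agent.M24.mem_toSet.1 hw
    obtain ⟨u, hu, hu'⟩ := Cfsg.Agent.M24.chain_map Cfsg.Agent.M24.dodFive [Cfsg.Agent.M24.dod0]
      (List.ofFn fun i => g⁻¹ (z i)) Cfsg.Agent.M24.dodFive_ok (by simp [Cfsg.Agent.M24.dodFive])
      (List.nodup_ofFn.2 ((Equiv.injective _).comp z.injective)) (by decide +kernel) (by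
        intro k h1 h2 m hm
        rw [List.mem_singleton] at hm
        subst hm
        rw [List.getElem_ofFn, hz']
        have : ∀ k (h : k < Cfsg.Agent.M24.dodFive.length), (Cfsg.Agent.M24.dod0).testBit (Cfsg.Agent.M24.dodFive[k]).1 = true := by
          decide +kernel
        exact (this k h1).symm)
    refine ⟨u, hu, fun i => ?_⟩
    have hlt : i.val < (Cfsg.Agent.M24.dodFive).length := by simp [Cfsg.Agent.M24.dodFive]
    have h := hu' i.val hlt (by rw [List.length_ofFn]; exact i.isLt)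
    rw [List.getElem_ofFn] at h
    exact h
  obtain ⟨a, ha, hax⟩ := key x hx
  obtain ⟨b, hb, hby⟩ := key y hy
  have hxy : ∀ i, g⁻¹ (y i) = (b * a⁻¹) (g⁻¹ (x i)) := fun i => by rw [← hax i, ← hby i]; simp
  refine ⟨⟨⟨g * (b * a⁻¹) * g⁻¹, Cfsg.M24.mul_mem (Cfsg.M24.mul_mem hg (Cfsg.M24.mul_mem hb.1
    (Cfsg.M24.inv_mem ha.1))) (Cfsg.M24.inv_mem hg)⟩, MulAction.mem_stabilizer_iff.2
      (Cfsg.Agent.M24.conj_smul (((Cfsg.Agent.M24.fixAll [Cfsg.Agent.M24.dod0]).mul_mem hb ((Cfsg.Agent.M24.fixAll _).inv_mem ha)).2 _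
        List.mem_cons_self))⟩, fun i => ?_, ?_⟩
  · show g ((b * a⁻¹) (g⁻¹ (x i))) = y i
    rw [← hxy]
    simp
  · rintro ⟨⟨h, hh⟩, hhd⟩ hhx
    simp only at hhx
    have hhd' : h • (g • Cfsg.Agent.M24.toSet Cfsg.Agent.M24.dod0) = g • Cfsg.Agent.M24.toSet Cfsg.Agent.M24.dod0 := hhd
    have hc1 := Cfsg.Agent.M24.card_fixAll_dodFive
    rw [Nat.card_eq_one_iff_unique] at hc1
    have hv : b⁻¹ * g⁻¹ * h * g * a ∈ Cfsg.Agent.M24.fixAll
        (((Cfsg.Agent.M24.dodFive.map fun ic => 2 ^ ic.1).reverse) ++ [Cfsg.Agent.M24.dod0]) := by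
      refine ⟨Cfsg.M24.mul_mem (Cfsg.M24.mul_mem (Cfsg.M24.mul_mem (Cfsg.M24.mul_mem
        (Cfsg.M24.inv_mem hb.1) (Cfsg.M24.inv_mem hg)) hh) hg) ha.1, fun m hm => ?_⟩
      simp only [List.mem_append, List.mem_reverse, List.mem_map, List.mem_singleton] at hm
      rcases hm with ⟨ic, hic, rfl⟩ | rfl
      · obtain ⟨k, hk, rfl⟩ := List.getElem_of_mem hic
        have hk5 : k < 5 := by simpa [Cfsg.Agent.M24.dodFive] using hk
        have hall : ∀ ic ∈ Cfsg.Agent.M24.dodFive, ic.1 < 24 := by decide +kernel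
        have hlt := hall _ (List.getElem_mem hk)
        refine (Cfsg.Agent.M24.smul_toSet_two_pow_iff _ hlt hlt).2 ?_
        simp only [Equiv.Perm.mul_apply]
        rw [hax ⟨k, hk5⟩]
        rw [show g (g⁻¹ (x ⟨k, hk5⟩)) = x ⟨k, hk5⟩ by simp]
        rw [hhx, ← hby ⟨k, hk5⟩]
        simp
      · rw [mul_smul, mul_smul, mul_smul, mul_smul, ha.2 _ List.mem_cons_self, hhd', inv_smul_smul,
          inv_smul_eq_iff, hb.2 _ List.mem_cons_self]
    have h1 : b⁻¹ * g⁻¹ * h * g * a = 1 := congrArg Subtype.val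
      (hc1.1.elim ⟨_, hv⟩ (1 : Cfsg.Agent.M24.fixAll (((Cfsg.Agent.M24.dodFive.map fun ic => 2 ^ ic.1).reverse) ++ [Cfsg.Agent.M24.dod0])))
    apply Subtype.ext
    apply Subtype.ext
    show h = g * (b * a⁻¹) * g⁻¹
    calc h = g * b * (b⁻¹ * g⁻¹ * h * g * a) * a⁻¹ * g⁻¹ := by group
      _ = _ := by rw [h1]; group

end Cfsg.Agent.S0384
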