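import Cfsg.Statements.S0385
import Cfsg.Agent.M24.Trans

set_option autoImplicit false
open Cfsg

namespace Cfsg.Agent.S0385

open scoped Pointwise

/-- The 6-point intersections of octads with a fixed dodecad form a Steiner system S(5, 6, 12) on the dodecad. -/
theorem result (d : Finset Cfsg.GolayPt) (hd : d ∈ Cfsg.dodecads) : Cfsg.IsSteinerSystem 5 6 {h : Finset {p : Cfsg.GolayPt // p ∈ d} | ∃ o ∈ Cfsg.octads, (o ∩ d).card = 6 ∧ h = Finset.subtype (fun p => p ∈ d) o} := by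
  obtain ⟨g, hg, rfl⟩ := Cfsg.Agent.M24.exists_map_dodecad hd
  refine ⟨?_, fun s hs => ?_⟩
  · rintro b ⟨o, -, h6, rfl⟩
    rw [← h6, ← Finset.filter_mem_eq_inter, Finset.card_subtype]
  · have h5 : (s.map (Function.Embedding.subtype _)).card = 5 := by rw [Finset.card_map, hs]
    obtain ⟨o, ⟨ho, hso⟩, huniq⟩ := Cfsg.Agent.M24.steiner_five.2 _ h5
    have hsd : s.map (Function.Embedding.subtype _) ⊆ o ∩ g • Cfsg.Agent.M24.toSet Cfsg.Agent.M24.dod0 := by
      intro x hx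
      refine Finset.mem_inter.2 ⟨hso hx, ?_⟩
      obtain ⟨y, -, rfl⟩ := Finset.mem_map.1 hx
      exact y.2
    have h6 : (o ∩ g • Cfsg.Agent.M24.toSet Cfsg.Agent.M24.dod0).card = 6 := by
      obtain ⟨m, hm, rfl⟩ := Cfsg.Agent.M24.exists_octad hg ho
      have h := Finset.card_le_card hsd
      rw [h5, Cfsg.Agent.M24.card_smul_inter] at h
      have key : ∀ m ∈ Cfsg.Agent.M24.octL, Cfsg.Agent.M24.pc (m &&& Cfsg.Agent.M24.dod0) = 2 ∨ Cfsg.Agent.M24.pc (m &&& Cfsg.Agent.M24.dod0) = 4 ∨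
          Cfsg.Agent.M24.pc (m &&& Cfsg.Agent.M24.dod0) = 6 := by decide +kernel
      rw [Cfsg.Agent.M24.card_smul_inter]
      rcases key m hm with e | e | e <;> omega
    refine ⟨Finset.subtype _ o, ⟨⟨o, ho, h6, rfl⟩, fun x hx => ?_⟩, ?_⟩
    · exact Finset.mem_subtype.2 (Finset.mem_inter.1 (hsd (Finset.mem_map_of_mem _ hx))).1
    · rintro b ⟨⟨o', ho', -, rfl⟩, hsb⟩
      rw [huniq o' ⟨ho', fun x hx => ?_⟩]
      obtain ⟨y, hy, rfl⟩ := Finset.mem_map.1 hx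
      exact Finset.mem_subtype.1 (hsb hy)

end Cfsg.Agent.S0385
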