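import Cfsg.Statements.S0386
import Cfsg.Agent.M24.Trans

set_option autoImplicit false
open Cfsg

namespace Cfsg.Agent.S0386

/-- For a fixed dodecad, 132 octads meet it in 6 points, 132 in 2 points and 495 in 4 points. -/
theorem result (d : Finset Cfsg.GolayPt) (hd : d ∈ Cfsg.dodecads) : {o : Finset Cfsg.GolayPt | o ∈ Cfsg.octads ∧ (o ∩ d).card = 6}.ncard = 132 ∧ {o : Finset Cfsg.GolayPt | o ∈ Cfsg.octads ∧ (o ∩ d).card = 2}.ncard = 132 ∧ {o : Finset Cfsg.GolayPt | o ∈ Cfsg.octads ∧ (o ∩ d).card = 4}.ncard = 495 := by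
  obtain ⟨g, hg, rfl⟩ := Cfsg.Agent.M24.exists_map_dodecad hd
  refine ⟨?_, ?_, ?_⟩
  · exact Cfsg.Agent.M24.ncard_octads_smul hg _ (fun m => Cfsg.Agent.M24.pc (m &&& Cfsg.Agent.M24.dod0) == 6) 132
      (fun m _ => by rw [Cfsg.Agent.M24.card_smul_inter, beq_iff_eq]) (by decide +kernel)
  · exact Cfsg.Agent.M24.ncard_octads_smul hg _ (fun m => Cfsg.Agent.M24.pc (m &&& Cfsg.Agent.M24.dod0) == 2) 132
      (fun m _ => by rw [Cfsg.Agent.M24.card_smul_inter, beq_iff_eq]) (by decide +kernel)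
  · exact Cfsg.Agent.M24.ncard_octads_smul hg _ (fun m => Cfsg.Agent.M24.pc (m &&& Cfsg.Agent.M24.dod0) == 4) 495
      (fun m _ => by rw [Cfsg.Agent.M24.card_smul_inter, beq_iff_eq]) (by decide +kernel)

end Cfsg.Agent.S0386
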