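import Cfsg.Statements.S0387
import Cfsg.Agent.M24.Orders

set_option autoImplicit false
open scoped Pointwise
open Cfsg

namespace Cfsg.Agent.S0387

/-- The stabiliser of a dodecad and a point on it has order 7920 = 2^4·3^2·5·11. -/
theorem result (d : Finset Cfsg.GolayPt) (hd : d ∈ Cfsg.dodecads) (p : Cfsg.GolayPt) (hp : p ∈ d) : Nat.card ↥(MulAction.stabilizer Cfsg.M24 d ⊓ MulAction.stabilizer Cfsg.M24 p) = 7920 := by
  rw [← Cfsg.Agent.M24.card_stab_dodecad_pt hd hp]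
  exact Nat.card_congr
    { toFun := fun x => ⟨x.1.1, ⟨⟨x.1.2, x.2.1⟩, x.2.2⟩⟩
      invFun := fun x => ⟨⟨x.1, x.2.1.1⟩, x.2.1.2, x.2.2⟩
      left_inv := fun x => rfl
      right_inv := fun x => rfl }

end Cfsg.Agent.S0387
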