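import Cfsg.Statements.S0388
import Cfsg.Agent.M24.Simple

set_option autoImplicit false
open scoped Pointwise
open Cfsg

namespace Cfsg.Agent.S0388

/-- The stabiliser of a dodecad and a point on it is simple. -/
theorem result (d : Finset Cfsg.GolayPt) (hd : d ∈ Cfsg.dodecads) (p : Cfsg.GolayPt) (hp : p ∈ d) : IsSimpleGroup ↥(MulAction.stabilizer Cfsg.M24 d ⊓ MulAction.stabilizer Cfsg.M24 p) := by
  obtain ⟨g, hg, rfl, rfl⟩ := Cfsg.Agent.M24.exists_map_dodecad_pt_mem hd hp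
  have := Cfsg.Agent.M24.isSimpleGroup_fix_dod_pt
  refine Cfsg.Agent.M24.isSimpleGroup_of_conj (H := Cfsg.Agent.M24.fixAll [1, Cfsg.Agent.M24.dod0])
    (Cfsg.M24.subtype.comp (Subgroup.subtype _))
    (Subtype.val_injective.comp Subtype.val_injective) g fun v => ⟨?_, fun hv => ?_⟩
  · rintro ⟨⟨⟨w, hw⟩, hs, hs0⟩, rfl⟩
    refine ⟨Cfsg.M24.mul_mem (Cfsg.M24.mul_mem (Cfsg.M24.inv_mem hg) hw) hg, fun m hm => ?_⟩
    simp only [List.mem_cons, List.not_mem_nil, or_false] at hm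
    rcases hm with rfl | rfl
    · refine (Cfsg.Agent.M24.smul_toSet_two_pow_iff (i := 0) (j := 0) _ (by norm_num) (by norm_num)).2 ?_
      have e : w (g (Cfsg.Agent.M24.pt 0)) = g (Cfsg.Agent.M24.pt 0) := hs0
      simp [e]
    · have e : w • (g • Cfsg.Agent.M24.toSet Cfsg.Agent.M24.dod0) = g • Cfsg.Agent.M24.toSet Cfsg.Agent.M24.dod0 := hs
      rw [mul_smul, mul_smul]
      show g⁻¹ • w • g • _ = _
      rw [e, inv_smul_smul]
  · have hw : v ∈ Cfsg.M24 := by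
      have := Cfsg.M24.mul_mem (Cfsg.M24.mul_mem hg hv.1) (Cfsg.M24.inv_mem hg)
      simpa [mul_assoc] using this
    have e := hv.2 Cfsg.Agent.M24.dod0 (by simp)
    rw [mul_smul, mul_smul, inv_smul_eq_iff] at e
    have e0 := Cfsg.Agent.M24.fixAll_point hv (i := 0) (by norm_num) (by simp)
    simp [Equiv.symm_apply_eq] at e0
    exact ⟨⟨⟨v, hw⟩, MulAction.mem_stabilizer_iff.2 e, MulAction.mem_stabilizer_iff.2 e0⟩, rfl⟩

end Cfsg.Agent.S0388
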