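import Cfsg.Statements.S0389
import Cfsg.Agent.M24.Orders

set_option autoImplicit false
open scoped Pointwise
open Cfsg

namespace Cfsg.Agent.S0389

/-- The stabiliser of a dodecad and a point on it is 3-transitive on the complementary dodecad. -/
theorem result (d : Finset Cfsg.GolayPt) (hd : d ∈ Cfsg.dodecads) (p : Cfsg.GolayPt) (hp : p ∈ d) (x y : Fin 3 ↪ Cfsg.GolayPt) (hx : ∀ i, x i ∉ d) (hy : ∀ i, y i ∉ d) : ∃ g ∈ MulAction.stabilizer Cfsg.M24 d ⊓ MulAction.stabilizer Cfsg.M24 p, ∀ i, (g : Equiv.Perm Cfsg.GolayPt) (x i) = y i := by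
  obtain ⟨g, hg, rfl, rfl⟩ := Cfsg.Agent.M24.exists_map_dodecad_pt_mem hd hp
  have key : ∀ z : Fin 3 ↪ Cfsg.GolayPt, (∀ i, z i ∉ g • Cfsg.Agent.M24.toSet Cfsg.Agent.M24.dod0) →
      ∃ u ∈ Cfsg.Agent.M24.fixAll [1, Cfsg.Agent.M24.dod0],
        ∀ i : Fin 3, u (Cfsg.Agent.M24.pt (Cfsg.Agent.M24.dodPtOut[i.val]'(by simp [Cfsg.Agent.M24.dodPtOut])).1) = g⁻¹ (z i) := by
    intro z hz
    have hz' : ∀ i, (Cfsg.Agent.M24.dod0).testBit (Cfsg.Agent.M24.ix (g⁻¹ (z i))) = false := by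
      intro i
      by_contra h
      rw [Bool.not_eq_false] at h
      exact hz i (Finset.mem_smul_finset.2 ⟨_, Cfsg.Agent.M24.mem_toSet.2 h, by simp⟩)
    have hz1 : ∀ i, Nat.testBit 1 (Cfsg.Agent.M24.ix (g⁻¹ (z i))) = false := by
      intro i
      have h : ∀ k < 24, (Cfsg.Agent.M24.dod0).testBit k = false → Nat.testBit 1 k = false := by decide +kernel
      exact h _ (Cfsg.Agent.M24.ix_lt _) (hz' i)
    obtain ⟨u, hu, hu'⟩ := Cfsg.Agent.M24.chain_map Cfsg.Agent.M24.dodPtOut [1, Cfsg.Agent.M24.dod0]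
      (List.ofFn fun i => g⁻¹ (z i)) Cfsg.Agent.M24.dodPtOut_ok (by simp [Cfsg.Agent.M24.dodPtOut])
      (List.nodup_ofFn.2 ((Equiv.injective _).comp z.injective)) (by decide +kernel) (by
        intro k h1 h2 m hm
        have : ∀ k (h : k < Cfsg.Agent.M24.dodPtOut.length), (Cfsg.Agent.M24.dod0).testBit (Cfsg.Agent.M24.dodPtOut[k]).1 = false ∧
            Nat.testBit 1 (Cfsg.Agent.M24.dodPtOut[k]).1 = false := by decide +kernel
        simp only [List.mem_cons, List.not_mem_nil, or_false] at hm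
        rw [List.getElem_ofFn]
        rcases hm with rfl | rfl
        · rw [hz1]; exact (this k h1).2.symm
        · rw [hz']; exact (this k h1).1.symm)
    refine ⟨u, hu, fun i => ?_⟩
    have hlt : i.val < (Cfsg.Agent.M24.dodPtOut).length := by simp [Cfsg.Agent.M24.dodPtOut]
    have h := hu' i.val hlt (by rw [List.length_ofFn]; exact i.isLt)
    rw [List.getElem_ofFn] at h
    exact h
  obtain ⟨a, ha, hax⟩ := key x hx
  obtain ⟨b, hb, hby⟩ := key y hy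
  have hu := (Cfsg.Agent.M24.fixAll [1, Cfsg.Agent.M24.dod0]).mul_mem hb ((Cfsg.Agent.M24.fixAll _).inv_mem ha)
  refine ⟨⟨g * (b * a⁻¹) * g⁻¹, Cfsg.M24.mul_mem (Cfsg.M24.mul_mem hg hu.1) (Cfsg.M24.inv_mem hg)⟩,
    ⟨MulAction.mem_stabilizer_iff.2 (Cfsg.Agent.M24.conj_smul (hu.2 _ (by simp))),
     MulAction.mem_stabilizer_iff.2 (Cfsg.Agent.M24.conj_apply (Cfsg.Agent.M24.fixAll_point hu (by norm_num) (by simp)))⟩,
    fun i => ?_⟩
  show g (b (a⁻¹ (g⁻¹ (x i)))) = y i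
  rw [← hax i]
  simp [hby i]

end Cfsg.Agent.S0389
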