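import Cfsg.Statements.S0392
import Cfsg.Agent.M24.LeechBasic

set_option autoImplicit false
open Cfsg

namespace Cfsg.Agent.S0392
open scoped Pointwise

/-- Sum of squares of every lattice vector is divisible by 16 (even lattice at scale 1/8). -/
theorem result (x : Cfsg.GolayPt → ℤ) (hx : x ∈ Cfsg.leechLattice) : (16 : ℤ) ∣ Cfsg.sqNorm x := by
  classical
  obtain ⟨m, h1, h2, h3⟩ := Cfsg.Agent.M24.mem_leechLattice_iff.1 hx
  set A := Cfsg.Agent.M24.lcls x m with hA
  have key : ∀ i, (16 : ℤ) ∣ x i ^ 2 - ((if i ∈ A then m else m + 2) ^ 2 +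
      2 * m * (x i - if i ∈ A then m else m + 2)) := by
    intro i
    have hp : x i % 2 = m % 2 := h1 i
    by_cases hi : i ∈ A
    · obtain ⟨b, hb⟩ : ∃ b, x i = m + 4 * b := ⟨(x i - m) / 4, by have := Cfsg.Agent.M24.mem_lcls.1 hi; omega⟩
      rw [if_pos hi, hb]
      exact ⟨b ^ 2, by ring⟩
    · obtain ⟨b, hb⟩ : ∃ b, x i = m + 2 + 4 * b := ⟨(x i - m - 2) / 4, by
        have : ¬ x i % 4 = m % 4 := fun h => hi (Cfsg.Agent.M24.mem_lcls.2 h)
        omega⟩
      rw [if_neg hi, hb]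
      exact ⟨b + b ^ 2, by ring⟩
  have hsum := Finset.dvd_sum fun i (_ : i ∈ (Finset.univ : Finset Cfsg.GolayPt)) => key i
  rw [Finset.sum_sub_distrib] at hsum
  have hr : ∑ i, ((if i ∈ A then m else m + 2) ^ 2 + 2 * m * (x i - if i ∈ A then m else m + 2)) =
      2 * m * ∑ i, x i + ∑ i, (if i ∈ A then -m ^ 2 else 4 - m ^ 2) := by
    rw [Finset.mul_sum, ← Finset.sum_add_distrib]
    refine Finset.sum_congr rfl fun i _ => ?_
    split <;> ring
  rw [hr, Finset.sum_ite, Finset.sum_const, Finset.sum_const, nsmul_eq_mul, nsmul_eq_mul,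
    Finset.filter_mem_eq_inter, Finset.univ_inter] at hsum
  have hc := Finset.card_filter_add_card_filter_not (s := (Finset.univ : Finset Cfsg.GolayPt)) (fun i => i ∈ A)
  rw [Finset.filter_mem_eq_inter, Finset.univ_inter, show (Finset.univ : Finset Cfsg.GolayPt).card = 24 by decide +kernel] at hc
  obtain ⟨a, ha⟩ : ∃ a : ℕ, A.card = 4 * a := ⟨A.card / 4, by have := Cfsg.Agent.M24.card_mod_four h3; omega⟩
  obtain ⟨t, ht⟩ := Int.modEq_iff_dvd.1 h2
  obtain ⟨k, hk⟩ := hsum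
  have hc' : ((4 * a : ℕ) : ℤ) + ((Finset.univ.filter fun i => i ∉ A).card : ℤ) = 24 := by
    rw [← ha]; exact_mod_cast hc
  rw [ha] at hk
  have hx' : ∑ i, x i = 4 * m - 8 * t := by linarith
  rw [hx', show ((Finset.univ.filter fun i => i ∉ A).card : ℤ) = 24 - ((4 * a : ℕ) : ℤ) by linarith] at hk
  refine ⟨k - m * t - m ^ 2 + 6 - a, ?_⟩
  rw [Cfsg.sqNorm]
  push_cast at hk
  linear_combination hk


end Cfsg.Agent.S0392
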