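import Cfsg.Statements.S0391
import Cfsg.Agent.M24.LeechBasic
import Cfsg.Agent.S0392

set_option autoImplicit false
open Cfsg

namespace Cfsg.Agent.S0391
open scoped Pointwise

/-- Nonzero lattice vectors have sum of squares ≥ 32 (no vectors of customary norm 2). -/
theorem result (x : Cfsg.GolayPt → ℤ) (hx : x ∈ Cfsg.leechLattice) (h0 : x ≠ 0) : 32 ≤ Cfsg.sqNorm x := by
  classical
  have h16 := Cfsg.Agent.S0392.result x hx
  obtain ⟨m, h1, h2, h3⟩ := Cfsg.Agent.M24.mem_leechLattice_iff.1 hx
  have hp : ∀ i, x i % 2 = m % 2 := h1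
  have h2' : (∑ i, x i) % 8 = 4 * m % 8 := h2
  rcases Int.emod_two_eq_zero_or_one m with hm | hm
  · -- even case: the coordinates not divisible by four form a code word
    set B := Finset.univ.filter fun i => x i % 4 ≠ 0 with hB
    have hBs : B ∈ Cfsg.supports (Cfsg.golayCode : Set (Cfsg.GolayPt → ZMod 2)) := by
      by_cases h4 : m % 4 = 0
      · refine Eq.subst (motive := fun S => S ∈ Cfsg.supports (Cfsg.golayCode : Set (Cfsg.GolayPt → ZMod 2))) ?_ (Cfsg.Agent.M24.sup_compl h3)
        ext i
        rw [Finset.mem_compl, Cfsg.Agent.M24.mem_lcls, hB, Finset.mem_filter, h4]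
        simp
      · refine Eq.subst (motive := fun S => S ∈ Cfsg.supports (Cfsg.golayCode : Set (Cfsg.GolayPt → ZMod 2))) ?_ h3
        ext i
        rw [Cfsg.Agent.M24.mem_lcls, hB, Finset.mem_filter]
        have := hp i
        simp only [Finset.mem_univ, true_and, ne_eq]
        omega
    by_cases hne : B.card = 0
    · have h4 : ∀ i, x i % 4 = 0 := by
        intro i
        by_contra h
        have : i ∈ B := by rw [hB, Finset.mem_filter]; exact ⟨Finset.mem_univ _, h⟩
        rw [Finset.card_eq_zero.1 hne] at this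
        simp at this
      let z : Cfsg.GolayPt → ℤ := fun i => x i / 4
      have hz : ∀ i, x i = 4 * z i := fun i => by
        have := h4 i
        simp only [z]
        omega
      have hS : Cfsg.sqNorm x = 16 * ∑ i, z i ^ 2 := by
        rw [Cfsg.sqNorm, Finset.mul_sum]
        exact Finset.sum_congr rfl fun i _ => by rw [hz]; ring
      have hL : ∑ i, x i = 4 * ∑ i, z i := by
        rw [Finset.mul_sum]; exact Finset.sum_congr rfl fun i _ => hz i
      have hpar : (2 : ℤ) ∣ ∑ i, z i ^ 2 - ∑ i, z i := by
        rw [← Finset.sum_sub_distrib]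
        refine Finset.dvd_sum fun i _ => ?_
        have := Int.even_mul_succ_self (z i - 1)
        rw [show z i ^ 2 - z i = (z i - 1) * (z i - 1 + 1) by ring]
        exact this.two_dvd
      obtain ⟨i, hi⟩ : ∃ i, x i ≠ 0 := Function.ne_iff.1 h0
      have hpos : 0 < ∑ i, z i ^ 2 := by
        refine Finset.sum_pos' (fun j _ => sq_nonneg _) ⟨i, Finset.mem_univ _, ?_⟩
        have : z i ≠ 0 := fun e => hi (by rw [hz, e, mul_zero])
        positivity
      omega
    · have h8 : 8 ≤ B.card := by
        rw [Cfsg.Agent.M24.mem_supports_iff] at hBs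
        have h := Cfsg.Agent.M24.pc_mem_of_inCode hBs
        rw [← Cfsg.Agent.M24.card_eq] at h
        simp only [List.mem_cons, List.not_mem_nil, or_false] at h
        omega
      have hle : (B.card : ℤ) * 4 ≤ Cfsg.sqNorm x := by
        rw [Cfsg.sqNorm, ← nsmul_eq_mul, ← Finset.sum_const]
        refine (Finset.sum_le_sum fun i hi => ?_).trans
          (Finset.sum_le_sum_of_subset_of_nonneg (Finset.subset_univ B) fun j _ _ => sq_nonneg _)
        rw [hB, Finset.mem_filter] at hi
        have := hp i
        have h2x : x i ≤ -2 ∨ 2 ≤ x i := by omega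
        rcases h2x with h | h <;> nlinarith
      omega
  · have hle : (24 : ℤ) ≤ Cfsg.sqNorm x := by
      have h24 : ((Finset.univ : Finset Cfsg.GolayPt).card : ℤ) = 24 := by
        rw [show (Finset.univ : Finset Cfsg.GolayPt).card = 24 by decide +kernel]; rfl
      rw [← h24, Cfsg.sqNorm, ← mul_one ((Finset.univ : Finset Cfsg.GolayPt).card : ℤ), ← nsmul_eq_mul, ← Finset.sum_const]
      refine Finset.sum_le_sum fun i _ => ?_
      have := hp i
      have h2x : x i ≤ -1 ∨ 1 ≤ x i := by omega
      rcases h2x with h | h <;> nlinarith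
    obtain ⟨k, hk⟩ := h16
    omega


end Cfsg.Agent.S0391
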