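import Cfsg.Statements.S0439
import Mathlib

set_option autoImplicit false
open Cfsg

namespace Cfsg.Agent.S0439

/-- In the symmetric group of degree n ≥ 2, the set of transpositions is a conjugacy class of 3-transpositions which generates the group. -/
theorem result (n : ℕ) (hn : 2 ≤ n) : Cfsg.IsThreeTranspositionClass {σ : Equiv.Perm (Fin n) | σ.IsSwap} := by
  classical
  refine ⟨⟨?_, ?_⟩, ⟨Equiv.swap ⟨0, by omega⟩ ⟨1, by omega⟩, ⟨_, _, by simp, rfl⟩, ?_⟩, Equiv.Perm.closure_isSwap⟩
  · rintro d ⟨x, y, hxy, rfl⟩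
    exact orderOf_eq_prime (by rw [pow_two, Equiv.swap_mul_self]) (fun h => hxy (by simpa using (DFunLike.congr_fun h x).symm))
  · rintro d ⟨x, y, hxy, rfl⟩ e ⟨a, b, hab, rfl⟩
    by_cases h1 : x = a ∨ x = b ∨ y = a ∨ y = b
    · by_cases h2 : Equiv.swap x y = Equiv.swap a b
      · left; rw [h2, Equiv.swap_mul_self, one_pow]
      · right
        have h3 : Equiv.Perm.IsThreeCycle (Equiv.swap x y * Equiv.swap a b) := by
          rcases h1 with h | h | h | h <;> subst h
          · exact Equiv.Perm.isThreeCycle_swap_mul_swap_same hxy hab (fun e => h2 (by rw [e]))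
          · rw [Equiv.swap_comm a x] at h2 ⊢
            exact Equiv.Perm.isThreeCycle_swap_mul_swap_same hxy hab.symm (fun e => h2 (by rw [e]))
          · rw [Equiv.swap_comm x y] at h2 ⊢
            exact Equiv.Perm.isThreeCycle_swap_mul_swap_same hxy.symm hab (fun e => h2 (by rw [e]))
          · rw [Equiv.swap_comm x y, Equiv.swap_comm a y] at h2 ⊢
            exact Equiv.Perm.isThreeCycle_swap_mul_swap_same hxy.symm hab.symm (fun e => h2 (by rw [e]))
        rw [← h3.orderOf, pow_orderOf_eq_one]
    · left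
      push Not at h1
      obtain ⟨a1, a2, a3, a4⟩ := h1
      have hd : Equiv.Perm.Disjoint (Equiv.swap x y) (Equiv.swap a b) := by
        intro z
        by_cases hz : z = x ∨ z = y
        · right
          rcases hz with rfl | rfl
          exacts [Equiv.swap_apply_of_ne_of_ne a1 a2, Equiv.swap_apply_of_ne_of_ne a3 a4]
        · left
          push Not at hz
          exact Equiv.swap_apply_of_ne_of_ne hz.1 hz.2
      rw [hd.commute.mul_pow, pow_two, pow_two, Equiv.swap_mul_self, Equiv.swap_mul_self, one_mul]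
  · ext σ
    show _ ↔ IsConj _ σ; rw [Set.mem_setOf_eq, isConj_comm]
    constructor
    · rintro ⟨x, y, hxy, rfl⟩
      exact Equiv.Perm.isConj_swap hxy (by simp)
    · intro h
      rw [isConj_comm, isConj_iff] at h
      obtain ⟨c, rfl⟩ := h
      refine ⟨c ⟨0, by omega⟩, c ⟨1, by omega⟩, fun e => by simpa using c.injective e, ?_⟩
      rw [Equiv.swap_apply_apply]

end Cfsg.Agent.S0439
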