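import Cfsg.Statements.S0443
import Mathlib.GroupTheory.Sylow
import Mathlib.Tactic.Group

set_option autoImplicit false
open Cfsg

namespace Cfsg.Agent.S0443

/-- Two definitions of a 2-central involution agree: an element t of order 2 of a finite group lies in the centre of some Sylow 2-subgroup if and only if its centraliser contains some Sylow 2-subgroup. -/
theorem result {G : Type*} [Group G] [Finite G] (t : G) (ht : orderOf t = 2) : Cfsg.IsTwoCentralInvolution t ↔ ∃ P : Sylow 2 G, (P : Subgroup G) ≤ Subgroup.centralizer ({t} : Set G) := by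
  constructor
  · rintro ⟨_, P, _, hx⟩
    exact ⟨P, fun x hx' => Subgroup.mem_centralizer_singleton_iff.mpr (hx x hx')⟩
  · rintro ⟨P, hP⟩
    haveI : Fact (Nat.Prime 2) := ⟨Nat.prime_two⟩
    have hc : ∀ x ∈ P, x * t = t * x := fun x hx => Subgroup.mem_centralizer_singleton_iff.mp (hP hx)
    refine ⟨ht, P, ?_, hc⟩
    have hz : IsPGroup 2 ↥(Subgroup.zpowers t) := IsPGroup.of_card (n := 1) (by rw [Nat.card_zpowers, ht, pow_one])
    have hn : Subgroup.zpowers t ≤ Subgroup.normalizer ((P : Subgroup G) : Set G) := by
      rw [Subgroup.zpowers_le, Subgroup.mem_normalizer_iff]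
      intro x
      constructor
      · intro hx
        rw [← hc x hx, mul_inv_cancel_right]; exact hx
      · intro hx
        have h := hc _ hx
        have e : t * x * t⁻¹ = x := by
          have : t * x * t⁻¹ * t = t * (t * x * t⁻¹) := h
          rw [inv_mul_cancel_right] at this
          exact (mul_left_cancel this).symm
        rwa [e] at hx
    have hle : (P : Subgroup G) ⊔ Subgroup.zpowers t = P :=
      P.is_maximal' (P.2.to_sup_of_normal_left' hz hn) le_sup_left
    exact hle.le (Subgroup.mem_sup_right (Subgroup.mem_zpowers t))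

end Cfsg.Agent.S0443
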