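import Cfsg.Statements.S0446
import Mathlib.GroupTheory.PGroup
import Mathlib.GroupTheory.Sylow

set_option autoImplicit false
open Cfsg

namespace Cfsg.Agent.S0446

/-- Every finite group of even order contains a 2-central involution, i.e. an element of order 2 in the centre of some Sylow 2-subgroup. -/
theorem result {G : Type*} [Group G] [Finite G] (h : Even (Nat.card G)) : ∃ t : G, Cfsg.IsTwoCentralInvolution t := by
  haveI : Fact (Nat.Prime 2) := ⟨Nat.prime_two⟩
  let P : Sylow 2 G := default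
  have hne : (P : Subgroup G) ≠ ⊥ := P.ne_bot_of_dvd_card (even_iff_two_dvd.mp h)
  haveI : Nontrivial ↥(P : Subgroup G) := (Subgroup.nontrivial_iff_ne_bot _).mpr hne
  haveI : Nontrivial ↥(Subgroup.center ↥(P : Subgroup G)) := P.2.center_nontrivial
  obtain ⟨n, hn, hc⟩ := (P.2.to_subgroup (Subgroup.center _)).nontrivial_iff_card.mp inferInstance
  obtain ⟨z, hz⟩ := exists_prime_orderOf_dvd_card' (G := ↥(Subgroup.center ↥(P : Subgroup G))) 2
    (hc ▸ dvd_pow_self 2 hn.ne')
  refine ⟨((z : ↥(P : Subgroup G)) : G), ?_, P, z.1.2, fun x hx => ?_⟩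
  · rw [Subgroup.orderOf_coe, Subgroup.orderOf_coe, hz]
  · exact congrArg Subtype.val (Subgroup.mem_center_iff.mp z.2 ⟨x, hx⟩)

end Cfsg.Agent.S0446
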