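import Cfsg.Statements.S0988
import Cfsg.Agent.Transfer.Frobenius
import Cfsg.Agent.Char.Integral
import Mathlib

set_option autoImplicit false
open Cfsg

namespace Cfsg.Agent.S0988

theorem no_npc {G : Type*} [Group G] [Finite G] [IsSimpleGroup G] (hns : ¬ Group.IsSolvable G) (p : ℕ)
    [Fact p.Prime] (hpG : p ∣ Nat.card G) : ¬ Cfsg.HasNormalPComplement p G := by
  intro h
  obtain ⟨K, hK, hKc, hKi⟩ := Cfsg.Agent.Transfer.hasNPC_iff.mp h
  rcases hK.eq_bot_or_eq_top with rfl | rfl
  · obtain ⟨m, hm⟩ := hKi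
    rw [Subgroup.index_bot] at hm
    haveI : Group.IsNilpotent G := (IsPGroup.of_card hm).isNilpotent
    exact hns inferInstance
  · rw [Subgroup.card_top] at hKc
    exact hKc hpG

theorem min_prime_aux {G : Type*} [Group G] [Finite G] [IsSimpleGroup G] (hns : ¬ Group.IsSolvable G) (p : ℕ)
    [Fact p.Prime] (hpG : p ∣ Nat.card G) (h3 : ¬ p ^ 3 ∣ Nat.card G)
    (hmin : ∀ r : ℕ, r.Prime → r ∣ Nat.card G → p ≤ r) : p = 2 ∧ 3 ∣ Nat.card G := by
  classical
  have hp : p.Prime := Fact.out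
  have hnpc : ¬ Cfsg.Agent.Transfer.FrobCond p G :=
    fun h => no_npc hns p hpG (Cfsg.Agent.Transfer.hasNPC_of_frobCond h)
  simp only [Cfsg.Agent.Transfer.FrobCond, not_forall] at hnpc
  obtain ⟨Q, hQ, g, hg, hgc, hgn⟩ := hnpc
  let φ : ↥(Subgroup.normalizer (Q : Set G)) →* MulAut Q := Q.normalizerMonoidHom
  have hne : φ ⟨g, hg⟩ ≠ 1 := by
    intro e
    refine hgn (Subgroup.mem_centralizer_iff.2 fun q hq => ?_)
    have := congrArg Subtype.val (DFunLike.congr_fun e (⟨q, hq⟩ : Q))
    have h' : g * q * g⁻¹ = q := this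
    calc q * g = g * q * g⁻¹ * g := by rw [h']
      _ = g * q := by group
  obtain ⟨r, hr, hrd⟩ := Nat.exists_prime_and_dvd
    (show orderOf (φ ⟨g, hg⟩) ≠ 1 from fun e => hne (orderOf_eq_one_iff.1 e))
  have hrg : r ∣ orderOf g := hrd.trans ((orderOf_map_dvd φ _).trans (Subgroup.orderOf_mk ..).dvd)
  have hr2 : r ≠ p := fun e => by
    have := Nat.eq_one_of_dvd_coprimes hgc (e ▸ hrg) dvd_rfl
    exact hp.one_lt.ne' this
  have hrG : r ∣ Nat.card G := hrg.trans (orderOf_dvd_natCard g)
  haveI := Fact.mk hr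
  set σ := φ ⟨g, hg⟩ ^ (orderOf (φ ⟨g, hg⟩) / r) with hσd
  have hσ : orderOf σ = r := orderOf_pow_orderOf_div (orderOf_pos _).ne' hrd
  have hZ : IsPGroup r (Subgroup.zpowers σ) := IsPGroup.of_card (n := 1) (by rw [Nat.card_zpowers, hσ, pow_one])
  have hmod := hZ.card_modEq_card_fixedPoints Q
  let F : Subgroup Q :=
    { carrier := {x | σ x = x}
      one_mem' := map_one σ
      mul_mem' := fun {a b} ha hb => by simp only [Set.mem_setOf_eq, map_mul] at ha hb ⊢; rw [ha, hb]
      inv_mem' := fun {a} ha => by simp only [Set.mem_setOf_eq, map_inv] at ha ⊢; rw [ha] }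
  have hfix : MulAction.fixedPoints (Subgroup.zpowers σ) Q = (F : Set Q) := by
    ext x
    rw [MulAction.mem_fixedPoints]
    refine ⟨fun h => h ⟨σ, Subgroup.mem_zpowers σ⟩, fun h τ => ?_⟩
    have : ((τ : MulAut Q)) ∈ MulAction.stabilizer (MulAut Q) x := by
      have hle : Subgroup.zpowers σ ≤ MulAction.stabilizer (MulAut Q) x := Subgroup.zpowers_le.2 h
      exact hle τ.2
    exact this
  rw [hfix, SetLike.coe_sort_coe] at hmod
  have hFdvd : Nat.card F ∣ Nat.card Q := Subgroup.card_subgroup_dvd_card F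
  have hFne : Nat.card F ≠ Nat.card Q := fun e => by
    have htop := Subgroup.eq_top_of_card_eq F e
    have h1 : σ = 1 := MulEquiv.ext fun x => (htop ▸ Subgroup.mem_top x : x ∈ F)
    rw [h1, orderOf_one] at hσ
    exact hr.one_lt.ne hσ
  obtain ⟨k, hk⟩ := IsPGroup.iff_card.1 hQ
  have hQd := Subgroup.card_subgroup_dvd_card Q
  have hk3 : k ≤ 2 := by
    by_contra h'
    exact h3 ((pow_dvd_pow p (show 3 ≤ k by omega)).trans (hk ▸ hQd))
  obtain ⟨j, hj, hje⟩ := (Nat.dvd_prime_pow hp).1 (hk ▸ hFdvd)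
  have hmd : r ∣ Nat.card Q - Nat.card F :=
    (Nat.modEq_iff_dvd' (Nat.le_of_dvd Nat.card_pos hFdvd)).1 hmod.symm
  rw [hk] at hmd hFne hQd
  rw [hje] at hmd hFne
  have hlt : p < r := lt_of_le_of_ne (hmin r hr hrG) (Ne.symm hr2)
  have hp2 := hp.two_le
  have key : r ∣ p - 1 ∨ r ∣ p + 1 := by
    have hjk : j < k := lt_of_le_of_ne hj fun e => hFne (by rw [e])
    have hrp : ¬ r ∣ p := fun h => hr2 ((Nat.prime_dvd_prime_iff_eq hr hp).1 h)
    have e2 : p ^ 2 - 1 = (p + 1) * (p - 1) := by simpa using Nat.sq_sub_sq p 1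
    interval_cases k <;> interval_cases j
    · exact Or.inl (by simpa using hmd)
    · rw [pow_zero, e2] at hmd
      exact (hr.dvd_mul.1 hmd).symm
    · rw [pow_one, sq, ← Nat.mul_sub_one] at hmd
      exact Or.inl ((hr.dvd_mul.1 hmd).resolve_left hrp)
  rcases key with h | h
  · exact absurd (Nat.le_of_dvd (by omega) h) (by omega)
  · have h1 := Nat.le_of_dvd (by omega) h
    have h2 : r = p + 1 := by omega
    rcases hp.eq_two_or_odd' with h2p | hodd
    · exact ⟨h2p, by rw [show (3 : ℕ) = r by omega]; exact hrG⟩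
    · exfalso
      rcases hr.eq_two_or_odd' with h' | h'
      · omega
      · rw [h2, Nat.odd_add_one] at h'
        exact h' hodd

theorem sylow_norm_index {G : Type*} [Group G] [Finite G] [IsSimpleGroup G] (hns : ¬ Group.IsSolvable G) (t : ℕ)
    [Fact t.Prime] (htG : t ∣ Nat.card G) (R : Sylow t G) (hR : Nat.card R = t) :
    Nat.card (Sylow t G) ≠ 1 ∧ Nat.card (Sylow t G) * t ≠ Nat.card G := by
  refine ⟨fun h1 => ?_, fun hcard => ?_⟩
  · haveI := (Nat.card_eq_one_iff_unique.1 h1).1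
    have hn := R.normal_of_subsingleton
    rcases hn.eq_bot_or_eq_top with e | e
    · exact R.ne_bot_of_dvd_card htG e
    · haveI : Group.IsNilpotent G := (IsPGroup.of_card (p := t) (n := 1) (by
        rw [pow_one, ← Subgroup.card_top (G := G), ← e]; exact hR)).isNilpotent
      exact hns inferInstance
  · apply no_npc hns t htG
    apply Cfsg.Agent.Transfer.hasNPC_of_burnside R
    have hN := (Subgroup.normalizer ((R : Subgroup G) : Set G)).card_mul_index
    rw [show (Subgroup.normalizer ((R : Subgroup G) : Set G)).index = Nat.card (Sylow t G) from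
      (Sylow.card_eq_index_normalizer R).symm, ← hcard, mul_comm _ t] at hN
    have e := Subgroup.eq_of_le_of_card_ge (H := (R : Subgroup G))
      (K := Subgroup.normalizer ((R : Subgroup G) : Set G)) Subgroup.le_normalizer
      (by rw [Nat.eq_of_mul_eq_mul_right Nat.card_pos hN, hR])
    rw [← e]
    haveI : IsCyclic R := isCyclic_of_prime_card hR
    letI : CommGroup R := IsCyclic.commGroup
    exact fun x hx => Subgroup.mem_centralizer_iff.2 fun y hy =>
      congrArg Subtype.val (mul_comm (⟨y, hy⟩ : R) ⟨x, hx⟩)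

/-- If a finite simple group has order p^2 * q * r with p, q and r prime, then its order is 60. -/
theorem result {G : Type*} [Group G] [Finite G] [IsSimpleGroup G] (p q r : ℕ) (hp : p.Prime) (hq : q.Prime) (hr : r.Prime) (hG : Nat.card G = p ^ 2 * q * r) : Nat.card G = 60 := by
  classical
  have hns : ¬ Group.IsSolvable G := by
    intro hsol
    letI : CommGroup G := { (inferInstance : Group G) with mul_comm := IsSimpleGroup.comm_iff_isSolvable.2 hsol }
    have hprime := IsSimpleGroup.prime_card (α := G)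
    rw [hG] at hprime
    exact Nat.not_prime_mul (by nlinarith [hp.two_le, hq.two_le]) hr.one_lt.ne' hprime
  have hbur : ∀ a b i j : ℕ, a.Prime → b.Prime → Nat.card G ≠ a ^ i * b ^ j := fun a b i j ha hb e =>
    hns (Cfsg.Agent.Char.isSolvable_of_card_eq_pow_mul_pow G ha hb e)
  have hpq : p ≠ q := by rintro rfl; exact hbur p r 3 1 hp hr (by rw [hG]; ring)
  have hpr : p ≠ r := by rintro rfl; exact hbur p q 3 1 hp hq (by rw [hG]; ring)
  have hqr : q ≠ r := by rintro rfl; exact hbur p q 2 2 hp hq (by rw [hG]; ring)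
  have hfac : ∀ s : ℕ, s.Prime → s ∣ Nat.card G → s = p ∨ s = q ∨ s = r := by
    intro s hs hd
    rw [hG] at hd
    rcases hs.dvd_mul.1 hd with h | h
    · rcases hs.dvd_mul.1 h with h | h
      · exact Or.inl ((Nat.prime_dvd_prime_iff_eq hs hp).1 (hs.dvd_of_dvd_pow h))
      · exact Or.inr (Or.inl ((Nat.prime_dvd_prime_iff_eq hs hq).1 h))
    · exact Or.inr (Or.inr ((Nat.prime_dvd_prime_iff_eq hs hr).1 h))
  have hpd : ∀ a b c : ℕ, a.Prime → b.Prime → c.Prime → a ≠ b → a ≠ c → ¬ a ∣ b * c := fun a b c ha hb hc h1 h2 hd => by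
    rcases ha.dvd_mul.1 hd with h | h
    · exact h1 ((Nat.prime_dvd_prime_iff_eq ha hb).1 h)
    · exact h2 ((Nat.prime_dvd_prime_iff_eq ha hc).1 h)
  set s := (Nat.card G).minFac
  have hG1 : Nat.card G ≠ 1 := Finite.one_lt_card.ne'
  have hs : s.Prime := Nat.minFac_prime hG1
  have hsd : s ∣ Nat.card G := Nat.minFac_dvd _
  haveI := Fact.mk hs
  have h4 : s ^ 2 ∣ Nat.card G := by
    by_contra h4
    let P : Sylow s G := Classical.arbitrary _
    have hc : Nat.card P = s := by
      rw [P.card_eq_multiplicity]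
      have h1 := (hs.pow_dvd_iff_le_factorization Nat.card_pos.ne').not.1 h4
      have h2 := hs.factorization_pos_of_dvd Nat.card_pos.ne' hsd
      rw [show (Nat.card G).factorization s = 1 by omega, pow_one]
    exact no_npc hns s hsd (Cfsg.Agent.Transfer.hasNPC_of_burnside P
      (IsCyclic.normalizer_le_centralizer rfl (isCyclic_of_prime_card hc)))
  have hsp : s = p := by
    by_contra hne
    rcases hfac s hs hsd with h | h | h
    · exact hne h
    · rw [hG, h, show p ^ 2 * q * r = q * (p ^ 2 * r) by ring, sq] at h4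
      exact hpd q p r hq hp hr (Ne.symm hpq) hqr (by
        rcases hq.dvd_mul.1 ((Nat.mul_dvd_mul_iff_left hq.pos).1 h4) with h' | h'
        · exact (hq.dvd_of_dvd_pow h').trans (dvd_mul_right _ _)
        · exact h'.trans (dvd_mul_left _ _))
    · rw [hG, h, show p ^ 2 * q * r = r * (p ^ 2 * q) by ring, sq] at h4
      exact hpd r p q hr hp hq (Ne.symm hpr) (Ne.symm hqr) (by
        rcases hr.dvd_mul.1 ((Nat.mul_dvd_mul_iff_left hr.pos).1 h4) with h' | h'
        · exact (hr.dvd_of_dvd_pow h').trans (dvd_mul_right _ _)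
        · exact h'.trans (dvd_mul_left _ _))
  haveI := Fact.mk hp
  obtain ⟨h2, h3G⟩ := min_prime_aux hns p (hsp ▸ hsd)
    (fun h => hpd p q r hp hq hr hpq hpr (by
      rw [hG, pow_succ, mul_assoc] at h
      exact (Nat.mul_dvd_mul_iff_left (pow_pos hp.pos 2)).1 h))
    (fun x hx hxd => hsp ▸ Nat.minFac_le_of_dvd hx.two_le hxd)
  subst h2
  obtain ⟨t, ht, ht2, ht3, htG⟩ : ∃ t : ℕ, t.Prime ∧ t ≠ 2 ∧ t ≠ 3 ∧ Nat.card G = 12 * t := by
    rcases hfac 3 Nat.prime_three h3G with h | h | h
    · omega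
    · exact ⟨r, hr, Ne.symm hpr, fun e => hqr (h.symm.trans e.symm), by rw [hG, ← h]; ring⟩
    · exact ⟨q, hq, Ne.symm hpq, fun e => hqr (e.trans h), by rw [hG, ← h]; ring⟩
  have ht5 : 5 ≤ t := by
    have := ht.two_le
    have : t ≠ 4 := by rintro rfl; norm_num at ht
    omega
  haveI := Fact.mk ht
  let R : Sylow t G := Classical.arbitrary _
  have h12 : ¬ t ∣ 12 := fun h => by
    rcases (Nat.Prime.dvd_mul ht).1 (show t ∣ 4 * 3 from h) with h' | h'
    · exact ht2 ((Nat.prime_dvd_prime_iff_eq ht Nat.prime_two).1 (ht.dvd_of_dvd_pow (show t ∣ 2 ^ 2 from h')))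
    · exact ht3 ((Nat.prime_dvd_prime_iff_eq ht Nat.prime_three).1 h')
  have hR : Nat.card R = t := by
    rw [R.card_eq_multiplicity, htG, Nat.factorization_mul (by norm_num) ht.pos.ne', Finsupp.add_apply,
      Nat.factorization_eq_zero_of_not_dvd h12, ht.factorization_self, pow_one]
  obtain ⟨hn1, hn2⟩ := sylow_norm_index hns t (htG ▸ dvd_mul_left t 12) R hR
  have hnd : Nat.card (Sylow t G) ∣ 12 := by
    have h := R.card_dvd_index
    have e := (R : Subgroup G).card_mul_index
    rw [hR, htG, mul_comm 12 t] at e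
    rwa [Nat.eq_of_mul_eq_mul_left ht.pos e] at h
  have hmod := card_sylow_modEq_one t G
  have htd : t ∣ Nat.card (Sylow t G) - 1 := (Nat.modEq_iff_dvd' Nat.card_pos).1 hmod.symm
  have h12' := Nat.le_of_dvd (by norm_num) hnd
  rw [htG] at hn2
  have hpos : 0 < Nat.card (Sylow t G) := Nat.card_pos
  generalize Nat.card (Sylow t G) = n at *
  have htle : t ≤ 11 := (Nat.le_of_dvd (by omega) htd).trans (by omega)
  interval_cases n <;> interval_cases t <;> first | omega | (norm_num at htd; done) | (norm_num at hnd; done) | (norm_num at ht; done) | skip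

end Cfsg.Agent.S0988
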