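import Cfsg.Statements.S0493
import Mathlib
import Cfsg.Agent.S0144
import Cfsg.Agent.S0988

set_option autoImplicit false
open Cfsg

namespace Cfsg.Agent.S0493

theorem small_forms : ∀ n ∈ List.range 101, n = 0 ∨ n = 60 ∨ n = 84 ∨ n = 90 ∨ (¬ 4 ∣ n ∧ ¬ 9 ∣ n ∧ ¬ 25 ∣ n ∧ ¬ 49 ∣ n) ∨
    ∃ p ∈ [2, 3, 5, 7], ∃ a ∈ List.range 7, ∃ q ∈ [2, 3, 5, 7, 11, 13, 17, 19, 23], ∃ b ∈ List.range 5, n = p ^ a * q ^ b := by
  decide +kernel



/-- A finite simple group of order at most 100 that is not cyclic has order 60. -/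
theorem result {G : Type*} [Group G] [Finite G] [IsSimpleGroup G]
    (hG : ¬ IsCyclic G) (h : Nat.card G ≤ 100) : Nat.card G = 60 := by
  have habs : ¬ Group.IsSolvable G := by
    intro hs
    apply hG
    haveI : IsMulCommutative G := ⟨⟨fun a b => IsSimpleGroup.comm_iff_isSolvable.mpr hs a b⟩⟩
    letI : CommGroup G := { (inferInstance : Group G) with mul_comm := fun a b => IsSimpleGroup.comm_iff_isSolvable.mpr hs a b }
    exact IsSimpleGroup.isCyclic
  rcases small_forms (Nat.card G) (List.mem_range.mpr (by omega)) with h0 | h60 | h84 | h90 | hsq | ⟨p, hp, a, -, q, hq, b, -, hn⟩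
  · exact absurd h0 Nat.card_pos.ne'
  · exact h60
  · exact Cfsg.Agent.S0988.result 2 3 7 Nat.prime_two Nat.prime_three (by norm_num) (by rw [h84]; norm_num)
  · exact Cfsg.Agent.S0988.result 3 2 5 Nat.prime_three Nat.prime_two (by norm_num) (by rw [h90]; norm_num)
  · exfalso
    haveI : IsZGroup G := IsZGroup.of_squarefree (Nat.squarefree_iff_prime_squarefree.mpr fun x hx hd => by
      have hle : x * x ≤ 100 := (Nat.le_of_dvd Nat.card_pos hd).trans h
      have hx10 : x ≤ 10 := by nlinarith
      interval_cases x <;> simp_all (config := { decide := true }))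
    exact habs inferInstance
  · exfalso
    have hpp : p.Prime := by
      simp only [List.mem_cons, List.not_mem_nil, or_false] at hp
      rcases hp with rfl | rfl | rfl | rfl <;> norm_num
    have hqp : q.Prime := by
      simp only [List.mem_cons, List.not_mem_nil, or_false] at hq
      rcases hq with rfl | rfl | rfl | rfl | rfl | rfl | rfl | rfl | rfl <;> norm_num
    exact habs (Cfsg.Agent.S0144.result p q a b hpp hqp hn)

end Cfsg.Agent.S0493
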