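import Cfsg.Statements.S0499
import Cfsg.Agent.Transfer.Frobenius
import Mathlib

set_option autoImplicit false
open Cfsg

namespace Cfsg.Agent.S0499

/-- A non-abelian finite simple group of even order has order divisible by 12, 16 or 56. -/
theorem result {G : Type*} [Group G] [Finite G] [IsSimpleGroup G]
    (hG : ¬ IsMulCommutative G) (h2 : Even (Nat.card G)) :
    12 ∣ Nat.card G ∨ 16 ∣ Nat.card G ∨ 56 ∣ Nat.card G := by
  classical
  by_cases h16 : 16 ∣ Nat.card G
  · exact Or.inr (Or.inl h16)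
  have hnpc : ¬ Cfsg.Agent.Transfer.FrobCond 2 G := by
    intro h
    obtain ⟨K, hK, hKc, hKi⟩ := Cfsg.Agent.Transfer.hasNPC_iff.mp (Cfsg.Agent.Transfer.hasNPC_of_frobCond h)
    rcases hK.eq_bot_or_eq_top with rfl | rfl
    · obtain ⟨m, hm⟩ := hKi
      rw [Subgroup.index_bot] at hm
      haveI : Group.IsNilpotent G := (IsPGroup.of_card hm).isNilpotent
      haveI : Nontrivial G := IsSimpleGroup.toNontrivial
      haveI : Group.IsSolvable G := inferInstance
      exact hG ⟨⟨IsSimpleGroup.comm_iff_isSolvable.mpr ‹_›⟩⟩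
    · rw [Subgroup.card_top] at hKc
      exact hKc h2.two_dvd
  simp only [Cfsg.Agent.Transfer.FrobCond, not_forall] at hnpc
  obtain ⟨Q, hQ, g, hg, hgc, hgn⟩ := hnpc
  let φ : ↥(Subgroup.normalizer (Q : Set G)) →* MulAut Q := Q.normalizerMonoidHom
  have hne : φ ⟨g, hg⟩ ≠ 1 := by
    intro e
    refine hgn (Subgroup.mem_centralizer_iff.2 fun q hq => ?_)
    have := congrArg Subtype.val (DFunLike.congr_fun e (⟨q, hq⟩ : Q))
    have h' : g * q * g⁻¹ = q := this
    calc q * g = g * q * g⁻¹ * g := by rw [h']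
      _ = g * q := by group
  obtain ⟨r, hr, hrd⟩ := Nat.exists_prime_and_dvd
    (show orderOf (φ ⟨g, hg⟩) ≠ 1 from fun e => hne (orderOf_eq_one_iff.1 e))
  have hrg : r ∣ orderOf g := hrd.trans ((orderOf_map_dvd φ _).trans (Subgroup.orderOf_mk ..).dvd)
  have hr2 : r ≠ 2 := fun e => by
    have := Nat.eq_one_of_dvd_coprimes hgc (e ▸ hrg) dvd_rfl
    omega
  have hrG : r ∣ Nat.card G := hrg.trans (orderOf_dvd_natCard g)
  haveI := Fact.mk hr
  set σ := φ ⟨g, hg⟩ ^ (orderOf (φ ⟨g, hg⟩) / r) with hσd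
  have hσ : orderOf σ = r := orderOf_pow_orderOf_div (orderOf_pos _).ne' hrd
  have hZ : IsPGroup r (Subgroup.zpowers σ) := IsPGroup.of_card (n := 1) (by rw [Nat.card_zpowers, hσ, pow_one])
  have hmod := hZ.card_modEq_card_fixedPoints Q
  let F : Subgroup Q :=
    { carrier := {x | σ x = x}
      one_mem' := map_one σ
      mul_mem' := fun {a b} ha hb => by simp only [Set.mem_setOf_eq, map_mul] at ha hb ⊢; rw [ha, hb]
      inv_mem' := fun {a} ha => by simp only [Set.mem_setOf_eq, map_inv] at ha ⊢; rw [ha] }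
  have hfix : MulAction.fixedPoints (Subgroup.zpowers σ) Q = (F : Set Q) := by
    ext x
    rw [MulAction.mem_fixedPoints]
    refine ⟨fun h => h ⟨σ, Subgroup.mem_zpowers σ⟩, fun h τ => ?_⟩
    have : ((τ : MulAut Q)) ∈ MulAction.stabilizer (MulAut Q) x := by
      have hle : Subgroup.zpowers σ ≤ MulAction.stabilizer (MulAut Q) x := Subgroup.zpowers_le.2 h
      exact hle τ.2
    exact this
  rw [hfix, SetLike.coe_sort_coe] at hmod
  have hFdvd : Nat.card F ∣ Nat.card Q := Subgroup.card_subgroup_dvd_card F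
  have hFne : Nat.card F ≠ Nat.card Q := fun e => by
    have htop := Subgroup.eq_top_of_card_eq F e
    have h1 : σ = 1 := MulEquiv.ext fun x => (htop ▸ Subgroup.mem_top x : x ∈ F)
    rw [h1, orderOf_one] at hσ
    exact hr.one_lt.ne hσ
  obtain ⟨k, hk⟩ := IsPGroup.iff_card.1 hQ
  have hQd := Subgroup.card_subgroup_dvd_card Q
  have hk3 : k ≤ 3 := by
    by_contra h'
    exact h16 ((pow_dvd_pow 2 (show 4 ≤ k by omega)).trans (hk ▸ hQd))
  have hFpos : 0 < Nat.card F := Nat.card_pos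
  have hmd : r ∣ Nat.card Q - Nat.card F := (Nat.modEq_iff_dvd' (Nat.le_of_dvd Nat.card_pos hFdvd)).1 hmod.symm
  obtain ⟨j, hj, hje⟩ := (Nat.dvd_prime_pow Nat.prime_two).1 (hk ▸ hFdvd)
  rw [hk] at hmd hFne hQd
  rw [hje] at hmd hFne
  interval_cases k <;> interval_cases j <;> simp only [Nat.reducePow, Nat.reduceSub, ne_eq, not_true] at hmd hFne hQd
  all_goals
    have hrle := Nat.le_of_dvd (by norm_num) hmd
    interval_cases r <;> first | (norm_num at hr; done) | omega | skip
  all_goals first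
    | exact Or.inl (Nat.Coprime.mul_dvd_of_dvd_of_dvd (m := 3) (n := 4) (by norm_num) hrG ((by norm_num : 4 ∣ _).trans hQd))
    | exact Or.inr (Or.inr (Nat.Coprime.mul_dvd_of_dvd_of_dvd (m := 7) (n := 8) (by norm_num) hrG hQd))

end Cfsg.Agent.S0499
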