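import Cfsg.Statements.S0502
import Cfsg.Agent.ElabChain.Basic

set_option autoImplicit false
open Cfsg

namespace Cfsg.Agent.S0502

/-- If a finite 2-group has a normal elementary abelian subgroup of order at least 8, then any two of its Klein
four-subgroups are joined by a chain of Klein four-subgroups with consecutive members commuting elementwise. -/
theorem result {P : Type*} [Group P] [Finite P] (hP : IsPGroup 2 P)
    (E : Subgroup P) [E.Normal] (hE : IsMulCommutative E) (hE2 : ∀ e ∈ E, e ^ 2 = 1) (hE8 : 8 ≤ Nat.card E) :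
    Cfsg.IsFourConnected P := by
  haveI : Fact (Nat.Prime 2) := ⟨Nat.prime_two⟩
  have hEl : Cfsg.IsElementaryAbelian 2 E := ⟨hE, hE2⟩
  let Rel := fun A B : Subgroup P => IsKleinFour A ∧ IsKleinFour B ∧ ∀ a ∈ A, ∀ b ∈ B, a * b = b * a
  have hK : ∀ A : Subgroup P, Cfsg.IsElementaryAbelian 2 A → Nat.card ↥A = 4 → IsKleinFour A := by
    intro A hA h4
    refine ⟨h4, ?_⟩
    haveI : Nontrivial ↥A := Finite.one_lt_card_iff_nontrivial.1 (by omega)
    exact Monoid.exponent_eq_prime_iff Nat.prime_two |>.2 fun g hg => orderOf_eq_prime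
      (Subtype.ext ((SubmonoidClass.coe_pow g 2).trans (hA.2 _ g.2))) hg
  have hrel : ∀ W C D : Subgroup P, Cfsg.IsElementaryAbelian 2 W → C ≤ W → D ≤ W → Nat.card ↥C = 4 →
      Nat.card ↥D = 4 → Rel C D := fun W C D hW hC hD hc hd =>
    ⟨hK C (ElabChain.el_le hW hC) hc, hK D (ElabChain.el_le hW hD) hd,
      fun x hx y hy => ElabChain.el_comm hW (hC hx) (hD hy)⟩
  obtain ⟨z, hzE, hz1, hz2, hzc⟩ := ElabChain.exists_central hP hEl (by omega)
  have key : ∀ U : Subgroup P, IsKleinFour U →
      ∃ U' ≤ E, Nat.card ↥U' = 4 ∧ Relation.ReflTransGen Rel U U' := by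
    intro U hU
    have hUe : Cfsg.IsElementaryAbelian 2 U := ⟨⟨⟨fun x y => mul_comm_of_exponent_two hU.exponent_two x y⟩⟩,
      fun x hx => by
        have := Monoid.pow_exponent_eq_one (⟨x, hx⟩ : ↥U)
        rw [hU.exponent_two] at this
        exact congrArg Subtype.val this⟩
    have hU4 : Nat.card ↥U = 4 := hU.card_four
    have hW1 : Cfsg.IsElementaryAbelian 2 (U ⊔ Subgroup.zpowers z) :=
      ElabChain.el_sup hUe (ElabChain.el_zpowers hz2) fun x _ y hy => by
        obtain ⟨k, rfl⟩ := hy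
        exact (Commute.zpow_left (hzc x : Commute z x) k).eq.symm
    obtain ⟨U1, hzU1, hU1W, hU1⟩ := ElabChain.exists_between hP
      (le_sup_right : Subgroup.zpowers z ≤ U ⊔ Subgroup.zpowers z) (m := 2)
      (by rw [Nat.card_zpowers, orderOf_eq_prime hz2 hz1]; norm_num)
      (by have := Subgroup.card_le_of_le (le_sup_left : U ≤ U ⊔ Subgroup.zpowers z); omega)
    norm_num at hU1
    have hU1e := ElabChain.el_le hW1 hU1W
    have r1 : Rel U U1 := hrel _ U U1 hW1 le_sup_left hU1W hU4 hU1
    obtain ⟨a, ha, haz⟩ := SetLike.exists_of_lt (lt_of_le_of_ne hzU1 fun e => by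
      have := Nat.card_zpowers z
      rw [e, hU1, orderOf_eq_prime hz2 hz1] at this
      omega)
    have hgen : U1 = Subgroup.zpowers z ⊔ Subgroup.zpowers a := by
      have h1 : Subgroup.zpowers z < Subgroup.zpowers z ⊔ Subgroup.zpowers a :=
        lt_of_le_of_ne le_sup_left fun e =>
          haz (e ▸ le_sup_right (a := Subgroup.zpowers z) (Subgroup.mem_zpowers a))
      have := ElabChain.two_mul_le hP h1
      rw [Nat.card_zpowers, orderOf_eq_prime hz2 hz1] at this
      exact (Subgroup.eq_of_le_of_card_ge (sup_le hzU1 (Subgroup.zpowers_le.2 ha)) (by omega)).symm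
    set C := E ⊓ Subgroup.centralizer ({a} : Set P) with hC
    have hC4 : 4 ≤ Nat.card ↥C := by
      refine ElabChain.four_le hP ?_
      by_contra hlt
      push Not at hlt
      have := Nat.pow_le_pow_left (Nat.le_of_lt_succ hlt) 2
      have := ElabChain.card_le_sq hEl (hU1e.2 a ha) (ElabChain.norm_mem a)
      rw [← hC] at this
      omega
    have hU1C : U1 ≤ Subgroup.centralizer (C : Set P) := by
      rw [hgen]
      refine sup_le ?_ ?_ <;>
        refine Subgroup.zpowers_le.2 (Subgroup.mem_centralizer_iff.2 fun y hy => ?_)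
      · exact (hzc y).symm
      · exact (ElabChain.comm_centralized hy.2).symm
    have hW2 : Cfsg.IsElementaryAbelian 2 (U1 ⊔ C) :=
      ElabChain.el_sup hU1e (ElabChain.el_le hEl inf_le_left)
        fun x hx y hy => (Subgroup.mem_centralizer_iff.1 (hU1C hx) y hy).symm
    obtain ⟨U2, -, hU2C, hU2⟩ := ElabChain.exists_between hP (bot_le : ⊥ ≤ C) (m := 2) (by simp) (by omega)
    norm_num at hU2
    have r2 : Rel U1 U2 := hrel _ U1 U2 hW2 le_sup_left (hU2C.trans le_sup_right) hU1 hU2
    exact ⟨U2, hU2C.trans inf_le_left, hU2, (Relation.ReflTransGen.single r1).tail r2⟩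
  intro U V hU hV
  obtain ⟨U', hU'E, hU'4, hUU'⟩ := key U hU
  obtain ⟨V', hV'E, hV'4, hVV'⟩ := key V hV
  have hback : Relation.ReflTransGen Rel V' V := by
    clear hV'E hV'4
    induction hVV' with
    | refl => exact Relation.ReflTransGen.refl
    | tail _ h ih => exact Relation.ReflTransGen.head ⟨h.2.1, h.1, fun x hx y hy => (h.2.2 y hy x hx).symm⟩ ih
  exact (hUU'.tail (hrel E U' V' hEl hU'E hV'E hU'4 hV'4)).trans hback

end Cfsg.Agent.S0502
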