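import Cfsg.Statements.S0505
import Cfsg.Agent.CharTwo.Normalizer
import Cfsg.Agent.Solv.Fitting

set_option autoImplicit false
open Cfsg

namespace Cfsg.Agent.S0505

/-- Let G be a finite group of even order in which the centralizer of every involution is solvable and has trivial
core (no nontrivial normal subgroup of odd order). Then G is of characteristic 2 type. -/
theorem result {G : Type*} [Group G] [Finite G]
    (h2 : Even (Nat.card G))
    (hs : ∀ t : G, orderOf t = 2 → Group.IsSolvable (Subgroup.centralizer ({t} : Set G)))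
    (hc : ∀ t : G, orderOf t = 2 → Cfsg.oddCore (Subgroup.centralizer ({t} : Set G)) = ⊥) :
    Cfsg.IsCharacteristicTwoType G := by
  haveI : Fact (Nat.Prime 2) := ⟨Nat.prime_two⟩
  refine ⟨h2, fun T hT hT1 => ?_⟩
  haveI : Nontrivial ↥T := T.nontrivial_iff_ne_bot.2 hT1
  obtain ⟨n, hn, hc'⟩ := hT.nontrivial_iff_card.1 ‹_›
  obtain ⟨t, ht⟩ := exists_prime_orderOf_dvd_card' (G := ↥T) 2 (hc' ▸ dvd_pow_self 2 (by omega))
  rw [← Subgroup.orderOf_coe] at ht
  refine CharTwo.normalizer_charTwo_ge ?_ t.2 hT
  haveI := hs (t : G) ht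
  exact Solv.centralizer_pCore_le (hc (t : G) ht)

end Cfsg.Agent.S0505
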