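import Cfsg.Statements.S0514
import Cfsg.Agent.H7.DihedralAct

set_option autoImplicit false
open Cfsg
open Cfsg.Agent.Transfer
set_option maxHeartbeats 100000

namespace Cfsg.Agent.S0514

/-- In a finite group whose Sylow 2-subgroups are dihedral of order at least 4, the centralizer of any involution has a
normal subgroup of odd order whose index in the centralizer is a power of 2. -/
theorem result {X : Type*} [Group X] [Finite X]
    (S : Sylow 2 X) (n : ℕ) (hn : 2 ≤ n) (hS : Nonempty ((S : Subgroup X) ≃* DihedralGroup n)) (t : X)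
    (ht : orderOf t = 2) :
    ∃ N : Subgroup (Subgroup.centralizer ({t} : Set X)), N.Normal ∧ Odd (Nat.card N) ∧ ∃ k : ℕ, N.index = 2 ^ k := by
  haveI : Fact (Nat.Prime 2) := ⟨Nat.prime_two⟩
  have ht2 : t * t = 1 := by rw [← pow_two, ← ht]; exact pow_orderOf_eq_one t
  suffices main : ∀ Q' : Subgroup X, IsPGroup 2 Q' → (∀ q ∈ Q', t * q = q * t) → ∀ g : X,
      g ∈ Subgroup.normalizer (Q' : Set X) → t * g = g * t → Nat.Coprime (orderOf g) 2 →
      g ∈ Subgroup.centralizer (Q' : Set X) by
    obtain ⟨N, hN, hc, hi⟩ := hasNPC_iff.mp (hasNPC_of_frobCond (p := 2)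
      (G := ↥(Subgroup.centralizer ({t} : Set X))) (fun Q hQ g hg ho => by
        have h1 := main (Q.map (Subgroup.subtype _)) (hQ.map _)
          (by rintro _ ⟨q, -, rfl⟩; exact Subgroup.mem_centralizer_iff.mp q.2 t rfl) g
          (Subgroup.le_normalizer_map _ ⟨g, hg, rfl⟩)
          (Subgroup.mem_centralizer_iff.mp g.2 t rfl) (by rwa [Subgroup.orderOf_coe])
        rw [Subgroup.mem_centralizer_iff] at h1 ⊢
        intro q hq
        exact Subtype.ext (h1 q ⟨q, hq, rfl⟩)))
    exact ⟨N, hN, Nat.odd_iff.mpr (Nat.two_dvd_ne_zero.mp hc), hi⟩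
  intro Q' hQ hQC g hg' hgc ho'
  have hT : IsPGroup 2 (Subgroup.zpowers t) := IsPGroup.of_card (n := 1) (by rw [Nat.card_zpowers, ht, pow_one])
  have hJ : IsPGroup 2 ↥(Q' ⊔ Subgroup.zpowers t) := by
    refine hQ.to_sup_of_normal_left' hT ?_
    refine Subgroup.zpowers_le.mpr (Subgroup.centralizer_le_normalizer _ ?_)
    rw [Subgroup.mem_centralizer_iff]
    exact fun q hq => (hQC q hq).symm
  obtain ⟨P, hP⟩ := hJ.exists_le_sylow
  obtain ⟨eS⟩ := hS
  have e := (Sylow.equiv P S).trans eS
  have hQP : Q' ≤ (P : Subgroup X) := le_sup_left.trans hP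
  have htP : t ∈ (P : Subgroup X) := hP (Subgroup.mem_sup_right (Subgroup.mem_zpowers t))
  have hgt : g * t * g⁻¹ = t := by
    rw [← hgc]; group
  by_cases hK : IsKleinFour Q'
  · obtain ⟨R, hRP, hRc, hinv, hprod⟩ := Cfsg.Agent.H7.rotation_structure (P : Subgroup X) e
    have hQ4 : Nat.card Q' = 4 := hK.card_four
    have hsq : ∀ u ∈ Q', u * u = 1 := by
      intro u hu
      have h := Monoid.pow_exponent_eq_one (⟨u, hu⟩ : Q')
      rw [hK.exponent_two] at h
      simpa [pow_two] using congrArg Subtype.val h
    have htQ : t ∈ Q' := by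
      classical
      by_contra htQ
      have huniq : ∀ a ∈ R, ∀ b ∈ R, a * a = 1 → b * b = 1 → a ≠ 1 → b ≠ 1 → a = b := by
        intro a ha b hb ha1 hb1 hane hbne
        haveI := hRc
        haveI : Fintype R := Fintype.ofFinite _
        have h := IsCyclic.card_pow_eq_one_le (α := R) (n := 2) (by norm_num)
        by_contra hab
        have h3 : ({1, ⟨a, ha⟩, ⟨b, hb⟩} : Finset R).card = 3 :=
          Finset.card_eq_three.mpr ⟨_, _, _, fun h => hane (congrArg Subtype.val h).symm,
            fun h => hbne (congrArg Subtype.val h).symm, fun h => hab (congrArg Subtype.val h), rfl⟩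
        have := Finset.card_le_card (s := ({1, ⟨a, ha⟩, ⟨b, hb⟩} : Finset R))
          (t := Finset.univ.filter fun x : R => x ^ 2 = 1) (by
            intro x hx
            simp only [Finset.mem_insert, Finset.mem_singleton] at hx
            rcases hx with rfl | rfl | rfl <;> simp [Subtype.ext_iff, pow_two, ha1, hb1])
        omega
      have hnot : ¬ Q' ≤ R := by
        intro hle
        haveI := hRc
        haveI : IsCyclic Q' := isCyclic_of_injective (Subgroup.inclusion hle) (Subgroup.inclusion_injective _)
        have := IsCyclic.exponent_eq_card (α := Q')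
        rw [hK.exponent_two, hQ4] at this
        omega
      obtain ⟨s, hsQ, hsR⟩ := SetLike.not_le_iff_exists.mp hnot
      have ht1 : t ≠ 1 := fun h => by simp [h] at ht
      have hz : ∃ z ∈ Q', z ∈ R ∧ z ≠ 1 := by
        by_contra hz
        push_neg at hz
        have hone : ∀ x ∈ Q', x = 1 ∨ x = s := by
          intro x hx
          by_cases hxR : x ∈ R
          · exact Or.inl (hz x hx hxR)
          · right
            have h1 := hz _ (Q'.mul_mem hx hsQ) (hprod x (hQP hx) s (hQP hsQ) hxR hsR)
            calc x = (x * s) * s := by rw [mul_assoc, hsq s hsQ, mul_one]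
              _ = s := by rw [h1, one_mul]
        have hle2 : Nat.card Q' ≤ Nat.card Bool :=
          Nat.card_le_card_of_injective (fun x : Q' => decide ((x : X) = 1)) (by
            intro a b hab
            simp only [decide_eq_decide] at hab
            apply Subtype.ext
            rcases hone a a.2 with ha | ha <;> rcases hone b b.2 with hb | hb
            · rw [ha, hb]
            · rw [ha, hab.mp ha]
            · rw [hb, hab.mpr hb]
            · rw [ha, hb])
        rw [hQ4, Nat.card_eq_fintype_card, Fintype.card_bool] at hle2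
        omega
      obtain ⟨z, hzQ, hzR, hz1⟩ := hz
      by_cases htR : t ∈ R
      · exact htQ (huniq t htR z hzR ht2 (hsq z hzQ) ht1 hz1 ▸ hzQ)
      · have h1 := hprod t htP s (hQP hsQ) htR hsR
        have h2 : t * s * (t * s) = 1 := by
          have hc : s * t = t * s := (hQC s hsQ).symm
          calc t * s * (t * s) = t * (s * t) * s := by group
            _ = (t * t) * (s * s) := by rw [hc]; group
            _ = 1 := by rw [ht2, hsq s hsQ, one_mul]
        have h3 : t * s ≠ 1 := by
          intro h
          apply htQ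
          have : t = s⁻¹ := eq_inv_of_mul_eq_one_left h
          rw [this]; exact Q'.inv_mem hsQ
        have h4 := huniq _ h1 z hzR h2 (hsq z hzQ) h3 hz1
        apply htQ
        have : t = z * s⁻¹ := by rw [← h4]; group
        rw [this]; exact Q'.mul_mem hzQ (Q'.inv_mem hsQ)
    -- `g` fixes `t` and permutes the other two involutions
    rw [Subgroup.mem_centralizer_iff]
    intro u hu
    have hn := Subgroup.mem_normalizer_iff.mp hg'
    classical
    set S4 := Q'.normalizerMonoidHom ⟨g, hg'⟩ with hS4
    have hS4t : ∀ v : Q', (S4 v : X) = g * v * g⁻¹ := fun v => rfl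
    have hfour : ∀ a b : Q', a ≠ 1 → b ≠ 1 → a ≠ ⟨t, htQ⟩ → b ≠ ⟨t, htQ⟩ → a ≠ b →
        b = ⟨t, htQ⟩ * a := by
      intro a b ha hb hat hbt hab
      have htne : (⟨t, htQ⟩ : Q') ≠ 1 := fun h => by
        have := congrArg Subtype.val h; simp at this; simp [this] at ht
      exact IsKleinFour.eq_mul_of_ne_all htne ha (Ne.symm hat) hb hbt (Ne.symm hab)
    have hgu : g * u * g⁻¹ = u := by
      by_cases hu1 : u = 1
      · simp [hu1]
      by_cases hut : u = t
      · rw [hut, hgt]
      have hgu' : g * u * g⁻¹ ∈ Q' := (hn u).mp hu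
      by_contra hne
      have hb1 : g * u * g⁻¹ ≠ 1 := by simpa using hu1
      have hbt : g * u * g⁻¹ ≠ t := fun h => hut (by
        have : g * u * g⁻¹ = g * t * g⁻¹ := by rw [h, hgt]
        simpa using this)
      have h1 : g * u * g⁻¹ = t * u := congrArg Subtype.val
        (hfour ⟨u, hu⟩ ⟨_, hgu'⟩ (fun h => hu1 (congrArg Subtype.val h))
          (fun h => hb1 (congrArg Subtype.val h)) (fun h => hut (congrArg Subtype.val h))
          (fun h => hbt (congrArg Subtype.val h)) (fun h => hne (congrArg Subtype.val h).symm))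
      have h2 : ∀ k : ℕ, g ^ k * u * (g ^ k)⁻¹ = t ^ k * u := by
        intro k
        induction k with
        | zero => simp
        | succ k ih =>
          have hgt' : Commute g (t ^ k) :=
            (show Commute g t from hgc.symm).pow_right k
          calc g ^ (k + 1) * u * (g ^ (k + 1))⁻¹
                = g * (g ^ k * u * (g ^ k)⁻¹) * g⁻¹ := by rw [pow_succ']; group
            _ = (g * t ^ k) * u * g⁻¹ := by rw [ih]; group
            _ = t ^ k * (g * u * g⁻¹) := by rw [hgt'.eq]; group
            _ = t ^ (k + 1) * u := by rw [h1, pow_succ]; group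
      have h3 := h2 (orderOf g)
      rw [pow_orderOf_eq_one, one_mul, inv_one, mul_one] at h3
      have h4 : t ^ orderOf g = 1 := by simpa using h3.symm
      have h5 := orderOf_dvd_of_pow_eq_one h4
      rw [ht] at h5
      have := Nat.eq_one_of_dvd_coprimes ho' h5 dvd_rfl
      omega
    calc u * g = (g * u * g⁻¹) * g := by rw [hgu]
      _ = g * u := by group
  · exact Cfsg.Agent.H7.odd_centralizes_of_dihedral e P.isPGroup' hQP hK hg' ho'

end Cfsg.Agent.S0514
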