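import Cfsg.Statements.S0526
import Cfsg.Agent.Solv.Supersolvable

set_option autoImplicit false
set_option linter.style.haveILetI false
open Cfsg

namespace Cfsg.Agent.S0526

/-- In a finite supersolvable group the commutator subgroup is nilpotent. -/
theorem result {G : Type*} [Group G] [Finite G] (hG : Cfsg.IsSupersolvable G) : Group.IsNilpotent (commutator G) := by
  obtain ⟨n, hn⟩ : ∃ n, Nat.card G = n := ⟨_, rfl⟩
  induction n using Nat.strong_induction_on generalizing G with
  | _ n ih =>
    rcases subsingleton_or_nontrivial G with _ | _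
    · infer_instance
    · obtain ⟨M, hM, hp⟩ := Cfsg.Agent.Solv.SSv.exists_prime_normal hG
      haveI := ih _ (hn ▸ Cfsg.Agent.Solv.SSv.card_quot_lt hp) (Cfsg.Agent.Solv.SSv.of_quotient M hG) rfl
      haveI : IsCyclic M := Cfsg.Agent.Solv.SSv.isCyclic_of_prime hp
      let f : commutator G →* commutator (G ⧸ M) :=
        ((QuotientGroup.mk' M).comp (commutator G).subtype).codRestrict _ (fun x => by
          have : (commutator G).map (QuotientGroup.mk' M) ≤ commutator (G ⧸ M) := by
            rw [commutator_def, commutator_def, Subgroup.map_commutator]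
            exact Subgroup.commutator_mono le_top le_top
          exact this ⟨x, x.2, rfl⟩)
      have hcc : commutator G ≤ (MulAut.conjNormal (H := M)).ker := by
        rw [commutator_def, Subgroup.commutator_le]
        intro a _ b _
        rw [MonoidHom.mem_ker, map_commutatorElement, commutatorElement_eq_one_iff_commute]
        obtain ⟨g, hg⟩ := IsCyclic.exists_generator (α := M)
        obtain ⟨i, hi⟩ := Subgroup.mem_zpowers_iff.1 (hg (MulAut.conjNormal a g))
        obtain ⟨j, hj⟩ := Subgroup.mem_zpowers_iff.1 (hg (MulAut.conjNormal b g))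
        refine MulEquiv.ext fun x => ?_
        obtain ⟨k, rfl⟩ := Subgroup.mem_zpowers_iff.1 (hg x)
        simp only [MulAut.mul_apply, map_zpow]
        congr 1
        rw [← hi, ← hj, map_zpow, map_zpow, ← hi, ← hj, ← zpow_mul, ← zpow_mul, mul_comm]
      refine Subgroup.isNilpotent_of_ker_le_center f (fun x hx => ?_)
      rw [Subgroup.mem_center_iff]
      intro y
      have hxM : (x : G) ∈ M := (QuotientGroup.eq_one_iff _).1 (congrArg Subtype.val hx)
      have h1 := congrArg (fun φ : MulAut M => ((φ ⟨x, hxM⟩ : M) : G)) (hcc y.2)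
      simp at h1
      exact Subtype.ext (mul_inv_eq_iff_eq_mul.1 h1)

end Cfsg.Agent.S0526
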