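import Cfsg.Statements.S0529
import Cfsg.Agent.Solv.Supersolvable

set_option autoImplicit false
set_option linter.style.haveILetI false
open Cfsg

namespace Cfsg.Agent.S0529

/-- A finite supersolvable group has a chain of normal subgroups, from the trivial subgroup to the whole group, in which every step has prime index and the primes occurring are non-increasing as one goes up the chain. -/
theorem result {G : Type*} [Group G] [Finite G] (hG : Cfsg.IsSupersolvable G) : ∃ (n : ℕ) (H : Fin (n + 1) → Subgroup G), H 0 = ⊥ ∧ H (Fin.last n) = ⊤ ∧ (∀ i, (H i).Normal) ∧ (∀ i : Fin n, H i.castSucc ≤ H i.succ ∧ ((H i.castSucc).relIndex (H i.succ)).Prime) ∧ ∀ i j : Fin n, i ≤ j → (H j.castSucc).relIndex (H j.succ) ≤ (H i.castSucc).relIndex (H i.succ) := by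
  obtain ⟨m, hm⟩ : ∃ m, Nat.card G = m := ⟨_, rfl⟩
  induction m using Nat.strong_induction_on generalizing G with
  | _ m ih =>
    rcases subsingleton_or_nontrivial G with _ | _
    · exact ⟨0, fun _ => ⊥, rfl, Subsingleton.elim _ _, fun _ => inferInstance, fun i => i.elim0, fun i => i.elim0⟩
    have h1 : 1 < Nat.card G := Finite.one_lt_card
    let S := (Nat.card G).primeFactors
    have hne : S.Nonempty := by
      obtain ⟨q, hq, hqd⟩ := Nat.exists_prime_and_dvd h1.ne'
      exact ⟨q, Nat.mem_primeFactors.2 ⟨hq, hqd, Nat.card_pos.ne'⟩⟩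
    obtain ⟨hp, hpd, -⟩ := Nat.mem_primeFactors.1 (S.max'_mem hne)
    have hmax : ∀ q : ℕ, q.Prime → q ∣ Nat.card G → q ≤ S.max' hne := fun q hq hqd =>
      S.le_max' q (Nat.mem_primeFactors.2 ⟨hq, hqd, Nat.card_pos.ne'⟩)
    obtain ⟨M, hM, hMc⟩ := Cfsg.Agent.Solv.SSv.exists_normal_max_prime hG hp hpd hmax
    have hMp : (Nat.card M).Prime := hMc ▸ hp
    obtain ⟨n, H, h0, hn, hN, hs, hmono⟩ :=
      ih _ (hm ▸ Cfsg.Agent.Solv.SSv.card_quot_lt hMp) (Cfsg.Agent.Solv.SSv.of_quotient M hG) rfl
    let q := QuotientGroup.mk' M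
    have hq : Function.Surjective q := QuotientGroup.mk'_surjective M
    have hrel : ∀ A B : Subgroup (G ⧸ M), (A.comap q).relIndex (B.comap q) = A.relIndex B := fun A B => by
      rw [Subgroup.relIndex_comap, Subgroup.map_comap_eq_self_of_surjective hq]
    have hfirst : (⊥ : Subgroup G).relIndex ((H 0).comap q) = Nat.card M := by
      rw [Subgroup.relIndex_bot_left, h0, MonoidHom.comap_bot, QuotientGroup.ker_mk']
    have hdvd : ∀ i : Fin n, (H i.castSucc).relIndex (H i.succ) ≤ Nat.card M := fun i => by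
      rw [hMc]
      refine hmax _ (hs i).2 (((H i.castSucc).relIndex_dvd_card (H i.succ)).trans ?_)
      exact ((H i.succ).card_subgroup_dvd_card).trans (Subgroup.card_quotient_dvd_card M)
    refine ⟨n + 1, Fin.cons ⊥ (fun i => (H i).comap q), by simp, ?_, ?_, ?_, ?_⟩
    · rw [← Fin.succ_last, Fin.cons_succ, hn, Subgroup.comap_top]
    · intro i
      refine Fin.cases ?_ (fun i => ?_) i
      · simp only [Fin.cons_zero]; infer_instance
      · simp only [Fin.cons_succ]; exact (hN i).comap q
    · intro i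
      refine Fin.cases ?_ (fun i => ?_) i
      · simp only [Fin.castSucc_zero, Fin.cons_zero, Fin.cons_succ]
        exact ⟨bot_le, hfirst ▸ hMp⟩
      · simp only [Fin.cons_succ, Fin.castSucc_succ]
        exact ⟨Subgroup.comap_mono (hs i).1, (hrel _ _).symm ▸ (hs i).2⟩
    · intro i j
      refine Fin.cases ?_ (fun i => ?_) i <;> refine Fin.cases ?_ (fun j => ?_) j
      · intro; exact le_rfl
      · intro
        simp only [Fin.castSucc_zero, Fin.cons_zero, Fin.cons_succ, Fin.castSucc_succ]
        rw [hrel, hfirst]; exact hdvd j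
      · intro h; exact absurd h (not_le.2 (Fin.succ_pos i))
      · intro h
        simp only [Fin.cons_succ, Fin.castSucc_succ, hrel]
        exact hmono i j (Fin.succ_le_succ_iff.1 h)

end Cfsg.Agent.S0529
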