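import Cfsg.Statements.S0530
import Cfsg.Agent.Solv.Supersolvable

set_option autoImplicit false
set_option linter.style.haveILetI false
open Cfsg

namespace Cfsg.Agent.S0530

/-- A finite group whose order is twice a prime power is supersolvable. -/
theorem result {G : Type*} [Group G] [Finite G] (p n : ℕ) (hp : p.Prime) (hG : Nat.card G = 2 * p ^ n) : Cfsg.IsSupersolvable G := by
  refine Cfsg.Agent.Solv.SSv.of_class (P := fun H _ => Nat.card H ∣ 2 * p ^ n) ?_ ?_ (hG ▸ dvd_rfl)
  · intro H _ _ N _ h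
    exact (Subgroup.card_quotient_dvd_card N).trans h
  intro H _ _ _ h
  have hcen : ∀ (q : ℕ) [Fact q.Prime], IsPGroup q H → ∃ M : Subgroup H, M.Normal ∧ (Nat.card M).Prime := by
    intro q _ hq
    haveI := hq.center_nontrivial
    obtain ⟨M, h1, _, h3⟩ : ∃ M : Subgroup H, M.Normal ∧ M ≤ Subgroup.center H ∧ (Nat.card M).Prime := by
      obtain ⟨r, hr, hrd⟩ := Nat.exists_prime_and_dvd (Finite.one_lt_card (α := Subgroup.center H)).ne'
      haveI := Fact.mk hr
      obtain ⟨x, hx⟩ := exists_prime_orderOf_dvd_card' r hrd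
      refine ⟨Subgroup.zpowers (x : H), ⟨fun y hy g => ?_⟩, ?_, ?_⟩
      · have : y ∈ Subgroup.center H := (Subgroup.zpowers_le.2 x.2) hy
        rwa [Subgroup.mem_center_iff.1 this g, mul_inv_cancel_right]
      · exact Subgroup.zpowers_le.2 x.2
      · rw [Nat.card_zpowers, Subgroup.orderOf_coe, hx]; exact hr
    exact ⟨M, h1, h3⟩
  haveI := Fact.mk hp
  by_cases h2 : p = 2
  · subst h2
    obtain ⟨k, hk, hk'⟩ := (Nat.dvd_prime_pow Nat.prime_two).1 (show Nat.card H ∣ 2 ^ (n + 1) by rwa [pow_succ'])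
    exact hcen 2 (IsPGroup.of_card hk')
  obtain ⟨a, b, ha, hb, hab⟩ := (Nat.dvd_mul).1 h
  obtain ⟨k, hk, rfl⟩ := (Nat.dvd_prime_pow hp).1 hb
  rcases Nat.prime_two.eq_one_or_self_of_dvd a ha with rfl | rfl
  · exact hcen p (IsPGroup.of_card (n := k) (by rw [← hab, one_mul]))
  rcases Nat.eq_zero_or_pos k with rfl | hk0
  · exact hcen 2 (IsPGroup.of_card (n := 1) (by rw [← hab, pow_zero, mul_one, pow_one]))
  obtain ⟨P⟩ := (inferInstance : Nonempty (Sylow p H))
  have hPc : Nat.card P = p ^ k := by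
    rw [P.card_eq_multiplicity, ← hab, Nat.factorization_mul two_ne_zero (pow_ne_zero _ hp.ne_zero),
      Finsupp.add_apply, Nat.factorization_eq_zero_of_not_dvd (fun hd => h2 ((Nat.prime_dvd_prime_iff_eq hp Nat.prime_two).1 hd)),
      zero_add, hp.factorization_pow, Finsupp.single_eq_same]
  have hidx : (P : Subgroup H).index = 2 := by
    have := (P : Subgroup H).card_mul_index
    rw [hPc, ← hab, mul_comm 2] at this
    exact Nat.eq_of_mul_eq_mul_left (pow_pos hp.pos k) this
  haveI hPn : (P : Subgroup H).Normal := Subgroup.normal_of_index_eq_two hidx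
  haveI : Fact (Nat.Prime 2) := ⟨Nat.prime_two⟩
  obtain ⟨t, ht⟩ := exists_prime_orderOf_dvd_card' (G := H) 2 (hab ▸ dvd_mul_right 2 _)
  have htP : t ∉ (P : Subgroup H) := fun hh => by
    have := Subgroup.orderOf_dvd_natCard _ hh
    rw [ht, hPc] at this
    exact h2 ((Nat.prime_dvd_prime_iff_eq Nat.prime_two hp).1 (Nat.prime_two.dvd_of_dvd_pow this)).symm
  haveI : Nontrivial P := by
    rw [← Finite.one_lt_card_iff_nontrivial, hPc]; exact Nat.one_lt_pow hk0.ne' hp.one_lt
  haveI : Nontrivial (Subgroup.center P) := P.isPGroup'.center_nontrivial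
  have hpd : p ∣ Nat.card (Subgroup.center P) := by
    obtain ⟨j, hj⟩ := IsPGroup.iff_card.1 (P.isPGroup'.to_subgroup (Subgroup.center P))
    have h1 := Finite.one_lt_card (α := Subgroup.center P)
    rw [hj] at h1 ⊢
    exact dvd_pow_self p (fun h0 => by simp [h0] at h1)
  obtain ⟨x, hx⟩ := exists_prime_orderOf_dvd_card' p hpd
  set x' : H := ((x : P) : H) with hx'
  have hxo : orderOf x' = p := by rw [hx', Subgroup.orderOf_coe, Subgroup.orderOf_coe, hx]
  have hxc : ∀ g ∈ (P : Subgroup H), g * x' = x' * g := fun g hg =>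
    congrArg Subtype.val (Subgroup.mem_center_iff.1 x.2 ⟨g, hg⟩)
  have hxP : x' ∈ (P : Subgroup H) := (x : P).2
  have hcover : ∀ g : H, g ∈ (P : Subgroup H) ∨ g * t ∈ (P : Subgroup H) := fun g => by
    by_cases hg : g ∈ (P : Subgroup H)
    · exact Or.inl hg
    · exact Or.inr ((Subgroup.mul_mem_iff_of_index_two hidx).2 (iff_of_false hg htP))
  have htt : t * t = 1 := by rw [← sq, ← ht, pow_orderOf_eq_one]
  have hti : t⁻¹ = t := inv_eq_of_mul_eq_one_right htt
  have hz : ∀ g ∈ (P : Subgroup H), g * (t * x' * t) = (t * x' * t) * g := fun g hg => by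
    have h3 := hxc (t * g * t) (by simpa [hti] using hPn.conj_mem g hg t)
    calc g * (t * x' * t) = t * ((t * g * t) * x') * t := by
          simp only [mul_assoc]; rw [← mul_assoc t t, htt, one_mul]
      _ = t * (x' * (t * g * t)) * t := by rw [h3]
      _ = (t * x' * t) * g := by simp only [mul_assoc]; rw [htt, mul_one]
  by_cases hy : x' * (t * x' * t) = 1
  · refine ⟨Subgroup.zpowers x', ⟨fun y hy' g => ?_⟩, by rw [Nat.card_zpowers, hxo]; exact hp⟩
    obtain ⟨i, rfl⟩ := Subgroup.mem_zpowers_iff.1 hy'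
    rcases hcover g with hg | hg
    · rw [← conj_zpow, hxc g hg, mul_inv_cancel_right]
      exact zpow_mem (Subgroup.mem_zpowers x') i
    · have : g * x' * g⁻¹ = x'⁻¹ := by
        rw [show g = (g * t) * t by rw [mul_assoc, htt, mul_one], mul_inv_rev, hti,
          show (g * t * t) * x' * (t * (g * t)⁻¹) = (g * t) * (t * x' * t) * (g * t)⁻¹ by simp only [mul_assoc],
          hz _ hg, mul_inv_cancel_right]
        exact (inv_eq_of_mul_eq_one_right hy).symm
      rw [← conj_zpow, this, inv_zpow']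
      exact zpow_mem (Subgroup.mem_zpowers x') _
  · have hty : t * (x' * (t * x' * t)) = (x' * (t * x' * t)) * t := by
      have htx : t * x' * t ∈ (P : Subgroup H) := by simpa [hti] using hPn.conj_mem x' hxP t
      rw [show (x' * (t * x' * t)) * t = x' * (t * x') by simp only [mul_assoc]; rw [htt, mul_one],
        show t * (x' * (t * x' * t)) = (t * x' * t) * x' * t by simp only [mul_assoc],
        hxc _ htx]
      simp only [mul_assoc]; rw [htt, mul_one]
    have hyc : x' * (t * x' * t) ∈ Subgroup.center H := by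
      rw [Subgroup.mem_center_iff]
      intro g
      have hgP : ∀ g ∈ (P : Subgroup H), Commute g (x' * (t * x' * t)) := fun g hg =>
        (show Commute g x' from hxc g hg).mul_right (hz g hg)
      rcases hcover g with hg | hg
      · exact hgP g hg
      · have := (hgP _ hg).mul_left (show Commute t _ from hty)
        rwa [mul_assoc, htt, mul_one] at this
    haveI : (Subgroup.zpowers (x' * (t * x' * t))).Normal := ⟨fun y hy g => by
      rwa [Subgroup.mem_center_iff.1 (Subgroup.zpowers_le.2 hyc hy) g, mul_inv_cancel_right]⟩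
    obtain ⟨M, h1, _, h3⟩ := Cfsg.Agent.Solv.SSv.exists_prime_normal_of_cyclic this inferInstance
      (Subgroup.zpowers_ne_bot.2 hy)
    exact ⟨M, h1, h3⟩

end Cfsg.Agent.S0530
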