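import Cfsg.Statements.S0531
import Cfsg.Agent.Solv.Supersolvable

set_option autoImplicit false
set_option linter.style.haveILetI false
open Cfsg

namespace Cfsg.Agent.S0531

/-- A finite supersolvable group has a subgroup of each order dividing its order. -/
theorem result {G : Type*} [Group G] [Finite G] (hG : Cfsg.IsSupersolvable G) : Cfsg.HasSubgroupOfEveryOrder G := by
  obtain ⟨n, hn⟩ : ∃ n, Nat.card G = n := ⟨_, rfl⟩
  induction n using Nat.strong_induction_on generalizing G with
  | _ n ih =>
    intro d hd
    rcases subsingleton_or_nontrivial G with _ | _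
    · exact ⟨⊥, by rw [Nat.card_of_subsingleton (1 : G)] at hd; simp [Nat.dvd_one.1 hd]⟩
    obtain ⟨M, hM, hp⟩ := Cfsg.Agent.Solv.SSv.exists_prime_normal hG
    have hih := ih _ (hn ▸ Cfsg.Agent.Solv.SSv.card_quot_lt hp) (Cfsg.Agent.Solv.SSv.of_quotient M hG) rfl
    have hc := Subgroup.card_eq_card_quotient_mul_card_subgroup M
    have hcomap : ∀ L : Subgroup (G ⧸ M), Nat.card (L.comap (QuotientGroup.mk' M)) = Nat.card L * Nat.card M := by
      intro L
      have h1 := (L.comap (QuotientGroup.mk' M)).card_mul_index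
      rw [Subgroup.index_comap_of_surjective L (QuotientGroup.mk'_surjective M), hc, ← L.card_mul_index,
        mul_right_comm] at h1
      exact Nat.eq_of_mul_eq_mul_right (Nat.pos_of_ne_zero Subgroup.index_ne_zero_of_finite) h1
    by_cases hpd : Nat.card M ∣ d
    · obtain ⟨e, rfl⟩ := hpd
      obtain ⟨L, hL⟩ := hih e (by
        rw [hc, mul_comm (Nat.card (G ⧸ M))] at hd
        exact (Nat.mul_dvd_mul_iff_left hp.pos).1 hd)
      exact ⟨L.comap (QuotientGroup.mk' M), by rw [hcomap, hL, mul_comm]⟩
    · have hcop : d.Coprime (Nat.card M) := ((hp.coprime_iff_not_dvd).2 hpd).symm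
      obtain ⟨L, hL⟩ := hih d (hcop.dvd_of_dvd_mul_right (hc ▸ hd))
      set K := L.comap (QuotientGroup.mk' M) with hK
      have hMK : M ≤ K := fun x hx => by
        show QuotientGroup.mk' M x ∈ L
        rw [show QuotientGroup.mk' M x = 1 from (QuotientGroup.eq_one_iff x).2 hx]
        exact one_mem L
      have hidx : (M.subgroupOf K).index = d := by
        have h1 := (M.subgroupOf K).card_mul_index
        rw [Nat.card_congr (Subgroup.subgroupOfEquivOfLe hMK).toEquiv, hcomap, hL, mul_comm d] at h1
        exact Nat.eq_of_mul_eq_mul_left hp.pos h1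
      obtain ⟨H, hH⟩ := Subgroup.exists_left_complement'_of_coprime (N := M.subgroupOf K) (by
        rw [hidx, Nat.card_congr (Subgroup.subgroupOfEquivOfLe hMK).toEquiv]; exact hcop.symm)
      refine ⟨H.map K.subtype, ?_⟩
      rw [Subgroup.card_map_of_injective K.subtype_injective, ← hH.index_eq_card, hidx]

end Cfsg.Agent.S0531
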