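import Cfsg.Statements.S0532
import Mathlib

set_option autoImplicit false
set_option linter.style.haveILetI false
open Cfsg

namespace Cfsg.Agent.S0532

/-- If each subgroup of a finite group satisfies the converse of Lagrange's theorem, then a Sylow subgroup for the largest prime dividing the group order is normal. -/
theorem result {G : Type*} [Group G] [Finite G] (h : ∀ H : Subgroup G, Cfsg.HasSubgroupOfEveryOrder H) (p : ℕ) [Fact p.Prime] (hdvd : p ∣ Nat.card G) (hmax : ∀ q : ℕ, q.Prime → q ∣ Nat.card G → q ≤ p) (P : Sylow p G) : (P : Subgroup G).Normal := by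
  obtain ⟨n, hn⟩ : ∃ n, Nat.card G = n := ⟨_, rfl⟩
  induction n using Nat.strong_induction_on generalizing G with
  | _ n ih =>
    have hp := (Fact.out : p.Prime)
    have h1 : Nat.card G ≠ 1 := fun e => hp.not_dvd_one (e ▸ hdvd)
    set q := (Nat.card G).minFac with hqdef
    have hq : q.Prime := Nat.minFac_prime h1
    have hqd : q ∣ Nat.card G := Nat.minFac_dvd _
    by_cases hqp : q = p
    · have : (P : Subgroup G) = ⊤ := by
        apply Subgroup.eq_top_of_card_eq
        rw [P.card_eq_multiplicity]
        conv_rhs => rw [Nat.eq_prime_pow_of_unique_prime_dvd Nat.card_pos.ne' (p := p) (fun {r} hr hrd =>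
          le_antisymm (hmax r hr hrd) (hqp ▸ Nat.minFac_le_of_dvd hr.two_le hrd))]
        congr 1
        conv_lhs => rw [Nat.eq_prime_pow_of_unique_prime_dvd Nat.card_pos.ne' (p := p) (fun {r} hr hrd =>
          le_antisymm (hmax r hr hrd) (hqp ▸ Nat.minFac_le_of_dvd hr.two_le hrd))]
        rw [hp.factorization_pow, Finsupp.single_eq_same]
      rw [this]; infer_instance
    obtain ⟨H', hH'⟩ := h ⊤ (Nat.card G / q) (by rw [Subgroup.card_top]; exact Nat.div_dvd_of_dvd hqd)
    set H := H'.map (⊤ : Subgroup G).subtype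
    have hHc : Nat.card H = Nat.card G / q := by
      rw [Subgroup.card_map_of_injective (Subgroup.subtype_injective _), hH']
    have hidx : H.index = q := by
      have h2 := H.card_mul_index
      rw [hHc] at h2
      exact Nat.eq_of_mul_eq_mul_left (Nat.div_pos (Nat.minFac_le Nat.card_pos) hq.pos)
        (h2.trans (Nat.div_mul_cancel hqd).symm)
    haveI hHn : H.Normal := Subgroup.normal_of_index_eq_minFac_card hidx
    have hPH : (P : Subgroup G) ≤ H := by
      intro x hx
      rw [← QuotientGroup.eq_one_iff, ← orderOf_eq_one_iff]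
      have h2 : orderOf (QuotientGroup.mk' H x) ∣ q := by
        rw [← hidx]; exact orderOf_dvd_natCard _
      obtain ⟨k, hk⟩ := IsPGroup.iff_orderOf.1 P.isPGroup' ⟨x, hx⟩
      have h3 : orderOf (QuotientGroup.mk' H x) ∣ p ^ k :=
        (orderOf_map_dvd _ x).trans (by rw [← hk, Subgroup.orderOf_mk])
      exact Nat.eq_one_of_dvd_coprimes (((Nat.coprime_primes hq hp).2 hqp).pow_right k) h2 h3
    have hHdvd : p ∣ Nat.card H := (P.dvd_card_of_dvd_card hdvd).trans (Subgroup.card_dvd_of_le hPH)
    have hsub : ∀ K : Subgroup H, Cfsg.HasSubgroupOfEveryOrder K := fun K d hd => by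
      let e := K.equivMapOfInjective H.subtype H.subtype_injective
      obtain ⟨L, hL⟩ := h (K.map H.subtype) d (by rwa [← Nat.card_congr e.toEquiv])
      exact ⟨L.map e.symm.toMonoidHom, by rw [Subgroup.card_map_of_injective e.symm.injective, hL]⟩
    have hlt : Nat.card H < n := hn ▸ (hHc ▸ Nat.div_lt_self Nat.card_pos hq.one_lt)
    have hN := ih _ hlt hsub hHdvd (fun r hr hrd => hmax r hr (hrd.trans H.card_subgroup_dvd_card)) (P.subtype hPH) rfl
    haveI := Sylow.characteristic_of_normal (P.subtype hPH) hN
    have : (P : Subgroup G) = ((P.subtype hPH : Sylow p H) : Subgroup H).map H.subtype := by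
      rw [Sylow.coe_subtype, Subgroup.map_subgroupOf_eq_of_le hPH]
    rw [this]
    exact ConjAct.normal_of_characteristic_of_normal

end Cfsg.Agent.S0532
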