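import Cfsg.Statements.S0533
import Cfsg.Agent.Solv.Huppert
import Cfsg.Agent.S0532

set_option autoImplicit false
set_option linter.style.haveILetI false
open Cfsg

namespace Cfsg.Agent.S0533

/-- If every subgroup of a finite group has subgroups of all orders dividing its order, then the group is supersolvable. -/
theorem result {G : Type*} [Group G] [Finite G] (h : ∀ H : Subgroup G, Cfsg.HasSubgroupOfEveryOrder H) : Cfsg.IsSupersolvable G := by
  obtain ⟨n, hn⟩ : ∃ n, Nat.card G = n := ⟨_, rfl⟩
  induction n using Nat.strong_induction_on generalizing G with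
  | _ n ih =>
    have hproper : ∀ H : Subgroup G, H ≠ ⊤ → Cfsg.IsSupersolvable H := fun H hH => by
      refine ih _ (hn ▸ lt_of_le_of_ne (Subgroup.card_le_card_group _) (fun e => hH (Subgroup.eq_top_of_card_eq _ e)))
        (fun K d hd => ?_) rfl
      let e := K.equivMapOfInjective H.subtype H.subtype_injective
      obtain ⟨L, hL⟩ := h (K.map H.subtype) d (by rwa [← Nat.card_congr e.toEquiv])
      exact ⟨L.map e.symm.toMonoidHom, by rw [Subgroup.card_map_of_injective e.symm.injective, hL]⟩
    rcases subsingleton_or_nontrivial G with _ | _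
    · exact Cfsg.Agent.Solv.SSv.of_subsingleton
    let S := (Nat.card G).primeFactors
    have hne : S.Nonempty := by
      obtain ⟨q, hq, hqd⟩ := Nat.exists_prime_and_dvd (Finite.one_lt_card (α := G)).ne'
      exact ⟨q, Nat.mem_primeFactors.2 ⟨hq, hqd, Nat.card_pos.ne'⟩⟩
    obtain ⟨hp, hpd, -⟩ := Nat.mem_primeFactors.1 (S.max'_mem hne)
    set p := S.max' hne with hpdef
    haveI := Fact.mk hp
    obtain ⟨P⟩ := (inferInstance : Nonempty (Sylow p G))
    haveI hP : (P : Subgroup G).Normal := Cfsg.Agent.S0532.result h p hpd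
      (fun q hq hqd => S.le_max' q (Nat.mem_primeFactors.2 ⟨hq, hqd, Nat.card_pos.ne'⟩)) P
    obtain ⟨H, hH⟩ := Subgroup.exists_right_complement'_of_coprime (N := (P : Subgroup G)) P.card_coprime_index
    have hPne : (P : Subgroup G) ≠ ⊥ := P.ne_bot_of_dvd_card hpd
    have hHne : H ≠ ⊤ := fun e => hPne (by
      have := hH.disjoint.eq_bot; rwa [e, inf_top_eq] at this)
    have hquot : Cfsg.IsSupersolvable (G ⧸ (P : Subgroup G)) := by
      refine Cfsg.Agent.Solv.SSv.of_surjective ((QuotientGroup.mk' (P : Subgroup G)).comp H.subtype) ?_ (hproper H hHne)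
      intro y
      obtain ⟨g, rfl⟩ := QuotientGroup.mk'_surjective (P : Subgroup G) y
      have hg : g ∈ (((P : Subgroup G) ⊔ H : Subgroup G) : Set G) := by rw [hH.sup_eq_top]; trivial
      rw [Subgroup.normal_mul] at hg
      obtain ⟨x, hx, k, hk, rfl⟩ := hg
      exact ⟨⟨k, hk⟩, by simp [(QuotientGroup.eq_one_iff x).2 hx]⟩
    have hsolP : ∀ K : Subgroup G, Group.IsSolvable ((P : Subgroup G).subgroupOf K) := fun K => by
      haveI : Group.IsNilpotent ((P : Subgroup G).subgroupOf K) :=
        (P.isPGroup'.comap_subtype (K := K)).isNilpotent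
      infer_instance
    -- a complement of the Sylow subgroup inside any supplement to it
    have hcompl : ∀ K : Subgroup G, (P : Subgroup G) ⊔ K = ⊤ → ∃ C : Subgroup G, C ≤ K ∧
        C ⊔ (P : Subgroup G) = ⊤ ∧ (Nat.card C).Coprime (Nat.card (P : Subgroup G)) := by
      intro K hK
      have hidx : ((P : Subgroup G).subgroupOf K).index = (P : Subgroup G).index := by
        show (P : Subgroup G).relIndex K = _
        rw [← Subgroup.relIndex_sup_right, sup_comm, hK, Subgroup.relIndex_top_right]
      obtain ⟨k, hk⟩ := IsPGroup.iff_card.1 (P.isPGroup'.comap_subtype (K := K))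
      obtain ⟨C, hC⟩ := Subgroup.exists_right_complement'_of_coprime (N := (P : Subgroup G).subgroupOf K) (by
        rw [hidx, show Nat.card ((P : Subgroup G).subgroupOf K) = p ^ k from hk]
        exact ((hp.coprime_iff_not_dvd.2 P.not_dvd_index).pow_left k))
      refine ⟨C.map K.subtype, Subgroup.map_subtype_le _, ?_, ?_⟩
      · rw [eq_top_iff, ← hK]
        refine sup_le le_sup_right ?_
        intro x hx
        have hx' : (⟨x, hx⟩ : K) ∈ (((P : Subgroup G).subgroupOf K ⊔ C : Subgroup K) : Set K) := by
          rw [hC.sup_eq_top]; trivial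
        rw [Subgroup.normal_mul] at hx'
        obtain ⟨a, ha, b, hb, hab⟩ := hx'
        have hx2 : x = (a : G) * (b : G) := (congrArg Subtype.val hab).symm
        rw [hx2]
        exact Subgroup.mul_mem _ (le_sup_right (a := C.map K.subtype) ha) (le_sup_left (b := (P : Subgroup G)) ⟨b, hb, rfl⟩)
      · rw [Subgroup.card_map_of_injective K.subtype_injective, ← hC.symm.index_eq_card, hidx]
        exact P.card_coprime_index.symm
    refine Cfsg.Agent.Solv.SSv.huppert (fun M hM => ?_)
    by_cases hPM : (P : Subgroup G) ≤ M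
    · have hq := QuotientGroup.mk'_surjective (P : Subgroup G)
      have hker : (QuotientGroup.mk' (P : Subgroup G)).ker ≤ M := by rwa [QuotientGroup.ker_mk']
      rw [← Subgroup.index_map_eq M hq hker]
      refine Cfsg.Agent.Solv.SSv.prime_index hquot _ ⟨fun he => hM.1 ?_, fun L hL => ?_⟩
      · rw [← Subgroup.comap_map_eq_self hker, he, Subgroup.comap_top]
      · have : M < L.comap (QuotientGroup.mk' (P : Subgroup G)) := by
          rw [← Subgroup.comap_map_eq_self hker]; exact (Subgroup.comap_lt_comap_of_surjective hq).2 hL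
        rw [← Subgroup.map_comap_eq_self_of_surjective hq L, hM.2 _ this, Subgroup.map_top_of_surjective _ hq]
    have hPMt : (P : Subgroup G) ⊔ M = ⊤ := hM.2 _ (lt_of_le_of_ne le_sup_right
      (fun e => hPM (by rw [e]; exact le_sup_left)))
    set Q := (P : Subgroup G) ⊓ M with hQ
    -- `Q` is normal
    haveI hQn : Q.Normal := by
      rw [← Subgroup.normalizer_eq_top_iff]
      haveI : Group.IsNilpotent (P : Subgroup G) := P.isPGroup'.isNilpotent
      have hlt : Q.subgroupOf (P : Subgroup G) < ⊤ := lt_top_iff_ne_top.2 fun e =>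
        hPM ((Subgroup.subgroupOf_eq_top.1 e).trans inf_le_right)
      have hgrow := normalizerCondition_of_isNilpotent (Q.subgroupOf (P : Subgroup G)) hlt
      obtain ⟨x, hx1, hx2⟩ := SetLike.exists_of_lt hgrow
      rw [← Subgroup.subgroupOf_normalizer_eq (inf_le_left : Q ≤ (P : Subgroup G)), Subgroup.mem_subgroupOf] at hx1
      have hMn : M ≤ Subgroup.normalizer (Q : Set G) := fun m hm => Subgroup.mem_normalizer_iff.2 fun y =>
        ⟨fun hy => ⟨hP.conj_mem y hy.1 m, M.mul_mem (M.mul_mem hm hy.2) (M.inv_mem hm)⟩,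
         fun hy => ⟨(show y ∈ (P : Subgroup G) by simpa [mul_assoc] using hP.conj_mem _ hy.1 m⁻¹),
           by simpa [mul_assoc] using M.mul_mem (M.mul_mem (M.inv_mem hm) hy.2) hm⟩⟩
      refine hM.2 _ (lt_of_le_of_ne hMn fun e => hx2 ?_)
      rw [Subgroup.mem_subgroupOf]
      exact ⟨x.2, by rw [e]; exact hx1⟩
    obtain ⟨K₀, hK₀⟩ := h ⊤ (Nat.card G / p) (by rw [Subgroup.card_top]; exact Nat.div_dvd_of_dvd hpd)
    set K := K₀.map (⊤ : Subgroup G).subtype
    have hKc : Nat.card K = Nat.card G / p := by
      rw [Subgroup.card_map_of_injective (Subgroup.subtype_injective _), hK₀]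
    have hKidx : K.index = p := by
      have h2 := K.card_mul_index
      rw [hKc] at h2
      exact Nat.eq_of_mul_eq_mul_left (Nat.div_pos (Nat.le_of_dvd Nat.card_pos hpd) hp.pos)
        (h2.trans (Nat.div_mul_cancel hpd).symm)
    have hKco : ∀ L : Subgroup G, K < L → L = ⊤ := by
      intro L hL
      have h1 := Subgroup.relIndex_mul_index hL.le
      rw [hKidx] at h1
      rcases hp.eq_one_or_self_of_dvd L.index ⟨K.relIndex L, by rw [mul_comm, h1]⟩ with h2 | h2
      · exact Subgroup.index_eq_one.1 h2
      · exfalso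
        rw [h2] at h1
        have h3 : K.relIndex L = 1 := Nat.eq_of_mul_eq_mul_right hp.pos (h1.trans (one_mul p).symm)
        exact hL.not_ge (Subgroup.relIndex_eq_one.1 h3)
    have hKt : K ≠ ⊤ := fun e => hp.one_lt.ne' (by rw [← hKidx, e, Subgroup.index_top])
    by_cases hQK : Q ≤ K
    · -- then a conjugate of `M` lies in `K`
      have hPK : (P : Subgroup G) ⊔ K = ⊤ := by
        refine hKco _ (lt_of_le_of_ne le_sup_right fun e => ?_)
        have h1 : (P : Subgroup G) ≤ K := by rw [e]; exact le_sup_left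
        have h2 := Subgroup.index_dvd_of_le h1
        rw [hKidx] at h2
        exact P.not_dvd_index h2
      obtain ⟨C, hCK, hCs, hCc⟩ := hcompl K hPK
      obtain ⟨C', hC'M, hC's, hC'c⟩ := hcompl M hPMt
      obtain ⟨x, -, hx⟩ := Cfsg.Agent.Solv.sz_conj (P : Subgroup G) P.card_coprime_index
        (Or.inl (by haveI : Group.IsNilpotent (P : Subgroup G) := P.isPGroup'.isNilpotent; infer_instance))
        hC's hC'c hCs hCc
      have hMle : M ≤ Q ⊔ C' := by
        intro m hm
        have hm' : m ∈ (((P : Subgroup G) ⊔ C' : Subgroup G) : Set G) := by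
          rw [sup_comm, hC's]; trivial
        rw [Subgroup.normal_mul] at hm'
        obtain ⟨a, ha, b, hb, hab⟩ := hm'
        have haM : a ∈ M := by
          have : a = m * b⁻¹ := by rw [← hab]; simp
          rw [this]; exact M.mul_mem hm (M.inv_mem (hC'M hb))
        have hab' : m = a * b := hab.symm
        rw [hab']
        exact Subgroup.mul_mem _ (le_sup_left (b := C') ⟨ha, haM⟩) (le_sup_right (a := Q) hb)
      have hMK : ∀ m ∈ M, x * m * x⁻¹ ∈ K := by
        intro m hm
        have hm' : m ∈ ((Q ⊔ C' : Subgroup G) : Set G) := hMle hm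
        rw [Subgroup.normal_mul] at hm'
        obtain ⟨a, ha, b, hb, rfl⟩ := hm'
        have h1 : x * (a * b) * x⁻¹ = (x * a * x⁻¹) * (x * b * x⁻¹) := by group
        rw [h1]
        refine K.mul_mem (hQK (hQn.conj_mem a ha x)) (hCK ?_)
        rw [← hx, Cfsg.Agent.Solv.mem_conj_smul]
        simpa [mul_assoc] using hb
      have heq : K.comap (MulAut.conj x).toMonoidHom = M := by
        by_contra hne'
        have hlt : M < K.comap (MulAut.conj x).toMonoidHom :=
          lt_of_le_of_ne (fun m hm => hMK m hm) (Ne.symm hne')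
        have htop := hM.2 _ hlt
        apply hKt
        rw [← Subgroup.map_comap_eq_self_of_surjective (f := (MulAut.conj x).toMonoidHom) (MulAut.conj x).surjective K, htop,
          Subgroup.map_top_of_surjective _ (MulAut.conj x).surjective]
      rw [← heq, Subgroup.index_comap_of_surjective K (f := (MulAut.conj x).toMonoidHom) (MulAut.conj x).surjective, hKidx]
      exact hp
    · -- `M ⊓ K` is maximal in `K` with the same index
      have hQKt : Q ⊔ K = ⊤ := hKco _ (lt_of_le_of_ne le_sup_right (fun e => hQK (by rw [e]; exact le_sup_left)))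
      have hMdec : ∀ g ∈ M, ∃ a ∈ Q, ∃ b ∈ M ⊓ K, g = a * b := by
        intro g hg
        have hg' : g ∈ ((Q ⊔ K : Subgroup G) : Set G) := by rw [hQKt]; trivial
        rw [Subgroup.normal_mul] at hg'
        obtain ⟨a, ha, b, hb, rfl⟩ := hg'
        exact ⟨a, ha, b, ⟨by simpa using M.mul_mem (M.inv_mem ha.2) hg, hb⟩, rfl⟩
      have hidx : ((M ⊓ K).subgroupOf K).index = M.index := by
        have h1 : (M ⊓ K).relIndex M = p := by
          apply le_antisymm
          · rw [inf_comm, Subgroup.inf_relIndex_right, ← hKidx, ← Subgroup.relIndex_top_right K]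
            exact Subgroup.relIndex_le_of_le_right le_top (by rw [Subgroup.relIndex_top_right, hKidx]; exact hp.ne_zero)
          · have h4 : K.relIndex Q = p := by
              rw [← hKidx, ← Subgroup.inf_relIndex_right]
              have h5 := Subgroup.card_mul_index (K ⊓ Q)
              have h6 := Subgroup.relIndex_mul_index (inf_le_right : K ⊓ Q ≤ Q)
              have h7 : Q.relIndex K = Q.index := by
                rw [← Subgroup.relIndex_sup_right, sup_comm, hQKt, Subgroup.relIndex_top_right]
              have h8 := Subgroup.relIndex_mul_index (inf_le_left : K ⊓ Q ≤ K)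
              rw [Subgroup.inf_relIndex_left, h7, ← h6] at h8
              exact (Nat.eq_of_mul_eq_mul_left (Nat.pos_of_ne_zero Subgroup.index_ne_zero_of_finite)
                (by rw [h8, mul_comm])).symm
            rw [inf_comm, Subgroup.inf_relIndex_right, ← h4]
            exact Subgroup.relIndex_le_of_le_right inf_le_right (Nat.pos_iff_ne_zero.1 (Nat.pos_of_ne_zero Subgroup.index_ne_zero_of_finite))
        have h2 := Subgroup.relIndex_mul_index (inf_le_left : M ⊓ K ≤ M)
        have h3 := Subgroup.relIndex_mul_index (inf_le_right : M ⊓ K ≤ K)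
        rw [h1, ← h3, hKidx, mul_comm p] at h2
        exact (Nat.eq_of_mul_eq_mul_right hp.pos h2).symm
      rw [← hidx]
      refine Cfsg.Agent.Solv.SSv.prime_index (hproper K hKt) _ ⟨fun he => ?_, fun J hJ => ?_⟩
      · exact hM.1 (Subgroup.index_eq_one.1 (by rw [← hidx, he, Subgroup.index_top]))
      · have hJ1 : M ⊓ K ≤ J.map K.subtype := fun y hy =>
          ⟨⟨y, hy.2⟩, hJ.le (by rw [Subgroup.mem_subgroupOf]; exact hy), rfl⟩
        have hMJ : M ≤ Q ⊔ J.map K.subtype := fun g hg => by
          obtain ⟨a, ha, b, hb, rfl⟩ := hMdec g hg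
          exact Subgroup.mul_mem _ (le_sup_left (b := J.map K.subtype) ha) (le_sup_right (a := Q) (hJ1 hb))
        obtain ⟨y, hyJ, hyn⟩ := SetLike.exists_of_lt hJ
        have htop : Q ⊔ J.map K.subtype = ⊤ := hM.2 _ (lt_of_le_of_ne hMJ fun e => hyn (by
          rw [Subgroup.mem_subgroupOf]
          exact ⟨e.symm ▸ (le_sup_right : J.map K.subtype ≤ Q ⊔ J.map K.subtype) ⟨y, hyJ, rfl⟩, y.2⟩))
        rw [eq_top_iff]
        intro k _
        have hk : (k : G) ∈ ((Q ⊔ J.map K.subtype : Subgroup G) : Set G) := by rw [htop]; trivial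
        rw [Subgroup.normal_mul] at hk
        obtain ⟨a, ha, b, hb, hab⟩ := hk
        obtain ⟨j, hj, rfl⟩ := hb
        have haK : a ∈ K := by
          have : a = (k : G) * (j : G)⁻¹ := by rw [← hab]; simp
          rw [this]; exact K.mul_mem k.2 (K.inv_mem j.2)
        have : k = (⟨a, haK⟩ : K) * j := Subtype.ext hab.symm
        rw [this]
        exact J.mul_mem (hJ.le (by rw [Subgroup.mem_subgroupOf]; exact ⟨ha.2, haK⟩)) hj

end Cfsg.Agent.S0533
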