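import Cfsg.Statements.S4002
import Mathlib
import Cfsg.Agent.Solv.Hall
import Cfsg.Agent.Solv.AbelianAction

set_option autoImplicit false
open Cfsg

namespace Cfsg.Agent.S4002

theorem three_primes (n : ℕ) (hn : 7 ≤ n) : ∃ p q r : ℕ, p.Prime ∧ q.Prime ∧ r.Prime ∧ p ≤ n ∧ q ≤ n ∧ r ≤ n ∧
    p ≠ q ∧ p ≠ r ∧ q ≠ r ∧ n < p * q ∧ n < p * r ∧ n < q * r := by
  by_cases h15 : n < 15
  · exact ⟨3, 5, 7, by norm_num, by norm_num, by norm_num, by omega, by omega, by omega,
      by omega, by omega, by omega, by omega, by omega, by omega⟩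
  by_cases h35 : n < 35
  · exact ⟨5, 7, 11, by norm_num, by norm_num, by norm_num, by omega, by omega, by omega,
      by omega, by omega, by omega, by omega, by omega, by omega⟩
  obtain ⟨p, hp, hp1, hp2⟩ := Nat.exists_prime_lt_and_le_two_mul (n / 8) (by omega)
  obtain ⟨q, hq, hq1, hq2⟩ := Nat.exists_prime_lt_and_le_two_mul (n / 4) (by omega)
  obtain ⟨r, hr, hr1, hr2⟩ := Nat.exists_prime_lt_and_le_two_mul (n / 2) (by omega)
  have e8 : n < 8 * p := by omega
  have e4 : n < 4 * q := by omega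
  have e2 : n < 2 * r := by omega
  have key : n < p * q := by
    have h1 : n * n < (8 * p) * (4 * q) := Nat.mul_lt_mul_of_lt_of_lt e8 e4
    have h2 : 32 * n < n * n := Nat.mul_lt_mul_of_pos_right (by omega) (by omega)
    have h3 : 32 * n < 32 * (p * q) := by nlinarith
    omega
  exact ⟨p, q, r, hp, hq, hr, by omega, by omega, by omega, by omega, by omega, by omega, key,
    lt_of_lt_of_le key (Nat.mul_le_mul_left _ (by omega)),
    lt_of_lt_of_le key (Nat.mul_le_mul (by omega) (by omega))⟩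

theorem prod_dvd (S : Finset ℕ) (hS : ∀ s ∈ S, Nat.Prime s) (N : ℕ) :
    ∏ s ∈ S, s ^ N.factorization s ∣ N := by
  classical
  induction S using Finset.induction_on with
  | empty => simp
  | insert a T ha ih =>
    rw [Finset.prod_insert ha]
    refine Nat.Coprime.mul_dvd_of_dvd_of_dvd ?_ (Nat.ordProj_dvd _ _) (ih fun s hs => hS s (Finset.mem_insert_of_mem hs))
    refine Nat.Coprime.prod_right fun t ht => Nat.Coprime.pow _ _ ?_
    exact (Nat.coprime_primes (hS a (Finset.mem_insert_self a T)) (hS t (Finset.mem_insert_of_mem ht))).2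
      fun e => ha (e ▸ ht)

/-- The `S`-part and `S'`-part of the order. -/
theorem hall_split {G : Type*} [Group G] [Finite G] (S : Finset ℕ) (hS : ∀ s ∈ S, Nat.Prime s) :
    ∃ a b : ℕ, Nat.card G = a * b ∧ a.Coprime b ∧ (∀ s ∈ S, s ∣ Nat.card G → s ∣ a) ∧ ∀ s : ℕ, s.Prime → s ∣ a → s ∈ S := by
  refine ⟨∏ s ∈ S, s ^ (Nat.card G).factorization s, Nat.card G / ∏ s ∈ S, s ^ (Nat.card G).factorization s,
    ?_, ?_, ?_, ?_⟩
  · rw [Nat.mul_div_cancel']
    exact prod_dvd S hS _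
  · rw [Nat.coprime_prod_left_iff]
    intro s hs
    refine Nat.Coprime.pow_left _ ((hS s hs).coprime_iff_not_dvd.2 fun hd => ?_)
    have hd' : (∏ u ∈ S, u ^ (Nat.card G).factorization u) * s ∣ Nat.card G := by
      refine Nat.mul_dvd_of_dvd_div ?_ hd
      exact prod_dvd S hS _
    have h2 : s ^ ((Nat.card G).factorization s + 1) ∣ Nat.card G := by
      rw [pow_succ]
      exact (Nat.mul_dvd_mul_right (Finset.dvd_prod_of_mem (fun u => u ^ (Nat.card G).factorization u) hs) s).trans hd'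
    exact absurd ((hS s hs).pow_dvd_iff_le_factorization Nat.card_pos.ne' |>.1 h2) (by omega)
  · intro s hs hd
    exact (dvd_pow_self s ((hS s hs).factorization_pos_of_dvd Nat.card_pos.ne' hd).ne').trans
      (Finset.dvd_prod_of_mem (fun u => u ^ (Nat.card G).factorization u) hs)
  · intro s hs hd
    obtain ⟨u, hu, hsu⟩ := (Prime.dvd_finsetProd_iff hs.prime _).1 hd
    have := (Nat.prime_dvd_prime_iff_eq hs (hS u hu)).1 (hs.dvd_of_dvd_pow hsu)
    exact this ▸ hu

/-- A nontrivial solvable finite group has a nontrivial normal abelian subgroup of prime exponent. -/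
theorem exists_normal_torsion (H : Type*) [Group H] [Finite H] [Group.IsSolvable H] [Nontrivial H] :
    ∃ r : ℕ, r.Prime ∧ ∃ V : Subgroup H, V.Normal ∧ V ≠ ⊥ ∧ (∀ a ∈ V, ∀ b ∈ V, a * b = b * a) ∧
      ∀ v ∈ V, v ^ r = 1 := by
  classical
  obtain ⟨m, hm⟩ := Group.IsSolvable.solvable (G := H)
  obtain ⟨k, hk, hk'⟩ : ∃ k, derivedSeries H k ≠ ⊥ ∧ derivedSeries H (k + 1) = ⊥ := by
    have h : ∃ j, derivedSeries H j = ⊥ := ⟨m, hm⟩
    have hpos : 0 < Nat.find h := Nat.pos_of_ne_zero fun e => by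
      have := Nat.find_spec h
      rw [e, derivedSeries_zero] at this
      exact top_ne_bot this
    exact ⟨Nat.find h - 1, Nat.find_min h (by omega), by
      rw [show Nat.find h - 1 + 1 = Nat.find h by omega]; exact Nat.find_spec h⟩
  have hc : ∀ a ∈ derivedSeries H k, ∀ b ∈ derivedSeries H k, a * b = b * a := by
    intro a ha b hb
    rw [derivedSeries_succ, Subgroup.commutator_eq_bot_iff_le_centralizer] at hk'
    exact (Subgroup.mem_centralizer_iff.1 (hk' ha) b hb).symm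
  obtain ⟨r, hr, hrd⟩ := Nat.exists_prime_and_dvd
    (show Nat.card (derivedSeries H k) ≠ 1 from fun e => hk (Subgroup.eq_bot_of_card_eq _ e))
  haveI := Fact.mk hr
  obtain ⟨v, hv⟩ := exists_prime_orderOf_dvd_card' r hrd
  let V : Subgroup H :=
    { carrier := {x | x ∈ derivedSeries H k ∧ x ^ r = 1}
      one_mem' := ⟨one_mem _, one_pow r⟩
      mul_mem' := fun {a b} ha hb => ⟨mul_mem ha.1 hb.1, by
        rw [(show Commute a b from hc a ha.1 b hb.1).mul_pow, ha.2, hb.2, one_mul]⟩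
      inv_mem' := fun {a} ha => ⟨inv_mem ha.1, by rw [inv_pow, ha.2, inv_one]⟩ }
  refine ⟨r, hr, V, ⟨fun a ha g => ⟨(derivedSeries_normal H k).conj_mem a ha.1 g, by
    rw [conj_pow, ha.2, mul_one, mul_inv_cancel]⟩⟩, ?_, fun a ha b hb => hc a ha.1 b hb.1, fun a ha => ha.2⟩
  intro e
  have hmem : (v : H) ∈ V := ⟨v.2, by rw [← hv, ← Subgroup.orderOf_coe, pow_orderOf_eq_one]⟩
  rw [e, Subgroup.mem_bot] at hmem
  rw [show v = 1 from Subtype.ext hmem, orderOf_one] at hv
  exact hr.one_lt.ne hv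

/-- If the set of element orders of a finite group G is {1, 2, …, n} with n ≥ 7, then G is not solvable. -/
theorem result {G : Type*} [Group G] [Finite G] (n : ℕ) (hn : 7 ≤ n) (h : Set.range (orderOf : G → ℕ) = {k : ℕ | 1 ≤ k ∧ k ≤ n}) : ¬ Group.IsSolvable G := by
  intro hsolv
  obtain ⟨p, q, r, hp, hq, hr, hpn, hqn, hrn, hpq, hpr, hqr, hnpq, hnpr, hnqr⟩ := three_primes n hn
  have hle : ∀ g : G, orderOf g ≤ n := fun g => by
    have : orderOf g ∈ Set.range (orderOf : G → ℕ) := ⟨g, rfl⟩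
    rw [h] at this
    exact this.2
  have hdvd : ∀ s : ℕ, 1 ≤ s → s ≤ n → s ∣ Nat.card G := by
    intro s h1 h2
    obtain ⟨g, hg⟩ : s ∈ Set.range (orderOf : G → ℕ) := by rw [h]; exact ⟨h1, h2⟩
    exact hg ▸ orderOf_dvd_natCard g
  set S : Finset ℕ := {p, q, r}
  have hS : ∀ s ∈ S, Nat.Prime s ∧ s ∣ Nat.card G := by
    intro s hs
    simp only [S, Finset.mem_insert, Finset.mem_singleton] at hs
    rcases hs with rfl | rfl | rfl
    · exact ⟨hp, hdvd _ hp.one_le hpn⟩
    · exact ⟨hq, hdvd _ hq.one_le hqn⟩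
    · exact ⟨hr, hdvd _ hr.one_le hrn⟩
  have hbig : ∀ s ∈ S, ∀ t ∈ S, s ≠ t → n < s * t := by
    intro s hs t ht hst
    simp only [S, Finset.mem_insert, Finset.mem_singleton] at hs ht
    rcases hs with rfl | rfl | rfl <;> rcases ht with rfl | rfl | rfl <;>
      first | exact absurd rfl hst | assumption | (rw [mul_comm]; assumption)
  have hcomm : ∀ s ∈ S, ∀ t ∈ S, s ≠ t → ∀ a b : G, orderOf a = s → orderOf b = t → ¬ Commute a b := by
    intro s hs t ht hst a b ha hb hab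
    have := hab.orderOf_mul_eq_mul_orderOf_of_coprime
      (by rw [ha, hb]; exact (Nat.coprime_primes (hS s hs).1 (hS t ht).1).2 hst)
    rw [ha, hb] at this
    exact absurd (hle (a * b)) (by rw [this]; exact not_le.2 (hbig s hs t ht hst))
  obtain ⟨a₀, b₀, hab₀, hab₁, hN, hN'⟩ := hall_split (G := G) S (fun s hs => (hS s hs).1)
  obtain ⟨H, hH, -⟩ := Solv.hall_exists_dominating hab₀ hab₁
  have hHdvd : ∀ s ∈ S, s ∣ Nat.card H := fun s hs => hH ▸ (hN s hs (hS s hs).2)
  have hHpr : ∀ s : ℕ, s.Prime → s ∣ Nat.card H → s ∈ S := fun s hs hd =>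
    hN' s hs (hH ▸ hd)
  have hpS : p ∈ S := by simp [S]
  haveI : Nontrivial H := Finite.one_lt_card_iff_nontrivial.1
    (lt_of_lt_of_le hp.one_lt (Nat.le_of_dvd Nat.card_pos (hHdvd p hpS)))
  obtain ⟨r₀, hr₀, V, hVn, hVne, hVc, hVp⟩ := exists_normal_torsion H
  have hr₀S : r₀ ∈ S := by
    obtain ⟨v, hv, hv1⟩ := V.bot_or_exists_ne_one.resolve_left hVne
    haveI := Fact.mk hr₀
    exact hHpr r₀ hr₀ (orderOf_eq_prime (hVp v hv) hv1 ▸ orderOf_dvd_natCard v)
  set T := S.erase r₀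
  obtain ⟨a₁, b₁, hc₀, hc₁, hM, hM'⟩ := hall_split (G := H) T (fun s hs => (hS s (Finset.mem_of_mem_erase hs)).1)
  obtain ⟨K, hK, -⟩ := Solv.hall_exists_dominating hc₀ hc₁
  have hKdvd : ∀ s ∈ T, s ∣ Nat.card K := fun s hs =>
    hK ▸ hM s hs (hHdvd s (Finset.mem_of_mem_erase hs))
  have hKpr : ∀ s : ℕ, s.Prime → s ∣ Nat.card K → s ∈ T := fun s hs hd =>
    hM' s hs (hK ▸ hd)
  letI : CommGroup V := { (inferInstance : Group V) with mul_comm := fun a b => Subtype.ext (hVc a a.2 b b.2) }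
  let φ : K →* MulAut V := (MulAut.conjNormal (H := V)).comp K.subtype
  have hfpf : ∀ a : K, a ≠ 1 → ∀ v : V, φ a v = v → v = 1 := by
    intro a ha v hv
    by_contra hv1
    obtain ⟨s, hs, hsd⟩ := Nat.exists_prime_and_dvd (show orderOf a ≠ 1 from fun e => ha (orderOf_eq_one_iff.1 e))
    have hsT := hKpr s hs (hsd.trans (orderOf_dvd_natCard a))
    have ha' : orderOf (((a ^ (orderOf a / s) : K) : H) : G) = s := by
      rw [Subgroup.orderOf_coe, Subgroup.orderOf_coe, orderOf_pow_orderOf_div (orderOf_pos a).ne' hsd]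
    haveI := Fact.mk hr₀
    have hv' : orderOf (((v : H)) : G) = r₀ := by
      rw [Subgroup.orderOf_coe]
      exact orderOf_eq_prime (hVp v v.2) (fun e => hv1 (Subtype.ext e))
    refine hcomm s (Finset.mem_of_mem_erase hsT) r₀ hr₀S (Finset.ne_of_mem_erase hsT) _ _ ha' hv' ?_
    have h1 : Commute ((a : H)) (v : H) := by
      have e : (a : H) * v * (a : H)⁻¹ = v := congrArg Subtype.val hv
      calc (a : H) * v = ((a : H) * v * (a : H)⁻¹) * a := by group
        _ = v * a := by rw [e]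
    have h2 := h1.pow_left (orderOf a / s)
    rw [← SubmonoidClass.coe_pow] at h2
    exact congrArg Subtype.val h2.eq
  haveI : Nontrivial V := (Subgroup.nontrivial_iff_ne_bot V).2 hVne
  haveI hKne : Nontrivial K := by
    obtain ⟨s, hs⟩ : T.Nonempty := by
      rw [Finset.erase_nonempty hr₀S]
      exact ⟨p, hpS, q, by simp [S], hpq⟩
    exact Finite.one_lt_card_iff_nontrivial.1
      (lt_of_lt_of_le (hS s (Finset.mem_of_mem_erase hs)).1.one_lt (Nat.le_of_dvd Nat.card_pos (hKdvd s hs)))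
  obtain ⟨s, hs, W, hWn, hWne, hWc, hWp⟩ := exists_normal_torsion K
  have hW1 : IsCyclic W := Solv.isCyclic_of_fpf (φ.comp W.subtype)
    (fun a ha v hv => hfpf a (fun e => ha (Subtype.ext e)) v hv)
    (Or.inl ⟨⟨fun a b => Subtype.ext (hWc a a.2 b b.2)⟩⟩)
  haveI := Fact.mk hs
  obtain ⟨w, hw⟩ := IsCyclic.exists_generator (α := W)
  have hw1 : (w : K) ≠ 1 := fun e => hWne ((Subgroup.eq_bot_iff_forall W).2 fun x hx => by
    obtain ⟨i, hi⟩ := Subgroup.mem_zpowers_iff.1 (hw ⟨x, hx⟩)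
    have := congrArg Subtype.val hi
    rw [SubgroupClass.coe_zpow, e, one_zpow] at this
    exact this.symm)
  have hwo : orderOf (w : K) = s := orderOf_eq_prime (hWp _ w.2) hw1
  have hWz : W = Subgroup.zpowers (w : K) := by
    refine le_antisymm (fun x hx => ?_) (Subgroup.zpowers_le.2 w.2)
    obtain ⟨i, hi⟩ := Subgroup.mem_zpowers_iff.1 (hw ⟨x, hx⟩)
    exact ⟨i, congrArg Subtype.val hi⟩
  have hsT : s ∈ T := hKpr s hs (hwo ▸ orderOf_dvd_natCard _)
  obtain ⟨t, htT, hts⟩ : ∃ t ∈ T, t ≠ s := by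
    have hcard : T.card = 2 := by
      rw [Finset.card_erase_of_mem hr₀S]
      simp [S, hpq, hpr, hqr]
    obtain ⟨x, y, hxy, hT⟩ := Finset.card_eq_two.1 hcard
    by_cases hxs : x = s
    · exact ⟨y, by simp [hT], fun e => hxy (hxs.trans e.symm)⟩
    · exact ⟨x, by simp [hT], hxs⟩
  haveI := Fact.mk (hS t (Finset.mem_of_mem_erase htT)).1
  obtain ⟨y, hy⟩ := exists_prime_orderOf_dvd_card' t (hKdvd t htT)
  set L : Subgroup K := W ⊔ Subgroup.zpowers y
  have hdisj : W ⊓ Subgroup.zpowers y = ⊥ := by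
    refine Subgroup.inf_eq_bot_of_coprime ?_
    rw [hWz, Nat.card_zpowers, Nat.card_zpowers, hwo, hy]
    exact (Nat.coprime_primes hs (hS t (Finset.mem_of_mem_erase htT)).1).2 hts.symm
  haveI := hWn
  have hL : Nat.card L = s * t := by
    have h2 : Nat.card (L ⧸ W.subgroupOf L) = Nat.card (Subgroup.zpowers y) := by
      have e := (QuotientGroup.quotientInfEquivProdNormalQuotient (Subgroup.zpowers y) W)
      have hsup : Subgroup.zpowers y ⊔ W = L := sup_comm _ _
      rw [← hsup, ← Nat.card_congr e.toEquiv, ← Subgroup.index_eq_card,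
        Subgroup.index, Nat.card_congr (QuotientGroup.quotientBot (G := Subgroup.zpowers y)).toEquiv.symm]
      congr 2
      rw [Subgroup.subgroupOf_eq_bot.2 (disjoint_iff.2 hdisj)]
    rw [Subgroup.card_eq_card_quotient_mul_card_subgroup (W.subgroupOf L), h2, Nat.card_zpowers,
      Nat.card_congr (Subgroup.subgroupOfEquivOfLe (le_sup_left : W ≤ L)).toEquiv, hWz, Nat.card_zpowers,
      hwo, hy, mul_comm]
  have hLc : IsCyclic L := Solv.isCyclic_of_fpf (φ.comp L.subtype)
    (fun a ha v hv => hfpf a (fun e => ha (Subtype.ext e)) v hv)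
    (Or.inr ⟨s, t, hs, (hS t (Finset.mem_of_mem_erase htT)).1, hL⟩)
  letI : CommGroup L := IsCyclic.commGroup
  have hwy : Commute (w : K) y := congrArg Subtype.val (mul_comm
    (⟨w, Subgroup.mem_sup_left w.2⟩ : L) ⟨y, Subgroup.mem_sup_right (Subgroup.mem_zpowers y)⟩)
  refine hcomm s (Finset.mem_of_mem_erase hsT) t (Finset.mem_of_mem_erase htT) hts.symm
    (((w : K) : H) : G) ((y : H) : G) ?_ ?_ ?_
  · rw [Subgroup.orderOf_coe, Subgroup.orderOf_coe, hwo]
  · rw [Subgroup.orderOf_coe, Subgroup.orderOf_coe, hy]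
  · exact congrArg (fun z : K => ((z : H) : G)) hwy.eq

end Cfsg.Agent.S4002
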