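import Cfsg.Statements.S0534
import Cfsg.Agent.Solv.Hall
import Cfsg.Agent.S4002
import Mathlib

set_option autoImplicit false
open Cfsg

namespace Cfsg.Agent.S0534

theorem abelian_subgroup_of_dvd.{w} : ∀ (d : ℕ) (A : Type w) [CommGroup A] [Finite A], d ∣ Nat.card A →
    ∃ H : Subgroup A, Nat.card H = d := by
  intro d
  induction d using Nat.strong_induction_on with
  | _ d IH =>
  intro A _ _ hd
  by_cases h1 : d = 1
  · exact ⟨⊥, by rw [h1, Subgroup.card_bot]⟩
  obtain ⟨p, hp, hpd⟩ := Nat.exists_prime_and_dvd h1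
  haveI := Fact.mk hp
  obtain ⟨a, ha⟩ := exists_prime_orderOf_dvd_card' p (hpd.trans hd)
  obtain ⟨k, rfl⟩ := hpd
  set Z := Subgroup.zpowers a
  have hk : k ∣ Nat.card (A ⧸ Z) := by
    rw [Z.card_eq_card_quotient_mul_card_subgroup, Nat.card_zpowers, ha, mul_comm _ p] at hd
    exact (Nat.mul_dvd_mul_iff_left hp.pos).1 hd
  have hk0 : 0 < k := Nat.pos_of_dvd_of_pos hk Nat.card_pos
  obtain ⟨H, hH⟩ := IH k (lt_mul_left hk0 hp.one_lt) (A ⧸ Z) hk
  refine ⟨H.comap (QuotientGroup.mk' Z), ?_⟩
  rw [Cfsg.Agent.Solv.card_comap_mk', hH, Nat.card_zpowers, ha]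

/-- Let G be a finite solvable group and A a finite abelian group such that every prime dividing the order of A divides the order of G and, for each prime p dividing the order of G, the exponent of p in the order of A is one less than its exponent in the order of G. Then G × A has a subgroup of every order dividing its order. -/
theorem result {G A : Type*} [Group G] [CommGroup A] [Finite G] [Finite A] [Group.IsSolvable G] (hA : ∀ p : ℕ, p.Prime → p ∣ Nat.card A → p ∣ Nat.card G) (hexp : ∀ p : ℕ, p.Prime → p ∣ Nat.card G → (Nat.card A).factorization p + 1 = (Nat.card G).factorization p) : Cfsg.HasSubgroupOfEveryOrder (G × A) := by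
  classical
  intro d hd
  have hAG : ∀ p : ℕ, p.Prime → (Nat.card A).factorization p ≤ (Nat.card G).factorization p := by
    intro p hp
    by_cases hpG : p ∣ Nat.card G
    · have := hexp p hp hpG
      omega
    · rw [Nat.factorization_eq_zero_of_not_dvd fun h => hpG (hA p hp h)]
      exact Nat.zero_le _
  have hd0 : d ≠ 0 := fun e => by
    rw [e, zero_dvd_iff] at hd
    exact Nat.card_pos.ne' hd
  let S := (Nat.card G).primeFactors.filter fun p => (Nat.card G).factorization p ≤ d.factorization p
  obtain ⟨m, n, hmn, hcop, hS, hS'⟩ := Cfsg.Agent.S4002.hall_split (G := G) S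
    fun s hs => Nat.prime_of_mem_primeFactors (Finset.mem_filter.1 hs).1
  have hm0 : m ≠ 0 := fun e => by rw [e, zero_mul] at hmn; exact Nat.card_pos.ne' hmn
  have hn0 : n ≠ 0 := fun e => by rw [e, mul_zero] at hmn; exact Nat.card_pos.ne' hmn
  have hv : ∀ p : ℕ, p.Prime → (Nat.card G).factorization p = m.factorization p + n.factorization p := fun p hp => by
    rw [hmn, Nat.factorization_mul hm0 hn0, Finsupp.add_apply]
  have hmz : ∀ p : ℕ, p.Prime → (p ∈ S → n.factorization p = 0) ∧ (p ∉ S → m.factorization p = 0) := by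
    intro p hp
    refine ⟨fun hpS => Nat.factorization_eq_zero_of_not_dvd fun hpn => ?_,
      fun hpS => Nat.factorization_eq_zero_of_not_dvd fun hpm => hpS (hS' p hp hpm)⟩
    have hpG : p ∣ Nat.card G := (Nat.mem_primeFactors.1 (Finset.mem_filter.1 hpS).1).2.1
    exact hp.one_lt.ne' (Nat.eq_one_of_dvd_coprimes hcop (hS p hpS hpG) hpn)
  have hmd : m ∣ d := by
    rw [← Nat.factorization_prime_le_iff_dvd hm0 hd0]
    intro p hp
    have := hv p hp
    by_cases hpS : p ∈ S
    · have := (Finset.mem_filter.1 hpS).2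
      omega
    · rw [(hmz p hp).2 hpS]
      exact Nat.zero_le _
  obtain ⟨r, rfl⟩ := hmd
  have hr0 : r ≠ 0 := fun e => hd0 (by rw [e, mul_zero])
  have hrA : r ∣ Nat.card A := by
    rw [← Nat.factorization_prime_le_iff_dvd hr0 Nat.card_pos.ne']
    intro p hp
    have hdp : (m * r).factorization p = m.factorization p + r.factorization p := by
      rw [Nat.factorization_mul hm0 hr0, Finsupp.add_apply]
    have hle := (Nat.factorization_le_iff_dvd (mul_ne_zero hm0 hr0) (Nat.card_pos (α := G × A)).ne').2 hd p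
    rw [Nat.card_prod, Nat.factorization_mul (Nat.card_pos (α := G)).ne' (Nat.card_pos (α := A)).ne', Finsupp.add_apply] at hle
    have := hv p hp
    have := hAG p hp
    by_cases hpS : p ∈ S
    · have := (hmz p hp).1 hpS
      omega
    · by_cases hpG : p ∣ Nat.card G
      · have := (hmz p hp).2 hpS
        have := hexp p hp hpG
        have : ¬ (Nat.card G).factorization p ≤ (m * r).factorization p := fun h =>
          hpS (Finset.mem_filter.2 ⟨Nat.mem_primeFactors.2 ⟨hp, hpG, Nat.card_pos.ne'⟩, h⟩)
        omega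
      · have := Nat.factorization_eq_zero_of_not_dvd hpG
        omega
  obtain ⟨H, hH, -⟩ := Cfsg.Agent.Solv.hall_exists_dominating hmn hcop
  obtain ⟨B, hB⟩ := abelian_subgroup_of_dvd r A hrA
  exact ⟨H.prod B, by rw [Nat.card_congr (Subgroup.prodEquiv H B).toEquiv, Nat.card_prod, hH, hB]⟩

end Cfsg.Agent.S0534
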