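import Cfsg.Statements.S0535
import Cfsg.Agent.Solv.HallSystem
import Cfsg.Agent.Char.Integral

set_option autoImplicit false
set_option linter.style.haveILetI false
open Cfsg

namespace Cfsg.Agent.S0535

/-- Suppose that for every nontrivial subgroup H of a finite group and every prime p dividing the order of H there is a proper subgroup of H whose index in H is a power of p. Then the group is solvable. -/
theorem result {G : Type*} [Group G] [Finite G] (h : ∀ H : Subgroup G, H ≠ ⊥ → ∀ p : ℕ, p.Prime → p ∣ Nat.card H → ∃ K : Subgroup H, K ≠ ⊤ ∧ ∃ k : ℕ, K.index = p ^ k) : Group.IsSolvable G := by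
  obtain ⟨n, hn⟩ : ∃ n, Nat.card G = n := ⟨_, rfl⟩
  induction n using Nat.strong_induction_on generalizing G with
  | _ n ih =>
    by_cases htwo : ∃ p q a b : ℕ, p.Prime ∧ q.Prime ∧ Nat.card G = p ^ a * q ^ b
    · obtain ⟨p, q, a, b, hp, hq, hc⟩ := htwo
      exact Cfsg.Agent.Char.isSolvable_of_card_eq_pow_mul_pow G hp hq hc
    have hS : 3 ≤ (Nat.card G).primeFactors.card := by
      by_contra hlt
      apply htwo
      have hfac := Nat.prod_factorization_pow_eq_self (n := Nat.card G) Nat.card_pos.ne'
      rw [Finsupp.prod, Nat.support_factorization] at hfac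
      rcases Nat.lt_or_ge (Nat.card G).primeFactors.card 1 with h0 | h0
      · rw [Finset.card_eq_zero.1 (Nat.lt_one_iff.1 h0), Finset.prod_empty] at hfac
        exact ⟨2, 2, 0, 0, Nat.prime_two, Nat.prime_two, by simpa using hfac.symm⟩
      rcases (show (Nat.card G).primeFactors.card = 1 ∨ (Nat.card G).primeFactors.card = 2 by omega) with h1 | h2
      · obtain ⟨p, hp⟩ := Finset.card_eq_one.1 h1
        rw [hp, Finset.prod_singleton] at hfac
        have hpp := Nat.prime_of_mem_primeFactors (hp ▸ Finset.mem_singleton_self p)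
        exact ⟨p, p, (Nat.card G).factorization p, 0, hpp, hpp, by rw [pow_zero, mul_one]; exact hfac.symm⟩
      · obtain ⟨p, q, hpq, hp⟩ := Finset.card_eq_two.1 h2
        rw [hp, Finset.prod_pair hpq] at hfac
        exact ⟨p, q, _, _, Nat.prime_of_mem_primeFactors (hp ▸ Finset.mem_insert_self p _),
          Nat.prime_of_mem_primeFactors (hp ▸ Finset.mem_insert_of_mem (Finset.mem_singleton_self q)), hfac.symm⟩
    obtain ⟨p, q, r, hp, hq, hr, hpq, hpr, hqr⟩ := Finset.two_lt_card_iff.1 hS
    have hsub : ∀ p : ℕ, p ∈ (Nat.card G).primeFactors →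
        ∃ K : Subgroup G, Group.IsSolvable K ∧ ∃ k, K.index = p ^ k := by
      intro p hp
      obtain ⟨hpp, hpd, -⟩ := Nat.mem_primeFactors.1 hp
      have htop : (⊤ : Subgroup G) ≠ ⊥ := fun e => hpp.not_dvd_one (by
        rw [← Subgroup.card_top (G := G), e, Subgroup.card_bot] at hpd; exact hpd)
      obtain ⟨K, hK, k, hk⟩ := h ⊤ htop p hpp (by rwa [Subgroup.card_top])
      refine ⟨K.map (⊤ : Subgroup G).subtype, ?_, k, ?_⟩
      · have hne : K.map (⊤ : Subgroup G).subtype ≠ ⊤ := fun e => hK (by
          rw [← Subgroup.comap_map_eq_self_of_injective (Subgroup.subtype_injective ⊤) K, e, Subgroup.comap_top])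
        refine ih _ (hn ▸ lt_of_le_of_ne (Subgroup.card_le_card_group _) (fun e => hne (Subgroup.eq_top_of_card_eq _ e)))
          (fun H hH s hs hsd => ?_) rfl
        let L := H.map (K.map (⊤ : Subgroup G).subtype).subtype
        have e := H.equivMapOfInjective _ (K.map (⊤ : Subgroup G).subtype).subtype_injective
        obtain ⟨J, hJ, j, hj⟩ := h L (fun e0 => hH ((Subgroup.map_eq_bot_iff_of_injective _ (Subgroup.subtype_injective _)).1 e0))
          s hs (by rwa [← Nat.card_congr e.toEquiv])
        refine ⟨J.comap e.toMonoidHom, fun e0 => hJ ?_, j, ?_⟩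
        · rw [← Subgroup.map_comap_eq_self_of_surjective (f := e.toMonoidHom) e.surjective J, e0,
            Subgroup.map_top_of_surjective _ e.surjective]
        · rw [Subgroup.index_comap_of_surjective J (f := e.toMonoidHom) e.surjective, hj]
      · rw [Subgroup.index_map_subtype, hk]; simp
    obtain ⟨A, hA, a, ha⟩ := hsub p hp
    obtain ⟨B, hB, b, hb⟩ := hsub q hq
    obtain ⟨C, hC, c, hc⟩ := hsub r hr
    have hcop : ∀ s t : ℕ, s ∈ (Nat.card G).primeFactors → t ∈ (Nat.card G).primeFactors → s ≠ t →
        ∀ i j : ℕ, (s ^ i).Coprime (t ^ j) := fun s t hs ht hst i j =>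
      ((Nat.coprime_primes (Nat.prime_of_mem_primeFactors hs) (Nat.prime_of_mem_primeFactors ht)).2 hst).pow i j
    exact Cfsg.Agent.Solv.isSolvable_of_three A B C hA hB hC
      (Cfsg.Agent.Solv.mem_mul_of_coprime_index (by rw [ha, hb]; exact hcop p q hp hq hpq a b))
      (Cfsg.Agent.Solv.mem_mul_of_coprime_index (by rw [ha, hc]; exact hcop p r hp hr hpr a c))
      (by rw [hb, hc]; exact hcop q r hq hr hqr b c)

end Cfsg.Agent.S0535
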