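import Cfsg.Statements.S0537
import Cfsg.Agent.Solv.Schmidt
import Cfsg.Agent.Solv.AbelianAction

set_option autoImplicit false
set_option linter.style.haveILetI false
open Cfsg

namespace Cfsg.Agent.S0537

/-- A finite non-abelian group in which every proper subgroup is abelian is either of prime-power order, or is generated by a cyclic Sylow p-subgroup and a normal Sylow q-subgroup that is elementary abelian, for distinct primes p and q. -/
theorem result {G : Type*} [Group G] [Finite G] (hna : ¬ IsMulCommutative G) (h : ∀ H : Subgroup G, H ≠ ⊤ → IsMulCommutative H) : (∃ p : ℕ, p.Prime ∧ IsPGroup p G) ∨ ∃ p q : ℕ, p.Prime ∧ q.Prime ∧ p ≠ q ∧ ∃ (P : Sylow p G) (Q : Sylow q G), IsCyclic P ∧ (Q : Subgroup G).Normal ∧ Cfsg.IsElementaryAbelian q (Q : Subgroup G) ∧ (P : Subgroup G) ⊔ Q = ⊤ := by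
  have hprop : ∀ H : Subgroup G, H ≠ ⊤ → Group.IsNilpotent H := fun H hH => by
    letI : CommGroup H := { (inferInstance : Group H) with mul_comm := (h H hH).is_comm.comm }
    infer_instance
  by_cases hnil : Group.IsNilpotent G
  · left
    by_contra hcon
    simp only [not_exists, not_and] at hcon
    apply hna
    refine ⟨⟨Solv.comm_of_nilpotent_sylow_comm fun p _ P => h _ fun ht => ?_⟩⟩
    have := P.isPGroup'
    rw [ht] at this
    exact hcon p Fact.out (this.of_equiv Subgroup.topEquiv)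
  right
  obtain ⟨p, q, hp, hq, hne, P, Q, hc, hn, ht, hPn, hcomp⟩ := Solv.minimal_nonnilpotent_structure hnil hprop
  haveI := Fact.mk hp
  haveI := Fact.mk hq
  haveI := hn
  refine ⟨p, q, hp, hq, hne, P, Q, hc, hn, ?_, ht⟩
  haveI hQc : IsMulCommutative (Q : Subgroup G) := h _ fun htop => hnil (by
    have := Q.isPGroup'
    rw [htop] at this
    exact (this.of_equiv Subgroup.topEquiv).isNilpotent)
  refine ⟨hQc, ?_⟩
  let E : Subgroup G :=
    { carrier := {y | y ∈ (Q : Subgroup G) ∧ y ^ q = 1}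
      one_mem' := ⟨one_mem _, one_pow q⟩
      mul_mem' := fun {a b} ha hb => ⟨mul_mem ha.1 hb.1, by
        rw [(show Commute a b from congrArg Subtype.val (hQc.is_comm.comm (⟨a, ha.1⟩ : (Q : Subgroup G)) ⟨b, hb.1⟩)).mul_pow,
          ha.2, hb.2, one_mul]⟩
      inv_mem' := fun {a} ha => ⟨inv_mem ha.1, by rw [inv_pow, ha.2, inv_one]⟩ }
  haveI hEn : E.Normal := ⟨fun y hy g => ⟨hn.conj_mem y hy.1 g, by rw [conj_pow, hy.2]; group⟩⟩
  intro y hy
  by_contra hyq
  apply hPn
  have hPE : (P : Subgroup G) ⊔ E ≠ ⊤ := by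
    intro htop
    apply hyq
    obtain ⟨a, ha, b, hb, hab⟩ := Subgroup.mem_sup_of_normal_right.mp (htop ▸ Subgroup.mem_top y)
    have haQ : a ∈ (Q : Subgroup G) := by
      rw [show a = y * b⁻¹ by rw [← hab]; group]
      exact mul_mem hy (inv_mem hb.1)
    have h1 := hcomp.disjoint.le_bot (Subgroup.mem_inf.mpr ⟨haQ, ha⟩)
    rw [Subgroup.mem_bot] at h1
    rw [h1, one_mul] at hab
    exact hab ▸ hb.2
  have hPQ : (P : Subgroup G) ≤ Subgroup.normalizer ((Q : Subgroup G) : Set G) := by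
    rw [Subgroup.normalizer_eq_top]; exact le_top
  obtain ⟨a, ha⟩ := IsPGroup.iff_card.mp P.isPGroup'
  obtain ⟨b, hb⟩ := IsPGroup.iff_card.mp Q.isPGroup'
  have hcop : (Nat.card P).Coprime (Nat.card Q) := by
    rw [ha, hb]; exact Nat.Coprime.pow _ _ ((Nat.coprime_primes hp hq).mpr hne)
  have hbot : ⁅(Q : Subgroup G), (P : Subgroup G)⁆ = ⊥ := by
    by_contra hne0
    obtain ⟨x, hx, hx1⟩ := (⁅(Q : Subgroup G), (P : Subgroup G)⁆).bot_or_exists_ne_one.resolve_left hne0
    obtain ⟨r, hr, hdvd⟩ := Nat.exists_prime_and_dvd (n := orderOf x) (mt orderOf_eq_one_iff.mp hx1)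
    have hord : orderOf (x ^ (orderOf x / r)) = r := orderOf_pow_orderOf_div (orderOf_pos x).ne' hdvd
    have hz := pow_mem hx (orderOf x / r)
    have hzQ : x ^ (orderOf x / r) ∈ (Q : Subgroup G) := Subgroup.le_normalizer_iff_commutator_le_left.mp hPQ hz
    have hrq : r = q := (Nat.prime_dvd_prime_iff_eq hr hq).mp (hr.dvd_of_dvd_pow (hord ▸ hb ▸ Subgroup.orderOf_dvd_natCard _ hzQ))
    have hzE : x ^ (orderOf x / r) ∈ E := ⟨hzQ, orderOf_dvd_iff_pow_eq_one.mp (dvd_of_eq (hord.trans hrq))⟩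
    have hzC : x ^ (orderOf x / r) ∈ Subgroup.centralizer ((P : Subgroup G) : Set G) := by
      rw [Subgroup.mem_centralizer_iff]
      intro g hg
      exact congrArg Subtype.val ((h _ hPE).is_comm.comm (⟨g, Subgroup.mem_sup_left hg⟩ : ((P : Subgroup G) ⊔ E : Subgroup G))
        ⟨_, Subgroup.mem_sup_right hzE⟩)
    have h1 := (Solv.centralizer_inf_commutator_eq_bot hPQ hcop).le
      (Subgroup.mem_inf.mpr ⟨Subgroup.mem_inf.mpr ⟨hzQ, hzC⟩, hz⟩)
    rw [Subgroup.mem_bot] at h1
    rw [h1, orderOf_one] at hord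
    exact hr.one_lt.ne hord
  rw [← Subgroup.normalizer_eq_top_iff, eq_top_iff, ← ht]
  exact sup_le Subgroup.le_normalizer
    ((Subgroup.commutator_eq_bot_iff_le_centralizer.mp hbot).trans (Subgroup.centralizer_le_normalizer _))

end Cfsg.Agent.S0537
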