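import Cfsg.Statements.S0541
import Mathlib
import Cfsg.Agent.Solv.SchurZassenhaus

set_option autoImplicit false
set_option linter.style.haveILetI false
open Pointwise
open Cfsg

open scoped Pointwise

namespace Cfsg.Agent.S0541

/-- Let Z and Y be subgroups of a finite group G and p a prime. Suppose that for every g in G the subgroup generated by the conjugates of g Z g⁻¹ under Y is a p-group. Then there is a Sylow p-subgroup P of G such that Y normalizes the subgroup generated by all conjugates of Z contained in P. -/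
theorem result {G : Type*} [Group G] [Finite G] (p : ℕ) [Fact p.Prime] (Z Y : Subgroup G) (h : ∀ g : G, IsPGroup p ↥(⨆ y ∈ Y, MulAut.conj (y * g) • Z)) : ∃ P : Sylow p G, Y ≤ Subgroup.normalizer ((⨆ g ∈ {g : G | MulAut.conj g • Z ≤ (P : Subgroup G)}, MulAut.conj g • Z : Subgroup G) : Set G) := by
  let J : Subgroup G → Subgroup G := fun W => ⨆ g ∈ {g : G | MulAut.conj g • Z ≤ W}, MulAut.conj g • Z
  have hJle : ∀ W, J W ≤ W := fun W => iSup₂_le fun g hg => hg
  have hmemJ : ∀ W g, MulAut.conj g • Z ≤ W → MulAut.conj g • Z ≤ J W := fun W g hg =>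
    le_iSup₂ (f := fun (g : G) (_ : g ∈ {g : G | MulAut.conj g • Z ≤ W}) => MulAut.conj g • Z) g hg
  have hJmono : ∀ A B : Subgroup G, A ≤ B → J A ≤ J B := fun A B hAB => iSup₂_le fun g hg => hmemJ B g (hg.trans hAB)
  -- equivariance
  have hJeq : ∀ (c : G) (W : Subgroup G), MulAut.conj c • W = W → MulAut.conj c • J W = J W := by
    have hle : ∀ (c : G) (W : Subgroup G), MulAut.conj c • W ≤ W → MulAut.conj c • J W ≤ J W := by
      intro c W hc
      show MulAut.conj c • (⨆ g ∈ {g : G | MulAut.conj g • Z ≤ W}, MulAut.conj g • Z) ≤ J W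
      refine Subgroup.pointwise_smul_subset_iff.mpr (iSup₂_le fun g hg => Subgroup.pointwise_smul_subset_iff.mp ?_)
      have : MulAut.conj (c * g) • Z ≤ W := by
        rw [map_mul, mul_smul]
        exact (Subgroup.pointwise_smul_le_pointwise_smul_iff.mpr hg).trans hc
      have h2 := hmemJ W _ this
      rw [map_mul, mul_smul] at h2
      exact h2
    intro c W hc
    refine le_antisymm (hle c W hc.le) ?_
    rw [← Subgroup.pointwise_smul_le_pointwise_smul_iff (a := (MulAut.conj c)⁻¹), inv_smul_smul, ← map_inv]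
    refine hle c⁻¹ W ?_
    rw [map_inv, inv_smul_eq_iff.mpr hc.symm]
  have hnorm : ∀ (W : Subgroup G) (c : G), c ∈ Subgroup.normalizer (W : Set G) ↔ MulAut.conj c • W = W := by
    intro W c
    exact ⟨Solv.conj_of_mem_normalizer, Solv.mem_normalizer_of_conj⟩
  let T : Set (Subgroup G) := {Q | IsPGroup p Q ∧ Y ≤ Subgroup.normalizer (Q : Set G) ∧ J Q = Q}
  obtain ⟨Q, ⟨hQp, hQY, hQJ⟩, hmax⟩ := (Set.toFinite T).exists_maximal ⟨⊥, IsPGroup.of_bot,
    fun y _ => (hnorm _ _).mpr (Subgroup.smul_bot _), le_bot_iff.mp (hJle ⊥)⟩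
  obtain ⟨P, hQP⟩ := hQp.exists_le_sylow
  refine ⟨P, ?_⟩
  show Y ≤ Subgroup.normalizer ((J (P : Subgroup G) : Subgroup G) : Set G)
  suffices hJP : J (P : Subgroup G) = Q by rw [hJP]; exact hQY
  let M := (P : Subgroup G) ⊓ Subgroup.normalizer (Q : Set G)
  have hQM : Q ≤ M := le_inf hQP Subgroup.le_normalizer
  have hQJM : Q ≤ J M := hQJ.symm.le.trans (hJmono Q M hQM)
  have hJM : J M = Q := by
    refine le_antisymm (iSup₂_le fun g hg => ?_) hQJM
    replace hg : MulAut.conj g • Z ≤ M := hg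
    let R := ⨆ y ∈ Y, MulAut.conj (y * g) • Z
    have hRN : R ≤ Subgroup.normalizer (Q : Set G) := iSup₂_le fun y hy => by
      rw [map_mul, mul_smul]
      intro z hz
      obtain ⟨w, hw, rfl⟩ := (Subgroup.mem_smul_pointwise_iff_exists _ _ _).mp hz
      exact mul_mem (mul_mem (hQY hy) ((le_trans hg (inf_le_right : M ≤ Subgroup.normalizer (Q : Set G))) hw)) (inv_mem (hQY hy))
    have hp' : IsPGroup p (Q ⊔ R : Subgroup G) := hQp.to_sup_of_normal_left' (h g) hRN
    have hgR : MulAut.conj g • Z ≤ R := by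
      refine le_trans ?_ (le_iSup₂ (f := fun (y : G) (_ : y ∈ Y) => MulAut.conj (y * g) • Z) 1 (one_mem Y))
      show MulAut.conj g • Z ≤ MulAut.conj (1 * g) • Z
      rw [one_mul]
    have hRY : Y ≤ Subgroup.normalizer (R : Set G) := by
      intro c hc
      have hle : ∀ c ∈ Y, MulAut.conj c • R ≤ R := by
        intro c hc
        show MulAut.conj c • (⨆ y ∈ Y, MulAut.conj (y * g) • Z) ≤ R
        refine Subgroup.pointwise_smul_subset_iff.mpr (iSup₂_le fun y hy => Subgroup.pointwise_smul_subset_iff.mp ?_)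
        have h2 : MulAut.conj c • (MulAut.conj (y * g) • Z) ≤ R := by
          rw [← mul_smul, ← map_mul, ← mul_assoc]
          exact le_iSup₂ (f := fun (y : G) (_ : y ∈ Y) => MulAut.conj (y * g) • Z) (c * y) (mul_mem hc hy)
        exact h2
      refine (hnorm _ _).mpr (le_antisymm (hle c hc) ?_)
      rw [← Subgroup.pointwise_smul_le_pointwise_smul_iff (a := (MulAut.conj c)⁻¹), inv_smul_smul, ← map_inv]
      exact hle c⁻¹ (inv_mem hc)
    have hin : Q ⊔ R ∈ T := by
      refine ⟨hp', fun c hc => (hnorm _ _).mpr ?_, le_antisymm (hJle _) (sup_le ?_ ?_)⟩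
      · rw [Subgroup.smul_sup, (hnorm _ _).mp (hQY hc), (hnorm _ _).mp (hRY hc)]
      · exact hQJ.symm.le.trans (hJmono _ _ le_sup_left)
      · exact iSup₂_le fun y hy => hmemJ _ _ ((le_iSup₂ (f := fun (y : G) (_ : y ∈ Y) => MulAut.conj (y * g) • Z) y hy).trans le_sup_right)
    exact (hgR.trans le_sup_right).trans (hmax hin le_sup_left)
  -- `Q` is normal in `P`
  suffices hMP : M = (P : Subgroup G) by rw [← hMP]; exact hJM
  by_contra hne
  have hlt : M < (P : Subgroup G) := lt_of_le_of_ne inf_le_left hne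
  haveI := P.isPGroup'.isNilpotent
  have hlt' : M.subgroupOf (P : Subgroup G) < ⊤ := lt_top_iff_ne_top.mpr fun e =>
    hlt.not_ge (Subgroup.subgroupOf_eq_top.mp e)
  obtain ⟨c, hc, hcM⟩ := Set.exists_of_ssubset (SetLike.coe_ssubset_coe.mpr
    (Group.normalizerCondition_of_isNilpotent _ hlt'))
  apply hcM
  rw [SetLike.mem_coe, Subgroup.mem_subgroupOf]
  refine Subgroup.mem_inf.mpr ⟨c.2, (hnorm _ _).mpr ?_⟩
  have hcM' : (c : G) ∈ Subgroup.normalizer (M : Set G) := by
    have h1 := Subgroup.subgroupOf_normalizer_eq (H := M) hlt.le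
    rw [SetLike.mem_coe, ← h1] at hc
    exact hc
  rw [← hJM]
  exact hJeq _ _ ((hnorm _ _).mp hcM')

end Cfsg.Agent.S0541
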