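import Cfsg.Statements.S0542
import Cfsg.Agent.Solv.Cores

set_option autoImplicit false
set_option linter.style.haveILetI false
open Cfsg

namespace Cfsg.Agent.S0542

/-- A Sylow p-subgroup of a finite group meets every subnormal subgroup H in a Sylow p-subgroup of H. -/
theorem result {G : Type*} [Group G] [Finite G] (p : ℕ) [Fact p.Prime] (H : Subgroup G) (hH : H.IsSubnormal) (S : Sylow p G) : ∃ Q : Sylow p H, (Q : Subgroup H) = (S : Subgroup G).subgroupOf H := by
  have step : ∀ (K : Subgroup G) (N : Subgroup K), N.Normal → ¬ p ∣ (S : Subgroup G).relIndex K →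
      ¬ p ∣ (S : Subgroup G).relIndex (N.map K.subtype) := by
    intro K N hN hK hd
    haveI := hN
    apply hK
    let C := (S : Subgroup G).subgroupOf K
    have h1 : (C ⊓ N).relIndex C * C.index = (C ⊓ N).index := Subgroup.relIndex_mul_index inf_le_left
    have h2 : (C ⊓ N).relIndex N * N.index = (C ⊓ N).index := Subgroup.relIndex_mul_index inf_le_right
    rw [Subgroup.inf_relIndex_left] at h1
    rw [Subgroup.inf_relIndex_right] at h2
    have h3 : N.relIndex (C ⊔ N) * (C ⊔ N).index = N.index := Subgroup.relIndex_mul_index le_sup_right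
    rw [Subgroup.relIndex_sup_right] at h3
    have hpos : 0 < N.relIndex C := Nat.pos_of_ne_zero fun h0 =>
      N.index_ne_zero_of_finite (by rw [← h3, h0, zero_mul])
    have hC : C.index = C.relIndex N * (C ⊔ N).index := by
      refine Nat.eq_of_mul_eq_mul_left hpos ?_
      rw [h1, ← h2, ← h3]; ring
    show p ∣ C.index
    rw [hC]
    have hrel : C.relIndex N = (S : Subgroup G).relIndex (N.map K.subtype) := by
      rw [show C = (S : Subgroup G).comap K.subtype from rfl, Subgroup.relIndex_comap]
    exact Dvd.dvd.mul_right (hrel ▸ hd) _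
  have key : ¬ p ∣ (S : Subgroup G).relIndex H := by
    induction hH with
    | top => rw [Subgroup.relIndex_top_right]; exact S.not_dvd_index
    | step A B hAB _ hn ih =>
      have := step B (A.subgroupOf B) hn ih
      rwa [Subgroup.map_subgroupOf_eq_of_le hAB] at this
  exact ⟨(IsPGroup.comap_subtype S.isPGroup').toSylow key, rfl⟩

end Cfsg.Agent.S0542
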