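import Cfsg.Statements.S0543
import Cfsg.Agent.Solv.Hall
import Cfsg.Agent.Solv.HallSystem
import Cfsg.Agent.Solv.SchurZassenhaus

set_option autoImplicit false
set_option linter.style.haveILetI false
open Pointwise
open Cfsg

open scoped Pointwise

namespace Cfsg.Agent.S0543

/-- In a finite solvable group any two Hall complement systems are simultaneously conjugate: one element conjugates every member of the first system to the corresponding member of the second. -/
theorem result {G : Type*} [Group G] [Finite G] [Group.IsSolvable G] (K L : Nat.Primes → Subgroup G) (hK : Cfsg.IsComplementSystem K) (hL : Cfsg.IsComplementSystem L) : ∃ g : G, ∀ p : Nat.Primes, MulAut.conj g • K p = L p := by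
  classical
  have hidx : ∀ p : Nat.Primes, (K p).index = (L p).index := fun p => (hK p).trans (hL p).symm
  have hconj : ∀ p : Nat.Primes, ∃ g : G, MulAut.conj g • K p = L p := by
    intro p
    have hpl : Nat.card G = Nat.card (K p) * (K p).index := (K p).card_mul_index.symm
    refine Cfsg.Agent.Solv.hall_conj hpl ?_ rfl ?_
    · rw [hK p]
      refine Nat.Coprime.pow_right _ (p.2.coprime_iff_not_dvd.2 fun hd => ?_).symm
      have h1 : (p : ℕ) ^ ((Nat.card G).factorization p + 1) ∣ Nat.card G := by
        conv_rhs => rw [hpl, hK p]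
        rw [pow_succ']; exact Nat.mul_dvd_mul_right hd _
      exact Nat.pow_succ_factorization_not_dvd Nat.card_pos.ne' p.2 h1
    · have := (L p).card_mul_index
      rw [hpl, ← hidx p] at this
      exact Nat.eq_of_mul_eq_mul_right (Nat.pos_of_ne_zero Subgroup.index_ne_zero_of_finite) this
  choose c hc using hconj
  have key : ∀ T : Finset Nat.Primes, ∃ g : G, (∀ p ∈ T, (c p)⁻¹ * g ∈ K p) ∧
      ∀ q : Nat.Primes, q ∉ T → (T.inf K).index.Coprime (K q).index := by
    intro T
    induction T using Finset.induction_on with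
    | empty => exact ⟨1, by simp, fun q _ => by simp⟩
    | @insert a T ha ih =>
      obtain ⟨g, hg, hcop⟩ := ih
      obtain ⟨x, hx, y, hy, hxy⟩ := Cfsg.Agent.Solv.mem_mul_of_coprime_index (hcop a ha) (g⁻¹ * c a)
      refine ⟨g * x, fun p hp => ?_, fun q hq => ?_⟩
      · rcases Finset.mem_insert.1 hp with rfl | hp
        · have : (c p)⁻¹ * (g * x) = y⁻¹ := by
            rw [show c p = g * (g⁻¹ * c p) by group, hxy]; group
          rw [this]; exact (K p).inv_mem hy
        · rw [← mul_assoc]
          exact (K p).mul_mem (hg p hp) ((Finset.inf_le hp : T.inf K ≤ K p) hx)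
      · rw [Finset.inf_insert, Cfsg.Agent.Solv.index_inf_of_coprime (hcop a ha).symm]
        refine Nat.Coprime.mul_left ?_ (hcop q (fun h => hq (Finset.mem_insert_of_mem h)))
        rw [hK a, hK q]
        exact ((Nat.coprime_primes a.2 q.2).2 (fun e => hq (Finset.mem_insert.2 (Or.inl (Subtype.ext e.symm))))).pow _ _
  let S : Finset Nat.Primes := (Nat.card G).primeFactors.subtype Nat.Prime
  obtain ⟨g, hg, -⟩ := key S
  refine ⟨g, fun p => ?_⟩
  by_cases hp : p ∈ S
  · rw [show g = c p * ((c p)⁻¹ * g) by group, map_mul, mul_smul,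
      Cfsg.Agent.Solv.conj_of_mem_normalizer (Subgroup.le_normalizer (hg p hp)), hc p]
  · have hnd : ¬ (p : ℕ) ∣ Nat.card G := fun hd => hp (Finset.mem_subtype.2 (Nat.mem_primeFactors.2 ⟨p.2, hd, Nat.card_pos.ne'⟩))
    have htop : ∀ M : Nat.Primes → Subgroup G, Cfsg.IsComplementSystem M → M p = ⊤ := fun M hM =>
      Subgroup.index_eq_one.1 (by rw [hM p, Nat.factorization_eq_zero_of_not_dvd hnd, pow_zero])
    rw [htop K hK, htop L hL]
    ext x
    simp [Cfsg.Agent.Solv.mem_conj_smul]

end Cfsg.Agent.S0543
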