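import Cfsg.Statements.S0568
import Cfsg.Agent.Solv.SystemNorm

set_option autoImplicit false
set_option linter.style.haveILetI false
open Cfsg

open scoped Pointwise commutatorElement

namespace Cfsg.Agent.S0568

/-- Let D be the system normalizer of a Hall complement system of a finite solvable group G, and let A < B be normal subgroups with no normal subgroup of G strictly between them (a chief factor). If G centralizes B modulo A then B ≤ A ⊔ D (D covers the factor); otherwise B ∩ D ≤ A (D avoids it). -/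
theorem result {G : Type*} [Group G] [Finite G] [Group.IsSolvable G] (K : Nat.Primes → Subgroup G) (hK : Cfsg.IsComplementSystem K) (A B : Subgroup G) [A.Normal] [B.Normal] (hAB : A < B) (hchief : ∀ N : Subgroup G, N.Normal → A ≤ N → N ≤ B → N = A ∨ N = B) : (⁅B, (⊤ : Subgroup G)⁆ ≤ A → B ≤ A ⊔ Cfsg.systemNormalizer K) ∧ (¬ ⁅B, (⊤ : Subgroup G)⁆ ≤ A → B ⊓ Cfsg.systemNormalizer K ≤ A) := by
  classical
  haveI hBA : (B.map (QuotientGroup.mk' A)).Normal := (‹B.Normal›).map _ (QuotientGroup.mk'_surjective A)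
  let q := QuotientGroup.mk' A
  have hq : Function.Surjective q := QuotientGroup.mk'_surjective A
  have hBne : B.map q ≠ ⊥ := fun e => hAB.not_ge fun x hx =>
    (QuotientGroup.eq_one_iff x).1 (Subgroup.mem_bot.1 (e ▸ Subgroup.mem_map_of_mem q hx : q x ∈ (⊥ : Subgroup (G ⧸ A))))
  have hker : q.ker ≤ B := by rw [QuotientGroup.ker_mk']; exact hAB.le
  have hmin : ∀ M : Subgroup (G ⧸ A), M.Normal → M ≤ B.map q → M = ⊥ ∨ M = B.map q := by
    intro M hM hle
    rcases hchief (M.comap q) (hM.comap q) (fun x hx => by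
        show q x ∈ M
        rw [show q x = 1 from (QuotientGroup.eq_one_iff x).2 hx]; exact M.one_mem)
      ((Subgroup.comap_mono hle).trans (Subgroup.comap_map_eq_self hker).le) with h | h
    · left
      rw [← Subgroup.map_comap_eq_self_of_surjective hq M, h, (Subgroup.map_eq_bot_iff A).2 (by rw [QuotientGroup.ker_mk'])]
    · right
      rw [← Subgroup.map_comap_eq_self_of_surjective hq M, h]
  haveI : Group.IsSolvable (B.map q) := inferInstance
  obtain ⟨hBc, p₀, hp₀, -, hBp, -⟩ := Cfsg.Agent.Solv.minimal_normal_solvable hBA hBne hmin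
  let p : Nat.Primes := ⟨p₀, hp₀⟩
  haveI := Fact.mk hp₀
  set Kp := K p
  have hKp : ¬ p₀ ∣ Nat.card Kp := Cfsg.Agent.Solv.SysNorm.not_dvd_card hK p
  -- a commutator of a normalising element of `B` with `Kp` lies in `A`
  have hcommA : ∀ b ∈ B, b ∈ Subgroup.normalizer (Kp : Set G) → ∀ k ∈ Kp, ⁅b, k⁆ ∈ A := by
    intro b hb hbn k hk
    have h1 : ⁅b, k⁆ ∈ Kp := by
      rw [commutatorElement_def]
      exact Kp.mul_mem ((Subgroup.mem_normalizer_iff.1 hbn k).1 hk) (Kp.inv_mem hk)
    have h2 : ⁅b, k⁆ ∈ B := by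
      rw [commutatorElement_def, mul_assoc, mul_assoc]
      exact B.mul_mem hb (by rw [← mul_assoc]; exact ‹B.Normal›.conj_mem _ (B.inv_mem hb) k)
    rw [← QuotientGroup.eq_one_iff, ← orderOf_eq_one_iff]
    obtain ⟨j, hj⟩ := IsPGroup.iff_card.1 hBp
    have h3 : orderOf (q ⁅b, k⁆) ∣ p₀ ^ j := hj ▸ Subgroup.orderOf_dvd_natCard _ (Subgroup.mem_map_of_mem q h2)
    exact Nat.eq_one_of_dvd_coprimes ((hp₀.coprime_iff_not_dvd.2 hKp).pow_left j) h3
      ((orderOf_map_dvd q _).trans (Subgroup.orderOf_dvd_natCard _ h1))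
  have hDp : Cfsg.systemNormalizer K ≤ Subgroup.normalizer (Kp : Set G) := iInf_le _ p
  constructor
  · -- central factor
    intro hcen
    have hc : ∀ b ∈ B, ∀ g : G, ⁅b, g⁆ ∈ A := fun b hb g =>
      hcen (Subgroup.commutator_mem_commutator hb (Subgroup.mem_top g))
    -- the Sylow subgroup cut out by the other complements
    let T : Finset Nat.Primes := (((Nat.card G).primeFactors).subtype Nat.Prime).erase p
    set P := T.inf K with hP
    have hcop : ∀ i ∈ T, ∀ j ∈ T, i ≠ j → (K i).index.Coprime (K j).index := fun i _ j _ h =>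
      Cfsg.Agent.Solv.SysNorm.coprime_index hK h
    have hPidx : (Kp.index).Coprime P.index := by
      rw [hP, Cfsg.Agent.Solv.SysNorm.index_inf_finset K T hcop]
      exact Nat.Coprime.prod_right fun i hi =>
        Cfsg.Agent.Solv.SysNorm.coprime_index hK (fun e => (Finset.mem_erase.1 hi).1 e.symm)
    have hPD : ∀ x ∈ P, x ∈ Subgroup.normalizer (Kp : Set G) → x ∈ Cfsg.systemNormalizer K := by
      intro x hx hxn
      rw [Cfsg.systemNormalizer, Subgroup.mem_iInf]
      intro r
      by_cases hrp : r = p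
      · subst hrp; exact hxn
      by_cases hr : r ∈ T
      · exact Subgroup.le_normalizer ((Finset.inf_le hr : T.inf K ≤ K r) hx)
      · have hnd : ¬ (r : ℕ) ∣ Nat.card G := fun hd => hr (Finset.mem_erase.2 ⟨hrp,
          Finset.mem_subtype.2 (Nat.mem_primeFactors.2 ⟨r.2, hd, Nat.card_pos.ne'⟩)⟩)
        have : K r = ⊤ := Subgroup.index_eq_one.1 (by rw [hK r, Nat.factorization_eq_zero_of_not_dvd hnd, pow_zero])
        rw [this, Subgroup.normalizer_eq_top]; exact Subgroup.mem_top _
    intro b hb
    -- move `b` modulo `A` into the normalizer of `Kp`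
    set L := Kp ⊔ A with hL
    have hKL : Kp ≤ L := le_sup_left
    have hbL : MulAut.conj b • Kp ≤ L := by
      intro x hx
      rw [Cfsg.Agent.Solv.mem_conj_smul] at hx
      have h1 := Subgroup.mul_mem L (le_sup_right (a := Kp) (hc b hb (b⁻¹ * x * b))) (le_sup_left (b := A) hx)
      have e : ⁅b, b⁻¹ * x * b⁆ * (b⁻¹ * x * b) = x := by rw [commutatorElement_def]; group
      rwa [e] at h1
    obtain ⟨l, hl⟩ := Cfsg.Agent.Solv.hall_conj (G := L) (m := Nat.card Kp) (n := Kp.relIndex L) (by
        have h2 := (Kp.subgroupOf L).card_mul_index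
        rw [Nat.card_congr (Subgroup.subgroupOfEquivOfLe hKL).toEquiv] at h2
        exact h2.symm)
      (by
        refine Nat.Coprime.coprime_dvd_right (Subgroup.relIndex_dvd_index_of_le hKL) ?_
        rw [hK p]
        exact ((hp₀.coprime_iff_not_dvd.2 hKp).symm).pow_right _)
      (H := (MulAut.conj b • Kp).subgroupOf L) (K := Kp.subgroupOf L) (by
        rw [Nat.card_congr (Subgroup.subgroupOfEquivOfLe hbL).toEquiv]
        exact (Nat.card_congr (Subgroup.equivSMul (MulAut.conj b) Kp).toEquiv).symm)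
      (Nat.card_congr (Subgroup.subgroupOfEquivOfLe hKL).toEquiv)
    have h3 := Cfsg.Agent.Solv.conj_of_conj_subgroupOf hbL hKL hl
    have hl' : (l : G) ∈ ((Kp ⊔ A : Subgroup G) : Set G) := l.2
    rw [Subgroup.mul_normal] at hl'
    obtain ⟨k, hk, a, ha, hka⟩ := hl'
    have hb1 : a * b ∈ Subgroup.normalizer (Kp : Set G) := by
      have h4 : (l : G) * b ∈ Subgroup.normalizer (Kp : Set G) :=
        Cfsg.Agent.Solv.mem_normalizer_of_conj (by rw [map_mul, mul_smul]; exact h3)
      have h5 := mul_mem (inv_mem (Subgroup.le_normalizer hk)) h4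
      have e : k⁻¹ * ((l : G) * b) = a * b := by rw [← hka]; group
      rwa [e] at h5
    obtain ⟨k', hk', x, hx, hkx⟩ := Cfsg.Agent.Solv.mem_mul_of_coprime_index hPidx (a * b)
    have hxn : x ∈ Subgroup.normalizer (Kp : Set G) := by
      have h5 := mul_mem (inv_mem (Subgroup.le_normalizer hk')) hb1
      rwa [hkx, inv_mul_cancel_left] at h5
    have hxD := hPD x hx hxn
    -- the image of `k'` is a `p'`-element in an abelian `p`-group modulo the image of `x`
    have hqk : q k' ∈ (B.map q) ⊔ (Cfsg.systemNormalizer K).map q := by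
      have h6 : q k' = q (a * b) * (q x)⁻¹ := by rw [← map_inv, ← map_mul, hkx, mul_inv_cancel_right]
      rw [h6]
      exact Subgroup.mul_mem _ (le_sup_left (b := (Cfsg.systemNormalizer K).map q) (Subgroup.mem_map_of_mem q (B.mul_mem (hAB.le ha) hb)))
        (Subgroup.inv_mem _ (le_sup_right (a := B.map q) (Subgroup.mem_map_of_mem q hxD)))
    have hcomm2 : ∀ y ∈ B.map q, ∀ z : G ⧸ A, y * z = z * y := by
      rintro _ ⟨y, hy, rfl⟩ z
      obtain ⟨z, rfl⟩ := hq z
      have h7 : q ⁅y, z⁆ = 1 := (QuotientGroup.eq_one_iff _).2 (hc y hy z)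
      rw [map_commutatorElement, commutatorElement_eq_one_iff_mul_comm] at h7
      exact h7
    -- `q x = c⁻¹ * q k'` with `c` central of `p`-power order, so a power of `q x` is `q k'`
    have hk1 : q k' ∈ (Cfsg.systemNormalizer K).map q := by
      have h8 : q x = (q k')⁻¹ * q (a * b) := by rw [← map_inv, ← map_mul, hkx, inv_mul_cancel_left]
      have hy : q (a * b) ∈ B.map q := Subgroup.mem_map_of_mem q (B.mul_mem (hAB.le ha) hb)
      obtain ⟨j, hj⟩ := IsPGroup.iff_card.1 hBp
      have hyo : q (a * b) ^ (p₀ ^ j) = 1 :=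
        orderOf_dvd_iff_pow_eq_one.1 (hj ▸ Subgroup.orderOf_dvd_natCard _ hy)
      have hco : (orderOf (q k')).Coprime (p₀ ^ j) :=
        (((hp₀.coprime_iff_not_dvd.2 hKp).symm.coprime_dvd_left
          ((orderOf_map_dvd q k').trans (Subgroup.orderOf_dvd_natCard _ hk'))).pow_right j)
      have hpow : (q x) ^ (p₀ ^ j) = ((q k')⁻¹) ^ (p₀ ^ j) := by
        rw [h8, (show Commute (q k')⁻¹ (q (a * b)) from (hcomm2 _ hy _).symm).mul_pow, hyo, mul_one]
      have hmem : (q k') ^ (p₀ ^ j) ∈ (Cfsg.systemNormalizer K).map q := by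
        have := Subgroup.inv_mem _ (Subgroup.pow_mem _ (Subgroup.mem_map_of_mem q hxD) (p₀ ^ j))
        rwa [hpow, inv_pow, inv_inv] at this
      obtain ⟨m, hm⟩ := exists_pow_eq_self_of_coprime hco.symm
      exact hm ▸ Subgroup.pow_mem _ hmem m
    have hbm : q b ∈ (Cfsg.systemNormalizer K).map q := by
      have e : q b = q k' * q x := by
        rw [← map_mul, ← hkx, map_mul, show q a = 1 from (QuotientGroup.eq_one_iff a).2 ha, one_mul]
      rw [e]
      exact Subgroup.mul_mem _ hk1 (Subgroup.mem_map_of_mem q hxD)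
    rw [← Subgroup.mem_comap, Subgroup.comap_map_eq, QuotientGroup.ker_mk', sup_comm] at hbm
    exact hbm
  · -- eccentric factor
    intro hnc
    intro y hy
    obtain ⟨hyB, hyD⟩ : y ∈ B ∧ y ∈ Cfsg.systemNormalizer K := hy
    set M := Subgroup.centralizer ((B.map q : Subgroup (G ⧸ A)) : Set (G ⧸ A)) with hM
    haveI hMn : M.Normal := inferInstance
    have hyC : ∀ k ∈ Kp.map q, k * q y = q y * k := by
      rintro _ ⟨k, hk, rfl⟩
      have h1 : q ⁅y, k⁆ = 1 := (QuotientGroup.eq_one_iff _).2 (hcommA y hyB (hDp hyD) k hk)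
      rw [map_commutatorElement, commutatorElement_eq_one_iff_mul_comm] at h1
      exact h1.symm
    by_cases hMtop : M = ⊤
    · exfalso
      apply hnc
      rw [Subgroup.commutator_le]
      intro b hb g _
      rw [← QuotientGroup.eq_one_iff]
      show q ⁅b, g⁆ = 1
      rw [map_commutatorElement, commutatorElement_eq_one_iff_mul_comm]
      have : q g ∈ M := hMtop ▸ Subgroup.mem_top _
      exact Subgroup.mem_centralizer_iff.1 this _ (Subgroup.mem_map_of_mem q hb)
    -- a minimal normal subgroup over `M` is a `p'`-group modulo `M`, inside `Kp M`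
    let r := QuotientGroup.mk' M
    have hr : Function.Surjective r := QuotientGroup.mk'_surjective M
    haveI : Nontrivial ((G ⧸ A) ⧸ M) := QuotientGroup.nontrivial_iff.2 hMtop
    obtain ⟨R, hR, hRne, -, hRmin⟩ := Cfsg.Agent.Solv.exists_minimal_normal (N := (⊤ : Subgroup ((G ⧸ A) ⧸ M))) inferInstance top_ne_bot
    obtain ⟨-, s, hs, -, hRs, -⟩ := Cfsg.Agent.Solv.minimal_normal_solvable hR hRne hRmin
    haveI := Fact.mk hs
    haveI := hR
    -- fixed points of `R` on `B/A`
    set R0 := R.comap r with hR0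
    haveI : R0.Normal := hR.comap r
    have hRC : (B.map q ⊓ Subgroup.centralizer (R0 : Set (G ⧸ A))) = ⊥ := by
      rcases hmin (B.map q ⊓ Subgroup.centralizer (R0 : Set (G ⧸ A))) inferInstance inf_le_left with h | h
      · exact h
      · exfalso
        apply hRne
        rw [← Subgroup.map_comap_eq_self_of_surjective hr R, eq_bot_iff]
        rintro _ ⟨z, hz, rfl⟩
        refine Subgroup.mem_bot.2 ((QuotientGroup.eq_one_iff z).2 ?_)
        refine Subgroup.mem_centralizer_iff.2 fun w hw => ?_
        have hw' : w ∈ B.map q ⊓ Subgroup.centralizer (R0 : Set (G ⧸ A)) := by rw [h]; exact hw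
        exact (Subgroup.mem_centralizer_iff.1 hw'.2 z hz).symm
    by_cases hsp : s = p₀
    · -- impossible: a `p`-group would fix a point
      exfalso
      subst hsp
      -- `R0` acts on `B.map q` through a `p`-group
      set Γ := R0.map (MulAut.conjNormal (H := B.map q)) with hΓ
      have hΓp : IsPGroup s Γ := by
        rintro ⟨_, z, hz, rfl⟩
        obtain ⟨k, hk⟩ := hRs ⟨r z, hz⟩
        refine ⟨k, Subtype.ext ?_⟩
        have hzk : z ^ (s ^ k) ∈ M := by
          rw [← QuotientGroup.eq_one_iff]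
          have := congrArg Subtype.val hk
          show r (z ^ (s ^ k)) = 1
          rw [map_pow]; exact this
        show (MulAut.conjNormal z) ^ (s ^ k) = (1 : MulAut _)
        rw [← map_pow]
        refine MulEquiv.ext fun w => Subtype.ext ?_
        rw [MulAut.conjNormal_apply, MulAut.one_apply, ← Subgroup.mem_centralizer_iff.1 hzk _ w.2, mul_inv_cancel_right]
      have hd : s ∣ Nat.card (B.map q) := by
        obtain ⟨j, hj⟩ := IsPGroup.iff_card.1 hBp
        rw [hj]
        refine dvd_pow_self s fun h0 => hBne (Subgroup.eq_bot_of_card_eq _ (by rw [hj, h0, pow_zero]))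
      obtain ⟨w, hw, hw1⟩ := hΓp.exists_fixed_point_of_prime_dvd_card_of_fixed_point (B.map q) hd (a := 1)
        (fun γ => map_one (γ : MulAut (B.map q)))
      have hwC : (w : G ⧸ A) ∈ B.map q ⊓ Subgroup.centralizer (R0 : Set (G ⧸ A)) := by
        refine ⟨w.2, Subgroup.mem_centralizer_iff.2 fun z hz => ?_⟩
        have h2 := congrArg Subtype.val (hw ⟨_, Subgroup.mem_map_of_mem _ hz⟩)
        have h3 : z * (w : G ⧸ A) * z⁻¹ = w := by simpa [MulAut.conjNormal_apply] using h2
        exact mul_inv_eq_iff_eq_mul.1 h3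
      rw [hRC, Subgroup.mem_bot] at hwC
      exact hw1 (Subtype.ext hwC.symm)
    · -- `R` lies in the image of `Kp`
      have hRK : R ≤ (Kp.map q).map r := by
        intro z hz
        set W := (Kp.map q).map r
        have hWi : W.index ∣ (p₀ : ℕ) ^ (Nat.card G).factorization p₀ := by
          have h1 := (Subgroup.index_map_dvd (Kp.map q) hr).trans (Subgroup.index_map_dvd Kp hq)
          rwa [hK p] at h1
        have h2 : W.relIndex (W ⊔ R) = 1 := by
          have hd1 : W.relIndex (W ⊔ R) ∣ W.index := Subgroup.relIndex_dvd_index_of_le le_sup_left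
          have hd2 : W.relIndex (W ⊔ R) ∣ Nat.card R := by
            have e1 := Subgroup.card_mul_index (W.subgroupOf (W ⊔ R))
            have hs' : Function.Surjective (fun u : R => ((⟨u, (le_sup_right : R ≤ W ⊔ R) u.2⟩ : ↥(W ⊔ R)) : ↥(W ⊔ R) ⧸ W.subgroupOf (W ⊔ R))) := by
              intro c
              induction c using QuotientGroup.induction_on with
              | _ c =>
                have hc' : (c : (G ⧸ A) ⧸ M) ∈ ((R ⊔ W : Subgroup ((G ⧸ A) ⧸ M)) : Set _) := by rw [sup_comm]; exact c.2
                rw [Subgroup.normal_mul] at hc'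
                obtain ⟨u, hu, w, hw, huw⟩ := hc'
                refine ⟨⟨u, hu⟩, QuotientGroup.eq.2 ?_⟩
                rw [Subgroup.mem_subgroupOf]
                show u⁻¹ * (c : (G ⧸ A) ⧸ M) ∈ W
                rw [← huw]
                simpa using hw
            obtain ⟨j, hj⟩ := IsPGroup.iff_card.1 hRs
            have hle := Nat.card_le_card_of_surjective _ hs'
            have e2 : W.relIndex (W ⊔ R) = W.relIndex R := by
              have f1 := Subgroup.relIndex_mul_relIndex (W ⊓ R) W (W ⊔ R) inf_le_left le_sup_left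
              have f2 := Subgroup.relIndex_mul_relIndex (W ⊓ R) R (W ⊔ R) inf_le_right le_sup_right
              rw [Subgroup.inf_relIndex_left] at f1
              rw [Subgroup.inf_relIndex_right, Subgroup.relIndex_sup_right] at f2
              rw [← f2] at f1
              exact Nat.eq_of_mul_eq_mul_left (Nat.pos_of_ne_zero Subgroup.index_ne_zero_of_finite) (f1.trans (mul_comm _ _))
            rw [e2]
            exact Subgroup.relIndex_dvd_card _ _
          obtain ⟨j, hj⟩ := IsPGroup.iff_card.1 hRs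
          exact Nat.eq_one_of_dvd_coprimes (((Nat.coprime_primes hp₀ hs).2 (Ne.symm hsp)).pow _ j) (hd1.trans hWi) (hj ▸ hd2)
        exact (Subgroup.relIndex_eq_one.1 h2) ((le_sup_right : R ≤ W ⊔ R) hz)
      have hyR : q y ∈ B.map q ⊓ Subgroup.centralizer (R0 : Set (G ⧸ A)) := by
        refine ⟨Subgroup.mem_map_of_mem q hyB, Subgroup.mem_centralizer_iff.2 fun z hz => ?_⟩
        obtain ⟨k, hk, hkz⟩ := hRK hz
        have hm : k⁻¹ * z ∈ M := QuotientGroup.eq.1 hkz
        have h4 := Subgroup.mem_centralizer_iff.1 hm _ (Subgroup.mem_map_of_mem q hyB)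
        calc z * q y = k * ((k⁻¹ * z) * q y) := by group
          _ = k * (q y * (k⁻¹ * z)) := by rw [h4]
          _ = (k * q y) * (k⁻¹ * z) := by group
          _ = (q y * k) * (k⁻¹ * z) := by rw [hyC k hk]
          _ = q y * z := by group
      rw [hRC, Subgroup.mem_bot] at hyR
      exact (QuotientGroup.eq_one_iff y).1 hyR

end Cfsg.Agent.S0568
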