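import Cfsg.Statements.S0546
import Cfsg.Agent.S0568

set_option autoImplicit false
set_option linter.style.haveILetI false
open Cfsg

namespace Cfsg.Agent.S0546

/-- The normal closure of a system normalizer of a finite solvable group is the whole group. -/
theorem result {G : Type*} [Group G] [Finite G] [Group.IsSolvable G] (K : Nat.Primes → Subgroup G) (hK : Cfsg.IsComplementSystem K) : Subgroup.normalClosure ((Cfsg.systemNormalizer K : Subgroup G) : Set G) = ⊤ := by
  classical
  by_contra hne
  set M := Subgroup.normalClosure ((Cfsg.systemNormalizer K : Subgroup G) : Set G) with hM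
  have hDM : Cfsg.systemNormalizer K ≤ M := fun x hx => Subgroup.subset_normalClosure hx
  obtain ⟨A, ⟨hAn, hMA, hAt⟩, hmax⟩ := Set.Finite.exists_maximal (s := {A : Subgroup G | A.Normal ∧ M ≤ A ∧ A ≠ ⊤})
    (Set.toFinite _) ⟨M, Subgroup.normalClosure_normal, le_rfl, hne⟩
  haveI := hAn
  have hchief : ∀ N : Subgroup G, N.Normal → A ≤ N → N ≤ ⊤ → N = A ∨ N = ⊤ := by
    intro N hN hle _
    by_cases hNt : N = ⊤
    · exact Or.inr hNt
    · exact Or.inl (le_antisymm (hmax ⟨hN, hMA.trans hle, hNt⟩ hle) hle)
  have hcen : ⁅(⊤ : Subgroup G), (⊤ : Subgroup G)⁆ ≤ A := by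
    rcases hchief (A ⊔ commutator G) inferInstance le_sup_left le_top with h | h
    · exact (le_sup_right : commutator G ≤ A ⊔ commutator G).trans h.le
    · exfalso
      haveI : Nontrivial (G ⧸ A) := QuotientGroup.nontrivial_iff.2 hAt
      have hlt : commutator (G ⧸ A) < ⊤ := Group.IsSolvable.commutator_lt_top_of_nontrivial (G ⧸ A)
      apply hlt.ne
      have h1 : (⊤ : Subgroup G).map (QuotientGroup.mk' A) ≤ commutator (G ⧸ A) := by
        rw [← h, Subgroup.map_sup, (Subgroup.map_eq_bot_iff A).2 (by rw [QuotientGroup.ker_mk']), bot_sup_eq,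
          commutator_def, commutator_def, Subgroup.map_commutator]
        exact Subgroup.commutator_mono le_top le_top
      rw [Subgroup.map_top_of_surjective _ (QuotientGroup.mk'_surjective A)] at h1
      exact top_le_iff.1 h1
  have h1 := (Cfsg.Agent.S0568.result K hK A ⊤ (lt_top_iff_ne_top.2 hAt) hchief).1 hcen
  exact hAt (top_le_iff.1 (h1.trans (sup_le le_rfl (hDM.trans hMA))))

end Cfsg.Agent.S0546
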