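import Cfsg.Statements.S0547
import Cfsg.Agent.Solv.Cores

set_option autoImplicit false
set_option linter.style.haveILetI false
open Cfsg

namespace Cfsg.Agent.S0547

/-- Let a finite solvable group G act faithfully and primitively on a set, and let M be a minimal normal subgroup of G. Then M is transitive with trivial point stabilizers, and the number of points equals the order of M, which is a prime power p ^ d with d ≥ 1. -/
theorem result {G : Type*} [Group G] [Finite G] [Group.IsSolvable G] {Ω : Type*} [Nonempty Ω] [MulAction G Ω] [FaithfulSMul G Ω] (hprim : MulAction.IsPreprimitive G Ω) (M : Subgroup G) [M.Normal] (hM : M ≠ ⊥) (hmin : ∀ K : Subgroup G, K.Normal → K ≤ M → K = ⊥ ∨ K = M) : MulAction.IsPretransitive M Ω ∧ (∀ ω : Ω, MulAction.stabilizer M ω = ⊥) ∧ ∃ p d : ℕ, p.Prime ∧ 0 < d ∧ Nat.card Ω = p ^ d ∧ Nat.card M = p ^ d := by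
  obtain ⟨hc, p, hp, hpd, hpg, -⟩ := Cfsg.Agent.Solv.minimal_normal_solvable ‹M.Normal› hM hmin
  haveI := hprim
  haveI htr : MulAction.IsPretransitive M Ω := by
    refine MulAction.IsQuasiPreprimitive.isPretransitive_of_normal (G := G) fun h => hM ?_
    rw [eq_bot_iff]
    intro m hm
    refine Subgroup.mem_bot.2 (eq_of_smul_eq_smul (α := Ω) fun ω => ?_)
    have hω : ω ∈ MulAction.fixedPoints M Ω := h ▸ Set.mem_univ ω
    rw [one_smul]
    exact hω ⟨m, hm⟩
  have hreg : ∀ ω : Ω, MulAction.stabilizer M ω = ⊥ := by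
    intro ω
    rw [eq_bot_iff]
    intro m hm
    refine Subgroup.mem_bot.2 (Subtype.ext (eq_of_smul_eq_smul (α := Ω) fun η => ?_))
    obtain ⟨n, rfl⟩ := MulAction.exists_smul_eq M ω η
    rw [Subgroup.coe_one, one_smul]
    show m • n • ω = n • ω
    rw [smul_smul, hc.is_comm.comm m n, mul_smul, hm]
  refine ⟨htr, hreg, ?_⟩
  obtain ⟨ω⟩ := ‹Nonempty Ω›
  have hcard : Nat.card Ω = Nat.card M := by
    refine (Nat.card_congr (Equiv.ofBijective (fun m : M => m • ω) ⟨fun a b h => ?_, fun η => MulAction.exists_smul_eq M ω η⟩)).symm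
    have : b⁻¹ * a ∈ MulAction.stabilizer M ω := by
      rw [MulAction.mem_stabilizer_iff, mul_smul]
      simp only [show a • ω = b • ω from h, inv_smul_smul]
    rw [hreg, Subgroup.mem_bot, inv_mul_eq_one] at this
    exact this.symm
  haveI := Fact.mk hp
  obtain ⟨d, hd⟩ := IsPGroup.iff_card.1 hpg
  exact ⟨p, d, hp, Nat.pos_of_ne_zero (fun h0 => hp.not_dvd_one (by rw [hd, h0, pow_zero] at hpd; exact hpd)), hcard.trans hd, hd⟩

end Cfsg.Agent.S0547
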