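import Cfsg.Statements.S0548
import Cfsg.Agent.Solv.Cores
import Cfsg.Agent.Solv.FrattiniFree

set_option autoImplicit false
set_option linter.style.haveILetI false
open Cfsg

namespace Cfsg.Agent.S0548

/-- Let a finite solvable group G act faithfully and primitively on a set, let M be a minimal normal subgroup and H the stabilizer of a point. Then H is a complement to M, no non-identity element of H centralizes M, and the only subgroups of M normalized by H are the trivial subgroup and M. -/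
theorem result {G : Type*} [Group G] [Finite G] [Group.IsSolvable G] {Ω : Type*} [MulAction G Ω] [FaithfulSMul G Ω] (hprim : MulAction.IsPreprimitive G Ω) (M : Subgroup G) [M.Normal] (hM : M ≠ ⊥) (hmin : ∀ K : Subgroup G, K.Normal → K ≤ M → K = ⊥ ∨ K = M) (ω : Ω) : Subgroup.IsComplement' M (MulAction.stabilizer G ω) ∧ MulAction.stabilizer G ω ⊓ Subgroup.centralizer (M : Set G) = ⊥ ∧ ∀ K : Subgroup G, K ≤ M → MulAction.stabilizer G ω ≤ Subgroup.normalizer (K : Set G) → K = ⊥ ∨ K = M := by
  obtain ⟨hc, -⟩ := Cfsg.Agent.Solv.minimal_normal_solvable ‹M.Normal› hM hmin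
  have hcom : ∀ x ∈ M, ∀ y ∈ M, x * y = y * x := fun x hx y hy =>
    congrArg Subtype.val (hc.is_comm.comm (⟨x, hx⟩ : M) ⟨y, hy⟩)
  haveI := hprim
  haveI htr : MulAction.IsPretransitive M Ω := by
    refine MulAction.IsQuasiPreprimitive.isPretransitive_of_normal (G := G) fun h => hM ?_
    rw [eq_bot_iff]
    intro m hm
    refine Subgroup.mem_bot.2 (eq_of_smul_eq_smul (α := Ω) fun η => ?_)
    have hω : η ∈ MulAction.fixedPoints M Ω := h ▸ Set.mem_univ η
    rw [one_smul]
    exact hω ⟨m, hm⟩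
  have hfix : ∀ g : G, g ∈ Subgroup.centralizer (M : Set G) → g • ω = ω → g = 1 := fun g hg hω =>
    eq_of_smul_eq_smul (α := Ω) fun η => by
      obtain ⟨n, rfl⟩ := MulAction.exists_smul_eq M ω η
      rw [one_smul]
      show g • (n : G) • ω = (n : G) • ω
      rw [smul_smul, ← Subgroup.mem_centralizer_iff.1 hg n n.2, mul_smul, hω]
  have hcov : ∀ g : G, ∃ m ∈ M, ∃ h ∈ MulAction.stabilizer G ω, g = m * h := fun g => by
    obtain ⟨n, hn⟩ := MulAction.exists_smul_eq M ω (g • ω)
    refine ⟨n, n.2, (n : G)⁻¹ * g, ?_, by rw [mul_inv_cancel_left]⟩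
    rw [MulAction.mem_stabilizer_iff, mul_smul, ← hn]
    exact inv_smul_smul (n : G) ω
  refine ⟨Cfsg.Agent.Solv.isComplement'_of_inf_sup ?_ ?_, ?_, ?_⟩
  · rw [eq_bot_iff]
    exact fun g hg => Subgroup.mem_bot.2 (hfix g (Subgroup.mem_centralizer_iff.2 fun y hy => hcom y hy g hg.1) hg.2)
  · rw [eq_top_iff]
    intro g _
    obtain ⟨m, hm, h, hh, rfl⟩ := hcov g
    exact Subgroup.mul_mem _ (le_sup_left (b := MulAction.stabilizer G ω) hm) (le_sup_right (a := M) hh)
  · rw [eq_bot_iff]
    exact fun g hg => Subgroup.mem_bot.2 (hfix g hg.2 hg.1)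
  · intro K hKM hK
    refine hmin K ?_ hKM
    rw [← Subgroup.normalizer_eq_top_iff, eq_top_iff]
    intro g _
    obtain ⟨m, hm, h, hh, rfl⟩ := hcov g
    refine Subgroup.mul_mem _ (Subgroup.mem_normalizer_iff.2 fun y => ⟨fun hy => ?_, fun hy => ?_⟩) (hK hh)
    · rwa [hcom m hm y (hKM hy), mul_inv_cancel_right]
    · have hy' : y ∈ M := by
        simpa [mul_assoc] using M.mul_mem (M.mul_mem (M.inv_mem hm) (hKM hy)) hm
      rwa [hcom m hm y hy', mul_inv_cancel_right] at hy

end Cfsg.Agent.S0548
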