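import Cfsg.Statements.S0550
import Cfsg.Agent.Solv.Primitive

set_option autoImplicit false
set_option linter.style.haveILetI false
open Cfsg

namespace Cfsg.Agent.S0550

/-- Let U be a maximal subgroup with trivial normal core in a finite group G, and A ≠ B two minimal normal subgroups. Then A is the centralizer of B and B that of A, U complements each of them, A and B are non-abelian, and A, B and (A ⊔ B) ∩ U are pairwise isomorphic. -/
theorem result {G : Type*} [Group G] [Finite G] (U : Subgroup G) (hU : IsCoatom U) (hcore : U.normalCore = ⊥) (A B : Subgroup G) [A.Normal] [B.Normal] (hA : A ≠ ⊥) (hB : B ≠ ⊥) (hAmin : ∀ K : Subgroup G, K.Normal → K ≤ A → K = ⊥ ∨ K = A) (hBmin : ∀ K : Subgroup G, K.Normal → K ≤ B → K = ⊥ ∨ K = B) (hAB : A ≠ B) : Subgroup.centralizer (B : Set G) = A ∧ Subgroup.centralizer (A : Set G) = B ∧ Subgroup.IsComplement' A U ∧ Subgroup.IsComplement' B U ∧ ¬ IsMulCommutative A ∧ Nonempty (A ≃* B) ∧ Nonempty (A ≃* ↥((A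 ⊔ B) ⊓ U)) := by
  have hinf : A ⊓ B = ⊥ := by
    rcases hAmin (A ⊓ B) inferInstance inf_le_left with h | h
    · exact h
    · rcases hBmin (A ⊓ B) inferInstance inf_le_right with h' | h'
      · exact h'
      · exact absurd (h.symm.trans h') hAB
  have hcom : ∀ a ∈ A, ∀ b ∈ B, Commute a b := fun a ha b hb =>
    Subgroup.commute_of_normal_of_disjoint A B ‹_› ‹_› (disjoint_iff.2 hinf) a b ha hb
  have hCB : Subgroup.centralizer (B : Set G) = A := by
    rcases Cfsg.Agent.Solv.Prim.centralizer_minimal hU hcore hB (K := A) ‹_›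
      (fun a ha => Subgroup.mem_centralizer_iff.2 fun b hb => (hcom a ha b hb).eq.symm) with h | h
    · exact absurd h hA
    · exact h.symm
  have hCA : Subgroup.centralizer (A : Set G) = B := by
    rcases Cfsg.Agent.Solv.Prim.centralizer_minimal hU hcore hA (K := B) ‹_›
      (fun b hb => Subgroup.mem_centralizer_iff.2 fun a ha => (hcom a ha b hb).eq) with h | h
    · exact absurd h hB
    · exact h.symm
  have hAU : A ⊓ U = ⊥ := hCB ▸ Cfsg.Agent.Solv.Prim.centralizer_inf_eq_bot hU hcore hB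
  have hBU : B ⊓ U = ⊥ := hCA ▸ Cfsg.Agent.Solv.Prim.centralizer_inf_eq_bot hU hcore hA
  have hiso : ∀ (A B : Subgroup G) [A.Normal] [B.Normal], A ≠ ⊥ → B ≠ ⊥ → A ⊓ B = ⊥ → B ⊓ U = ⊥ →
      Nonempty (A ≃* ↥((A ⊔ B) ⊓ U)) := by
    intro A B _ _ hA hB hinf hBU
    let q := QuotientGroup.mk' B
    have hinj : ∀ X : Subgroup G, X ⊓ B = ⊥ → Function.Injective (q.subgroupMap X) := by
      intro X hX
      rw [← MonoidHom.ker_eq_bot_iff, eq_bot_iff]
      intro x hx
      have h1 : (x : G) ∈ X ⊓ B := ⟨x.2, (QuotientGroup.eq_one_iff _).1 (congrArg Subtype.val hx)⟩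
      rw [hX, Subgroup.mem_bot] at h1
      exact Subgroup.mem_bot.2 (Subtype.ext h1)
    have heq : A.map q = ((A ⊔ B) ⊓ U).map q := by
      apply le_antisymm
      · rintro _ ⟨a, ha, rfl⟩
        obtain ⟨b, hb, u, hu, rfl⟩ := Cfsg.Agent.Solv.Prim.cover hU hcore ‹B.Normal› hB a
        refine ⟨u, ⟨?_, hu⟩, ?_⟩
        · simpa using (A ⊔ B).mul_mem ((A ⊔ B).inv_mem (le_sup_right (a := A) hb)) (le_sup_left (b := B) ha)
        · rw [map_mul, show q b = 1 from (QuotientGroup.eq_one_iff b).2 hb, one_mul]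
      · refine (Subgroup.map_mono inf_le_left).trans ?_
        rw [Subgroup.map_sup, show B.map q = ⊥ from (Subgroup.map_eq_bot_iff B).2 (by rw [QuotientGroup.ker_mk']), sup_bot_eq]
    have e1 := MulEquiv.ofBijective (q.subgroupMap A) ⟨hinj A hinf, q.subgroupMap_surjective A⟩
    have e2 := MulEquiv.ofBijective (q.subgroupMap ((A ⊔ B) ⊓ U))
      ⟨hinj _ (by rw [inf_assoc, inf_comm U B, hBU, inf_bot_eq]), q.subgroupMap_surjective _⟩
    exact ⟨(e1.trans (MulEquiv.subgroupCongr heq)).trans e2.symm⟩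
  obtain ⟨e1⟩ := hiso A B hA hB hinf hBU
  obtain ⟨e2⟩ := hiso B A hB hA (by rw [inf_comm]; exact hinf) hAU
  refine ⟨hCB, hCA, Cfsg.Agent.Solv.isComplement'_of_inf_sup hAU (Cfsg.Agent.Solv.Prim.sup_eq_top hU hcore ‹_› hA),
    Cfsg.Agent.Solv.isComplement'_of_inf_sup hBU (Cfsg.Agent.Solv.Prim.sup_eq_top hU hcore ‹_› hB), fun hc => ?_,
    ⟨e1.trans ((MulEquiv.subgroupCongr (by rw [sup_comm])).trans e2.symm)⟩, ⟨e1⟩⟩
  apply hA
  rw [eq_bot_iff, ← hinf]
  intro a ha
  refine ⟨ha, ?_⟩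
  have : a ∈ Subgroup.centralizer (A : Set G) := Subgroup.mem_centralizer_iff.2 fun y hy =>
    congrArg Subtype.val (hc.is_comm.comm (⟨y, hy⟩ : A) ⟨a, ha⟩)
  rwa [hCA] at this

end Cfsg.Agent.S0550
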