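import Cfsg.Statements.S0552
import Cfsg.Agent.Solv.Fitting

set_option autoImplicit false
set_option linter.style.haveILetI false
open Cfsg

namespace Cfsg.Agent.S0552

/-- Let σ be an automorphism of a finite solvable group G fixing every element of the Fitting subgroup. If σ is not the identity then the order of σ and the order of G have a common prime factor. -/
theorem result {G : Type*} [Group G] [Finite G] [Group.IsSolvable G] (σ : G ≃* G) (hσ : ∀ x ∈ Cfsg.fittingSubgroup G, σ x = x) (hne : σ ≠ MulEquiv.refl G) : ¬ (orderOf σ).Coprime (Nat.card G) := by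
  intro hcop
  apply hne
  ext g
  obtain ⟨f, hf⟩ : ∃ f, f = g⁻¹ * σ g := ⟨_, rfl⟩
  haveI := Solv.fittingSubgroup_normal (G := G)
  have hfF : f ∈ Cfsg.fittingSubgroup G := by
    refine Solv.centralizer_fitting_le ?_
    rw [Subgroup.mem_centralizer_iff]
    intro x hx
    have h1 := hσ _ ((inferInstance : (Cfsg.fittingSubgroup G).Normal).conj_mem x hx g)
    rw [map_mul, map_mul, map_inv, hσ x hx] at h1
    rw [hf]
    calc x * (g⁻¹ * σ g) = g⁻¹ * (g * x * g⁻¹) * σ g := by group
      _ = g⁻¹ * (σ g * x * (σ g)⁻¹) * σ g := by rw [h1]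
      _ = g⁻¹ * σ g * x := by group
  have hpow : ∀ k : ℕ, (σ ^ k : G ≃* G) g = g * f ^ k := by
    intro k
    induction k with
    | zero => simp
    | succ k ih =>
      have hg : σ g = g * f := by rw [hf, mul_inv_cancel_left]
      rw [pow_succ', MulAut.mul_apply, ih, map_mul, map_pow, hσ f hfF, hg, mul_assoc, ← pow_succ']
  have h1 := hpow (orderOf σ)
  rw [pow_orderOf_eq_one, MulAut.one_apply, left_eq_mul, ← orderOf_dvd_iff_pow_eq_one] at h1
  have h2 : orderOf f = 1 := Nat.eq_one_of_dvd_coprimes hcop h1 (orderOf_dvd_natCard f)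
  rw [orderOf_eq_one_iff, hf, inv_mul_eq_one] at h2
  exact h2.symm

end Cfsg.Agent.S0552
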