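import Cfsg.Statements.S0553
import Cfsg.Agent.Solv.Cores
import Mathlib

set_option autoImplicit false
open Cfsg

namespace Cfsg.Agent.S0553

/-- Let G be a nontrivial finite solvable group in which every maximal subgroup has order coprime to its index. Then for some prime p dividing the order of G the Sylow p-subgroups of G are normal. -/
theorem result {G : Type*} [Group G] [Finite G] [Group.IsSolvable G] [Nontrivial G] (h : ∀ M : Subgroup G, IsCoatom M → (Nat.card M).Coprime M.index) : ∃ p : ℕ, p.Prime ∧ p ∣ Nat.card G ∧ ∀ P : Sylow p G, (P : Subgroup G).Normal := by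
  classical
  suffices H : ∀ n : ℕ, ∀ (G : Type _) [Group G] [Finite G], Nat.card G = n → Group.IsSolvable G → Nontrivial G →
      (∀ M : Subgroup G, IsCoatom M → (Nat.card M).Coprime M.index) →
      ∃ p : ℕ, p.Prime ∧ p ∣ Nat.card G ∧ ∀ P : Sylow p G, (P : Subgroup G).Normal from
    H _ G rfl inferInstance inferInstance h
  intro n
  induction n using Nat.strong_induction_on with
  | _ n IH =>
  intro G _ _ hn hs _ h
  haveI := hs
  obtain ⟨N, hN, hNne, -, hmin⟩ := Cfsg.Agent.Solv.exists_minimal_normal (G := G) (N := ⊤) inferInstance top_ne_bot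
  obtain ⟨hNc, p, hp, hpN, hNp, -⟩ := Cfsg.Agent.Solv.minimal_normal_solvable hN hNne hmin
  haveI := Fact.mk hp
  have hpG : p ∣ Nat.card G := hpN.trans (Subgroup.card_subgroup_dvd_card N)
  have hfin : ¬ p ∣ N.index → ∃ p : ℕ, p.Prime ∧ p ∣ Nat.card G ∧ ∀ P : Sylow p G, (P : Subgroup G).Normal := by
    intro hi
    let P₀ : Sylow p G := hNp.toSylow hi
    haveI hP₀ : (P₀ : Subgroup G).Normal := hN
    haveI := P₀.unique_of_normal hP₀
    exact ⟨p, hp, hpG, fun P => by rw [Subsingleton.elim P P₀]; exact hP₀⟩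
  rcases subsingleton_or_nontrivial (G ⧸ N) with hq | hq
  · refine hfin ?_
    rw [Subgroup.index_eq_card, Nat.card_of_subsingleton (1 : G ⧸ N)]
    exact hp.not_dvd_one
  have hlt : Nat.card (G ⧸ N) < n := by
    rw [← hn, N.card_eq_card_quotient_mul_card_subgroup]
    exact lt_mul_right Nat.card_pos ((Subgroup.one_lt_card_iff_ne_bot N).2 hNne)
  obtain ⟨q, hq', hqd, hqn⟩ := IH _ hlt (G ⧸ N) rfl inferInstance hq (by
    intro M hM
    have hc : IsCoatom (M.comap (QuotientGroup.mk' N)) :=
      Subgroup.isCoatom_comap_of_surjective (QuotientGroup.mk'_surjective N) hM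
    have h2 := h _ hc
    rw [Subgroup.index_comap_of_surjective _ (QuotientGroup.mk'_surjective N)] at h2
    refine Nat.Coprime.coprime_dvd_left ?_ h2
    conv_lhs => rw [← Subgroup.map_comap_eq_self_of_surjective (QuotientGroup.mk'_surjective N) M]
    exact Subgroup.card_map_dvd _ _)
  haveI := Fact.mk hq'
  have hqG : q ∣ Nat.card G := hqd.trans (Subgroup.card_quotient_dvd_card N)
  by_cases hpi : p ∣ N.index
  swap
  · exact hfin hpi
  refine ⟨q, hq', hqG, fun Q => ?_⟩
  let K : Subgroup G := N ⊔ (Q : Subgroup G)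
  haveI hK : K.Normal := by
    have e : K = ((Q.mapSurjective (QuotientGroup.mk'_surjective N) : Sylow q (G ⧸ N)) : Subgroup (G ⧸ N)).comap
        (QuotientGroup.mk' N) := by
      rw [Sylow.coe_mapSurjective, Subgroup.comap_map_eq, QuotientGroup.ker_mk', sup_comm]
    rw [e]
    exact (hqn _).comap _
  have hQK : (Q : Subgroup G) ≤ K := le_sup_right
  have hfr := Sylow.normalizer_sup_eq_top (Q.subtype hQK)
  rw [show ((Q.subtype hQK : Sylow q K) : Subgroup K).map K.subtype = (Q : Subgroup G) from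
    Subgroup.map_subgroupOf_eq_of_le hQK] at hfr
  set X := Subgroup.normalizer ((Q : Subgroup G) : Set G) with hX
  by_cases hXt : X = ⊤
  · exact Subgroup.normalizer_eq_top_iff.1 hXt
  exfalso
  obtain ⟨M, hM, hXM⟩ := (eq_top_or_exists_le_coatom X).resolve_left hXt
  have hMN : N ⊔ M = ⊤ := by
    rw [eq_top_iff, ← hfr]
    exact sup_le (hXM.trans le_sup_right)
      (sup_le le_sup_left ((Subgroup.le_normalizer.trans hXM).trans le_sup_right))
  have hI : (N ⊓ M).Normal := by
    rw [← Subgroup.normalizer_eq_top_iff, eq_top_iff, ← hMN, sup_le_iff]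
    constructor
    · refine le_trans ?_ (Subgroup.centralizer_le_normalizer _)
      intro a ha
      refine Subgroup.mem_centralizer_iff.2 fun b hb => ?_
      exact congrArg Subtype.val (hNc.is_comm.comm (⟨b, hb.1⟩ : N) ⟨a, ha⟩)
    · intro m hm
      rw [Subgroup.mem_normalizer_iff]
      intro b
      refine ⟨fun hb => ⟨hN.conj_mem b hb.1 m, M.mul_mem (M.mul_mem hm hb.2) (M.inv_mem hm)⟩, fun hb => ?_⟩
      have h1 := hN.conj_mem _ hb.1 m⁻¹
      have h2 := mul_mem (mul_mem (inv_mem hm) hb.2) hm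
      simp only [mul_assoc, inv_mul_cancel_left, inv_inv, inv_mul_cancel, mul_one] at h1 h2
      exact ⟨h1, h2⟩
  have hNM : N ⊓ M = ⊥ := by
    refine (hmin _ hI inf_le_left).resolve_right fun e => hM.1 ?_
    rw [← hMN, sup_of_le_right (inf_eq_left.1 e)]
  have hcomp : N.IsComplement' M := Subgroup.isComplement'_of_disjoint_and_mul_eq_univ
    (disjoint_iff.2 hNM) (by rw [← Subgroup.normal_mul, hMN, Subgroup.coe_top])
  have h1 := h M hM
  rw [hcomp.index_eq_card] at h1
  rw [hcomp.symm.index_eq_card] at hpi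
  exact hp.one_lt.ne' (Nat.eq_one_of_dvd_coprimes h1 hpi hpN)

end Cfsg.Agent.S0553
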