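import Cfsg.Statements.S0556
import Cfsg.Agent.Frob.Basic
import Cfsg.Agent.Solv.Cores

set_option autoImplicit false
set_option linter.style.haveILetI false
open Cfsg

open scoped Pointwise commutatorElement

namespace Cfsg.Agent.S0556

/-- If a finite group has a maximal subgroup that is abelian, then the third term of its derived series is trivial (so the group is solvable of derived length at most three). -/
theorem result {G : Type*} [Group G] [Finite G] (A : Subgroup G) (hA : IsCoatom A) [IsMulCommutative A] : derivedSeries G 3 = ⊥ := by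
  have hAc : ∀ x ∈ A, ∀ y ∈ A, x * y = y * x := fun x hx y hy =>
    congrArg Subtype.val ((‹IsMulCommutative A›).is_comm.comm (⟨x, hx⟩ : A) ⟨y, hy⟩)
  have key : ∀ M : Subgroup G, (∀ x ∈ M, ∀ y ∈ M, x * y = y * x) → derivedSeries G 2 ≤ M → derivedSeries G 3 = ⊥ := by
    intro M hM h
    rw [derivedSeries_succ, eq_bot_iff, Subgroup.commutator_le]
    exact fun x hx y hy => Subgroup.mem_bot.2 (commutatorElement_eq_one_iff_commute.2 (hM x (h hx) y (h hy)))
  by_cases hAn : A.Normal
  · haveI := hAn
    refine key A hAc ((derivedSeries_antitone G one_le_two).trans ?_)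
    haveI : IsSimpleGroup (G ⧸ A) := by
      haveI : Nontrivial (G ⧸ A) := QuotientGroup.nontrivial_iff.2 hA.1
      refine ⟨fun M hM => ?_⟩
      have h1 : A ≤ M.comap (QuotientGroup.mk' A) := fun x hx => by
        show QuotientGroup.mk' A x ∈ M
        rw [show QuotientGroup.mk' A x = 1 from (QuotientGroup.eq_one_iff x).2 hx]; exact M.one_mem
      rcases h1.eq_or_lt with h2 | h2
      · left
        rw [← Subgroup.map_comap_eq_self_of_surjective (QuotientGroup.mk'_surjective A) M, ← h2,
          (Subgroup.map_eq_bot_iff A).2 (by rw [QuotientGroup.ker_mk'])]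
      · right
        rw [← Subgroup.map_comap_eq_self_of_surjective (QuotientGroup.mk'_surjective A) M, hA.2 _ h2,
          Subgroup.map_top_of_surjective _ (QuotientGroup.mk'_surjective A)]
    rw [derivedSeries_one, commutator_def, Subgroup.commutator_le]
    intro g _ h _
    -- every subgroup above `A` is `A` or everything, so the quotient is cyclic
    have hcyc : ∀ x : G ⧸ A, x ≠ 1 → Subgroup.zpowers x = ⊤ := by
      intro x hx
      obtain ⟨x, rfl⟩ := QuotientGroup.mk'_surjective A x
      have h2 : A < (Subgroup.zpowers (QuotientGroup.mk' A x)).comap (QuotientGroup.mk' A) := by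
        refine lt_of_le_of_ne (fun y hy => ?_) (fun e => ?_)
        · show QuotientGroup.mk' A y ∈ Subgroup.zpowers (QuotientGroup.mk' A x)
          rw [show QuotientGroup.mk' A y = 1 from (QuotientGroup.eq_one_iff y).2 hy]
          exact Subgroup.one_mem _
        · have : x ∈ A := e.symm ▸ (Subgroup.mem_zpowers (QuotientGroup.mk' A x) : x ∈ (Subgroup.zpowers (QuotientGroup.mk' A x)).comap (QuotientGroup.mk' A))
          exact hx ((QuotientGroup.eq_one_iff x).2 this)
      rw [← Subgroup.map_comap_eq_self_of_surjective (QuotientGroup.mk'_surjective A) (Subgroup.zpowers _), hA.2 _ h2,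
        Subgroup.map_top_of_surjective _ (QuotientGroup.mk'_surjective A)]
    refine (QuotientGroup.eq_one_iff _).1 (?_ : QuotientGroup.mk' A _ = 1)
    rw [map_commutatorElement, commutatorElement_eq_one_iff_commute]
    by_cases hg : QuotientGroup.mk' A g = 1
    · rw [hg]; exact Commute.one_left _
    · obtain ⟨i, hi⟩ := Subgroup.mem_zpowers_iff.1 ((hcyc _ hg).symm ▸ Subgroup.mem_top (QuotientGroup.mk' A h))
      rw [← hi]; exact (Commute.refl _).zpow_right i
  -- `A` is self-normalising and contains the centre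
  have hZA : Subgroup.center G ≤ A := by
    by_contra hle
    have htop : A ⊔ Subgroup.center G = ⊤ := hA.2 _ (lt_of_le_of_ne le_sup_left (fun e => hle (by rw [e]; exact le_sup_right)))
    apply hAn
    refine ⟨fun a ha g => ?_⟩
    have hg : g ∈ ((A ⊔ Subgroup.center G : Subgroup G) : Set G) := by rw [htop]; trivial
    rw [Subgroup.mul_normal] at hg
    obtain ⟨b, hb, z, hz, rfl⟩ := hg
    rw [mul_assoc b z a, ← Subgroup.mem_center_iff.1 hz a, mul_assoc, mul_assoc a z, mul_inv_rev, mul_inv_cancel_left,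
      ← mul_assoc, hAc b hb a ha, mul_inv_cancel_right]
    exact ha
  let Z := Subgroup.center G
  let q := QuotientGroup.mk' Z
  have hq : Function.Surjective q := QuotientGroup.mk'_surjective Z
  have hker : q.ker ≤ A := by rwa [QuotientGroup.ker_mk']
  have hcm : (A.map q).comap q = A := Subgroup.comap_map_eq_self hker
  have hco : IsCoatom (A.map q) := by
    refine ⟨fun e => hA.1 (by rw [← hcm, e, Subgroup.comap_top]), fun L hL => ?_⟩
    have : A < L.comap q := by rw [← hcm]; exact (Subgroup.comap_lt_comap_of_surjective hq).2 hL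
    rw [← Subgroup.map_comap_eq_self_of_surjective hq L, hA.2 _ this, Subgroup.map_top_of_surjective q hq]
  have hF : Cfsg.IsFrobeniusComplement (A.map q) := by
    refine ⟨fun e => hAn ?_, hco.1, fun g hg => ?_⟩
    · have : A = Z := le_antisymm (fun x hx => (QuotientGroup.eq_one_iff x).1
        (Subgroup.mem_bot.1 (e ▸ Subgroup.mem_map_of_mem q hx : q x ∈ (⊥ : Subgroup (G ⧸ Z))))) hZA
      rw [this]; infer_instance
    · obtain ⟨g, rfl⟩ := hq g
      have hgA : g ∉ A := fun h => hg (Subgroup.mem_map_of_mem q h)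
      rw [eq_bot_iff]
      intro y hy'
      obtain ⟨hy1, hy2⟩ : y ∈ A.map q ∧ y ∈ MulAut.conj (q g) • A.map q := hy'
      obtain ⟨a, ha, rfl⟩ := hy1
      rw [Cfsg.Agent.Solv.mem_conj_smul, ← map_inv, ← map_mul, ← map_mul, ← Subgroup.mem_comap, hcm] at hy2
      refine Subgroup.mem_bot.2 ((QuotientGroup.eq_one_iff a).2 ?_)
      -- the centralizer of `a` contains two conjugates of `A`
      have hC : Subgroup.centralizer ({a} : Set G) = ⊤ := by
        refine hA.2 _ (lt_of_le_of_ne (fun x hx => Subgroup.mem_centralizer_singleton_iff.2 (hAc x hx a ha)) fun e => ?_)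
        apply hAn
        have hconj : ∀ x ∈ A, g * x * g⁻¹ ∈ A := fun x hx => by
          rw [e]
          refine Subgroup.mem_centralizer_singleton_iff.2 ?_
          calc g * x * g⁻¹ * a = g * (x * (g⁻¹ * a * g)) * g⁻¹ := by group
            _ = g * ((g⁻¹ * a * g) * x) * g⁻¹ := by rw [hAc x hx _ hy2]
            _ = a * (g * x * g⁻¹) := by group
        have hgN : g ∈ Subgroup.normalizer (A : Set G) := Subgroup.mem_normalizer_fintype hconj
        rw [← Subgroup.normalizer_eq_top_iff]
        exact hA.2 _ (lt_of_le_of_ne Subgroup.le_normalizer (fun e' => hgA (e'.symm ▸ hgN)))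
      rw [Subgroup.mem_center_iff]
      exact fun x => Subgroup.mem_centralizer_singleton_iff.1 (hC.symm ▸ Subgroup.mem_top x)
  obtain ⟨K, -, hKn, hc⟩ := Cfsg.Agent.Frob.kernel_theorem hF
  haveI := hKn
  have hcop : (Nat.card K).Coprime K.index := by
    rw [← hc.index_eq_card, hc.symm.index_eq_card]
    exact (Cfsg.Agent.Frob.coprime_index hF).symm
  have hAmc : ∀ x ∈ A.map q, ∀ y ∈ A.map q, x * y = y * x := by
    rintro _ ⟨x, hx, rfl⟩ _ ⟨y, hy, rfl⟩
    rw [← map_mul, hAc x hx y hy, map_mul]
  have hquot : ∀ x y : G ⧸ Z, ⁅x, y⁆ ∈ K := by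
    intro x y
    have hx : x ∈ ((K ⊔ A.map q : Subgroup (G ⧸ Z)) : Set (G ⧸ Z)) := by rw [hc.sup_eq_top]; trivial
    have hy : y ∈ ((K ⊔ A.map q : Subgroup (G ⧸ Z)) : Set (G ⧸ Z)) := by rw [hc.sup_eq_top]; trivial
    rw [Subgroup.normal_mul] at hx hy
    obtain ⟨k, hk, a, ha, rfl⟩ := hx
    obtain ⟨l, hl, b, hb, rfl⟩ := hy
    refine (QuotientGroup.eq_one_iff _).1 (?_ : QuotientGroup.mk' K _ = 1)
    rw [map_commutatorElement, map_mul, map_mul, show QuotientGroup.mk' K k = 1 from (QuotientGroup.eq_one_iff k).2 hk,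
      show QuotientGroup.mk' K l = 1 from (QuotientGroup.eq_one_iff l).2 hl, one_mul, one_mul,
      commutatorElement_eq_one_iff_commute]
    show _ * _ = _ * _
    rw [← map_mul, ← map_mul, hAmc a ha b hb]
  haveI : Group.IsSolvable ((G ⧸ Z) ⧸ K) := Group.isSolvable_of_comm fun a b => by
    obtain ⟨x, rfl⟩ := QuotientGroup.mk'_surjective K a
    obtain ⟨y, rfl⟩ := QuotientGroup.mk'_surjective K b
    rw [← commutatorElement_eq_one_iff_mul_comm, ← map_commutatorElement]
    exact (QuotientGroup.eq_one_iff _).2 (hquot x y)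
  -- the kernel is an abelian group
  have hKab : ∀ x ∈ K, ∀ y ∈ K, x * y = y * x := by
    intro x hx y hy
    have hKne : K ≠ ⊥ := fun e => hco.1 (by have := hc.sup_eq_top; rwa [e, bot_sup_eq] at this)
    obtain ⟨p, hp, hpd⟩ := Nat.exists_prime_and_dvd (n := Nat.card K) (fun h => hKne (Subgroup.eq_bot_of_card_eq K h))
    haveI := Fact.mk hp
    obtain ⟨S⟩ := (inferInstance : Nonempty (Sylow p K))
    set S' := (S : Subgroup K).map K.subtype with hS'
    have hS'K : S' ≤ K := Subgroup.map_subtype_le _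
    have hS'ne : S' ≠ ⊥ := fun e => S.ne_bot_of_dvd_card hpd ((Subgroup.map_eq_bot_iff_of_injective _ K.subtype_injective).1 e)
    set NS := Subgroup.normalizer (S' : Set (G ⧸ Z)) with hNS
    have hfr : NS ⊔ K = ⊤ := Sylow.normalizer_sup_eq_top S
    have hidx : (K.subgroupOf NS).index = K.index := by
      show K.relIndex NS = _
      rw [← Subgroup.relIndex_sup_right, hfr, Subgroup.relIndex_top_right]
    obtain ⟨C, hC⟩ := Subgroup.exists_right_complement'_of_coprime (N := K.subgroupOf NS) (by
      rw [hidx]; exact hcop.coprime_dvd_left (Subgroup.card_comap_dvd_of_injective K NS.subtype NS.subtype_injective))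
    set C' := C.map NS.subtype
    have hC's : C' ⊔ K = ⊤ := by
      rw [eq_top_iff, ← hfr]
      refine sup_le ?_ le_sup_right
      intro z hz
      have hz' : (⟨z, hz⟩ : NS) ∈ ((K.subgroupOf NS ⊔ C : Subgroup NS) : Set NS) := by rw [hC.sup_eq_top]; trivial
      rw [Subgroup.normal_mul] at hz'
      obtain ⟨a, ha, b, hb, hab⟩ := hz'
      have hz2 : z = (a : G ⧸ Z) * (b : G ⧸ Z) := (congrArg Subtype.val hab).symm
      rw [hz2]
      exact Subgroup.mul_mem _ (le_sup_right (a := C') ha) (le_sup_left (b := K) ⟨b, hb, rfl⟩)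
    obtain ⟨u, -, hu⟩ := Cfsg.Agent.Solv.sz_conj K hcop (Or.inr inferInstance)
      (by rw [sup_comm]; exact hc.sup_eq_top) (by rw [← hc.symm.index_eq_card]; exact hcop.symm) hC's (by
        rw [Subgroup.card_map_of_injective NS.subtype_injective, ← hC.symm.index_eq_card, hidx]; exact hcop.symm)
    set A' := MulAut.conj u • A.map q with hA'
    have hA'N : A' ≤ NS := by rw [hu]; exact Subgroup.map_subtype_le _
    -- `A' ⊔ S'` is everything
    have htop : A' ⊔ S' = ⊤ := by
      by_contra hne
      have hle : A.map q ≤ (A' ⊔ S').comap (MulAut.conj u).toMonoidHom := fun a ha =>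
        (le_sup_left : A' ≤ A' ⊔ S') (Cfsg.Agent.Solv.mem_conj_smul.2 (by simpa [mul_assoc] using ha))
      rcases hle.eq_or_lt with h | h
      · obtain ⟨s, hs, hs1⟩ := S'.bot_or_exists_ne_one.resolve_left hS'ne
        have h1 : u⁻¹ * s * u ∈ A.map q := by
          rw [h]
          exact (le_sup_right : S' ≤ A' ⊔ S') (by simpa [mul_assoc] using hs)
        have h2 : u⁻¹ * s * u ∈ K ⊓ A.map q := ⟨by have h4 := hKn.conj_mem s (hS'K hs) u⁻¹; rwa [inv_inv] at h4, h1⟩
        rw [hc.disjoint.eq_bot, Subgroup.mem_bot] at h2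
        exact hs1 (calc s = u * (u⁻¹ * s * u) * u⁻¹ := by group
          _ = 1 := by rw [h2, mul_one, mul_inv_cancel])
      · apply hne
        rw [← Subgroup.map_comap_eq_self_of_surjective (f := (MulAut.conj u).toMonoidHom) (MulAut.conj u).surjective (A' ⊔ S'),
          hco.2 _ h, Subgroup.map_top_of_surjective _ (MulAut.conj u).surjective]
    haveI hS'n : S'.Normal := Subgroup.normalizer_eq_top_iff.1 (top_le_iff.1 (htop ▸ sup_le hA'N Subgroup.le_normalizer))
    have hS'eq : K ≤ S' := by
      intro k hk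
      have hk' : k ∈ ((S' ⊔ A' : Subgroup (G ⧸ Z)) : Set (G ⧸ Z)) := by rw [sup_comm, htop]; trivial
      rw [Subgroup.normal_mul] at hk'
      obtain ⟨s, hs, a, ha, rfl⟩ := hk'
      have h2 : u⁻¹ * a * u ∈ K ⊓ A.map q := by
        refine ⟨?_, Cfsg.Agent.Solv.mem_conj_smul.1 ha⟩
        have : a ∈ K := by simpa using K.mul_mem (K.inv_mem (hS'K hs)) hk
        have h4 := hKn.conj_mem a this u⁻¹
        rwa [inv_inv] at h4
      rw [hc.disjoint.eq_bot, Subgroup.mem_bot] at h2
      have : a = 1 := calc a = u * (u⁻¹ * a * u) * u⁻¹ := by group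
        _ = 1 := by rw [h2, mul_one, mul_inv_cancel]
      simpa [this] using hs
    -- the centre of `S'`
    set W := (Subgroup.center S').map S'.subtype
    haveI hWn : W.Normal := ConjAct.normal_of_characteristic_of_normal
    have hWne : W ≠ ⊥ := by
      intro e
      haveI : Nontrivial S' := (Subgroup.nontrivial_iff_ne_bot _).2 hS'ne
      haveI : Nontrivial (Subgroup.center S') := (S.isPGroup'.map K.subtype).center_nontrivial
      obtain ⟨z, hz⟩ := exists_ne (1 : Subgroup.center S')
      have : ((z : S') : G ⧸ Z) ∈ W := Subgroup.mem_map_of_mem _ z.2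
      rw [e, Subgroup.mem_bot] at this
      exact hz (Subtype.ext (Subtype.ext this))
    have hWtop : W ⊔ A.map q = ⊤ := hco.2 _ (lt_of_le_of_ne le_sup_right fun e => hWne (by
      rw [eq_bot_iff, ← hc.disjoint.eq_bot]
      exact le_inf ((Subgroup.map_subtype_le _).trans hS'K) (e ▸ le_sup_left)))
    have hKW : K ≤ W := by
      intro k hk
      have hk' : k ∈ ((W ⊔ A.map q : Subgroup (G ⧸ Z)) : Set (G ⧸ Z)) := by rw [hWtop]; trivial
      rw [Subgroup.normal_mul] at hk'
      obtain ⟨w, hw, a, ha, rfl⟩ := hk'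
      have h2 : a ∈ K ⊓ A.map q :=
        ⟨by simpa using K.mul_mem (K.inv_mem (hS'K (Subgroup.map_subtype_le _ hw))) hk, ha⟩
      rw [hc.disjoint.eq_bot, Subgroup.mem_bot] at h2
      simpa [h2] using hw
    obtain ⟨z, hz, rfl⟩ := hKW hx
    exact (congrArg Subtype.val (Subgroup.mem_center_iff.1 hz ⟨y, hS'eq hy⟩)).symm
  refine key Z (fun x hx y _ => (Subgroup.mem_center_iff.1 hx y).symm) ?_
  have hd2 : derivedSeries (G ⧸ Z) 2 = ⊥ := by
    rw [derivedSeries_succ, derivedSeries_one, eq_bot_iff, Subgroup.commutator_le]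
    have h1 : commutator (G ⧸ Z) ≤ K := by
      rw [commutator_def, Subgroup.commutator_le]
      exact fun x _ y _ => hquot x y
    exact fun x hx y hy => Subgroup.mem_bot.2 (commutatorElement_eq_one_iff_commute.2 (hKab x (h1 hx) y (h1 hy)))
  intro x hx
  have := map_derivedSeries_le_derivedSeries q 2 (Subgroup.mem_map_of_mem q hx)
  rw [hd2, Subgroup.mem_bot] at this
  exact (QuotientGroup.eq_one_iff x).1 this

end Cfsg.Agent.S0556
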