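import Cfsg.Statements.S0559
import Cfsg.Agent.Solv.Cores

set_option autoImplicit false
set_option linter.style.haveILetI false
open Pointwise
open Cfsg

namespace Cfsg.Agent.S0559

/-- Let G = HK be a finite group (every element a product of an element of H and an element of K), and let A and B be conjugates of H and K. Then every element is a product of an element of A and one of B, and there is g with A = gHg⁻¹ and B = gKg⁻¹ simultaneously. -/
theorem result {G : Type*} [Group G] [Finite G] (H K A B : Subgroup G) (hHK : ∀ g : G, ∃ h ∈ H, ∃ k ∈ K, g = h * k) (hA : ∃ x : G, A = MulAut.conj x • H) (hB : ∃ y : G, B = MulAut.conj y • K) : (∀ g : G, ∃ a ∈ A, ∃ b ∈ B, g = a * b) ∧ ∃ g : G, A = MulAut.conj g • H ∧ B = MulAut.conj g • K := by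
  obtain ⟨x, rfl⟩ := hA
  obtain ⟨y, rfl⟩ := hB
  obtain ⟨h₀, hh₀, k₀, hk₀, hxy⟩ := hHK (x⁻¹ * y)
  have e1 : MulAut.conj (x * h₀) • H = MulAut.conj x • H := by
    rw [map_mul, mul_smul, Subgroup.conj_smul_eq_self_of_mem hh₀]
  have e2 : MulAut.conj (x * h₀) • K = MulAut.conj y • K := by
    have : x * h₀ = y * k₀⁻¹ := by
      rw [eq_mul_inv_iff_mul_eq, mul_assoc, ← hxy]; group
    rw [this, map_mul, mul_smul, Subgroup.conj_smul_eq_self_of_mem (inv_mem hk₀)]
  refine ⟨fun g => ?_, x * h₀, e1.symm, e2.symm⟩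
  set z := x * h₀
  obtain ⟨a, ha, b, hb, hab⟩ := hHK (z⁻¹ * g * z)
  refine ⟨z * a * z⁻¹, ?_, z * b * z⁻¹, ?_, ?_⟩
  · rw [← e1, Subgroup.mem_pointwise_smul_iff_inv_smul_mem]
    simpa [MulAut.smul_def, MulAut.conj_apply, ← mul_assoc] using ha
  · rw [← e2, Subgroup.mem_pointwise_smul_iff_inv_smul_mem]
    simpa [MulAut.smul_def, MulAut.conj_apply, ← mul_assoc] using hb
  · calc g = z * (z⁻¹ * g * z) * z⁻¹ := by group
    _ = _ := by rw [hab]; group

end Cfsg.Agent.S0559
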