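import Cfsg.Statements.S0560
import Mathlib

set_option autoImplicit false
set_option linter.style.haveILetI false
open Pointwise
open Cfsg

open scoped Pointwise

namespace Cfsg.Agent.S0560

/-- Let the finite group G be the product HK of two subgroups and p a prime. Then there are Sylow p-subgroups P of H and Q of K and a Sylow p-subgroup R of G whose underlying set is the product set of P and Q. -/
theorem result {G : Type*} [Group G] [Finite G] (H K : Subgroup G) (hHK : ∀ g : G, ∃ h ∈ H, ∃ k ∈ K, g = h * k) (p : ℕ) [Fact p.Prime] : ∃ (P : Sylow p H) (Q : Sylow p K) (R : Sylow p G), ((R : Subgroup G) : Set G) = (((P : Subgroup H).map H.subtype : Subgroup G) : Set G) * (((Q : Subgroup K).map K.subtype : Subgroup G) : Set G) := by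
  classical
  obtain ⟨P0⟩ : Nonempty (Sylow p H) := inferInstance
  obtain ⟨Q0⟩ : Nonempty (Sylow p K) := inferInstance
  obtain ⟨R1, hR1⟩ := (P0.isPGroup'.map H.subtype).exists_le_sylow
  obtain ⟨R2, hR2⟩ := (Q0.isPGroup'.map K.subtype).exists_le_sylow
  obtain ⟨g, hg⟩ := MulAction.exists_smul_eq G R1 R2
  obtain ⟨h, hh, k, hk, hgk⟩ := hHK g⁻¹
  let P : Sylow p H := (⟨h⁻¹, inv_mem hh⟩ : H) • P0
  let Q : Sylow p K := (⟨k, hk⟩ : K) • Q0
  let R : Sylow p G := h⁻¹ • R1
  have hPR : (P : Subgroup H).map H.subtype ≤ (R : Subgroup G) := by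
    rintro _ ⟨u, hu, rfl⟩
    obtain ⟨v, hv, rfl⟩ := (Subgroup.mem_smul_pointwise_iff_exists _ _ _).mp (show u ∈ MulAut.conj (⟨h⁻¹, inv_mem hh⟩ : H) • (P0 : Subgroup H) from hu)
    exact Subgroup.smul_mem_pointwise_smul (v : G) (MulAut.conj h⁻¹) _ (hR1 ⟨v, hv, rfl⟩)
  have hQR : (Q : Subgroup K).map K.subtype ≤ (R : Subgroup G) := by
    have hR : R = k • R2 := by
      rw [← hg, ← mul_smul]
      show h⁻¹ • R1 = (k * g) • R1
      rw [show g = (h * k)⁻¹ from by rw [← hgk, inv_inv]]
      congr 1; group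
    rw [hR]
    rintro _ ⟨u, hu, rfl⟩
    obtain ⟨v, hv, rfl⟩ := (Subgroup.mem_smul_pointwise_iff_exists _ _ _).mp (show u ∈ MulAut.conj (⟨k, hk⟩ : K) • (Q0 : Subgroup K) from hu)
    exact Subgroup.smul_mem_pointwise_smul (v : G) (MulAut.conj k) _ (hR2 ⟨v, hv, rfl⟩)
  refine ⟨P, Q, R, ?_⟩
  let A : Subgroup G := (P : Subgroup H).map H.subtype
  let B : Subgroup G := (Q : Subgroup K).map K.subtype
  have hsub : (A : Set G) * (B : Set G) ⊆ ((R : Subgroup G) : Set G) := Set.mul_subset_iff.mpr fun a ha b hb => mul_mem (hPR ha) (hQR hb)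
  refine (Set.eq_of_subset_of_ncard_le hsub ?_).symm
  -- cardinalities
  have hprod : ∀ (X Y : Subgroup G), ((X : Set G) * (Y : Set G)).ncard * Nat.card ↥(X ⊓ Y) = Nat.card X * Nat.card Y := by
    intro X Y
    let f : X × Y → ↥((X : Set G) * (Y : Set G)) := fun z => ⟨(z.1 : G) * z.2, Set.mul_mem_mul z.1.2 z.2.2⟩
    haveI := Fintype.ofFinite ↥((X : Set G) * (Y : Set G))
    have hfib : ∀ w, Nat.card {z // f z = w} = Nat.card ↥(X ⊓ Y) := by
      rintro ⟨_, a, ha, b, hb, rfl⟩
      refine Nat.card_congr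
        { toFun := fun z => ⟨a⁻¹ * (z.1.1 : G), X.mul_mem (X.inv_mem ha) z.1.1.2, by
            have e : (z.1.1 : G) * z.1.2 = a * b := congrArg Subtype.val z.2
            rw [show a⁻¹ * (z.1.1 : G) = b * (z.1.2 : G)⁻¹ by rw [eq_mul_inv_iff_mul_eq, mul_assoc, e, inv_mul_cancel_left]]
            exact Y.mul_mem hb (Y.inv_mem z.1.2.2)⟩
          invFun := fun d => ⟨(⟨a * d, X.mul_mem ha d.2.1⟩, ⟨(d : G)⁻¹ * b, Y.mul_mem (Y.inv_mem d.2.2) hb⟩), Subtype.ext (by simp [f, mul_assoc])⟩
          left_inv := fun z => by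
            have e : (z.1.1 : G) * z.1.2 = a * b := congrArg Subtype.val z.2
            refine Subtype.ext (Prod.ext (Subtype.ext (by simp)) (Subtype.ext ?_))
            show (a⁻¹ * (z.1.1 : G))⁻¹ * b = z.1.2
            rw [mul_inv_rev, inv_inv, mul_assoc, ← e, inv_mul_cancel_left]
          right_inv := fun d => Subtype.ext (by simp) }
    rw [← Nat.card_coe_set_eq, ← Nat.card_prod X Y, ← Nat.card_congr (Equiv.sigmaFiberEquiv f), Nat.card_sigma,
      Finset.sum_congr rfl fun w _ => hfib w, Finset.sum_const, Finset.card_univ, smul_eq_mul, Nat.card_eq_fintype_card (α := ↥((X : Set G) * (Y : Set G)))]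
  have htop : (H : Set G) * (K : Set G) = Set.univ := Set.eq_univ_of_forall fun g => by
    obtain ⟨a, ha, b, hb, rfl⟩ := hHK g; exact Set.mul_mem_mul ha hb
  have hG := hprod H K
  rw [htop, Set.ncard_univ] at hG
  have hfac := congrArg (fun n => n.factorization p) hG
  simp only [Nat.factorization_mul Nat.card_pos.ne' Nat.card_pos.ne', Finsupp.add_apply] at hfac
  have hAB := hprod A B
  have hA : Nat.card A = p ^ (Nat.card H).factorization p := by
    rw [Subgroup.card_map_of_injective H.subtype_injective, P.card_eq_multiplicity]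
  have hB : Nat.card B = p ^ (Nat.card K).factorization p := by
    rw [Subgroup.card_map_of_injective K.subtype_injective, Q.card_eq_multiplicity]
  obtain ⟨i, hi⟩ := (((P.isPGroup'.map H.subtype)).to_le (inf_le_left : A ⊓ B ≤ A)).exists_card_eq
  have hle : i ≤ (Nat.card ↥(H ⊓ K)).factorization p := by
    refine ((Fact.out : p.Prime).pow_dvd_iff_le_factorization Nat.card_pos.ne').mp ?_
    rw [← hi]
    exact Subgroup.card_dvd_of_le (inf_le_inf (Subgroup.map_subtype_le _) (Subgroup.map_subtype_le _))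
  rw [hA, hB, hi, ← pow_add, ← hfac] at hAB
  rw [← Nat.card_coe_set_eq]
  show Nat.card (R : Subgroup G) ≤ _
  rw [R.card_eq_multiplicity]
  refine Nat.le_of_mul_le_mul_right ?_ (pow_pos (Fact.out : p.Prime).pos i)
  rw [hAB, ← pow_add]
  exact Nat.pow_le_pow_right (Fact.out : p.Prime).pos (by omega)

end Cfsg.Agent.S0560
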