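import Cfsg.Statements.S0562
import Mathlib

set_option autoImplicit false
set_option linter.style.haveILetI false
open Cfsg

open scoped Pointwise commutatorElement

namespace Cfsg.Agent.S0562

/-- Let the finite group G be the product HK of subgroups, A normal in H, B normal in K, and L the normalizer of the subgroup generated by A and B. Then every element of L is a product of an element of L ∩ H and an element of L ∩ K. -/
theorem result {G : Type*} [Group G] [Finite G] (H K A B : Subgroup G) (hHK : ∀ g : G, ∃ h ∈ H, ∃ k ∈ K, g = h * k) (hA : A ≤ H) (hAn : (A.subgroupOf H).Normal) (hB : B ≤ K) (hBn : (B.subgroupOf K).Normal) : ∀ g ∈ Subgroup.normalizer ((A ⊔ B : Subgroup G) : Set G), ∃ h ∈ Subgroup.normalizer ((A ⊔ B : Subgroup G) : Set G) ⊓ H, ∃ k ∈ Subgroup.normalizer ((A ⊔ B : Subgroup G) : Set G) ⊓ K, g = h * k := by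
  have hnA : ∀ h ∈ H, ∀ a ∈ A, h * a * h⁻¹ ∈ A := fun h hh a ha =>
    hAn.conj_mem ⟨a, hA ha⟩ ha ⟨h, hh⟩
  have hnB : ∀ k ∈ K, ∀ b ∈ B, k * b * k⁻¹ ∈ B := fun k hk b hb =>
    hBn.conj_mem ⟨b, hB hb⟩ hb ⟨k, hk⟩
  intro g hg
  obtain ⟨h, hh, k, hk, rfl⟩ := hHK g
  let D := A ⊔ B
  have hcard : ∀ c : G, Nat.card (D.map (MulAut.conj c).toMonoidHom) = Nat.card D := fun c =>
    Subgroup.card_map_of_injective (MulEquiv.injective (MulAut.conj c))
  have e : D.map (MulAut.conj k).toMonoidHom = D.map (MulAut.conj h⁻¹).toMonoidHom := by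
    have e1 : D.map (MulAut.conj (h * k)).toMonoidHom = D := by
      ext z
      rw [Subgroup.mem_normalizer_iff] at hg
      constructor
      · rintro ⟨t, ht, rfl⟩
        simpa [mul_assoc] using (hg t).mp ht
      · intro hz
        refine ⟨(h * k)⁻¹ * z * (h * k), (hg _).mpr ?_, ?_⟩
        · simpa [mul_assoc] using hz
        · simp [mul_assoc]
    conv_rhs => rw [← e1, Subgroup.map_map]
    congr 1; ext z; simp [mul_assoc]
  have hle : D ≤ D.map (MulAut.conj h⁻¹).toMonoidHom := by
    refine sup_le (fun a ha => ?_) ?_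
    · exact ⟨h * a * h⁻¹, Subgroup.mem_sup_left (hnA h hh a ha), by simp [mul_assoc]⟩
    · rw [← e]
      exact fun b hb => ⟨k⁻¹ * b * k, Subgroup.mem_sup_right (by simpa using hnB k⁻¹ (inv_mem hk) b hb), by simp [mul_assoc]⟩
  have heq : D = D.map (MulAut.conj h⁻¹).toMonoidHom := Subgroup.eq_of_le_of_card_ge hle (hcard _).le
  have hhN : h ∈ Subgroup.normalizer (D : Set G) := by
    rw [Subgroup.mem_normalizer_iff]
    intro z
    constructor
    · intro hz
      rw [heq] at hz
      obtain ⟨t, ht, rfl⟩ := hz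
      simpa [mul_assoc] using ht
    · intro hz
      rw [heq]
      exact ⟨_, hz, by simp [mul_assoc]⟩
  have hkN : k ∈ Subgroup.normalizer (D : Set G) := by simpa using mul_mem (inv_mem hhN) hg
  exact ⟨h, ⟨hhN, hh⟩, k, ⟨hkN, hk⟩, rfl⟩

end Cfsg.Agent.S0562
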