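import Cfsg.Statements.S0567
import Mathlib

set_option autoImplicit false
set_option linter.style.haveILetI false
open Cfsg

open scoped Pointwise commutatorElement

namespace Cfsg.Agent.S0567

/-- A subgroup H of a group G is subnormal exactly when, for some m, the subgroup obtained from G by taking the commutator with H m times in succession is contained in H. -/
theorem result {G : Type*} [Group G] (H : Subgroup G) : H.IsSubnormal ↔ ∃ m : ℕ, (fun K : Subgroup G => ⁅K, H⁆)^[m] ⊤ ≤ H := by
  constructor
  · intro hH
    induction hH with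
    | top => exact ⟨0, le_rfl⟩
    | step A K hle _ hN ih =>
      have hmono : ∀ (m : ℕ), (fun X : Subgroup G => ⁅X, A⁆)^[m] ⊤ ≤ (fun X : Subgroup G => ⁅X, K⁆)^[m] ⊤ := by
        intro m
        induction m with
        | zero => exact le_rfl
        | succ m im => rw [Function.iterate_succ_apply', Function.iterate_succ_apply']; exact Subgroup.commutator_mono im hle
      obtain ⟨m, hm⟩ := ih
      refine ⟨m + 1, ?_⟩
      rw [Function.iterate_succ_apply', Subgroup.commutator_le]
      intro a ha b hb
      rw [commutatorElement_def]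
      have h1 := hN.conj_mem ⟨b, hle hb⟩ hb ⟨a, hm (hmono m ha)⟩
      exact mul_mem h1 (inv_mem hb)
  · rintro ⟨m, hm⟩
    have hnorm : ∀ (X : Subgroup G), ∀ c ∈ X ⊔ H, ∀ z ∈ ⁅X, H⁆, c * z * c⁻¹ ∈ ⁅X, H⁆ := by
      intro X c hc
      suffices hle : X ⊔ H ≤ Subgroup.normalizer ((⁅X, H⁆ : Subgroup G) : Set G) from
        fun z hz => (Subgroup.mem_normalizer_iff.mp (hle hc) z).mp hz
      have hX : ∀ a' ∈ X, ⁅X, H⁆ ≤ (⁅X, H⁆).comap (MulAut.conj a').toMonoidHom := by
        intro a' ha'
        rw [Subgroup.commutator_le]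
        intro a ha b hb
        rw [Subgroup.mem_comap]
        have : (MulAut.conj a').toMonoidHom ⁅a, b⁆ = ⁅a' * a, b⁆ * ⁅a', b⁆⁻¹ := by
          simp only [MulEquiv.toMonoidHom_eq_coe, MonoidHom.coe_coe, MulAut.conj_apply, commutatorElement_def]; group
        rw [this]
        exact mul_mem (Subgroup.commutator_mem_commutator (mul_mem ha' ha) hb) (inv_mem (Subgroup.commutator_mem_commutator ha' hb))
      have hH' : ∀ h' ∈ H, ⁅X, H⁆ ≤ (⁅X, H⁆).comap (MulAut.conj h').toMonoidHom := by
        intro h' hh'
        rw [Subgroup.commutator_le]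
        intro a ha b hb
        rw [Subgroup.mem_comap]
        have : (MulAut.conj h').toMonoidHom ⁅a, b⁆ = ⁅a, h'⁆⁻¹ * ⁅a, h' * b⁆ := by
          simp only [MulEquiv.toMonoidHom_eq_coe, MonoidHom.coe_coe, MulAut.conj_apply, commutatorElement_def]; group
        rw [this]
        exact mul_mem (inv_mem (Subgroup.commutator_mem_commutator ha hh')) (Subgroup.commutator_mem_commutator ha (mul_mem hh' hb))
      refine sup_le ?_ ?_ <;> intro d hd <;> rw [Subgroup.mem_normalizer_iff] <;> intro z
      · exact ⟨fun hz => by simpa using hX d hd hz, fun hz => by simpa [mul_assoc] using hX d⁻¹ (inv_mem hd) hz⟩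
      · exact ⟨fun hz => by simpa using hH' d hd hz, fun hz => by simpa [mul_assoc] using hH' d⁻¹ (inv_mem hd) hz⟩
    have key : ∀ i, (H ⊔ (fun X : Subgroup G => ⁅X, H⁆)^[i] ⊤).IsSubnormal := by
      intro i
      induction i with
      | zero => rw [Function.iterate_zero_apply, sup_top_eq]; exact .top
      | succ i ih =>
        rw [Function.iterate_succ_apply']
        obtain ⟨X, hX⟩ : ∃ X, X = (fun X : Subgroup G => ⁅X, H⁆)^[i] ⊤ := ⟨_, rfl⟩
        rw [← hX] at ih ⊢
        have hle : H ⊔ ⁅X, H⁆ ≤ H ⊔ X := by
          refine sup_le le_sup_left ((Subgroup.commutator_le).mpr fun a ha b hb => ?_)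
          rw [commutatorElement_def]
          exact mul_mem (mul_mem (mul_mem (Subgroup.mem_sup_right ha) (Subgroup.mem_sup_left hb))
            (inv_mem (Subgroup.mem_sup_right ha))) (inv_mem (Subgroup.mem_sup_left hb))
        refine .step _ _ hle ih ((Subgroup.normal_subgroupOf_iff_le_normalizer hle).mpr (sup_le (le_sup_left.trans Subgroup.le_normalizer) ?_))
        have hx : ∀ x ∈ X, H ⊔ ⁅X, H⁆ ≤ (H ⊔ ⁅X, H⁆).comap (MulAut.conj x).toMonoidHom := by
          intro x hxm
          refine sup_le (fun h hh => ?_) (fun z hz => ?_)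
          · rw [Subgroup.mem_comap]
            have : (MulAut.conj x).toMonoidHom h = ⁅x, h⁆ * h := by simp [commutatorElement_def]
            rw [this]
            exact mul_mem (Subgroup.mem_sup_right (Subgroup.commutator_mem_commutator hxm hh)) (Subgroup.mem_sup_left hh)
          · rw [Subgroup.mem_comap]
            exact Subgroup.mem_sup_right (by simpa using hnorm X x (Subgroup.mem_sup_left hxm) z hz)
        intro x hxm
        rw [Subgroup.mem_normalizer_iff]
        exact fun z => ⟨fun hz => by simpa using hx x hxm hz, fun hz => by simpa [mul_assoc] using hx x⁻¹ (inv_mem hxm) hz⟩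
    have := key m
    rwa [sup_eq_left.mpr hm] at this

end Cfsg.Agent.S0567
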