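import Cfsg.Statements.S0573
import Cfsg.Agent.S0572

set_option autoImplicit false
set_option linter.style.haveILetI false
open Cfsg

open scoped commutatorElement

namespace Cfsg.Agent.S0573

theorem alg_move {M : Type*} [CommGroup M] {X Y P Q R S : M} (h : X * (P * Q⁻¹) = R * S⁻¹ * Y) :
    Y = X * (P * Q⁻¹) * (R * S⁻¹)⁻¹ := by
  rw [h, mul_right_comm, mul_inv_cancel, one_mul]

theorem alg_cancel {M : Type*} [CommGroup M] (X P Q R S : M) :
    X * (P * Q⁻¹) * (R * S⁻¹)⁻¹ * (P * R⁻¹)⁻¹ = X * (Q * S⁻¹)⁻¹ := by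
  simp only [mul_inv_rev, inv_inv]
  calc X * (P * Q⁻¹) * (S * R⁻¹) * (R * P⁻¹) = X * (S * Q⁻¹) * (P * P⁻¹) * (R * R⁻¹) := by ac_rfl
    _ = X * (S * Q⁻¹) := by rw [mul_inv_cancel, mul_inv_cancel, mul_one, mul_one]

/-- If a nontrivial finite group G is the product AB of abelian subgroups A and B, then some nontrivial normal subgroup of G is contained in A or in B. -/
theorem result {G : Type*} [Group G] [Finite G] [Nontrivial G] (A B : Subgroup G) [IsMulCommutative A] [IsMulCommutative B] (hAB : ∀ g : G, ∃ a ∈ A, ∃ b ∈ B, g = a * b) : ∃ N : Subgroup G, N.Normal ∧ N ≠ ⊥ ∧ (N ≤ A ∨ N ≤ B) := by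
  classical
  have hA : ∀ x ∈ A, ∀ y ∈ A, x * y = y * x := fun x hx y hy =>
    congrArg Subtype.val ((‹IsMulCommutative A›).is_comm.comm (⟨x, hx⟩ : A) ⟨y, hy⟩)
  have hB : ∀ x ∈ B, ∀ y ∈ B, x * y = y * x := fun x hx y hy =>
    congrArg Subtype.val ((‹IsMulCommutative B›).is_comm.comm (⟨x, hx⟩ : B) ⟨y, hy⟩)
  have hBA : ∀ g : G, ∃ b ∈ B, ∃ a ∈ A, g = b * a := fun g => by
    obtain ⟨a, ha, b, hb, h⟩ := hAB g⁻¹
    exact ⟨b⁻¹, inv_mem hb, a⁻¹, inv_mem ha, by rw [← inv_inv g, h, mul_inv_rev]⟩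
  by_contra hcon
  push_neg at hcon
  have hnA : ∀ N : Subgroup G, N.Normal → N ≤ A → N = ⊥ := fun N hN hle => by
    by_contra hne; exact (hcon N hN hne).1 hle
  have hnB : ∀ N : Subgroup G, N.Normal → N ≤ B → N = ⊥ := fun N hN hle => by
    by_contra hne; exact (hcon N hN hne).2 hle
  have hcentA : ∀ z ∈ A, (∀ g, g * z = z * g) → z = 1 := fun z hz hc => by
    have hn : (Subgroup.zpowers z).Normal := ⟨fun y hy g => by
      obtain ⟨i, rfl⟩ := Subgroup.mem_zpowers_iff.1 hy
      rw [← conj_zpow, hc g, mul_inv_cancel_right]; exact zpow_mem (Subgroup.mem_zpowers z) i⟩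
    exact Subgroup.zpowers_eq_bot.1 (hnA _ hn (Subgroup.zpowers_le.2 hz))
  have hcentB : ∀ z ∈ B, (∀ g, g * z = z * g) → z = 1 := fun z hz hc => by
    have hn : (Subgroup.zpowers z).Normal := ⟨fun y hy g => by
      obtain ⟨i, rfl⟩ := Subgroup.mem_zpowers_iff.1 hy
      rw [← conj_zpow, hc g, mul_inv_cancel_right]; exact zpow_mem (Subgroup.mem_zpowers z) i⟩
    exact Subgroup.zpowers_eq_bot.1 (hnB _ hn (Subgroup.zpowers_le.2 hz))
  have hAB1 : ∀ z, z ∈ A → z ∈ B → z = 1 := fun z h1 h2 => hcentA z h1 (fun g => by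
    obtain ⟨a, ha, b, hb, rfl⟩ := hAB g
    rw [mul_assoc, hB b hb z h2, ← mul_assoc, hA a ha z h1, mul_assoc])
  have hCA : ∀ g : G, (∀ a ∈ A, g * a = a * g) → g ∈ A := by
    intro g hg
    obtain ⟨a, ha, b, hb, rfl⟩ := hAB g
    have hb1 : b = 1 := hcentB b hb (fun x => by
      obtain ⟨a', ha', b', hb', rfl⟩ := hAB x
      have h1 : Commute b a' := by
        have h2 : Commute (a * b) a' := hg a' ha'
        have h3 : Commute a a' := hA a ha a' ha'
        have h4 := h3.inv_left.mul_left h2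
        rwa [inv_mul_cancel_left] at h4
      exact ((h1.symm).mul_left (show Commute b' b from hB b' hb' b hb)).eq)
    rw [hb1, mul_one]; exact ha
  set V := commutator G with hV
  haveI hVn : V.Normal := inferInstance
  have hVc : ∀ x ∈ V, ∀ y ∈ V, x * y = y * x := fun x hx y hy => by
    have h2 := Cfsg.Agent.S0572.result A B hAB
    rw [derivedSeries_succ, derivedSeries_one, eq_bot_iff, Subgroup.commutator_le] at h2
    exact commutatorElement_eq_one_iff_commute.1 (h2 x hx y hy)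
  have hVne : V ≠ ⊥ := by
    intro h0
    have hc : ∀ x y : G, x * y = y * x := fun x y => commutatorElement_eq_one_iff_commute.1 (by
      have : ⁅x, y⁆ ∈ V := Subgroup.commutator_mem_commutator (Subgroup.mem_top x) (Subgroup.mem_top y)
      rwa [h0, Subgroup.mem_bot] at this)
    obtain ⟨g, hg⟩ := exists_ne (1 : G)
    obtain ⟨a, ha, b, hb, rfl⟩ := hAB g
    exact hg (by rw [hcentA a ha (fun x => hc x a), hcentB b hb (fun x => hc x b), mul_one])
  set X := A ⊔ V with hX
  haveI hXn : X.Normal := by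
    refine ⟨fun x hx g => ?_⟩
    have : g * x * g⁻¹ * x⁻¹ ∈ X :=
      (le_sup_right : V ≤ X) (Subgroup.commutator_mem_commutator (Subgroup.mem_top g) (Subgroup.mem_top x))
    simpa using X.mul_mem this hx
  -- the centre of `X` is trivial
  have hZX : ∀ z ∈ X, (∀ x ∈ X, x * z = z * x) → z = 1 := by
    intro z hz hc
    have hn : (X ⊓ Subgroup.centralizer (X : Set G)).Normal := inferInstance
    have hle : X ⊓ Subgroup.centralizer (X : Set G) ≤ A := fun y hy => hCA y (fun a ha =>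
      (Subgroup.mem_centralizer_iff.1 hy.2 a ((le_sup_left : A ≤ X) ha)).symm)
    have hzm : z ∈ X ⊓ Subgroup.centralizer (X : Set G) := ⟨hz, Subgroup.mem_centralizer_iff.2 hc⟩
    rwa [hnA _ hn hle, Subgroup.mem_bot] at hzm
  have hAV : ∀ z ∈ A, z ∈ V → z = 1 := fun z h1 h2 => hZX z (le_sup_left (a := A) h1) (fun x hx => by
    rw [hX, Subgroup.sup_eq_closure] at hx
    induction hx using Subgroup.closure_induction with
    | mem y hy =>
      rcases hy with hy | hy
      · exact hA y hy z h1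
      · exact hVc y hy z h2
    | one => simp
    | mul y w _ _ hy hw => exact (Commute.mul_left hy hw).eq
    | inv y _ hy => exact (Commute.inv_left hy).eq)
  have hBV : ∀ z ∈ B, z ∈ V → z = 1 := by
    intro z h1 h2
    set Y := B ⊔ V with hY
    haveI hYn : Y.Normal := by
      refine ⟨fun x hx g => ?_⟩
      have : g * x * g⁻¹ * x⁻¹ ∈ Y :=
        (le_sup_right : V ≤ Y) (Subgroup.commutator_mem_commutator (Subgroup.mem_top g) (Subgroup.mem_top x))
      simpa using Y.mul_mem this hx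
    have hn : (Y ⊓ Subgroup.centralizer (Y : Set G)).Normal := inferInstance
    have hle : Y ⊓ Subgroup.centralizer (Y : Set G) ≤ B := by
      intro y hy
      have hyb : ∀ b ∈ B, y * b = b * y := fun b hb =>
        (Subgroup.mem_centralizer_iff.1 hy.2 b ((le_sup_left : B ≤ Y) hb)).symm
      obtain ⟨b, hb, a, ha, rfl⟩ := hBA y
      have ha1 : a = 1 := hcentA a ha (fun x => by
        obtain ⟨a', ha', b', hb', rfl⟩ := hAB x
        have h5 : Commute a b' := by
          have h3 : Commute (b * a) b' := hyb b' hb'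
          have h4 : Commute b b' := hB b hb b' hb'
          have h6 := h4.inv_left.mul_left h3
          rwa [inv_mul_cancel_left] at h6
        exact ((show Commute a' a from hA a' ha' a ha).mul_left h5.symm).eq)
      rw [ha1, mul_one]; exact hb
    have hzm : z ∈ Y ⊓ Subgroup.centralizer (Y : Set G) := by
      refine ⟨le_sup_left (a := B) h1, Subgroup.mem_centralizer_iff.2 fun x hx => ?_⟩
      rw [SetLike.mem_coe, hY, Subgroup.sup_eq_closure] at hx
      induction hx using Subgroup.closure_induction with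
      | mem y hy =>
        rcases hy with hy | hy
        · exact hB y hy z h1
        · exact hVc y hy z h2
      | one => simp
      | mul y w _ _ hy hw => exact (Commute.mul_left hy hw).eq
      | inv y _ hy => exact (Commute.inv_left hy).eq
    rwa [hnB _ hn hle, Subgroup.mem_bot] at hzm
  -- the bijection between `B₁ = X ∩ B` and `V`
  set B₁ := X ⊓ B with hB₁
  have hdec : ∀ b ∈ B₁, ∃ u ∈ V, u⁻¹ * b ∈ A := by
    intro b hb
    have h1 : b ∈ ((V ⊔ A : Subgroup G) : Set G) := by rw [sup_comm]; exact hb.1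
    rw [Subgroup.normal_mul V A] at h1
    obtain ⟨u, hu, a, ha, rfl⟩ := h1
    exact ⟨u, hu, by simpa using ha⟩
  choose! u huV huA using hdec
  have huniq : ∀ b ∈ B₁, ∀ v ∈ V, v⁻¹ * b ∈ A → u b = v := by
    intro b hb v hv ha
    have h1 : (u b)⁻¹ * b * (v⁻¹ * b)⁻¹ ∈ A := mul_mem (huA b hb) (inv_mem ha)
    have h2 : (u b)⁻¹ * b * (v⁻¹ * b)⁻¹ = (u b)⁻¹ * v := by group
    rw [h2] at h1
    exact (inv_mul_eq_one.1 (hAV _ h1 (mul_mem (inv_mem (huV b hb)) hv)))
  have hsurj : ∀ v ∈ V, ∃ b ∈ B₁, u b = v := by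
    intro v hv
    obtain ⟨b, hb, a, ha, h⟩ := hBA v
    have hbX : b ∈ X := by
      have : b = v * a⁻¹ := by rw [h, mul_inv_cancel_right]
      rw [this]
      exact X.mul_mem (le_sup_right (a := A) hv) (le_sup_left (b := V) (inv_mem ha))
    refine ⟨b, ⟨hbX, hb⟩, huniq b ⟨hbX, hb⟩ v hv ?_⟩
    rw [h, mul_inv_rev, mul_assoc, inv_mul_cancel, mul_one]; exact inv_mem ha
  have hcoc : ∀ b ∈ B₁, ∀ c ∈ B₁, u (b * c) = u b * (b * u c * b⁻¹) := by
    intro b hb c hc
    refine huniq _ (mul_mem hb hc) _ (mul_mem (huV b hb) (hVn.conj_mem _ (huV c hc) b)) ?_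
    have h1 : b * u c * b⁻¹ = ((u b)⁻¹ * b) * u c * ((u b)⁻¹ * b)⁻¹ := by
      have hconj := hVn.conj_mem _ (huV c hc) b
      calc b * u c * b⁻¹ = (u b)⁻¹ * (u b * (b * u c * b⁻¹)) := by group
        _ = (u b)⁻¹ * ((b * u c * b⁻¹) * u b) := by rw [hVc _ (huV b hb) _ hconj]
        _ = _ := by group
    rw [h1, show (u b * ((u b)⁻¹ * b * u c * ((u b)⁻¹ * b)⁻¹))⁻¹ * (b * c) =
      ((u b)⁻¹ * b) * ((u c)⁻¹ * c) by group]
    exact mul_mem (huA b hb) (huA c hc)
  obtain ⟨r, hr, hrd⟩ := Nat.exists_prime_and_dvd (n := Nat.card V) (fun h => hVne (Subgroup.eq_bot_of_card_eq V h))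
  haveI := Fact.mk hr
  set N := Nat.card V with hN
  set M := N / r ^ N.factorization r with hM
  have hNe : r ^ N.factorization r * M = N := Nat.ordProj_mul_ordCompl_eq_self N r
  have hcop : (r ^ N.factorization r).Coprime M := (Nat.coprime_ordCompl hr Nat.card_pos.ne').pow_left _
  obtain ⟨k, hk1, hk0⟩ := Nat.chineseRemainder hcop 1 0
  let R : Subgroup G :=
    { carrier := {v | v ∈ V ∧ v ^ r ^ N.factorization r = 1}
      mul_mem' := fun {x y} hx hy => ⟨mul_mem hx.1 hy.1, by
        rw [(show Commute x y from hVc x hx.1 y hy.1).mul_pow, hx.2, hy.2, one_mul]⟩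
      one_mem' := ⟨one_mem _, one_pow _⟩
      inv_mem' := fun {x} hx => ⟨inv_mem hx.1, by rw [inv_pow, hx.2, inv_one]⟩ }
  haveI hRn : R.Normal := ⟨fun x hx g => ⟨hVn.conj_mem x hx.1 g, by rw [conj_pow, hx.2, mul_one, mul_inv_cancel]⟩⟩
  have hpowV : ∀ v ∈ V, v ^ N = 1 := fun v hv =>
    orderOf_dvd_iff_pow_eq_one.1 (Subgroup.orderOf_dvd_natCard V hv)
  have hπ : ∀ v ∈ V, v ^ k ∈ R := fun v hv => by
    refine ⟨pow_mem hv k, ?_⟩
    obtain ⟨j, hj⟩ := (Nat.modEq_zero_iff_dvd.1 hk0)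
    rw [← pow_mul, hj, show M * j * r ^ N.factorization r = r ^ N.factorization r * M * j by ring, hNe, pow_mul,
      hpowV v hv, one_pow]
  have hπR : ∀ v ∈ R, v ^ k = v := fun v hv => by
    rw [← pow_one v, ← pow_mul, one_mul]
    exact pow_eq_pow_iff_modEq.2 (Nat.ModEq.of_dvd (orderOf_dvd_of_pow_eq_one hv.2) hk1)
  let w : G → G := fun b => u b ^ k
  have hwR : ∀ b ∈ B₁, w b ∈ R := fun b hb => hπ _ (huV b hb)
  have hwc : ∀ b ∈ B₁, ∀ c ∈ B₁, w (b * c) = w b * (b * w c * b⁻¹) := by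
    intro b hb c hc
    simp only [w]
    rw [hcoc b hb c hc, (show Commute (u b) (b * u c * b⁻¹) from
      hVc _ (huV b hb) _ (hVn.conj_mem _ (huV c hc) b)).mul_pow, conj_pow]
  have hwsurj : ∀ v ∈ R, ∃ b ∈ B₁, w b = v := fun v hv => by
    obtain ⟨b, hb, h⟩ := hsurj v hv.1
    exact ⟨b, hb, by simp only [w, h, hπR v hv]⟩
  -- elements of order prime to `r` centralise `R`
  have htriv : ∀ c ∈ B₁, (orderOf c).Coprime r → ∀ v ∈ R, c * v * c⁻¹ = v := by
    intro c hc hcr
    letI : CommGroup R := { (inferInstance : Group R) with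
      mul_comm := fun x y => Subtype.ext (hVc _ x.2.1 _ y.2.1) }
    let W : B₁ → R := fun b => ⟨w b, hwR b b.2⟩
    let act : G → R →* R := fun g => (MulAut.conjNormal g).toMonoidHom
    have hW : ∀ b c : B₁, W (b * c) = W b * act b (W c) := fun b c => Subtype.ext (hwc b b.2 c c.2)
    have hact : ∀ (g h : G) (x : R), act g (act h x) = act (g * h) x := fun g h x => by
      simp [act, map_mul]
    let c' : B₁ := ⟨c, hc⟩
    set m := orderOf c' with hm
    have hmc : m.Coprime (r ^ N.factorization r) := by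
      rw [hm, ← Subgroup.orderOf_coe]; exact hcr.pow_right _
    let T : R := ∏ j ∈ Finset.range m, W (c' ^ j)
    have h1 : W c' ^ m * act c T = T := by
      have h2 : ∀ j ∈ Finset.range m, W c' * act c (W (c' ^ j)) = W (c' ^ (j + 1)) := fun j _ => by
        rw [pow_succ', hW]
      calc W c' ^ m * act c T = ∏ j ∈ Finset.range m, W c' * act c (W (c' ^ j)) := by
            rw [Finset.prod_mul_distrib, Finset.prod_const, Finset.card_range, map_prod]
        _ = ∏ j ∈ Finset.range m, W (c' ^ (j + 1)) := Finset.prod_congr rfl h2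
        _ = T := by
            have h3 := (Finset.prod_range_succ (fun j => W (c' ^ j)) m).symm.trans (Finset.prod_range_succ' _ m)
            rw [pow_orderOf_eq_one, pow_zero] at h3
            exact (mul_right_cancel h3).symm
    obtain ⟨l, hl⟩ : ∃ l, m * l ≡ 1 [MOD r ^ N.factorization r] := by
      have h1 : 1 < r ^ N.factorization r :=
        Nat.one_lt_pow (hr.factorization_pos_of_dvd Nat.card_pos.ne' hrd).ne' hr.one_lt
      obtain ⟨l, -, hl⟩ := Nat.exists_mul_mod_eq_one_of_coprime hmc h1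
      exact ⟨l, by rw [Nat.ModEq, hl, Nat.mod_eq_of_lt h1]⟩
    have hexp : ∀ x : R, x ^ r ^ N.factorization r = 1 := fun x => Subtype.ext (by simpa using x.2.2)
    obtain ⟨t, ht⟩ : ∃ t : R, W c' = act c t * t⁻¹ := by
      refine ⟨(T ^ l)⁻¹, ?_⟩
      have h4 : W c' = (W c' ^ m) ^ l := by
        rw [← pow_mul]
        conv_lhs => rw [← pow_one (W c')]
        exact pow_eq_pow_iff_modEq.2 (Nat.ModEq.of_dvd (orderOf_dvd_of_pow_eq_one (hexp _)) hl.symm)
      rw [h4, eq_mul_inv_of_mul_eq h1, mul_pow, inv_pow]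
      simp only [map_inv, map_pow, inv_inv]
      rw [mul_comm]
    have hcomm : ∀ b : B₁, c' * b = b * c' := fun b => Subtype.ext (hB c hc.2 b b.2.2)
    have hd : ∀ b : B₁, act c (W b * (act b t * t⁻¹)⁻¹) = W b * (act b t * t⁻¹)⁻¹ := by
      intro b
      have h5 : W b * act b (W c') = W c' * act c (W b) := by rw [← hW, ← hcomm, hW]
      rw [ht, map_mul, map_inv, hact] at h5
      have h6 := alg_move h5
      rw [map_mul, map_inv, map_mul, map_inv, hact, h6,
        show c * (b : G) = b * c from congrArg Subtype.val (hcomm b)]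
      exact alg_cancel _ _ _ _ _
    obtain ⟨b, hb, hbt⟩ := hwsurj (t⁻¹ : R) (t⁻¹ : R).2
    have h7 := hd ⟨b, hb⟩
    rw [show W ⟨b, hb⟩ = t⁻¹ from Subtype.ext hbt, mul_inv_rev, inv_inv, inv_mul_cancel_left, map_inv,
      inv_inj, hact, show c * b = b * c from hB c hc.2 b hb.2, ← hact] at h7
    have hinj : Function.Injective (act b) := (MulAut.conjNormal b).injective
    have h8 : act c t = t := hinj h7
    have h9 : W c' = 1 := by rw [ht, h8, mul_inv_cancel]
    intro v hv
    obtain ⟨b, hb, hbv⟩ := hwsurj v hv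
    have h10 : W ⟨b, hb⟩ * act b (W c') = W c' * act c (W ⟨b, hb⟩) := by
      rw [← hW ⟨b, hb⟩ c', ← hcomm, hW]
    rw [h9, map_one, mul_one, one_mul] at h10
    have h11 := congrArg Subtype.val h10
    simp [act, W, hbv] at h11
    exact h11.symm
  -- a nontrivial element of `R` centralised by `B₁`
  set Γ := B₁.map (MulAut.conjNormal (H := R)) with hΓ
  have hΓp : IsPGroup r Γ := by
    intro γ
    obtain ⟨b, hb, hbγ⟩ := γ.2
    refine ⟨(orderOf b).factorization r, Subtype.ext ?_⟩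
    rw [Subgroup.coe_pow, Subgroup.coe_one, ← hbγ, ← map_pow]
    refine MulEquiv.ext fun x => Subtype.ext ?_
    rw [MulAut.conjNormal_apply, MulAut.one_apply]
    refine htriv _ (pow_mem hb _) ?_ x x.2
    rw [orderOf_pow_of_dvd (pow_ne_zero _ hr.ne_zero) (Nat.ordProj_dvd _ _)]
    exact (Nat.coprime_ordCompl hr (orderOf_pos b).ne').symm
  obtain ⟨v, hv⟩ := exists_prime_orderOf_dvd_card' r hrd
  have hvR : (v : G) ∈ R := ⟨v.2, by
    obtain ⟨j, hj⟩ : r ∣ r ^ N.factorization r :=
      dvd_pow_self r (hr.factorization_pos_of_dvd Nat.card_pos.ne' hrd).ne'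
    rw [hj, pow_mul, ← Subgroup.coe_pow, ← hv, pow_orderOf_eq_one, Subgroup.coe_one, one_pow]⟩
  have hRd : r ∣ Nat.card R := by
    have := Subgroup.orderOf_dvd_natCard R hvR
    rwa [Subgroup.orderOf_coe, hv] at this
  obtain ⟨z, hz, hz1⟩ := hΓp.exists_fixed_point_of_prime_dvd_card_of_fixed_point R hRd
    (a := 1) (fun γ => map_one (γ : MulAut R))
  have hzB : ∀ b ∈ B₁, b * (z : G) = z * b := fun b hb => by
    have := congrArg Subtype.val (hz ⟨MulAut.conjNormal b, Subgroup.mem_map_of_mem _ hb⟩)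
    have h12 : b * (z : G) * b⁻¹ = z := by simpa [MulAut.conjNormal_apply] using this
    exact mul_inv_eq_iff_eq_mul.1 h12
  have hzmem : (z : G) ∈ B := by
    obtain ⟨a, ha, b, hb, h⟩ := hAB (z : G)
    have ha1 : a = 1 := by
      refine hZX a (le_sup_left (b := V) ha) (fun x hx => ?_)
      obtain ⟨a', ha', b', hb', rfl⟩ := hAB x
      have hb'1 : b' ∈ B₁ := ⟨by simpa using X.mul_mem (le_sup_left (b := V) (inv_mem ha')) hx, hb'⟩
      have h13 : Commute b' a := by
        have h14 : Commute b' (z : G) := hzB b' hb'1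
        rw [h] at h14
        simpa using h14.mul_right ((show Commute b' b from hB b' hb' b hb).inv_right)
      exact ((show Commute a' a from hA a' ha' a ha).mul_left h13).eq
    rw [h, ha1, one_mul]; exact hb
  exact hz1 (Subtype.ext (hBV _ hzmem z.2.1).symm)

end Cfsg.Agent.S0573
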