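import Cfsg.Statements.S0576
import Mathlib

set_option autoImplicit false
set_option linter.style.haveILetI false
open Cfsg

namespace Cfsg.Agent.S0576

/-- Let H be a normal subgroup of a finite group G with H contained in the Frattini subgroup of G. Then the group of inner automorphisms of H is contained in the Frattini subgroup of the automorphism group of H. -/
theorem result {G : Type*} [Group G] [Finite G] (H : Subgroup G) [H.Normal] (hH : H ≤ frattini G) : (MulAut.conj : ↥H →* MulAut ↥H).range ≤ frattini (MulAut ↥H) := by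
  intro i hi
  obtain ⟨h, rfl⟩ := hi
  rw [frattini, Order.radical, Subgroup.mem_iInf]
  intro M
  rw [Subgroup.mem_iInf]
  intro hM
  set I := (MulAut.conj : ↥H →* MulAut ↥H).range with hI
  haveI hIn : I.Normal := ⟨by
    rintro _ ⟨x, rfl⟩ φ
    exact ⟨φ x, MulEquiv.ext fun y => by simp [MulAut.conj_apply]⟩⟩
  by_cases hIM : I ≤ M
  · exact hIM ⟨h, rfl⟩
  have htop : I ⊔ M = ⊤ := hM.2 _ (lt_of_le_of_ne le_sup_right (fun e => hIM (by rw [e]; exact le_sup_left)))
  let T : Subgroup G := M.comap (MulAut.conjNormal (H := H))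
  have hT : T ⊔ H = ⊤ := by
    rw [eq_top_iff]
    intro g _
    have hg : MulAut.conjNormal (H := H) g ∈ ((I ⊔ M : Subgroup (MulAut H)) : Set (MulAut H)) := by rw [htop]; trivial
    rw [Subgroup.normal_mul] at hg
    obtain ⟨_, ⟨x, rfl⟩, m, hm, hxm⟩ := hg
    have hconj : (MulAut.conjNormal (H := H) (x : G)) = MulAut.conj x := MulEquiv.ext fun y => Subtype.ext (by
      rw [MulAut.conjNormal_apply, MulAut.conj_apply]; simp)
    have h1 : (x : G)⁻¹ * g ∈ T := by
      show MulAut.conjNormal (H := H) ((x : G)⁻¹ * g) ∈ M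
      rw [map_mul, map_inv, ← hxm, hconj, inv_mul_cancel_left]
      exact hm
    simpa using Subgroup.mul_mem _ (le_sup_right (a := T) x.2) (le_sup_left (b := H) h1)
  have hTt : T = ⊤ := frattini_nongenerating (top_le_iff.1 (hT ▸ sup_le_sup_left hH T))
  have h2 : (h : G) ∈ T := hTt ▸ Subgroup.mem_top (h : G)
  have hconj : (MulAut.conjNormal (H := H) (h : G)) = MulAut.conj h := MulEquiv.ext fun y => Subtype.ext (by
    rw [MulAut.conjNormal_apply, MulAut.conj_apply]; simp)
  rw [← hconj]; exact h2

end Cfsg.Agent.S0576
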