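import Cfsg.Statements.S0577
import Cfsg.Agent.Solv.Schmidt
import Cfsg.Agent.Solv.Fitting

set_option autoImplicit false
set_option linter.style.haveILetI false
open Cfsg

open scoped commutatorElement
open Pointwise

namespace Cfsg.Agent.S0577

/-- Let G be a finite minimal non-nilpotent group and Q a normal Sylow q-subgroup of G, and let D be the commutator subgroup of Q regarded in G (a normal subgroup). Then G modulo D is non-abelian and all its proper subgroups are abelian. -/
theorem result {G : Type*} [Group G] [Finite G] (hG : Cfsg.IsMinimalNonNilpotent G) (q : ℕ) [Fact q.Prime] (hq : q ∣ Nat.card G) (Q : Sylow q G) (hQ : (Q : Subgroup G).Normal) (D : Subgroup G) [D.Normal] (hD : D = (commutator ↥(Q : Subgroup G)).map (Q : Subgroup G).subtype) : ¬ IsMulCommutative (G ⧸ D) ∧ ∀ K : Subgroup (G ⧸ D), K ≠ ⊤ → IsMulCommutative K := by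
  obtain ⟨p, q', hp, hq', hne, P, Q', hc, hn, ht, hPn, hcomp⟩ := Solv.minimal_nonnilpotent_structure hG.1 hG.2
  haveI := Fact.mk hp
  haveI := Fact.mk hq'
  haveI := hn
  obtain rfl : q = q' := by
    have hqP : q ∣ Nat.card Q' * Nat.card P := by rw [hcomp.card_mul]; exact hq
    obtain ⟨a, ha⟩ := IsPGroup.iff_card.mp P.isPGroup'
    obtain ⟨b, hb⟩ := IsPGroup.iff_card.mp Q'.isPGroup'
    rw [hb, ha] at hqP
    rcases (Nat.Prime.dvd_mul Fact.out).mp hqP with hd | hd
    · exact (Nat.prime_dvd_prime_iff_eq Fact.out hq').mp ((Fact.out : q.Prime).dvd_of_dvd_pow hd)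
    · exfalso
      obtain rfl : q = p := (Nat.prime_dvd_prime_iff_eq Fact.out hp).mp ((Fact.out : q.Prime).dvd_of_dvd_pow hd)
      haveI := Sylow.unique_of_normal Q hQ
      rw [Subsingleton.elim P Q] at hPn
      exact hPn hQ
  haveI := hQ
  obtain rfl : Q = Q' := by
    haveI := Sylow.unique_of_normal Q hQ
    exact Subsingleton.elim _ _
  constructor
  · intro hcomm
    apply hG.1
    have hDΦ : D ≤ frattini G := by
      refine le_trans ?_ (Solv.map_frattini_le (Q : Subgroup G))
      rw [hD]
      refine Subgroup.map_mono (le_iInf₂ fun M hM => ?_)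
      haveI := Q.isPGroup'.isNilpotent
      haveI hMn : M.Normal := Subgroup.NormalizerCondition.normal_of_coatom M Group.normalizerCondition_of_isNilpotent hM
      have hsimp : ∀ K : Subgroup ((Q : Subgroup G) ⧸ M), K ≠ ⊥ → K = ⊤ := by
        intro K hK0
        have hle : M ≤ K.comap (QuotientGroup.mk' M) := fun m hm => by
          rw [Subgroup.mem_comap, show QuotientGroup.mk' M m = 1 from (QuotientGroup.eq_one_iff m).mpr hm]
          exact one_mem _
        rcases hM.le_iff.mp hle with hK | hK
        · rw [← Subgroup.map_comap_eq_self_of_surjective (QuotientGroup.mk'_surjective M) K, hK,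
            Subgroup.map_top_of_surjective _ (QuotientGroup.mk'_surjective M)]
        · exfalso
          apply hK0
          rw [← Subgroup.map_comap_eq_self_of_surjective (QuotientGroup.mk'_surjective M) K, hK, Subgroup.map_eq_bot_iff,
            QuotientGroup.ker_mk']
      haveI : IsCyclic ((Q : Subgroup G) ⧸ M) := by
        by_cases hsub : ∀ z : (Q : Subgroup G) ⧸ M, z = 1
        · haveI : Subsingleton ((Q : Subgroup G) ⧸ M) := ⟨fun a b => (hsub a).trans (hsub b).symm⟩
          infer_instance
        · obtain ⟨z, hz⟩ := not_forall.mp hsub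
          exact isCyclic_iff_exists_zpowers_eq_top.mpr ⟨z, hsimp _ fun h => hz (Subgroup.zpowers_eq_bot.mp h)⟩
      rw [commutator_def, Subgroup.commutator_le]
      intro a _ b _
      letI : CommGroup ((Q : Subgroup G) ⧸ M) := IsCyclic.commGroup
      rw [← QuotientGroup.eq_one_iff]
      show QuotientGroup.mk' M ⁅a, b⁆ = 1
      rw [map_commutatorElement]
      exact commutatorElement_eq_one_iff_mul_comm.mpr (mul_comm _ _)
    have hnilQ : Group.IsNilpotent ((⊤ : Subgroup G) ⧸ D.subgroupOf ⊤) := by
      have hc : ∀ u v : (⊤ : Subgroup G) ⧸ D.subgroupOf ⊤, u * v = v * u := by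
        intro u v
        induction u using QuotientGroup.induction_on with
        | H u =>
        induction v using QuotientGroup.induction_on with
        | H v =>
        rw [← QuotientGroup.mk_mul, ← QuotientGroup.mk_mul, QuotientGroup.eq, Subgroup.mem_subgroupOf]
        have := hcomm.is_comm.comm ((u : G) : G ⧸ D) ((v : G) : G ⧸ D)
        rw [← QuotientGroup.mk_mul, ← QuotientGroup.mk_mul, QuotientGroup.eq] at this
        exact this
      letI : CommGroup ((⊤ : Subgroup G) ⧸ D.subgroupOf ⊤) :=
        { (inferInstance : Group ((⊤ : Subgroup G) ⧸ D.subgroupOf ⊤)) with mul_comm := hc }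
      infer_instance
    haveI := Solv.isNilpotent_of_frattini (⊤ : Subgroup G) D hDΦ hnilQ
    exact Group.nilpotent_of_mulEquiv (Subgroup.topEquiv (G := G))
  · intro K hK
    let f := QuotientGroup.mk' D
    have hf : Function.Surjective f := QuotientGroup.mk'_surjective _
    haveI := hG.2 (K.comap f) fun h => hK (by
      rw [← Subgroup.map_comap_eq_self_of_surjective hf K, h, Subgroup.map_top_of_surjective _ hf])
    haveI : Group.IsNilpotent K := Group.nilpotent_of_surjective (f.subgroupComap K)
      (fun ⟨y, hy⟩ => by obtain ⟨x, rfl⟩ := hf y; exact ⟨⟨x, hy⟩, rfl⟩)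
    have hsyl : ∀ (r : ℕ) [Fact r.Prime] (R : Sylow r (G ⧸ D)), ∀ a ∈ (R : Subgroup (G ⧸ D)),
        ∀ b ∈ (R : Subgroup (G ⧸ D)), a * b = b * a := by
      intro r _ R
      obtain ⟨S⟩ : Nonempty (Sylow r G) := inferInstance
      obtain ⟨g, hg⟩ := MulAction.exists_smul_eq (G ⧸ D) (S.mapSurjective hf) R
      have hS : ∀ a ∈ ((S : Subgroup G).map f), ∀ b ∈ ((S : Subgroup G).map f), a * b = b * a := by
        rintro _ ⟨a, ha, rfl⟩ _ ⟨b, hb, rfl⟩
        by_cases hrp : r = p
        · subst hrp
          haveI : IsCyclic (S : Subgroup G) := isCyclic_of_surjective (Sylow.equiv P S) (MulEquiv.surjective _)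
          letI : CommGroup (S : Subgroup G) := IsCyclic.commGroup
          have := congrArg (fun z : (S : Subgroup G) => f z) (mul_comm (⟨a, ha⟩ : (S : Subgroup G)) ⟨b, hb⟩)
          simpa using this
        by_cases hrq : r = q
        · subst hrq
          haveI := Sylow.unique_of_normal Q hQ
          rw [Subsingleton.elim S Q] at ha hb
          rw [← map_mul, ← map_mul]
          show ((a * b : G) : G ⧸ D) = ((b * a : G) : G ⧸ D)
          rw [QuotientGroup.eq, hD]
          refine ⟨⁅(⟨b, hb⟩ : (Q : Subgroup G))⁻¹, (⟨a, ha⟩ : (Q : Subgroup G))⁻¹⁆, ?_, ?_⟩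
          · rw [SetLike.mem_coe, commutator_def]
            exact Subgroup.commutator_mem_commutator (Subgroup.mem_top _) (Subgroup.mem_top _)
          · simp [commutatorElement_def, mul_assoc]
        have hbot : (S : Subgroup G) = ⊥ := Subgroup.eq_bot_of_card_eq _ (by
          rw [S.card_eq_multiplicity, Nat.factorization_eq_zero_of_not_dvd (fun hd => ?_), pow_zero]
          rw [← hcomp.card_mul] at hd
          obtain ⟨i, hi⟩ := IsPGroup.iff_card.mp P.isPGroup'
          obtain ⟨j, hj⟩ := IsPGroup.iff_card.mp Q.isPGroup'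
          rw [hi, hj] at hd
          rcases (Nat.Prime.dvd_mul Fact.out).mp hd with hd | hd
          · exact hrq ((Nat.prime_dvd_prime_iff_eq Fact.out Fact.out).mp ((Fact.out : r.Prime).dvd_of_dvd_pow hd))
          · exact hrp ((Nat.prime_dvd_prime_iff_eq Fact.out hp).mp ((Fact.out : r.Prime).dvd_of_dvd_pow hd)))
        rw [hbot, SetLike.mem_coe, Subgroup.mem_bot] at ha
        rw [ha, map_one, one_mul, mul_one]
      intro a ha b hb
      rw [← hg, Sylow.coe_subgroup_smul] at ha hb
      obtain ⟨a', ha', rfl⟩ := ha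
      obtain ⟨b', hb', rfl⟩ := hb
      show (g * a' * g⁻¹) * (g * b' * g⁻¹) = (g * b' * g⁻¹) * (g * a' * g⁻¹)
      have := hS a' ha' b' hb'
      calc (g * a' * g⁻¹) * (g * b' * g⁻¹) = g * (a' * b') * g⁻¹ := by group
        _ = g * (b' * a') * g⁻¹ := by rw [this]
        _ = _ := by group
    refine ⟨⟨Solv.comm_of_nilpotent_sylow_comm fun r _ R => ⟨⟨fun a b => ?_⟩⟩⟩⟩
    obtain ⟨R', hR'⟩ := (R.isPGroup'.map K.subtype).exists_le_sylow
    exact Subtype.ext (Subtype.ext (hsyl r R' _ (hR' (Subgroup.mem_map_of_mem K.subtype a.2)) _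
      (hR' (Subgroup.mem_map_of_mem K.subtype b.2))))

end Cfsg.Agent.S0577
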