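import Cfsg.Statements.S0578
import Mathlib

set_option autoImplicit false
set_option linter.style.haveILetI false
open Cfsg

namespace Cfsg.Agent.S0578

/-- If in a finite group the normalizer of each abelian subgroup coincides with its centralizer, then the group is abelian. -/
theorem result {G : Type*} [Group G] [Finite G] (h : ∀ A : Subgroup G, IsMulCommutative A → Subgroup.normalizer (A : Set G) = Subgroup.centralizer (A : Set G)) : IsMulCommutative G := by
  have hcomm : ∀ (p : ℕ) (_ : Fact p.Prime) (P : Sylow p G), ∀ x ∈ (P : Subgroup G), ∀ y ∈ (P : Subgroup G), x * y = y * x := by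
    intro p _ P
    haveI := P.isPGroup'.isNilpotent
    have key : ∀ k, ∀ x ∈ Subgroup.upperCentralSeries ↥(P : Subgroup G) k, x ∈ Subgroup.center ↥(P : Subgroup G) := by
      intro k
      induction k with
      | zero => intro x hx; rw [Subgroup.upperCentralSeries_zero, Subgroup.mem_bot] at hx; rw [hx]; exact one_mem _
      | succ k ih =>
        intro x hx
        rw [Subgroup.mem_upperCentralSeries_succ_iff] at hx
        rw [Subgroup.mem_center_iff]
        intro y
        obtain ⟨Z, hZ⟩ : ∃ Z, Z = (Subgroup.center ↥(P : Subgroup G) ⊔ Subgroup.zpowers x) := ⟨_, rfl⟩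
        have hcZ : ∀ u ∈ Z, Commute u x := by
          have : Z ≤ Subgroup.centralizer {x} := by
            rw [hZ]
            refine sup_le (fun u hu => Subgroup.mem_centralizer_singleton_iff.mpr (Subgroup.mem_center_iff.mp hu x).symm) ?_
            exact Subgroup.zpowers_le.mpr (Subgroup.mem_centralizer_singleton_iff.mpr rfl)
          exact fun u hu => Subgroup.mem_centralizer_singleton_iff.mp (this hu)
        have hab : ∀ u ∈ Z, ∀ v ∈ Z, u * v = v * u := by
          intro u hu v hv
          have : Z ≤ Subgroup.centralizer {v} := by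
            rw [hZ]
            refine sup_le (fun w hw => Subgroup.mem_centralizer_singleton_iff.mpr (Subgroup.mem_center_iff.mp hw v).symm) ?_
            exact Subgroup.zpowers_le.mpr (Subgroup.mem_centralizer_singleton_iff.mpr (hcZ v hv).symm.eq)
          exact Subgroup.mem_centralizer_singleton_iff.mp (this hu)
        haveI hZn : Z.Normal := ⟨fun u hu g => by
          have hle : Z ≤ Z.comap (MulAut.conj g).toMonoidHom := by
            conv_lhs => rw [hZ]
            refine sup_le (fun w hw => ?_) (Subgroup.zpowers_le.mpr ?_)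
            · rw [Subgroup.mem_comap]
              simpa [Subgroup.mem_center_iff.mp hw g, hZ] using (Subgroup.mem_sup_left hw : w ∈ _ ⊔ Subgroup.zpowers x)
            · rw [Subgroup.mem_comap]
              have hc := inv_mem (ih _ (hx g))
              have hm : g * x * g⁻¹ = (x * g * x⁻¹ * g⁻¹)⁻¹ * x := by group
              simp only [MulEquiv.toMonoidHom_eq_coe, MonoidHom.coe_coe, MulAut.conj_apply]
              rw [hm, hZ]
              exact Subgroup.mul_mem_sup (by simpa [commutatorElement_def] using hc) (Subgroup.mem_zpowers x)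
          simpa using hle hu⟩
        have hN : (P : Subgroup G) ≤ Subgroup.normalizer ((Z.map (P : Subgroup G).subtype : Subgroup G) : Set G) := by
          intro g hg
          rw [Subgroup.mem_normalizer_iff]
          intro z
          constructor
          · rintro ⟨w, hw, rfl⟩; exact ⟨_, hZn.conj_mem w hw ⟨g, hg⟩, rfl⟩
          · rintro ⟨w, hw, hwe⟩
            refine ⟨_, hZn.conj_mem w hw ⟨g, hg⟩⁻¹, ?_⟩
            simp only [Subgroup.subtype_apply] at hwe
            simp [hwe, mul_assoc]
        rw [h _ ⟨⟨fun u v => Subtype.ext (by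
          obtain ⟨u', hu', hue⟩ := u.2
          obtain ⟨v', hv', hve⟩ := v.2
          show (u : G) * v = v * u
          rw [← hue, ← hve, ← map_mul, ← map_mul, hab u' hu' v' hv'])⟩⟩] at hN
        refine Subtype.ext ?_
        exact (Subgroup.mem_centralizer_iff.mp (hN y.2) x ⟨x, hZ ▸ Subgroup.mem_sup_right (Subgroup.mem_zpowers x), rfl⟩).symm
    obtain ⟨k, hk⟩ := Group.IsNilpotent.nilpotent' (G := ↥(P : Subgroup G))
    intro x hx y hy
    exact congrArg Subtype.val (Subgroup.mem_center_iff.mp (key k ⟨x, hx⟩ (hk ▸ Subgroup.mem_top _)) ⟨y, hy⟩).symm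
  have hbot : commutator G = ⊥ := by
    rw [← Subgroup.card_eq_one]
    by_contra hne
    obtain ⟨p, hp, hpd⟩ := Nat.exists_prime_and_dvd hne
    haveI := Fact.mk hp
    obtain ⟨P⟩ : Nonempty (Sylow p G) := inferInstance
    have hP : Subgroup.normalizer ((P : Subgroup G) : Set G) ≤ Subgroup.centralizer ((P : Subgroup G) : Set G) :=
      (h _ ⟨⟨fun u v => Subtype.ext (hcomm p ‹_› P u u.2 v v.2)⟩⟩).le
    refine MonoidHom.not_dvd_card_ker_transferSylow P hP (hpd.trans (Subgroup.card_dvd_of_le ?_))
    rw [commutator_def, Subgroup.commutator_le]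
    intro a _ b _
    rw [MonoidHom.mem_ker, map_commutatorElement, commutatorElement_eq_one_iff_mul_comm]
    exact Subtype.ext (hcomm p ‹_› P _ (SetLike.coe_mem _) _ (SetLike.coe_mem _))
  refine ⟨⟨fun a b => commutatorElement_eq_one_iff_mul_comm.mp ?_⟩⟩
  rw [← Subgroup.mem_bot, ← hbot]
  exact Subgroup.commutator_mem_commutator (Subgroup.mem_top a) (Subgroup.mem_top b)

end Cfsg.Agent.S0578
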