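import Cfsg.Statements.S0580
import Mathlib

set_option autoImplicit false
set_option linter.style.haveILetI false
open Cfsg

namespace Cfsg.Agent.S0580

/-- If every maximal subgroup of a finite group has prime index, then the group is solvable. -/
theorem result {G : Type*} [Group G] [Finite G] (h : ∀ M : Subgroup G, IsCoatom M → M.index.Prime) : Group.IsSolvable G := by
  obtain ⟨n, hn⟩ : ∃ n, Nat.card G = n := ⟨_, rfl⟩
  induction n using Nat.strong_induction_on generalizing G with
  | _ n ih =>
    rcases subsingleton_or_nontrivial G with _ | _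
    · infer_instance
    let S := (Nat.card G).primeFactors
    have hne : S.Nonempty := by
      obtain ⟨q, hq, hqd⟩ := Nat.exists_prime_and_dvd (Finite.one_lt_card (α := G)).ne'
      exact ⟨q, Nat.mem_primeFactors.2 ⟨hq, hqd, Nat.card_pos.ne'⟩⟩
    obtain ⟨hp, hpd, -⟩ := Nat.mem_primeFactors.1 (S.max'_mem hne)
    set p := S.max' hne with hpdef
    haveI := Fact.mk hp
    obtain ⟨P⟩ := (inferInstance : Nonempty (Sylow p G))
    have hP : (P : Subgroup G).Normal := by
      by_contra hP
      obtain ⟨M, hM, hle⟩ := (eq_top_or_exists_le_coatom (Subgroup.normalizer ((P : Subgroup G) : Set G))).resolve_left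
        (fun h => hP (Subgroup.normalizer_eq_top_iff.1 h))
      have hPM : (P : Subgroup G) ≤ M := Subgroup.le_normalizer.trans hle
      have hq := h M hM
      have h1 : (Subgroup.normalizer ((P : Subgroup G) : Set G)).index ≡ 1 [MOD p] := by
        have := card_sylow_modEq_one p G
        rw [P.card_eq_index_normalizer] at this
        exact this
      have h2 : (Subgroup.normalizer ((P : Subgroup G) : Set G)).relIndex M ≡ 1 [MOD p] := by
        have h3 : Nat.card (Sylow p M) =
            ((Subgroup.normalizer ((P : Subgroup G) : Set G)).subgroupOf M).index := by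
          rw [(P.subtype hPM).card_eq_index_normalizer, Subgroup.subgroupOf_normalizer_eq hPM]; rfl
        have h4 := card_sylow_modEq_one p M
        rw [h3] at h4
        exact h4
      rw [← Subgroup.relIndex_mul_index hle] at h1
      have h5 : M.index ≡ 1 [MOD p] := by
        have := (h2.mul_right M.index).symm.trans h1
        rwa [one_mul] at this
      have hqle : M.index ≤ p := S.le_max' _ (Nat.mem_primeFactors.2 ⟨hq, M.index_dvd_card, Nat.card_pos.ne'⟩)
      rcases hqle.lt_or_eq with hlt | heq
      · rw [Nat.ModEq, Nat.mod_eq_of_lt hlt, Nat.mod_eq_of_lt hp.one_lt] at h5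
        exact hq.ne_one h5
      · rw [heq, Nat.ModEq, Nat.mod_self, Nat.mod_eq_of_lt hp.one_lt] at h5
        exact zero_ne_one h5
    haveI := hP
    haveI : Group.IsNilpotent (P : Subgroup G) := P.isPGroup'.isNilpotent
    haveI : Group.IsSolvable (P : Subgroup G) := inferInstance
    have hPne : (P : Subgroup G) ≠ ⊥ := P.ne_bot_of_dvd_card hpd
    haveI : Group.IsSolvable (G ⧸ (P : Subgroup G)) := by
      refine ih _ ?_ (fun M hM => ?_) rfl
      · rw [← hn, Subgroup.card_eq_card_quotient_mul_card_subgroup (P : Subgroup G)]
        exact lt_mul_of_one_lt_right Nat.card_pos ((Subgroup.one_lt_card_iff_ne_bot _).2 hPne)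
      · have hq : Function.Surjective (QuotientGroup.mk' (P : Subgroup G)) := QuotientGroup.mk'_surjective _
        rw [← Subgroup.index_comap_of_surjective M hq]
        refine h _ ⟨fun he => hM.1 ?_, fun L hL => ?_⟩
        · rw [← Subgroup.map_comap_eq_self_of_surjective hq M, he, Subgroup.map_top_of_surjective _ hq]
        · have hker : (QuotientGroup.mk' (P : Subgroup G)).ker ≤ L := (Subgroup.ker_le_comap _ _).trans hL.le
          have : M < L.map (QuotientGroup.mk' (P : Subgroup G)) := by
            rw [← Subgroup.comap_lt_comap_of_surjective hq, Subgroup.comap_map_eq_self hker]; exact hL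
          rw [← Subgroup.comap_map_eq_self hker, hM.2 _ this, Subgroup.comap_top]
    exact Group.isSolvable_of_ker_le_range (P : Subgroup G).subtype (QuotientGroup.mk' (P : Subgroup G)) (by simp)

end Cfsg.Agent.S0580
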