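import Cfsg.Statements.S0582
import Cfsg.Agent.Solv.Supersolvable
import Cfsg.Agent.Solv.SchurZassenhaus

set_option autoImplicit false
set_option linter.style.haveILetI false
open Pointwise
open Cfsg

namespace Cfsg.Agent.S0582

/-- Let H and K be supersolvable subgroups of a finite group G of the same order, that order being coprime to their index. Then H and K are conjugate in G. -/
theorem result {G : Type*} [Group G] [Finite G] (H K : Subgroup G) (hH : Cfsg.IsSupersolvable H) (hK : Cfsg.IsSupersolvable K) (hcard : Nat.card H = Nat.card K) (hHall : (Nat.card H).Coprime H.index) : ∃ x : G, MulAut.conj x • H = K := by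
  obtain ⟨n, hn⟩ : ∃ n, Nat.card G = n := ⟨_, rfl⟩
  induction n using Nat.strong_induction_on generalizing G with
  | _ n ih =>
    by_cases h1 : Nat.card H = 1
    · exact ⟨1, by rw [map_one, one_smul, Subgroup.eq_bot_of_card_eq H h1, Subgroup.eq_bot_of_card_eq K (hcard ▸ h1)]⟩
    let S := (Nat.card H).primeFactors
    have hne : S.Nonempty := by
      obtain ⟨q, hq, hqd⟩ := Nat.exists_prime_and_dvd h1
      exact ⟨q, Nat.mem_primeFactors.2 ⟨hq, hqd, Nat.card_pos.ne'⟩⟩
    obtain ⟨hp, hpd, -⟩ := Nat.mem_primeFactors.1 (S.max'_mem hne)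
    set p := S.max' hne with hpdef
    haveI := Fact.mk hp
    have hmax : ∀ q : ℕ, q.Prime → q ∣ Nat.card H → q ≤ p := fun q hq hqd =>
      S.le_max' q (Nat.mem_primeFactors.2 ⟨hq, hqd, Nat.card_pos.ne'⟩)
    have hKidx : H.index = K.index := by
      have h2 := H.card_mul_index
      rw [← K.card_mul_index, ← hcard] at h2
      exact Nat.eq_of_mul_eq_mul_left Nat.card_pos h2
    -- Sylow subgroups of `H` and `K` for the largest prime are Sylow subgroups of `G`, normal in them
    have hsyl : ∀ L : Subgroup G, Cfsg.IsSupersolvable L → Nat.card L = Nat.card H →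
        ∃ P : Sylow p G, (P : Subgroup G) ≤ L ∧ L ≤ Subgroup.normalizer ((P : Subgroup G) : Set G) := by
      intro L hL hLc
      obtain ⟨Q⟩ := (inferInstance : Nonempty (Sylow p L))
      haveI hQn : (Q : Subgroup L).Normal :=
        Cfsg.Agent.Solv.SSv.sylow_max_normal hL (fun q hq hqd => hmax q hq (hLc ▸ hqd)) Q
      have hLi : L.index = H.index := by
        have h2 := L.card_mul_index
        rw [← H.card_mul_index, hLc] at h2
        exact Nat.eq_of_mul_eq_mul_left Nat.card_pos h2
      have hnd : ¬ p ∣ L.index := fun hd => hp.not_dvd_one (by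
        have := Nat.dvd_gcd hpd (hLi ▸ hd); rwa [hHall] at this)
      have hcQ : Nat.card ((Q : Subgroup L).map L.subtype) = p ^ (Nat.card G).factorization p := by
        rw [Subgroup.card_map_of_injective L.subtype_injective, ← L.card_mul_index,
          Nat.factorization_mul Nat.card_pos.ne' Subgroup.index_ne_zero_of_finite, Finsupp.add_apply,
          Nat.factorization_eq_zero_of_not_dvd hnd, add_zero]
        exact Q.card_eq_multiplicity
      refine ⟨Sylow.ofCard _ hcQ, ?_, ?_⟩
      · rw [Sylow.coe_ofCard]; exact Subgroup.map_subtype_le _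
      · rw [Sylow.coe_ofCard]
        refine le_trans ?_ (Subgroup.le_normalizer_map L.subtype)
        rw [Subgroup.normalizer_eq_top_iff.2 hQn]
        intro x hx
        exact ⟨⟨x, hx⟩, Subgroup.mem_top _, rfl⟩
    obtain ⟨P, hPH, hHP⟩ := hsyl H hH rfl
    obtain ⟨Q, hQK, hKQ⟩ := hsyl K hK hcard.symm
    obtain ⟨x, hx⟩ := MulAction.exists_smul_eq G P Q
    have hxQ : MulAut.conj x • (P : Subgroup G) = (Q : Subgroup G) := by
      rw [← hx]; rfl
    set H' := MulAut.conj x • H with hH'
    have hH's : Cfsg.IsSupersolvable H' := Cfsg.Agent.Solv.SSv.of_mulEquiv (Subgroup.equivSMul (MulAut.conj x) H) hH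
    have hH'c : Nat.card H' = Nat.card K := by
      rw [← hcard]; exact (Nat.card_congr (Subgroup.equivSMul (MulAut.conj x) H).toEquiv).symm
    have hQH' : (Q : Subgroup G) ≤ H' := by
      rw [← hxQ]; exact Subgroup.pointwise_smul_le_pointwise_smul_iff.2 hPH
    set N := Subgroup.normalizer ((Q : Subgroup G) : Set G) with hN
    have hH'N : H' ≤ N := by
      intro y hy
      rw [hN, ← hxQ]
      rw [hH', Cfsg.Agent.Solv.mem_conj_smul] at hy
      refine Cfsg.Agent.Solv.mem_normalizer_of_conj ?_
      have h4 := Cfsg.Agent.Solv.conj_of_mem_normalizer (hHP hy)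
      calc MulAut.conj y • MulAut.conj x • (P : Subgroup G) = MulAut.conj x • MulAut.conj (x⁻¹ * y * x) • (P : Subgroup G) := by
            rw [smul_smul, smul_smul, ← map_mul, ← map_mul]; congr 2; group
        _ = MulAut.conj x • (P : Subgroup G) := by rw [h4]
    let Q' : Subgroup N := (Q : Subgroup G).subgroupOf N
    haveI : Q'.Normal := Subgroup.normal_in_normalizer
    let f := QuotientGroup.mk' Q'
    have hQne : (Q : Subgroup G) ≠ ⊥ := Q.ne_bot_of_dvd_card (hpd.trans H.card_subgroup_dvd_card)
    have hlt : Nat.card (N ⧸ Q') < n := by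
      refine lt_of_lt_of_le ?_ (hn ▸ Subgroup.card_le_card_group N)
      rw [Subgroup.card_eq_card_quotient_mul_card_subgroup Q']
      refine lt_mul_of_one_lt_right Nat.card_pos ((Subgroup.one_lt_card_iff_ne_bot _).2 fun e => hQne ?_)
      rw [← Subgroup.map_subgroupOf_eq_of_le (Subgroup.le_normalizer (H := (Q : Subgroup G))), ← Subgroup.map_bot N.subtype]
      exact congrArg _ e
    have hcards : ∀ L : Subgroup G, (Q : Subgroup G) ≤ L → L ≤ N →
        Nat.card L = Nat.card ((L.subgroupOf N).map f) * Nat.card Q' := by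
      intro L hQL hLN
      have hcm := ((L.subgroupOf N).map f).card_mul_index
      have h5 : ((L.subgroupOf N).map f).index = (L.subgroupOf N).index :=
        Subgroup.index_map_eq _ (QuotientGroup.mk'_surjective Q') (by
          rw [QuotientGroup.ker_mk']; exact fun z hz => hQL hz)
      have h6 := (L.subgroupOf N).card_mul_index
      rw [Subgroup.card_eq_card_quotient_mul_card_subgroup Q', ← hcm, h5,
        Nat.card_congr (Subgroup.subgroupOfEquivOfLe hLN).toEquiv, mul_right_comm] at h6
      exact Nat.eq_of_mul_eq_mul_right (Nat.pos_of_ne_zero Subgroup.index_ne_zero_of_finite) h6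
    have hssN : ∀ L : Subgroup G, L ≤ N → Cfsg.IsSupersolvable L → Cfsg.IsSupersolvable ((L.subgroupOf N).map f) :=
      fun L hLN hL => Cfsg.Agent.Solv.SSv.of_surjective _ ((f.subgroupMap_surjective (L.subgroupOf N)))
        (Cfsg.Agent.Solv.SSv.of_mulEquiv (Subgroup.subgroupOfEquivOfLe hLN).symm hL)
    have hce : Nat.card ((H'.subgroupOf N).map f) = Nat.card ((K.subgroupOf N).map f) := by
      have h7 := hcards K hQK hKQ
      rw [← hH'c, hcards H' hQH' hH'N] at h7
      exact Nat.eq_of_mul_eq_mul_right Nat.card_pos h7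
    have hco : (Nat.card ((H'.subgroupOf N).map f)).Coprime ((H'.subgroupOf N).map f).index := by
      rw [Subgroup.index_map_eq _ (QuotientGroup.mk'_surjective Q') (by
        rw [QuotientGroup.ker_mk']; exact fun z hz => hQH' hz)]
      refine Nat.Coprime.coprime_dvd_left (dvd_of_mul_right_eq _ (hcards H' hQH' hH'N).symm) ?_
      refine Nat.Coprime.coprime_dvd_right (Subgroup.relIndex_dvd_index_of_le hH'N) ?_
      have h8 : H'.index = H.index := by
        rw [hH']; exact Subgroup.index_map_equiv H (MulAut.conj x)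
      rw [h8, hH'c, ← hcard]; exact hHall
    obtain ⟨y, hy⟩ := ih _ hlt _ _ (hssN H' hH'N hH's) (hssN K hKQ hK) hce hco rfl
    obtain ⟨y, rfl⟩ := QuotientGroup.mk'_surjective Q' y
    refine ⟨(y : G) * x, ?_⟩
    rw [map_mul, mul_smul, ← hH']
    refine Cfsg.Agent.Solv.conj_of_conj_subgroupOf hH'N hKQ ?_
    have hk1 : f.ker ≤ H'.subgroupOf N := by rw [QuotientGroup.ker_mk']; exact fun z hz => hQH' hz
    have hk2 : f.ker ≤ K.subgroupOf N := by rw [QuotientGroup.ker_mk']; exact fun z hz => hQK hz
    rw [← Subgroup.comap_map_eq_self hk2, ← hy]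
    ext z
    rw [Cfsg.Agent.Solv.mem_conj_smul, Subgroup.mem_comap, Cfsg.Agent.Solv.mem_conj_smul]
    nth_rewrite 1 [← Subgroup.comap_map_eq_self hk1]
    rw [Subgroup.mem_comap, map_mul, map_mul, map_inv]

end Cfsg.Agent.S0582
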