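import Cfsg.Statements.S0583
import Cfsg.Agent.Solv.Cores

set_option autoImplicit false
set_option linter.style.haveILetI false
open Cfsg

namespace Cfsg.Agent.S0583

/-- In a finite group the Fitting subgroup is contained in the centralizer of each minimal normal subgroup. -/
theorem result {G : Type*} [Group G] [Finite G] (M : Subgroup G) [M.Normal] (hM : M ≠ ⊥) (hmin : ∀ K : Subgroup G, K.Normal → K ≤ M → K = ⊥ ∨ K = M) : Cfsg.fittingSubgroup G ≤ Subgroup.centralizer (M : Set G) := by
  obtain ⟨T, hT⟩ : ∃ T, T = Cfsg.fittingSubgroup G ⊓ M := ⟨_, rfl⟩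
  haveI : (Cfsg.fittingSubgroup G).Normal := Solv.fittingSubgroup_normal
  haveI : T.Normal := hT ▸ inferInstance
  have hcl : ⁅Cfsg.fittingSubgroup G, M⁆ ≤ T :=
    hT ▸ Subgroup.commutator_le_inf _ _
  rw [← Subgroup.commutator_eq_bot_iff_le_centralizer]
  rcases hmin T inferInstance (hT ▸ inf_le_right) with h | h
  · exact le_bot_iff.mp (h ▸ hcl)
  have hMF : M ≤ Cfsg.fittingSubgroup G := by rw [← h, hT]; exact inf_le_left
  rcases hmin ⁅Cfsg.fittingSubgroup G, M⁆ inferInstance (Subgroup.commutator_le_right _ _) with h' | h'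
  · exact h'
  exfalso
  haveI := Solv.fittingSubgroup_isNilpotent (G := G)
  obtain ⟨n, hn⟩ := (Subgroup.isNilpotent_iff_lowerCentralSeries _).mp
    (Solv.fittingSubgroup_isNilpotent (G := G))
  have hle : ∀ k, M ≤ (Cfsg.fittingSubgroup G).lowerCentralSeries k := by
    intro k
    induction k with
    | zero => simpa using hMF
    | succ k ih =>
      rw [Subgroup.lowerCentralSeries_succ, ← h', Subgroup.commutator_comm]
      exact Subgroup.commutator_mono ih le_rfl
  exact hM (le_bot_iff.mp (hn ▸ hle n))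

end Cfsg.Agent.S0583
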