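import Cfsg.Statements.S0590
import Cfsg.Agent.PSolv.Basic

set_option autoImplicit false
open Cfsg
open scoped commutatorElement

namespace Cfsg.Agent.S0590

/-- Quadratic action on an elementary abelian p-group forces the acting group modulo the kernel of the action to be elementary abelian. -/
theorem result {G : Type*} [Group G] [Finite G] {p : ℕ} [Fact p.Prime] (V H : Subgroup G) (hV : Cfsg.IsElementaryAbelian p V) (hHV : H ≤ Subgroup.normalizer (V : Set G)) (hq : ⁅⁅V, H⁆, H⁆ = ⊥) : ⁅H, H⁆ ≤ Subgroup.centralizer (V : Set G) ∧ ∀ a ∈ H, a ^ p ∈ Subgroup.centralizer (V : Set G) := by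
  haveI : IsMulCommutative V := hV.1
  have hHV' : ∀ h ∈ H, ∀ v ∈ V, h * v * h⁻¹ ∈ V := fun h hh v hv => (Subgroup.mem_normalizer_iff.mp (hHV hh) v).mp hv
  have h1 : ⁅⁅H, V⁆, H⁆ = ⊥ := by rw [Subgroup.commutator_comm H V]; exact hq
  refine ⟨?_, fun a ha => ?_⟩
  · have h2 := Subgroup.commutator_commutator_eq_bot_of_rotate h1 hq
    rwa [Subgroup.commutator_eq_bot_iff_le_centralizer] at h2
  · rw [Subgroup.mem_centralizer_iff]
    intro v hv
    set w := v⁻¹ * (a * v * a⁻¹) with hw
    have hwV : w ∈ V := V.mul_mem (V.inv_mem hv) (hHV' a ha v hv)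
    have hwa : a * w = w * a := by
      have hmem : w ∈ ⁅V, H⁆ := by
        have e : w = ⁅v⁻¹, a⁆ := by rw [hw, commutatorElement_def, inv_inv]; group
        rw [e]
        exact Subgroup.commutator_mem_commutator (V.inv_mem hv) ha
      exact Subgroup.mem_centralizer_iff.mp ((Subgroup.commutator_eq_bot_iff_le_centralizer.mp hq) hmem) a ha
    have hvw : v * w = w * v := congrArg Subtype.val (hV.1.is_comm.comm (⟨v, hv⟩ : V) ⟨w, hwV⟩)
    have key : ∀ n : ℕ, a ^ n * v * (a ^ n)⁻¹ = v * w ^ n := by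
      intro n
      induction n with
      | zero => simp
      | succ n ih =>
        have hwn : a * w ^ n = w ^ n * a := (show Commute a w from hwa).pow_right n
        calc a ^ (n + 1) * v * (a ^ (n + 1))⁻¹ = a * (a ^ n * v * (a ^ n)⁻¹) * a⁻¹ := by rw [pow_succ']; group
          _ = a * v * (w ^ n * a⁻¹) := by rw [ih]; group
          _ = a * v * (a⁻¹ * w ^ n) := by rw [(show Commute a (w ^ n) from hwn).inv_left.eq]
          _ = v * (w * w ^ n) := by
            rw [show a * v * (a⁻¹ * w ^ n) = (a * v * a⁻¹) * w ^ n by group, show a * v * a⁻¹ = v * w by rw [hw]; group]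
            group
          _ = v * w ^ (n + 1) := by rw [pow_succ']
    have hk := key p
    rw [hV.2 w hwV, mul_one] at hk
    calc v * a ^ p = a ^ p * v * (a ^ p)⁻¹ * a ^ p := by rw [hk]
      _ = a ^ p * v := by group

end Cfsg.Agent.S0590
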