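import Cfsg.Statements.S0591
import Cfsg.Agent.PSolv.Basic

set_option autoImplicit false
open Cfsg

namespace Cfsg.Agent.S0591

/-- For a quadratically acting element a on an elementary abelian p-group V, the fixed points C_V(a) have order at least the square root of the order of V. -/
theorem result {G : Type*} [Group G] [Finite G] {p : ℕ} [Fact p.Prime] (V : Subgroup G) (hV : Cfsg.IsElementaryAbelian p V) (a : G) (ha : a ∈ Subgroup.normalizer (V : Set G)) (hq : ⁅⁅V, Subgroup.zpowers a⁆, Subgroup.zpowers a⁆ = ⊥) : Nat.card V ≤ Nat.card ↥(V ⊓ Subgroup.centralizer (Subgroup.zpowers a : Set G)) ^ 2 := by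
  haveI : IsMulCommutative V := hV.1
  have hz := Subgroup.commutator_eq_bot_iff_le_centralizer.mp hq
  let f : ↥V →* ↥V :=
    { toFun := fun v => ⟨a * (v : G) * a⁻¹ * (v : G)⁻¹,
        V.mul_mem ((Subgroup.mem_normalizer_iff.mp ha (v : G)).mp v.2) (V.inv_mem v.2)⟩
      map_one' := Subtype.ext (by simp)
      map_mul' := fun v w => Subtype.ext (by
        show a * ((v : G) * w) * a⁻¹ * ((v : G) * w)⁻¹ = (a * v * a⁻¹ * (v : G)⁻¹) * (a * w * a⁻¹ * (w : G)⁻¹)
        have hc : Commute (v : G)⁻¹ (a * (w : G) * a⁻¹ * (w : G)⁻¹) :=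
          congrArg Subtype.val (hV.1.is_comm.comm v⁻¹ (⟨a * (w : G) * a⁻¹ * (w : G)⁻¹,
            V.mul_mem ((Subgroup.mem_normalizer_iff.mp ha (w : G)).mp w.2) (V.inv_mem w.2)⟩ : ↥V))
        calc a * ((v : G) * w) * a⁻¹ * ((v : G) * w)⁻¹
            = (a * v * a⁻¹) * ((a * w * a⁻¹ * (w : G)⁻¹) * (v : G)⁻¹) := by group
          _ = (a * v * a⁻¹) * ((v : G)⁻¹ * (a * w * a⁻¹ * (w : G)⁻¹)) := by rw [hc.eq]
          _ = (a * v * a⁻¹ * (v : G)⁻¹) * (a * w * a⁻¹ * (w : G)⁻¹) := by group) }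
  have hcent : ∀ x : G, a * x = x * a → x ∈ Subgroup.centralizer (Subgroup.zpowers a : Set G) := by
    intro x hx
    refine Subgroup.mem_centralizer_iff.mpr ?_
    rintro _ ⟨i, rfl⟩
    exact ((show Commute a x from hx).zpow_left i).eq
  have hker : Nat.card f.ker ≤ Nat.card ↥(V ⊓ Subgroup.centralizer (Subgroup.zpowers a : Set G)) := by
    refine Nat.card_le_card_of_injective (fun v => ⟨((v : ↥V) : G), (v : ↥V).2, hcent _ ?_⟩)
      fun x y h => Subtype.ext (Subtype.ext (congrArg Subtype.val h :))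
    have h := congrArg Subtype.val (MonoidHom.mem_ker.mp v.2)
    have h' : a * ((v : ↥V) : G) * a⁻¹ * ((v : ↥V) : G)⁻¹ = 1 := h
    calc a * ((v : ↥V) : G) = a * ((v : ↥V) : G) * a⁻¹ * ((v : ↥V) : G)⁻¹ * ((v : ↥V) : G) * a := by group
      _ = ((v : ↥V) : G) * a := by rw [h', one_mul]
  have hran : Nat.card f.range ≤ Nat.card ↥(V ⊓ Subgroup.centralizer (Subgroup.zpowers a : Set G)) := by
    refine Nat.card_le_card_of_injective (fun v => ⟨((v : ↥V) : G), (v : ↥V).2, ?_⟩)
      fun x y h => Subtype.ext (Subtype.ext (congrArg Subtype.val h :))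
    obtain ⟨w, hw⟩ := v.2
    refine hz ?_
    rw [← hw]
    show a * (w : G) * a⁻¹ * (w : G)⁻¹ ∈ _
    rw [Subgroup.commutator_comm]
    exact Subgroup.commutator_mem_commutator (Subgroup.mem_zpowers a) w.2
  rw [Subgroup.card_eq_card_quotient_mul_card_subgroup f.ker,
    Nat.card_congr (QuotientGroup.quotientKerEquivRange f).toEquiv, sq]
  exact Nat.mul_le_mul hran hker

end Cfsg.Agent.S0591
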