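import Cfsg.Statements.S0597
import Cfsg.Agent.Solv.Cores
import Cfsg.Agent.Solv.Subnormal
import Mathlib.Tactic.Group

set_option autoImplicit false
open Cfsg
open scoped commutatorElement

namespace Cfsg.Agent.S0597

/-- If two subnormal subgroups of a faithful group on an elementary abelian p-group satisfy [V, E₁, E₂] = 1, then their commutator lies in the largest normal p-subgroup. -/
theorem result {G : Type*} [Group G] [Finite G] {p : ℕ} [Fact p.Prime] (V H : Subgroup G) (hV : Cfsg.IsElementaryAbelian p V) (hHV : H ≤ Subgroup.normalizer (V : Set G)) (hf : H ⊓ Subgroup.centralizer (V : Set G) = ⊥) (E₁ E₂ : Subgroup G) (h₁ : E₁ ≤ H) (h₂ : E₂ ≤ H) (hs₁ : (E₁.subgroupOf H).IsSubnormal) (hs₂ : (E₂.subgroupOf H).IsSubnormal) (hc : ⁅⁅V, E₁⁆, E₂⁆ = ⊥) : ⁅E₁, E₂⁆ ≤ (Cfsg.pCore p H).map H.subtype := by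
  set U : Subgroup G := ⁅V, E₁⁆ with hU
  have hV2 := hV.2
  have hUV : U ≤ V := by
    rw [hU, Subgroup.commutator_le]
    intro v hv a ha
    have h := (Subgroup.mem_normalizer_iff.mp (hHV (h₁ ha)) v⁻¹).mp (V.inv_mem hv)
    have e : ⁅v, a⁆ = v * (a * v⁻¹ * a⁻¹) := by rw [commutatorElement_def]; group
    rw [e]; exact V.mul_mem hv h
  have hE₁U : E₁ ≤ Subgroup.normalizer (U : Set G) := Subgroup.normalizer_commutator_ge_right _ _
  have hE₂U : E₂ ≤ Subgroup.centralizer (U : Set G) :=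
    Subgroup.le_centralizer_iff.mp (Subgroup.commutator_eq_bot_iff_le_centralizer.mp hc)
  have hcomm : ∀ b ∈ E₂, ∀ u ∈ U, b * u * b⁻¹ = u := by
    intro b hb u hu
    rw [← Subgroup.mem_centralizer_iff.mp (hE₂U hb) u hu, mul_inv_cancel_right]
  let S : Subgroup G :=
    { carrier := {x | x ∈ H ∧ (∀ u ∈ U, x * u * x⁻¹ = u) ∧ ∀ v ∈ V, x * v * x⁻¹ * v⁻¹ ∈ U}
      one_mem' := ⟨H.one_mem, by simp, by simp⟩
      mul_mem' := by
        rintro x y ⟨hx, hxu, hxv⟩ ⟨hy, hyu, hyv⟩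
        refine ⟨H.mul_mem hx hy, fun u hu => ?_, fun v hv => ?_⟩
        · have e : x * y * u * (x * y)⁻¹ = x * (y * u * y⁻¹) * x⁻¹ := by group
          rw [e, hyu u hu, hxu u hu]
        · have hvy : y * v * y⁻¹ ∈ V := (Subgroup.mem_normalizer_iff.mp (hHV hy) v).mp hv
          have e : x * y * v * (x * y)⁻¹ * v⁻¹ =
              (x * (y * v * y⁻¹) * x⁻¹ * (y * v * y⁻¹)⁻¹) * (y * v * y⁻¹ * v⁻¹) := by group
          rw [e]; exact U.mul_mem (hxv _ hvy) (hyv v hv)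
      inv_mem' := by
        rintro x ⟨hx, hxu, hxv⟩
        refine ⟨H.inv_mem hx, fun u hu => ?_, fun v hv => ?_⟩
        · conv_lhs => rw [← hxu u hu]
          group
        · have hw : x⁻¹ * v * x ∈ V := by
            simpa using (Subgroup.mem_normalizer_iff.mp (hHV (H.inv_mem hx)) v).mp hv
          have h := U.inv_mem (hxv _ hw)
          have e : x⁻¹ * v * x⁻¹⁻¹ * v⁻¹ = (x * (x⁻¹ * v * x) * x⁻¹ * (x⁻¹ * v * x)⁻¹)⁻¹ := by group
          rw [e]; exact h }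
  have hDS : ⁅E₁, E₂⁆ ≤ S := by
    rw [Subgroup.commutator_le]
    intro a ha b hb
    refine ⟨?_, fun u hu => ?_, fun v hv => ?_⟩
    · rw [commutatorElement_def]
      exact H.mul_mem (H.mul_mem (H.mul_mem (h₁ ha) (h₂ hb)) (H.inv_mem (h₁ ha))) (H.inv_mem (h₂ hb))
    · have hu2 : a⁻¹ * u * a ∈ U := by
        simpa using (Subgroup.mem_normalizer_iff.mp (hE₁U (E₁.inv_mem ha)) u).mp hu
      have e : ⁅a, b⁆ * u * ⁅a, b⁆⁻¹ = a * (b * (a⁻¹ * (b⁻¹ * u * b⁻¹⁻¹) * a) * b⁻¹) * a⁻¹ := by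
        rw [commutatorElement_def]; group
      rw [e, hcomm _ (E₂.inv_mem hb) u hu, hcomm b hb _ hu2]
      group
    · have hb' : b⁻¹ * v * b ∈ V := by
        simpa using (Subgroup.mem_normalizer_iff.mp (hHV (H.inv_mem (h₂ hb))) v).mp hv
      set w := b * (a⁻¹ * (b⁻¹ * v * b) * a) * b⁻¹ with hw
      have hwV : w ∈ V := by
        refine (Subgroup.mem_normalizer_iff.mp (hHV (h₂ hb)) _).mp ?_
        simpa using (Subgroup.mem_normalizer_iff.mp (hHV (H.inv_mem (h₁ ha))) _).mp hb'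
      have hcU : ∀ c ∈ E₁, ∀ z ∈ V, c * z * c⁻¹ * z⁻¹ ∈ U := by
        intro c hc' z hz
        have := U.inv_mem (Subgroup.commutator_mem_commutator hz hc' : ⁅z, c⁆ ∈ U)
        simpa [commutatorElement_def, mul_assoc] using this
      have h1 : a⁻¹ * (b⁻¹ * v * b) * a⁻¹⁻¹ * (b⁻¹ * v * b)⁻¹ ∈ U := hcU _ (E₁.inv_mem ha) _ hb'
      have h2 : w * v⁻¹ ∈ U := by
        have := hcomm b hb _ h1
        have e : w * v⁻¹ = b * (a⁻¹ * (b⁻¹ * v * b) * a⁻¹⁻¹ * (b⁻¹ * v * b)⁻¹) * b⁻¹ := by rw [hw]; group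
        rw [e, this]; exact h1
      have e : ⁅a, b⁆ * v * ⁅a, b⁆⁻¹ * v⁻¹ = (a * w * a⁻¹ * w⁻¹) * (w * v⁻¹) := by
        rw [commutatorElement_def, hw]; group
      rw [e]; exact U.mul_mem (hcU a ha w hwV) h2
  have hexp : ∀ x ∈ S, x ^ p = 1 := by
    rintro x ⟨hx, hxu, hxv⟩
    have hmem : x ^ p ∈ H ⊓ Subgroup.centralizer (V : Set G) := by
      refine ⟨H.pow_mem hx p, Subgroup.mem_centralizer_iff.mpr fun v hv => ?_⟩
      set u := x * v * x⁻¹ * v⁻¹ with hu
      have hn : ∀ n : ℕ, x ^ n * v * (x ^ n)⁻¹ = u ^ n * v := by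
        intro n
        induction n with
        | zero => simp
        | succ n ih =>
          have e : x ^ (n + 1) * v * (x ^ (n + 1))⁻¹ = (x * u ^ n * x⁻¹) * (x * v * x⁻¹) := by
            calc x ^ (n + 1) * v * (x ^ (n + 1))⁻¹ = x * (x ^ n * v * (x ^ n)⁻¹) * x⁻¹ := by
                  rw [pow_succ']; group
              _ = _ := by rw [ih]; group
          rw [e, hxu _ (U.pow_mem (hxv v hv) n), pow_succ, hu]
          group
      have h := hn p
      rw [hV2 u (hUV (hxv v hv)), one_mul] at h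
      exact (mul_inv_eq_iff_eq_mul.mp h).symm
    rwa [hf, Subgroup.mem_bot] at hmem
  let A : Subgroup ↥H := E₁.subgroupOf H
  let B : Subgroup ↥H := E₂.subgroupOf H
  have hX : (A ⊔ B).IsSubnormal := Solv.isSubnormal_sup hs₁ hs₂
  have hle : ⁅A, B⁆ ≤ A ⊔ B :=
    (Subgroup.commutator_mono le_sup_left le_sup_right).trans (Subgroup.commutator_le_self _)
  have hn : (⁅A, B⁆.subgroupOf (A ⊔ B)).Normal :=
    (Subgroup.normal_subgroupOf_iff_le_normalizer hle).mpr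
      (sup_le (Subgroup.normalizer_commutator_ge_left _ _) (Subgroup.normalizer_commutator_ge_right _ _))
  have hmap : ⁅A, B⁆.map H.subtype = ⁅E₁, E₂⁆ := by
    rw [Subgroup.map_commutator, Subgroup.map_subgroupOf_eq_of_le h₁, Subgroup.map_subgroupOf_eq_of_le h₂]
  have hp : IsPGroup p ↥⁅A, B⁆ := by
    intro x
    refine ⟨1, Subtype.ext (Subtype.ext ?_)⟩
    have := hexp _ (hDS (hmap.le (Subgroup.mem_map_of_mem H.subtype x.2)))
    simpa using this
  rw [← hmap]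
  exact Subgroup.map_mono (Solv.le_pCore_of_isSubnormal (Subgroup.IsSubnormal.trans hle hn.isSubnormal hX) hp)

end Cfsg.Agent.S0597
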