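import Cfsg.Statements.S0599
import Cfsg.Agent.PLocal.Replacement
import Cfsg.Agent.Layer.PElement

set_option autoImplicit false
open Cfsg
open scoped commutatorElement

namespace Cfsg.Agent.S0599

/-- The Timmesfeld replacement Theorem: replacing a best offender A by C_A([U, A]) gives a best offender with fixed points [U, A]C_V(A), still nontrivial on V if A was. -/
theorem result {G : Type*} [Group G] [Finite G] {p : ℕ} [Fact p.Prime] (V A : Subgroup G) (hV : Cfsg.IsElementaryAbelian p V) (hAV : A ≤ Subgroup.normalizer (V : Set G)) (hA : Cfsg.IsBestOffenderOn p V A) (U : Subgroup G) (hU : U ≤ V) : Cfsg.IsBestOffenderOn p V (A ⊓ Subgroup.centralizer ((⁅U, A⁆ : Subgroup G) : Set G)) ∧ V ⊓ Subgroup.centralizer ((A ⊓ Subgroup.centralizer ((⁅U, A⁆ : Subgroup G) : Set G) : Subgroup G) : Set G) = ⁅U, A⁆ ⊔ (V ⊓ Subgroup.centralizer (A : Set G)) ∧ (⁅V, A⁆ ≠ ⊥ → ⁅V, A ⊓ Subgroup.centralizer ((⁅U, A⁆ : Subgroup G) : Set G)⁆ ≠ ⊥) :=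 by
  obtain ⟨h1, h2⟩ := Replacement.replacement hV.1 hAV hA.2.1 hA.1 U hU
  set B := A ⊓ Subgroup.centralizer ((⁅U, A⁆ : Subgroup G) : Set G) with hB
  refine ⟨⟨fun B' hB' => (hA.1 B' (hB'.trans inf_le_left)).trans h1.ge,
    (Subgroup.commutator_mono inf_le_left inf_le_left).trans hA.2.1, fun a ha => hA.2.2 a ha.1⟩, h2, fun hne hbot => hne ?_⟩
  have hp : p.Prime := Fact.out
  have hVB : V ≤ Subgroup.centralizer (B : Set G) := Subgroup.commutator_eq_bot_iff_le_centralizer.mp hbot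
  rw [inf_eq_left.mpr hVB] at h2
  set X := ⁅V, A⁆ with hX
  have hXV : X ≤ V := Subgroup.le_normalizer_iff_commutator_le_left.mp hAV
  -- a `p`-subgroup of `A` with the same action
  obtain ⟨P⟩ : Nonempty (Sylow p ↥A) := inferInstance
  set A₀ := (P : Subgroup ↥A).map A.subtype with hA₀
  set K := (Subgroup.centralizer (V : Set G)).subgroupOf A with hK
  haveI : K.Normal := Subgroup.normal_subgroupOf_of_le_normalizer
    (hAV.trans (fun g hg => by
      rw [Subgroup.mem_normalizer_iff_map_conj_eq]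
      refine Subgroup.eq_of_le_of_card_ge ?_ (Subgroup.card_map_of_injective (K := Subgroup.centralizer (V : Set G)) (MulAut.conj g).injective).ge
      rintro _ ⟨c, hc, rfl⟩
      refine Subgroup.mem_centralizer_iff.mpr fun v hv => ?_
      show v * (g * c * g⁻¹) = g * c * g⁻¹ * v
      have hv' : g⁻¹ * v * g ∈ V := (Subgroup.mem_normalizer_iff''.mp hg v).mp hv
      calc v * (g * c * g⁻¹) = g * (g⁻¹ * v * g * c) * g⁻¹ := by group
        _ = g * c * g⁻¹ * v := by rw [Subgroup.mem_centralizer_iff.mp hc _ hv']; group))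
  have hq : IsPGroup p (↥A ⧸ K) := fun x => by
    obtain ⟨a, rfl⟩ := QuotientGroup.mk'_surjective K x
    refine ⟨1, ?_⟩
    rw [pow_one, ← map_pow]
    exact (QuotientGroup.eq_one_iff _).mpr (hA.2.2 a a.2)
  have hgenA : ∀ a ∈ A, ∃ x ∈ A₀, x⁻¹ * a ∈ Subgroup.centralizer (V : Set G) := by
    intro a ha
    let Q : Sylow p (↥A ⧸ K) := P.mapSurjective (QuotientGroup.mk'_surjective K)
    have htop : (Q : Subgroup (↥A ⧸ K)) = ⊤ := (Q.3 (hq.to_subgroup ⊤) le_top).symm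
    obtain ⟨x, hx, he⟩ := ((Sylow.coe_mapSurjective _ P).symm.trans htop).ge (Subgroup.mem_top (QuotientGroup.mk' K ⟨a, ha⟩))
    have h' := QuotientGroup.eq.mp he
    exact ⟨x, ⟨x, hx, rfl⟩, h'⟩
  have hA₀A : A₀ ≤ A := Subgroup.map_subtype_le _
  have hV' : IsPGroup p ↥V := fun v => ⟨1, Subtype.ext (by simpa using hV.2 v v.2)⟩
  have hF : IsPGroup p ↥(A₀ ⊔ V) := PSolv.isPGroup_sup (P.isPGroup'.map _) hV' (hA₀A.trans hAV)
  refine Replacement.eq_bot_of_pGroup hF (hXV.trans le_sup_right) ?_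
  rw [hX, Subgroup.commutator_le]
  intro v hv a ha
  obtain ⟨x, hx, hxa⟩ := hgenA a ha
  have hvx : ⁅v, a⁆ = ⁅v, x⁆ := by
    have hc := Subgroup.mem_centralizer_iff.mp hxa v⁻¹ (V.inv_mem hv)
    rw [commutatorElement_def, commutatorElement_def]
    calc v * a * v⁻¹ * a⁻¹ = v * x * ((x⁻¹ * a) * v⁻¹) * (x⁻¹ * a)⁻¹ * x⁻¹ := by group
      _ = v * x * (v⁻¹ * (x⁻¹ * a)) * (x⁻¹ * a)⁻¹ * x⁻¹ := by rw [hc]
      _ = v * x * v⁻¹ * x⁻¹ := by group
  rw [hvx]
  have hvv := h2.le hv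
  have hvv' : v ∈ X ⊔ (V ⊓ Subgroup.centralizer (A : Set G)) :=
    (sup_le_sup_right (Subgroup.commutator_mono hU le_rfl) _) hvv
  rw [← SetLike.mem_coe, Subgroup.coe_mul_of_left_le_normalizer_right _ _ (fun g hg => Subgroup.centralizer_le_normalizer _
    (Subgroup.mem_centralizer_iff.mpr fun y hy => by
      haveI := hV.1
      exact setLike_mul_comm (hy : y ∈ V ⊓ Subgroup.centralizer (A : Set G)).1 (hXV hg)))] at hvv'
  obtain ⟨y, hy, z, hz, rfl⟩ := hvv'
  have e : ⁅y * z, x⁆ = ⁅y, x⁆ := by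
    have hzx : x * z⁻¹ = z⁻¹ * x := by
      have hh : Commute x z := Subgroup.mem_centralizer_iff.mp hz.2 x (hA₀A hx)
      exact hh.inv_right.eq
    rw [commutatorElement_def, commutatorElement_def]
    calc y * z * x * (y * z)⁻¹ * x⁻¹ = y * z * (x * z⁻¹) * y⁻¹ * x⁻¹ := by group
      _ = y * x * y⁻¹ * x⁻¹ := by rw [hzx]; group
  rw [e]
  exact Subgroup.commutator_mem_commutator hy (Subgroup.mem_sup_left hx)

end Cfsg.Agent.S0599
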