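import Cfsg.Statements.S0600
import Cfsg.Agent.Solv.Cores
import Cfsg.Agent.PSolv.Basic

set_option autoImplicit false
open Cfsg
open scoped commutatorElement

namespace Cfsg.Agent.S0600

/-- A normal elementary abelian p-subgroup generated by the fixed points of the Sylow p-subgroups admits no nontrivial normal p-subgroup of G modulo its centralizer. -/
theorem result {G : Type*} [Group G] [Finite G] {p : ℕ} [Fact p.Prime] (V : Subgroup G) [V.Normal] (hV : Cfsg.IsElementaryAbelian p V) (hgen : V = ⨆ S : Sylow p G, V ⊓ Subgroup.centralizer ((S : Subgroup G) : Set G)) : Cfsg.pCore p (G ⧸ Subgroup.centralizer (V : Set G)) = ⊥ := by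
  set C := Subgroup.centralizer (V : Set G) with hC
  haveI hCn : C.Normal := inferInstance
  set π := QuotientGroup.mk' C with hπ
  rw [eq_bot_iff]
  intro y hy
  obtain ⟨g, rfl⟩ := QuotientGroup.mk'_surjective C y
  rw [Subgroup.mem_bot]
  refine (QuotientGroup.eq_one_iff g).mpr ?_
  have hle : V ≤ Subgroup.centralizer {g} := by
    rw [hgen]
    refine iSup_le fun S => ?_
    rintro v ⟨hv, hvS⟩
    rw [Subgroup.mem_centralizer_singleton_iff]
    let Sb : Sylow p (G ⧸ C) := S.mapSurjective (QuotientGroup.mk'_surjective C)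
    have hgS : π g ∈ (S : Subgroup G).map π := by
      have := Solv.pCore_le_sylow Sb hy
      rwa [Sylow.coe_mapSurjective] at this
    obtain ⟨s, hs, he⟩ := hgS
    have hk : s⁻¹ * g ∈ C := QuotientGroup.eq.mp he
    have h1 : v * s = s * v := (Subgroup.mem_centralizer_iff.mp hvS s hs).symm
    have h2 : v * (s⁻¹ * g) = (s⁻¹ * g) * v := Subgroup.mem_centralizer_iff.mp hk v hv
    calc v * g = (v * s) * (s⁻¹ * g) := by group
      _ = s * (v * (s⁻¹ * g)) := by rw [h1, mul_assoc]
      _ = g * v := by rw [h2]; group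
  exact Subgroup.mem_centralizer_iff.mpr fun v hv => Subgroup.mem_centralizer_singleton_iff.mp (hle hv)

end Cfsg.Agent.S0600
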