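import Cfsg.Statements.S0601
import Cfsg.Agent.S0600
import Cfsg.Agent.Solv.Cores

set_option autoImplicit false
open Cfsg
open scoped commutatorElement

namespace Cfsg.Agent.S0601

/-- When O_p(G) contains its centralizer, the normal closure of Ω₁(Z(S)) is elementary abelian and G has no nontrivial normal p-subgroup modulo its centralizer. -/
theorem result {G : Type*} [Group G] [Finite G] {p : ℕ} [Fact p.Prime] (hc : Subgroup.centralizer (Cfsg.pCore p G : Set G) ≤ Cfsg.pCore p G) : (⨆ S : Sylow p G, Cfsg.omegaOne p (((S : Subgroup G)) ⊓ Subgroup.centralizer ((S : Subgroup G) : Set G))).Normal ∧ Cfsg.IsElementaryAbelian p (⨆ S : Sylow p G, Cfsg.omegaOne p (((S : Subgroup G)) ⊓ Subgroup.centralizer ((S : Subgroup G) : Set G))) ∧ ∀ D : Subgroup G, D.Normal → Subgroup.centralizer ((⨆ S : Sylow p G, Cfsg.omegaOne p (((S : Subgroup G)) ⊓ Subgroup.centralizer ((S : Subgroup G) : Set G)) : Subgroup G) : Set G) ≤ D → (∃ k : ℕ, (Subgroup.centralizer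 ((⨆ S : Sylow p G, Cfsg.omegaOne p (((S : Subgroup G)) ⊓ Subgroup.centralizer ((S : Subgroup G) : Set G)) : Subgroup G) : Set G)).relIndex D = p ^ k) → D = Subgroup.centralizer ((⨆ S : Sylow p G, Cfsg.omegaOne p (((S : Subgroup G)) ⊓ Subgroup.centralizer ((S : Subgroup G) : Set G)) : Subgroup G) : Set G) := by
  set Ω : Sylow p G → Subgroup G := fun S => Cfsg.omegaOne p (((S : Subgroup G)) ⊓ Subgroup.centralizer ((S : Subgroup G) : Set G)) with hΩ
  show (iSup Ω).Normal ∧ Cfsg.IsElementaryAbelian p (iSup Ω) ∧ ∀ D : Subgroup G, D.Normal → Subgroup.centralizer ((iSup Ω : Subgroup G) : Set G) ≤ D → (∃ k : ℕ, (Subgroup.centralizer ((iSup Ω : Subgroup G) : Set G)).relIndex D = p ^ k) → D = Subgroup.centralizer ((iSup Ω : Subgroup G) : Set G)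
  set W := iSup Ω with hW
  have hWn : W.Normal := by
    refine ⟨fun x hx g => ?_⟩
    suffices h : W ≤ W.comap (MulAut.conj g).toMonoidHom from h hx
    refine iSup_le fun S => ?_
    refine (Subgroup.closure_le _).mpr ?_
    rintro z ⟨⟨hzS, hzC⟩, hzp⟩
    refine Subgroup.mem_iSup_of_mem (g • S) (Subgroup.subset_closure ⟨⟨?_, ?_⟩, ?_⟩)
    · show g * z * g⁻¹ ∈ ((g • S : Sylow p G) : Subgroup G)
      rw [Sylow.coe_subgroup_smul]; exact ⟨z, hzS, rfl⟩
    · show g * z * g⁻¹ ∈ Subgroup.centralizer (((g • S : Sylow p G) : Subgroup G) : Set G)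
      rw [Subgroup.mem_centralizer_iff]
      intro y hy
      rw [SetLike.mem_coe, Sylow.coe_subgroup_smul] at hy
      obtain ⟨s, hs, rfl⟩ := hy
      show g * s * g⁻¹ * (g * z * g⁻¹) = g * z * g⁻¹ * (g * s * g⁻¹)
      rw [show g * s * g⁻¹ * (g * z * g⁻¹) = g * (s * z) * g⁻¹ by group, Subgroup.mem_centralizer_iff.mp hzC s hs]
      group
    · show (g * z * g⁻¹) ^ p = 1
      rw [conj_pow, hzp, mul_one, mul_inv_cancel]
  set Z := Cfsg.pCore p G ⊓ Subgroup.centralizer (Cfsg.pCore p G : Set G) with hZ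
  have hgens : ∀ S, Ω S ≤ Subgroup.closure {x : G | x ∈ Z ∧ x ^ p = 1} := by
    intro S
    refine Subgroup.closure_mono ?_
    rintro z ⟨⟨hzS, hzC⟩, hzp⟩
    have h1 : z ∈ Subgroup.centralizer (Cfsg.pCore p G : Set G) := Subgroup.centralizer_le (Solv.pCore_le_sylow S) hzC
    exact ⟨⟨hc h1, h1⟩, hzp⟩
  have hZab : ∀ a ∈ Z, ∀ b ∈ Z, a * b = b * a := fun a ha b hb => (Subgroup.mem_centralizer_iff.mp ha.2 b hb.1).symm
  let E : Subgroup G :=
    { carrier := {x | x ∈ Z ∧ x ^ p = 1}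
      one_mem' := ⟨Z.one_mem, one_pow p⟩
      mul_mem' := fun {a b} ha hb => ⟨Z.mul_mem ha.1 hb.1, by
        rw [(show Commute a b from hZab a ha.1 b hb.1).mul_pow, ha.2, hb.2, mul_one]⟩
      inv_mem' := fun {a} ha => ⟨Z.inv_mem ha.1, by rw [inv_pow, ha.2, inv_one]⟩ }
  have hWE : W ≤ E := iSup_le fun S => (hgens S).trans ((Subgroup.closure_le E).mpr fun _ h => h)
  have hel : Cfsg.IsElementaryAbelian p W :=
    ⟨⟨⟨fun a b => Subtype.ext (hZab a (hWE a.2).1 b (hWE b.2).1)⟩⟩, fun a ha => (hWE ha).2⟩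
  refine ⟨hWn, hel, fun D hDn hCD hpow => ?_⟩
  haveI := hWn
  have hgen : W = ⨆ S : Sylow p G, W ⊓ Subgroup.centralizer ((S : Subgroup G) : Set G) := by
    refine le_antisymm (iSup_le fun S => le_trans ?_ (le_iSup (fun S : Sylow p G => W ⊓ Subgroup.centralizer ((S : Subgroup G) : Set G)) S))
      (iSup_le fun S => inf_le_left)
    exact le_inf (le_iSup Ω S) ((Subgroup.closure_le _).mpr fun z hz => hz.1.2)
  have h0 := S0600.result W hel hgen
  refine le_antisymm ?_ hCD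
  obtain ⟨k, hk⟩ := hpow
  set C := Subgroup.centralizer (W : Set G) with hC
  have hcard : Nat.card ↥(D.map (QuotientGroup.mk' C)) = p ^ k := by
    rw [← Subgroup.relIndex_bot_left (D.map (QuotientGroup.mk' C)), ← hk,
      show (⊥ : Subgroup (G ⧸ C)) = C.map (QuotientGroup.mk' C) from ((Subgroup.map_eq_bot_iff C).mpr (by rw [QuotientGroup.ker_mk'])).symm,
      Subgroup.relIndex_map_map, QuotientGroup.ker_mk', sup_idem, sup_eq_left.mpr hCD]
  have hle := Solv.le_pCore (p := p) (hDn.map _ (QuotientGroup.mk'_surjective C)) (IsPGroup.of_card hcard)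
  rw [h0, le_bot_iff, Subgroup.map_eq_bot_iff, QuotientGroup.ker_mk'] at hle
  exact hle

end Cfsg.Agent.S0601
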