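import Cfsg.Statements.S0602
import Mathlib

set_option autoImplicit false
open Cfsg

namespace Cfsg.Agent.S0602

/-- The Thompson subgroup is characteristic, and nontrivial as soon as p divides the group order. -/
theorem result {G : Type*} [Group G] [Finite G] {p : ℕ} [Fact p.Prime] : (Cfsg.thompsonSubgroup p G).Characteristic ∧ (p ∣ Nat.card G → Cfsg.thompsonSubgroup p G ≠ ⊥) := by
  constructor
  · refine Subgroup.characteristic_iff_le_map.2 fun φ => ?_
    unfold Cfsg.thompsonSubgroup
    refine sSup_le fun A hA => ?_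
    have hmap : A.map φ.symm.toMonoidHom ∈ Cfsg.maxElementaryAbelianSubgroups p G := by
      obtain ⟨⟨hc, hp⟩, hmax⟩ := hA
      refine ⟨⟨⟨⟨?_⟩⟩, ?_⟩, fun B hB => ?_⟩
      · rintro ⟨_, a, ha, rfl⟩ ⟨_, b, hb, rfl⟩
        apply Subtype.ext
        show φ.symm a * φ.symm b = φ.symm b * φ.symm a
        rw [← map_mul, ← map_mul, show a * b = b * a from congrArg Subtype.val (hc.is_comm.comm ⟨a, ha⟩ ⟨b, hb⟩)]
      · rintro _ ⟨a, ha, rfl⟩
        rw [← map_pow, hp a ha, map_one]
      · exact (hmax B hB).trans_eq (Nat.card_congr (A.equivMapOfInjective _ φ.symm.injective).toEquiv)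
    intro a ha
    refine Subgroup.mem_map.2 ⟨φ.symm a, le_sSup hmap (Subgroup.mem_map_of_mem _ ha), ?_⟩
    exact φ.apply_symm_apply a
  · intro hdvd hbot
    obtain ⟨x, hx⟩ := exists_prime_orderOf_dvd_card' p hdvd
    have hE : Cfsg.IsElementaryAbelian p (Subgroup.zpowers x) := by
      refine ⟨inferInstance, fun a ha => ?_⟩
      obtain ⟨i, rfl⟩ := Subgroup.mem_zpowers_iff.1 ha
      rw [← zpow_natCast, zpow_comm, zpow_natCast, ← hx, pow_orderOf_eq_one, one_zpow]
    obtain ⟨A, hA, hmax⟩ := (Set.toFinite {A : Subgroup G | Cfsg.IsElementaryAbelian p A}).exists_maximalFor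
      (fun A : Subgroup G => Nat.card A) _ ⟨_, hE⟩
    have hmaxle : ∀ B : Subgroup G, Cfsg.IsElementaryAbelian p B → Nat.card B ≤ Nat.card A := by
      intro B hB
      by_contra h
      push Not at h
      exact absurd (hmax hB h.le) (not_le.2 h)
    have hAbot : A = ⊥ := le_bot_iff.1 (hbot ▸ le_sSup (show A ∈ Cfsg.maxElementaryAbelianSubgroups p G from ⟨hA, hmaxle⟩))
    have := hmaxle _ hE
    rw [hAbot, Subgroup.card_bot, Nat.card_zpowers, hx] at this
    exact absurd this (by have := (Fact.out : p.Prime).two_le; omega)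

end Cfsg.Agent.S0602
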