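import Cfsg.Statements.S0603
import Cfsg.Agent.PLocal.MaxElem

set_option autoImplicit false
open Cfsg

namespace Cfsg.Agent.S0603

/-- The Thompson subgroup of any subgroup containing J(G) is J(G) itself. -/
theorem result {G : Type*} [Group G] [Finite G] {p : ℕ} [Fact p.Prime] (U : Subgroup G) (hU : Cfsg.thompsonSubgroup p G ≤ U) : Cfsg.thompsonSubgroupOf p U = Cfsg.thompsonSubgroup p G := by
  obtain ⟨A, hA⟩ := PLocal.exists_maxElementaryAbelian p G
  rw [MaxElem.thompsonOf_eq hA ((le_sSup hA : A ≤ Cfsg.thompsonSubgroup p G).trans hU)]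
  refine le_antisymm (sSup_le fun B hB => le_sSup hB.1) (sSup_le fun B hB => le_sSup ⟨hB, ?_⟩)
  exact (le_sSup hB : B ≤ Cfsg.thompsonSubgroup p G).trans hU

end Cfsg.Agent.S0603
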