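import Cfsg.Statements.S0604
import Cfsg.Agent.PLocal.MaxElem

set_option autoImplicit false
open Cfsg

namespace Cfsg.Agent.S0604

/-- The Thompson subgroup of G is the join of the Thompson subgroups of its Sylow p-subgroups. -/
theorem result {G : Type*} [Group G] [Finite G] {p : ℕ} [Fact p.Prime] : Cfsg.thompsonSubgroup p G = ⨆ S : Sylow p G, Cfsg.thompsonSubgroupOf p (S : Subgroup G) := by
  obtain ⟨A, hA⟩ := PLocal.exists_maxElementaryAbelian p G
  have hsyl : ∀ B ∈ Cfsg.maxElementaryAbelianSubgroups p G, ∃ S : Sylow p G, B ≤ (S : Subgroup G) := fun B hB =>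
    (show IsPGroup p B from fun b => ⟨1, Subtype.ext (by simpa using hB.1.2 b b.2)⟩).exists_le_sylow
  have hany : ∀ S : Sylow p G, ∃ B ∈ Cfsg.maxElementaryAbelianSubgroups p G, B ≤ (S : Subgroup G) := by
    intro S
    obtain ⟨T, hT⟩ := hsyl A hA
    obtain ⟨g, hg⟩ := MulAction.exists_smul_eq G T S
    refine ⟨A.map (MulAut.conj g).toMonoidHom, PLocal.map_maxElementaryAbelian (MulAut.conj g) hA, ?_⟩
    rintro _ ⟨a, ha, rfl⟩
    rw [← hg, Sylow.coe_subgroup_smul]
    exact Subgroup.smul_mem_pointwise_smul _ (MulAut.conj g) _ (hT ha)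
  refine le_antisymm (sSup_le fun B hB => ?_) (iSup_le fun S => ?_)
  · obtain ⟨S, hS⟩ := hsyl B hB
    refine le_trans ?_ (le_iSup _ S)
    rw [MaxElem.thompsonOf_eq hB hS]
    exact le_sSup ⟨hB, hS⟩
  · obtain ⟨B, hB, hS⟩ := hany S
    rw [MaxElem.thompsonOf_eq hB hS]
    exact sSup_le fun C hC => le_sSup hC.1

end Cfsg.Agent.S0604
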