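import Cfsg.Statements.S0606
import Cfsg.Agent.PLocal.MaxElem

set_option autoImplicit false
open Cfsg
open scoped commutatorElement

namespace Cfsg.Agent.S0606

/-- Elementary abelian p-subgroups of maximal order are best offenders on any normal elementary abelian p-subgroup. -/
theorem result {G : Type*} [Group G] [Finite G] {p : ℕ} [Fact p.Prime] (V : Subgroup G) [V.Normal] (hV : Cfsg.IsElementaryAbelian p V) (A : Subgroup G) (hA : A ∈ Cfsg.maxElementaryAbelianSubgroups p G) : Cfsg.IsBestOffenderOn p V A := by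
  have hAc : ∀ a ∈ A, ∀ b ∈ A, a * b = b * a := fun a ha b hb =>
    congrArg Subtype.val (hA.1.1.is_comm.comm (⟨a, ha⟩ : A) ⟨b, hb⟩)
  refine ⟨fun B hB => ?_, ?_, fun a ha => by rw [hA.1.2 a ha]; exact one_mem _⟩
  · set C := V ⊓ Subgroup.centralizer (B : Set G) with hC
    have hcomm : ∀ b ∈ B, ∀ c ∈ C, b * c = c * b := fun b hb c hc => Subgroup.mem_centralizer_iff.mp hc.2 b hb
    rw [MaxElem.card_mul_inf hcomm]
    refine Nat.mul_le_mul (hA.2 _ ⟨?_, ?_⟩) (Subgroup.card_le_of_le ?_)
    · rw [← Subgroup.closure_eq B, ← Subgroup.closure_eq C, ← Subgroup.closure_union]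
      refine Subgroup.isMulCommutative_closure ?_
      rintro a (ha | ha) b (hb | hb)
      · exact hAc a (hB ha) b (hB hb)
      · exact hcomm a ha b hb
      · exact (hcomm b hb a ha).symm
      · exact congrArg Subtype.val (hV.1.is_comm.comm (⟨a, ha.1⟩ : V) ⟨b, hb.1⟩)
    · intro x hx
      have hle : B ≤ Subgroup.normalizer (C : Set G) := fun b hb => Subgroup.mem_normalizer_iff.mpr fun c => by
        constructor
        · intro hc
          rwa [hcomm b hb c hc, mul_inv_cancel_right]
        · intro hc
          have h1 := hcomm b hb _ hc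
          have h2 : b * c * b⁻¹ = c := by
            apply mul_left_cancel (a := b)
            rw [h1]; group
          rwa [h2] at hc
      have hx' : x ∈ ((B ⊔ C : Subgroup G) : Set G) := hx
      rw [Subgroup.coe_mul_of_left_le_normalizer_right B C hle] at hx'
      obtain ⟨b, hb, c, hc, rfl⟩ := hx'
      rw [Commute.mul_pow (hcomm b hb c hc), hA.1.2 b (hB hb), hV.2 c hc.1, one_mul]
    · exact fun x hx => ⟨hx.2.1, Subgroup.mem_centralizer_iff.mpr fun a ha => hAc a ha x (hB hx.1)⟩
  · refine Subgroup.commutator_le.mpr fun a ha b hb => ?_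
    rw [commutatorElement_eq_one_iff_mul_comm.mpr (hAc a ha b hb)]
    exact one_mem _

end Cfsg.Agent.S0606
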