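import Cfsg.Statements.S0607
import Cfsg.Agent.PLocal.Replacement

set_option autoImplicit false
open Cfsg
open scoped commutatorElement

namespace Cfsg.Agent.S0607

/-- The replacement Theorem for the Thompson subgroup: from A of maximal order among elementary abelian p-subgroups one obtains A₀ = [V, A] C_A([V, A]) of the same kind, quadratic on V and nontrivial on V when A is. -/
theorem result {G : Type*} [Group G] [Finite G] {p : ℕ} [Fact p.Prime] (V : Subgroup G) [V.Normal] (hV : Cfsg.IsElementaryAbelian p V) (A : Subgroup G) (hA : A ∈ Cfsg.maxElementaryAbelianSubgroups p G) : (⁅V, A⁆ ⊔ (A ⊓ Subgroup.centralizer ((⁅V, A⁆ : Subgroup G) : Set G))) ∈ Cfsg.maxElementaryAbelianSubgroups p G ∧ ⁅⁅V, ⁅V, A⁆ ⊔ (A ⊓ Subgroup.centralizer ((⁅V, A⁆ : Subgroup G) : Set G))⁆, ⁅V, A⁆ ⊔ (A ⊓ Subgroup.centralizer ((⁅V, A⁆ : Subgroup G) : Set G))⁆ = ⊥ ∧ (⁅V, A⁆ ≠ ⊥ → ⁅V, ⁅V, A⁆ ⊔ (A ⊓ Subgroup.centralizer ((⁅V, A⁆ : Subgroup G) : Set G))⁆ ≠ ⊥) := by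
  classical
  have hp : p.Prime := Fact.out
  haveI := hA.1.1
  haveI := hV.1
  have hAV : A ≤ Subgroup.normalizer (V : Set G) := by rw [Subgroup.normalizer_eq_top_iff.mpr inferInstance]; exact le_top
  have hab : ⁅A, A⁆ ≤ Subgroup.centralizer (V : Set G) := by
    rw [Subgroup.commutator_le]
    intro a ha b hb
    rw [commutatorElement_eq_one_iff_mul_comm.mpr (setLike_mul_comm ha hb)]
    exact one_mem _
  have hVA : V ⊓ Subgroup.centralizer (A : Set G) = V ⊓ A := le_antisymm
    (le_inf inf_le_left fun v hv => MaxElem.mem_of_max hA hv.2 (hV.2 v hv.1))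
    (le_inf inf_le_left fun v hv => Subgroup.mem_centralizer_iff.mpr fun a ha => setLike_mul_comm ha hv.2)
  have hel : ∀ B : Subgroup G, B ≤ A → Cfsg.IsElementaryAbelian p (B ⊔ (V ⊓ Subgroup.centralizer (B : Set G))) := by
    intro B hB
    set S := (B : Set G) ∪ ((V ⊓ Subgroup.centralizer (B : Set G) : Subgroup G) : Set G) with hS
    have hc : ∀ a ∈ S, ∀ b ∈ S, a * b = b * a := by
      rintro a (ha | ha) b (hb | hb)
      · exact setLike_mul_comm (hB ha) (hB hb)
      · exact Subgroup.mem_centralizer_iff.mp hb.2 a ha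
      · exact (Subgroup.mem_centralizer_iff.mp ha.2 b hb).symm
      · exact setLike_mul_comm ha.1 hb.1
    have e : B ⊔ (V ⊓ Subgroup.centralizer (B : Set G)) = Subgroup.closure S := by
      rw [hS, Subgroup.closure_union, Subgroup.closure_eq, Subgroup.closure_eq]
    rw [e]
    haveI := Subgroup.isMulCommutative_closure hc
    refine ⟨inferInstance, fun x hx => ?_⟩
    induction hx using Subgroup.closure_induction with
    | mem y hy => rcases hy with hy | hy; exacts [hA.1.2 y (hB hy), hV.2 y hy.1]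
    | one => exact one_pow p
    | mul a b ha hb iha ihb => rw [(show Commute a b from setLike_mul_comm ha hb).mul_pow, iha, ihb, one_mul]
    | inv a _ iha => rw [inv_pow, iha, inv_one]
  have hcardB : ∀ B : Subgroup G, B ≤ A → Replacement.meas V B =
      Nat.card ↥(B ⊔ (V ⊓ Subgroup.centralizer (B : Set G))) * Nat.card ↥(B ⊓ (V ⊓ Subgroup.centralizer (B : Set G))) :=
    fun B _ => MaxElem.card_mul_inf fun b hb c hc => Subgroup.mem_centralizer_iff.mp hc.2 b hb
  have hmax : ∀ B : Subgroup G, B ≤ A → Replacement.meas V B ≤ Replacement.meas V A := by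
    intro B hB
    rw [hcardB B hB]
    show _ ≤ Nat.card ↥A * Nat.card ↥(V ⊓ Subgroup.centralizer (A : Set G))
    refine Nat.mul_le_mul (hA.2 _ (hel B hB)) (Subgroup.card_le_of_le ?_)
    rw [hVA]
    exact le_inf (inf_le_right.trans inf_le_left) (inf_le_left.trans hB)
  obtain ⟨h1, h2⟩ := Replacement.replacement hV.1 hAV hab hmax V le_rfl
  set X := ⁅V, A⁆ with hX
  set B := A ⊓ Subgroup.centralizer (X : Set G) with hB
  have hXV : X ≤ V := Subgroup.le_normalizer_iff_commutator_le_left.mp hAV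
  set CB := V ⊓ Subgroup.centralizer (B : Set G) with hCB
  have hsup : X ⊔ B = B ⊔ CB := by
    rw [h2, hVA]
    refine le_antisymm (sup_le (le_sup_left.trans le_sup_right) le_sup_left) (sup_le le_sup_right (sup_le le_sup_left ?_))
    refine le_trans (le_inf inf_le_right ?_) le_sup_right
    intro v hv
    exact Subgroup.mem_centralizer_iff.mpr fun x hx => setLike_mul_comm (hXV hx) hv.1
  have hinf : B ⊓ CB = V ⊓ A := by
    refine le_antisymm (le_inf (inf_le_right.trans inf_le_left) (inf_le_left.trans inf_le_left)) ?_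
    refine le_inf (le_inf inf_le_right ?_) (le_inf inf_le_left ?_)
    · intro v hv
      exact Subgroup.mem_centralizer_iff.mpr fun x hx => setLike_mul_comm (hXV hx) hv.1
    · intro v hv
      exact Subgroup.mem_centralizer_iff.mpr fun x hx => setLike_mul_comm hx.1 hv.2
  have hcard : Nat.card ↥(X ⊔ B) = Nat.card ↥A := by
    have h3 := hcardB B inf_le_left
    rw [h1, hinf, ← hsup] at h3
    have h4 : Nat.card ↥A * Nat.card ↥(V ⊓ A) = Nat.card ↥(X ⊔ B) * Nat.card ↥(V ⊓ A) := by
      rw [← h3, ← hVA]; rfl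
    exact (Nat.eq_of_mul_eq_mul_right Nat.card_pos h4).symm
  have hel0 : Cfsg.IsElementaryAbelian p (X ⊔ B) := hsup ▸ hel B inf_le_left
  refine ⟨⟨hel0, fun E hE => (hA.2 E hE).trans hcard.ge⟩, ?_, fun hne hbot => hne ?_⟩
  · rw [Subgroup.commutator_eq_bot_iff_le_centralizer]
    have h5 : ⁅V, X ⊔ B⁆ ≤ X := by
      have hA0 : X ⊔ B ≤ Subgroup.centralizer (V : Set G) ⊔ A := sup_le
        ((show X ≤ Subgroup.centralizer (V : Set G) from fun x hx => Subgroup.mem_centralizer_iff.mpr fun v hv => setLike_mul_comm hv (hXV hx)).trans le_sup_left)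
        (inf_le_left.trans le_sup_right)
      rw [Subgroup.commutator_le]
      intro v hv y hy
      obtain ⟨c, hc, a, ha, rfl⟩ := Subgroup.mem_sup_of_normal_left.mp (hA0 hy)
      have hm : ⁅v, a⁆ ∈ X := Subgroup.commutator_mem_commutator hv ha
      have hcv : v * c = c * v := Subgroup.mem_centralizer_iff.mp hc v hv
      have e : ⁅v, c * a⁆ = c * ⁅v, a⁆ * c⁻¹ := by
        rw [commutatorElement_def, commutatorElement_def]
        calc v * (c * a) * v⁻¹ * (c * a)⁻¹ = (v * c) * a * v⁻¹ * a⁻¹ * c⁻¹ := by group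
          _ = c * (v * a * v⁻¹ * a⁻¹) * c⁻¹ := by rw [hcv]; group
      rw [e, ← Subgroup.mem_centralizer_iff.mp hc _ (hXV hm), mul_inv_cancel_right]
      exact hm
    intro x hx
    exact Subgroup.mem_centralizer_iff.mpr fun y hy => by
      haveI := hel0.1
      exact setLike_mul_comm hy (Subgroup.mem_sup_left (h5 hx))
  · have hVB : V ≤ Subgroup.centralizer (B : Set G) :=
      (Subgroup.commutator_eq_bot_iff_le_centralizer.mp hbot).trans (Subgroup.centralizer_le (SetLike.coe_subset_coe.mpr le_sup_right))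
    have hV2 : V ≤ X ⊔ (V ⊓ Subgroup.centralizer (A : Set G)) := by rw [← h2, hCB, inf_eq_left.mpr hVB]
    have hAp : IsPGroup p ↥A := fun a => ⟨1, Subtype.ext (by simpa using hA.1.2 a a.2)⟩
    have hVp : IsPGroup p ↥V := fun v => ⟨1, Subtype.ext (by simpa using hV.2 v v.2)⟩
    refine Replacement.eq_bot_of_pGroup (PSolv.isPGroup_sup hAp hVp hAV) (hXV.trans le_sup_right) ?_
    refine le_trans ?_ (Subgroup.commutator_mono le_rfl (le_sup_left : A ≤ A ⊔ V))
    rw [hX, Subgroup.commutator_le]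
    intro v hv a ha
    have hvv := hV2 hv
    rw [← SetLike.mem_coe, Subgroup.coe_mul_of_left_le_normalizer_right X _ (fun g hg => Subgroup.centralizer_le_normalizer _
      (Subgroup.mem_centralizer_iff.mpr fun y hy => setLike_mul_comm (hy : y ∈ V ⊓ Subgroup.centralizer (A : Set G)).1 (hXV hg)))] at hvv
    obtain ⟨y, hy, z, hz, rfl⟩ := hvv
    have hh : Commute a z := Subgroup.mem_centralizer_iff.mp hz.2 a ha
    have e : ⁅y * z, a⁆ = ⁅y, a⁆ := by
      rw [commutatorElement_def, commutatorElement_def]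
      calc y * z * a * (y * z)⁻¹ * a⁻¹ = y * z * (a * z⁻¹) * y⁻¹ * a⁻¹ := by group
        _ = y * a * y⁻¹ * a⁻¹ := by rw [hh.inv_right.eq]; group
    rw [e]
    exact Subgroup.commutator_mem_commutator hy ha

end Cfsg.Agent.S0607
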