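import Cfsg.Statements.S0608
import Cfsg.Agent.PLocal.MaxElem
import Cfsg.Agent.Layer.PElement
import Cfsg.Agent.S0604

set_option autoImplicit false
open Cfsg

namespace Cfsg.Agent.S0608

/-- With trivial p'-core, Thompson factorizability is equivalent to J(G) centralizing the subgroup generated by all Ω₁(Z(S)), S Sylow. -/
theorem result {G : Type*} [Group G] [Finite G] {p : ℕ} [Fact p.Prime] (hO : Cfsg.pPrimeCore p G = ⊥) : Cfsg.IsThompsonFactorizable p G ↔ Cfsg.thompsonSubgroup p G ≤ Subgroup.centralizer ((⨆ S : Sylow p G, Cfsg.omegaOne p (((S : Subgroup G)) ⊓ Subgroup.centralizer ((S : Subgroup G) : Set G)) : Subgroup G) : Set G) := by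
  classical
  set Z := fun S : Sylow p G => Cfsg.omegaOne p ((S : Subgroup G) ⊓ Subgroup.centralizer ((S : Subgroup G) : Set G)) with hZ
  have hZconj : ∀ (S : Sylow p G) (g : G), Z (g • S) = (Z S).map (MulAut.conj g).toMonoidHom := by
    intro S g
    have hS : ((g • S : Sylow p G) : Subgroup G) = (S : Subgroup G).map (MulAut.conj g).toMonoidHom := rfl
    show Cfsg.omegaOne p _ = (Cfsg.omegaOne p _).map _
    rw [hS, ← PLocal.omegaOne_map (MulAut.conj g).injective, PLocal.map_inf_centralizer_self (MulAut.conj g).injective]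
  have hJc : ∀ S : Sylow p G, Cfsg.thompsonSubgroupOf p (S : Subgroup G) ≤ Subgroup.centralizer (Z S : Set G) := by
    intro S
    refine (Subgroup.map_subtype_le _).trans ?_
    refine (Subgroup.le_centralizer_iff).mp ?_
    exact (PLocal.omegaOne_le _).trans inf_le_right
  constructor
  · intro hfac
    rw [Subgroup.le_centralizer_iff]
    refine iSup_le fun S' => ?_
    rw [Subgroup.le_centralizer_iff, S0604.result]
    refine iSup_le fun S => ?_
    obtain ⟨g, rfl⟩ := MulAction.exists_smul_eq G S S'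
    obtain ⟨x, hx, c, hc, n, hn, he⟩ := hfac S g⁻¹
    rw [hO, Subgroup.mem_bot] at hx
    subst hx
    rw [one_mul] at he
    have hg : g = n⁻¹ * c⁻¹ := by rw [← mul_inv_rev, ← he, inv_inv]
    rw [hZconj, hg, ← ConjFam.conjMap_conjMap, show (Z S).map (MulAut.conj c⁻¹).toMonoidHom = Z S from by
      refine ConjFam.mem_normalizer_iff_conjMap.mp (Subgroup.centralizer_le_normalizer _ (Subgroup.inv_mem _ hc))]
    rw [Subgroup.le_centralizer_iff]
    rintro _ ⟨z, hz, rfl⟩
    show n⁻¹ * z * n⁻¹⁻¹ ∈ Subgroup.centralizer (Cfsg.thompsonSubgroupOf p (S : Subgroup G) : Set G)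
    refine Subgroup.mem_centralizer_iff.mpr fun j hj => ?_
    have hj' : n * j * n⁻¹ ∈ Cfsg.thompsonSubgroupOf p (S : Subgroup G) := (Subgroup.mem_normalizer_iff.mp hn j).mp hj
    have h1 : z * (n * j * n⁻¹) = n * j * n⁻¹ * z := Subgroup.mem_centralizer_iff.mp (hJc S hj') z hz
    calc j * (n⁻¹ * z * n⁻¹⁻¹) = n⁻¹ * (n * j * n⁻¹ * z) * n := by group
      _ = n⁻¹ * (z * (n * j * n⁻¹)) * n := by rw [h1]
      _ = n⁻¹ * z * n⁻¹⁻¹ * j := by group
  · intro hJ S g
    set V := ⨆ S : Sylow p G, Z S with hV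
    set C := Subgroup.centralizer (V : Set G) with hC
    haveI hVn : V.Normal := by
      rw [← Subgroup.normalizer_eq_top_iff, eq_top_iff]
      intro g _
      refine ConjFam.mem_normalizer_iff_conjMap.mpr ?_
      rw [hV, Subgroup.map_iSup]
      refine le_antisymm (iSup_le fun T => le_trans (hZconj T g).ge (le_iSup Z (g • T))) (iSup_le fun T => ?_)
      refine le_trans ?_ (le_iSup (fun i => (Z i).map (MulAut.conj g).toMonoidHom) (g⁻¹ • T))
      rw [← hZconj, smul_inv_smul]
    haveI : C.Normal := inferInstance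
    have hi : ¬ p ∣ ((S : Subgroup G).subgroupOf C).index := fun hd =>
      S.not_dvd_index (hd.trans (Layer.relIndex_dvd_index_normal _ C))
    let P : Sylow p ↥C := (S.isPGroup'.comap_subtype (K := C)).toSylow hi
    set T := (P : Subgroup ↥C).map C.subtype with hT
    have hTeq : T = (S : Subgroup G) ⊓ C := Subgroup.subgroupOf_map_subtype _ _
    obtain ⟨A, hA⟩ := PLocal.exists_maxElementaryAbelian p G
    obtain ⟨Q, hQ⟩ := (show IsPGroup p A from fun b => ⟨1, Subtype.ext (by simpa using hA.1.2 b b.2)⟩).exists_le_sylow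
    obtain ⟨m, hm⟩ := MulAction.exists_smul_eq G Q S
    have hA' : A.map (MulAut.conj m).toMonoidHom ∈ Cfsg.maxElementaryAbelianSubgroups p G :=
      PLocal.map_maxElementaryAbelian (MulAut.conj m) hA
    have hA'S : A.map (MulAut.conj m).toMonoidHom ≤ (S : Subgroup G) := by
      rintro _ ⟨a, ha, rfl⟩
      rw [← hm, Sylow.coe_subgroup_smul]
      exact Subgroup.smul_mem_pointwise_smul _ (MulAut.conj m) _ (hQ ha)
    have hAC : ∀ B ∈ Cfsg.maxElementaryAbelianSubgroups p G, B ≤ C := fun B hB => (le_sSup hB).trans hJ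
    have hJT : Cfsg.thompsonSubgroupOf p T = Cfsg.thompsonSubgroupOf p (S : Subgroup G) := by
      rw [MaxElem.thompsonOf_eq hA' (hTeq ▸ le_inf hA'S (hAC _ hA')), MaxElem.thompsonOf_eq hA' hA'S]
      refine le_antisymm (sSup_le fun B hB => le_sSup ⟨hB.1, hB.2.trans (hTeq ▸ inf_le_left)⟩)
        (sSup_le fun B hB => le_sSup ⟨hB.1, hTeq ▸ le_inf hB.2 (hAC B hB.1)⟩)
    haveI : (Cfsg.thompsonSubgroup p ↥T).Characteristic :=
      Subgroup.characteristic_iff_map_eq.mpr fun e => PLocal.map_thompsonSubgroup e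
    have hNJ : Subgroup.normalizer (T : Set G) ≤
        Subgroup.normalizer ((Cfsg.thompsonSubgroupOf p (S : Subgroup G) : Subgroup G) : Set G) := by
      rw [← hJT]; exact Layer.normalizer_le_normalizer_char _
    have hfr : Subgroup.normalizer (T : Set G) ⊔ C = ⊤ := Sylow.normalizer_sup_eq_top P
    have hg : g ∈ C ⊔ Subgroup.normalizer (T : Set G) := by rw [sup_comm, hfr]; trivial
    obtain ⟨c, hc, n, hn, rfl⟩ := Subgroup.mem_sup_of_normal_left.mp hg
    exact ⟨1, one_mem _, c, Subgroup.centralizer_le (le_iSup Z S) hc, n, hNJ hn, by rw [one_mul]⟩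

end Cfsg.Agent.S0608
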