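import Cfsg.Statements.S0609
import Cfsg.Agent.PSolv.Basic
import Cfsg.Agent.PLocal.Thompson
import Cfsg.Agent.Coprime.SylowFusion

set_option autoImplicit false
open Cfsg

namespace Cfsg.Agent.S0609

theorem key.{u} {G H : Type u} [Group G] [Group H] {p : ℕ} (f : G →* H) (S : Subgroup G)
    (hinj : Function.Injective (f.comp S.subtype)) :
    Cfsg.omegaOne p (S.map f ⊓ Subgroup.centralizer ((S.map f : Subgroup H) : Set H)) =
      (Cfsg.omegaOne p (S ⊓ Subgroup.centralizer (S : Set G))).map f ∧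
    (thompsonSubgroup p ↥(S.map f)).map (S.map f).subtype =
      ((thompsonSubgroup p ↥S).map S.subtype).map f := by
  constructor
  · have h1 := PLocal.map_inf_centralizer_self hinj (⊤ : Subgroup ↥S)
    have h2 := PLocal.map_inf_centralizer_self S.subtype_injective (⊤ : Subgroup ↥S)
    rw [← MonoidHom.range_eq_map, MonoidHom.range_comp, Subgroup.range_subtype] at h1
    rw [← MonoidHom.range_eq_map S.subtype, Subgroup.range_subtype] at h2
    rw [← h1, ← h2, PLocal.omegaOne_map hinj, PLocal.omegaOne_map S.subtype_injective,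
      Subgroup.map_map]
  · have hi : Function.Injective (f.subgroupMap S) := fun a b h => hinj (congrArg Subtype.val h)
    let e : ↥S ≃* ↥(S.map f) := MulEquiv.ofBijective (f.subgroupMap S) ⟨hi, f.subgroupMap_surjective S⟩
    rw [← PLocal.map_thompsonSubgroup e, Subgroup.map_map, Subgroup.map_map]
    rfl

/-- Thompson factorizability passes to and from the quotient by the largest normal subgroup of order prime to p. -/
theorem result {G : Type*} [Group G] [Finite G] {p : ℕ} [Fact p.Prime] : Cfsg.IsThompsonFactorizable p G ↔ Cfsg.IsThompsonFactorizable p (G ⧸ Cfsg.pPrimeCore p G) := by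
  set K : Subgroup G := Cfsg.pPrimeCore p G with hK
  let f := QuotientGroup.mk' K
  have hf : Function.Surjective f := QuotientGroup.mk'_surjective K
  have hfK : ∀ {x : G}, f x = 1 ↔ x ∈ K := fun {x} => QuotientGroup.eq_one_iff x
  have hKp : ¬ p ∣ Nat.card K := PSolv.not_dvd_pPrimeCore
  have hinj : ∀ S : Sylow p G, Function.Injective (f.comp (S : Subgroup G).subtype) := fun S => by
    refine (injective_iff_map_eq_one _).mpr fun x hx => Subtype.ext ?_
    exact PSolv.eq_one_of_mem S.2 hKp x.2 (hfK.mp hx)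
  constructor
  · intro h Sb gb
    obtain ⟨S, rfl⟩ := Sylow.mapSurjective_surjective hf p Sb
    obtain ⟨g, rfl⟩ := hf gb
    obtain ⟨x, hx, c, hc, n, hn, rfl⟩ := h S g
    obtain ⟨hΩ, hJ⟩ := key (p := p) f (S : Subgroup G) (hinj S)
    refine ⟨1, one_mem _, f c, ?_, f n, ?_, by rw [map_mul, map_mul, hfK.mpr hx]⟩
    · rw [Sylow.coe_mapSurjective, hΩ, Subgroup.mem_centralizer_iff]
      rintro _ ⟨y, hy, rfl⟩
      rw [← map_mul, ← map_mul, Subgroup.mem_centralizer_iff.mp hc y hy]
    · rw [Sylow.coe_mapSurjective]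
      rw [show Cfsg.thompsonSubgroupOf p ((S : Subgroup G).map f) = _ from hJ]
      refine SylowFusion.mem_normalizer_of_conj_mem ?_
      rintro _ ⟨y, hy, rfl⟩
      exact ⟨n * y * n⁻¹, (Subgroup.mem_normalizer_iff.mp hn y).mp hy, by rw [map_mul, map_mul, map_inv]⟩
  · intro h S g
    obtain ⟨hΩ, hJ⟩ := key (p := p) f (S : Subgroup G) (hinj S)
    obtain ⟨xb, hxb, cb, hcb, nb, hnb, hg⟩ := h (S.mapSurjective hf) (f g)
    rw [Solv.pPrimeCore_quotient p, Subgroup.mem_bot] at hxb
    rw [Sylow.coe_mapSurjective, hΩ] at hcb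
    rw [Sylow.coe_mapSurjective] at hnb
    replace hnb : nb ∈ Subgroup.normalizer ((((thompsonSubgroup p ↥(S : Subgroup G)).map (S : Subgroup G).subtype).map f : Subgroup (G ⧸ K)) : Set (G ⧸ K)) := by
      rw [← hJ]; exact hnb
    set J : Subgroup G := (thompsonSubgroup p ↥(S : Subgroup G)).map (S : Subgroup G).subtype with hJdef
    have hJS : J ≤ S := Subgroup.map_subtype_le _
    have hJp : IsPGroup p J := S.2.to_le hJS
    obtain ⟨c₀, rfl⟩ := hf cb
    obtain ⟨n₀, rfl⟩ := hf nb
    have hΩp : IsPGroup p (Cfsg.omegaOne p ((S : Subgroup G) ⊓ Subgroup.centralizer ((S : Subgroup G) : Set G))) :=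
      S.2.to_le ((PLocal.omegaOne_le _).trans inf_le_left)
    obtain ⟨c, hc, hfc⟩ := PSolv.exists_centralizing_lift hΩp (x := c₀) (fun u hu =>
      Subgroup.mem_centralizer_iff.mp hcb _ (Subgroup.mem_map_of_mem f hu))
    have hpre : ∀ z : G, f z ∈ J.map f → z ∈ J ⊔ K := by
      intro z hz
      have : z ∈ (J.map f).comap f := hz
      rwa [Subgroup.comap_map_eq, QuotientGroup.ker_mk'] at this
    have hconj : ∀ q ∈ J.map (MulAut.conj n₀).toMonoidHom, q ∈ J ⊔ K := by
      rintro _ ⟨q, hq, rfl⟩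
      refine hpre _ ?_
      show f (n₀ * q * n₀⁻¹) ∈ J.map f
      rw [map_mul, map_mul, map_inv]
      exact (Subgroup.mem_normalizer_iff.mp hnb _).mp (Subgroup.mem_map_of_mem f hq)
    obtain ⟨k, hk, R, hRle, hRp, hJR, hR⟩ :=
      SylowFusion.exists_conj_pgroup_sup (p := p) (K := J ⊔ K) le_sup_left hJp hconj (hJp.map _)
    have hRJ : ∀ r ∈ R, r ∈ J := by
      intro r hr
      obtain ⟨j, hj, m, hm, rfl⟩ := Subgroup.mem_sup_of_normal_right.mp (hRle hr)
      have hm1 : m = 1 := PSolv.eq_one_of_mem hRp hKp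
        (by simpa using R.mul_mem (R.inv_mem (hJR hj)) hr) hm
      rwa [hm1, mul_one]
    obtain ⟨j, hj, m, hm, hjm⟩ := Subgroup.mem_sup_of_normal_right.mp hk
    have hn' : j⁻¹ * (k * n₀) ∈ Subgroup.normalizer (J : Set G) := by
      refine SylowFusion.mem_normalizer_of_conj_mem fun y hy => ?_
      have h1 := hRJ _ (hR _ (Subgroup.mem_map_of_mem (MulAut.conj n₀).toMonoidHom hy))
      have h2 := J.mul_mem (J.mul_mem (J.inv_mem hj) h1) hj
      simpa [MulAut.conj_apply, mul_assoc] using h2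
    refine ⟨g * (c * (j⁻¹ * (k * n₀)))⁻¹, ?_, c, hc, _, hn', by group⟩
    refine hfK.mp ?_
    have hfm : f m = 1 := hfK.mpr hm
    have hfn : f (j⁻¹ * (k * n₀)) = f n₀ := by
      rw [← hjm]; simp [map_mul, hfm]
    have hfc' : f c = f c₀ := hfc
    rw [map_mul, map_inv, map_mul, hfn, hfc', hg, hxb, one_mul, mul_inv_cancel]

end Cfsg.Agent.S0609
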