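import Cfsg.Statements.S0611
import Cfsg.Agent.PLocal.FFPair
import Cfsg.Agent.PLocal.MaxElem

set_option autoImplicit false
open Cfsg
open scoped commutatorElement

namespace Cfsg.Agent.S0611

/-- Minimal nontrivially-acting best offenders in such a faithful group have order p, commutator [V, B] of order p and fixed points of index p. -/
theorem result {G : Type*} [Group G] [Finite G] {p : ℕ} [Fact p.Prime] (V H : Subgroup G) (hV : Cfsg.IsElementaryAbelian p V) (hHV : H ≤ Subgroup.normalizer (V : Set G)) (hf : H ⊓ Subgroup.centralizer (V : Set G) = ⊥) (hS1 : Subgroup.centralizer (Cfsg.pPrimeCore p ↥H : Set ↥H) ≤ Cfsg.pPrimeCore p ↥H) (hS3 : H = ⨆ A : {A : Subgroup G // A ≤ H ∧ Cfsg.IsBestOffenderOn p V A}, (A : Subgroup G)) (hH1 : H ≠ ⊥) (A : Subgroup G) (hAH : A ≤ H) (hA : Cfsg.IsBestOffenderOn p V A) (hAV : ⁅V, A⁆ ≠ ⊥) (hmin : ∀ B : Subgroup G, B ≤ A → Cfsg.IsBestOffenderOn p V B → ⁅V, B⁆ ≠ ⊥ → B = A) : Nat.card A = p ∧ Nat.card ↥(⁅V, A⁆) = p ∧ ((V ⊓ Subgroup.centralizer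 (A : Set G))).relIndex V = p := by
  classical
  have hp : p.Prime := Fact.out
  have hS := FFPair.setup_of hV hHV hf hS1 hAH hA
  have hfull := hS.full hA
  have hA1 : A ≠ ⊥ := fun h => hAV (by rw [h]; simp)
  obtain ⟨x, hx, hx1⟩ := (Subgroup.nontrivial_iff_exists_ne_one A).mp ((Subgroup.nontrivial_iff_ne_bot A).mpr hA1)
  obtain ⟨B, hBA, hBi, hxB, hmove⟩ := hS.exists_moved hx hx1
  have hBbot : B = ⊥ := by
    by_contra hB1
    exact hxB ((hmin B hBA ((hS.mono hBA).best (hS.hyperplane_full hfull hBA hBi hmove)) ((hS.mono hBA).moves hB1)).ge hx)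
  have hcA : Nat.card ↥A = p := by
    rw [← Replacement.card_mul_relIndex_eq hBA, hBi, hBbot, Subgroup.card_bot, one_mul]
  refine ⟨hcA, ?_, ?_⟩
  swap
  · have h1 := Replacement.card_mul_relIndex_eq (inf_le_left : V ⊓ Subgroup.centralizer (A : Set G) ≤ V)
    rw [Replacement.meas, hcA, ← h1, mul_comm p] at hfull
    exact Nat.eq_of_mul_eq_mul_left Nat.card_pos hfull.symm
  have hAgen : A = Subgroup.zpowers x := by
    symm
    refine Subgroup.eq_of_le_of_card_ge (Subgroup.zpowers_le.mpr hx) ?_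
    rw [hcA, Nat.card_zpowers, orderOf_eq_prime (hS.aelem.2 x hx) hx1]
  haveI := hV.1
  have hAV' : A ≤ Subgroup.normalizer (V : Set G) := hAH.trans hHV
  have hmem : ∀ v ∈ V, x * v * x⁻¹ ∈ V := fun v hv => (Subgroup.mem_normalizer_iff.mp (hAV' hx) v).mp hv
  let φ : ↥V →* G :=
    { toFun := fun v => ⁅(v : G), x⁆
      map_one' := commutatorElement_one_left x
      map_mul' := fun v w => by
        have hw : ⁅(w : G), x⁆ ∈ V := by
          rw [commutatorElement_def, show (w : G) * x * (w : G)⁻¹ * x⁻¹ = w * (x * (w : G)⁻¹ * x⁻¹) by group]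
          exact V.mul_mem w.2 (hmem _ (V.inv_mem w.2))
        have hv : ⁅(v : G), x⁆ ∈ V := by
          rw [commutatorElement_def, show (v : G) * x * (v : G)⁻¹ * x⁻¹ = v * (x * (v : G)⁻¹ * x⁻¹) by group]
          exact V.mul_mem v.2 (hmem _ (V.inv_mem v.2))
        calc ⁅((v * w : ↥V) : G), x⁆ = (v : G) * ⁅(w : G), x⁆ * (v : G)⁻¹ * ⁅(v : G), x⁆ := by
              rw [Subgroup.coe_mul, commutatorElement_def, commutatorElement_def, commutatorElement_def]; group
          _ = ⁅(w : G), x⁆ * ⁅(v : G), x⁆ := by rw [setLike_mul_comm v.2 hw, mul_inv_cancel_right]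
          _ = ⁅(v : G), x⁆ * ⁅(w : G), x⁆ := setLike_mul_comm hw hv }
  have hker : φ.ker.map V.subtype = V ⊓ Subgroup.centralizer (A : Set G) := by
    ext v
    constructor
    · rintro ⟨⟨v, hv⟩, hk, rfl⟩
      refine ⟨hv, Subgroup.mem_centralizer_iff.mpr fun a ha => ?_⟩
      have h1 : Commute v x := commutatorElement_eq_one_iff_mul_comm.mp hk
      rw [hAgen] at ha
      obtain ⟨i, rfl⟩ := ha
      exact (h1.zpow_right i).symm.eq
    · rintro ⟨hv, hvc⟩
      exact ⟨⟨v, hv⟩, commutatorElement_eq_one_iff_mul_comm.mpr (Subgroup.mem_centralizer_iff.mp hvc x hx).symm, rfl⟩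
  have hrange : φ.range = ⁅V, A⁆ := by
    refine le_antisymm ?_ ?_
    · rintro _ ⟨v, rfl⟩; exact Subgroup.commutator_mem_commutator v.2 hx
    · rw [Subgroup.commutator_le]
      intro v hv a ha
      rw [hAgen] at ha
      obtain ⟨n, hn⟩ := (Submonoid.mem_powers_iff a x).mp ((isOfFinOrder_of_finite x).mem_powers_iff_mem_zpowers.mpr ha)
      subst hn
      clear ha
      induction n generalizing v with
      | zero => rw [pow_zero, commutatorElement_one_right]; exact one_mem _
      | succ n ih =>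
        have e : ⁅v, x ^ (n + 1)⁆ = ⁅v, x⁆ * ⁅x * v * x⁻¹, x ^ n⁆ := by
          rw [pow_succ', commutatorElement_def, commutatorElement_def, commutatorElement_def]; group
        rw [e]
        exact Subgroup.mul_mem _ ⟨⟨v, hv⟩, rfl⟩ (ih _ (hmem v hv))
  have h1 : Nat.card ↥φ.range * Nat.card ↥φ.ker = Nat.card ↥V := by
    rw [← Subgroup.index_ker φ, mul_comm, Subgroup.card_mul_index]
  rw [← Subgroup.card_map_of_injective V.subtype_injective (K := φ.ker), hker, hrange] at h1
  rw [Replacement.meas, hcA] at hfull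
  exact Nat.eq_of_mul_eq_mul_right Nat.card_pos (h1.trans hfull.symm)

end Cfsg.Agent.S0611
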