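import Cfsg.Statements.S0612
import Cfsg.Agent.PLocal.FFPair

set_option autoImplicit false
open Cfsg
open scoped commutatorElement

namespace Cfsg.Agent.S0612

/-- In such a faithful group every nontrivial best offender decomposes as a direct product of minimal nontrivially-acting best offenders. -/
theorem result {G : Type*} [Group G] [Finite G] {p : ℕ} [Fact p.Prime] (V H : Subgroup G) (hV : Cfsg.IsElementaryAbelian p V) (hHV : H ≤ Subgroup.normalizer (V : Set G)) (hf : H ⊓ Subgroup.centralizer (V : Set G) = ⊥) (hS1 : Subgroup.centralizer (Cfsg.pPrimeCore p ↥H : Set ↥H) ≤ Cfsg.pPrimeCore p ↥H) (hS3 : H = ⨆ A : {A : Subgroup G // A ≤ H ∧ Cfsg.IsBestOffenderOn p V A}, (A : Subgroup G)) (hH1 : H ≠ ⊥) (A : Subgroup G) (hAH : A ≤ H) (hA : Cfsg.IsBestOffenderOn p V A) (hA1 : A ≠ ⊥) : ∃ (k : ℕ) (B : Fin k → Subgroup G), (∀ i, B i ≤ A ∧ Cfsg.IsBestOffenderOn p V (B i) ∧ ⁅V, B i⁆ ≠ ⊥ ∧ ∀ C : Subgroup G, C ≤ B i → Cfsg.IsBestOffenderOn p V C → ⁅V, C⁆ ≠ ⊥ → C = B i) ∧ iSupIndep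 B ∧ ⨆ i, B i = A := by
  classical
  have hp : p.Prime := Fact.out
  have hS := FFPair.setup_of hV hHV hf hS1 hAH hA
  haveI := hS.aelem.1
  have key : ∀ n, ∀ D : Subgroup G, Nat.card ↥D = n → D ≤ A → Replacement.meas V D = Nat.card ↥V →
      ∃ (k : ℕ) (B : Fin k → Subgroup G), (∀ i, B i ≤ D ∧ Nat.card ↥(B i) = p ∧ Replacement.meas V (B i) = Nat.card ↥V) ∧
        Nat.card ↥D = p ^ k ∧ ⨆ i, B i = D := by
    intro n
    induction n using Nat.strong_induction_on with
    | _ n ih =>
    intro D hn hDA hfull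
    by_cases hD : D = ⊥
    · refine ⟨0, fun i => i.elim0, fun i => i.elim0, ?_, ?_⟩
      · rw [hD, Subgroup.card_bot, pow_zero]
      · rw [hD, iSup_of_empty]
    obtain ⟨x, hx, hx1⟩ := (Subgroup.nontrivial_iff_exists_ne_one D).mp ((Subgroup.nontrivial_iff_ne_bot D).mpr hD)
    have hSD := hS.mono hDA
    obtain ⟨B', hB'D, hB'i, hxB', hmove⟩ := hSD.exists_moved hx hx1
    obtain ⟨C, hCD, hCB, hCp, hCfull⟩ := hSD.exists_order_p hfull (fun h => hxB' (h hx))
    obtain ⟨k, B, hB, hcard, hsup⟩ := ih _ (hn ▸ FFPair.card_lt_of_ne hB'D (fun h => hxB' (h ▸ hx))) B' rfl (hB'D.trans hDA)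
      (hSD.hyperplane_full hfull hB'D hB'i hmove)
    have hjoin : B' ⊔ C = D := by
      refine Subgroup.eq_of_le_of_card_ge (sup_le hB'D hCD) ?_
      have hCB' : B' ⊓ C = ⊥ := by
        by_contra hne
        have h1 : Nat.card ↥(B' ⊓ C) = p := by
          rcases (Nat.dvd_prime hp).mp (hCp ▸ Subgroup.card_dvd_of_le (inf_le_right : B' ⊓ C ≤ C)) with h | h
          · exact absurd (Subgroup.eq_bot_of_card_eq _ h) hne
          · exact h
        exact hCB ((Subgroup.eq_of_le_of_card_ge (inf_le_right : B' ⊓ C ≤ C) (by rw [h1, hCp])).ge.trans inf_le_left)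
      have h2 := MaxElem.card_mul_inf (B := B') (C := C) fun b hb c hc => setLike_mul_comm ((hB'D.trans hDA) hb) ((hCD.trans hDA) hc)
      rw [hCB', Subgroup.card_bot, mul_one, hCp] at h2
      rw [← h2, ← Replacement.card_mul_relIndex_eq hB'D, hB'i]
    refine ⟨k + 1, Fin.cons C B, fun i => ?_, ?_, ?_⟩
    · induction i using Fin.cases with
      | zero => simp only [Fin.cons_zero]; exact ⟨hCD, hCp, hCfull⟩
      | succ i => simp only [Fin.cons_succ]; exact ⟨(hB i).1.trans hB'D, (hB i).2⟩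
    · rw [← Replacement.card_mul_relIndex_eq hB'D, hB'i, hcard, pow_succ]
    · rw [← hjoin, ← hsup, sup_comm]
      refine le_antisymm (iSup_le fun i => ?_) (sup_le ?_ (iSup_le fun i => ?_))
      · induction i using Fin.cases with
        | zero => simp only [Fin.cons_zero]; exact le_sup_left
        | succ i => simp only [Fin.cons_succ]; exact (le_iSup B i).trans le_sup_right
      · exact le_iSup_of_le 0 (by simp)
      · exact le_iSup_of_le i.succ (by simp)
  obtain ⟨k, B, hB, hcard, hsup⟩ := key _ A rfl le_rfl (hS.full hA)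
  have hne : ∀ i, B i ≠ ⊥ := fun i h => hp.ne_one (by rw [← (hB i).2.1, h, Subgroup.card_bot])
  refine ⟨k, B, fun i => ⟨(hB i).1, (hS.mono (hB i).1).best (hB i).2.2, (hS.mono (hB i).1).moves (hne i), fun C hC _ hCne => ?_⟩, ?_, hsup⟩
  · refine Subgroup.eq_of_le_of_card_ge hC ?_
    rcases (Nat.dvd_prime hp).mp ((hB i).2.1 ▸ Subgroup.card_dvd_of_le hC) with h | h
    · exact absurd (by rw [Subgroup.eq_bot_of_card_eq _ h]; simp) hCne
    · rw [h, (hB i).2.1]
  · intro i
    rw [disjoint_iff]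
    by_contra hne'
    have hBi_le : B i ≤ ⨆ (j : Fin k) (_ : j ≠ i), B j := by
      have h1 : Nat.card ↥(B i ⊓ ⨆ (j : Fin k) (_ : j ≠ i), B j) = p := by
        rcases (Nat.dvd_prime hp).mp ((hB i).2.1 ▸ Subgroup.card_dvd_of_le (inf_le_left : B i ⊓ (⨆ (j : Fin k) (_ : j ≠ i), B j) ≤ B i)) with h | h
        · exact absurd (Subgroup.eq_bot_of_card_eq _ h) hne'
        · exact h
      exact (Subgroup.eq_of_le_of_card_ge inf_le_left (by rw [h1, (hB i).2.1])).ge.trans inf_le_right
    have hall : A ≤ ⨆ (j : Fin k) (_ : j ≠ i), B j := by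
      conv_lhs => rw [← hsup]
      refine iSup_le fun j => ?_
      by_cases hj : j = i
      · exact hj ▸ hBi_le
      · exact le_iSup₂_of_le j hj le_rfl
    have hbound : ∀ s : Finset (Fin k), Nat.card ↥(s.sup B) ≤ p ^ s.card := by
      intro s
      induction s using Finset.induction with
      | empty => simp [Subgroup.card_bot]
      | insert j t hj iht =>
        rw [Finset.sup_insert, Finset.card_insert_of_notMem hj, pow_succ]
        have h2 := MaxElem.card_mul_inf (B := B j) (C := t.sup B) fun b hb c hc =>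
          setLike_mul_comm ((hB j).1 hb) ((Finset.sup_le fun l _ => (hB l).1) hc)
        calc Nat.card ↥(B j ⊔ t.sup B) ≤ Nat.card ↥(B j ⊔ t.sup B) * Nat.card ↥(B j ⊓ t.sup B) :=
              Nat.le_mul_of_pos_right _ Nat.card_pos
          _ = p * Nat.card ↥(t.sup B) := by rw [← h2, (hB j).2.1]
          _ ≤ p ^ t.card * p := by rw [mul_comm p]; exact Nat.mul_le_mul_right _ iht
    have h3 : A ≤ (Finset.univ.erase i).sup B :=
      hall.trans (iSup₂_le fun j hj => Finset.le_sup (f := B) (Finset.mem_erase.mpr ⟨hj, Finset.mem_univ _⟩))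
    have h4 := (Subgroup.card_le_of_le h3).trans (hbound _)
    rw [hcard, Finset.card_erase_of_mem (Finset.mem_univ i), Finset.card_univ, Fintype.card_fin] at h4
    have h5 : p ^ (k - 1) < p ^ k := Nat.pow_lt_pow_right hp.one_lt (by have := i.pos; omega)
    omega

end Cfsg.Agent.S0612
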