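import Cfsg.Statements.S0622
import Cfsg.Agent.PLocal.StableClosure

set_option autoImplicit false
universe u
open Cfsg

namespace Cfsg.Agent.S0622

/-- Basic properties of the stable normal closure W(S) of Ω₁(Z(S)) in a finite p-group: characteristic, squeezed between Ω₁(Z(S)) and Ω₁(Z(J(S))), nontrivial for S ≠ 1, and transported by group isomorphisms. -/
theorem result {S : Type u} [Group S] [Finite S] {p : ℕ} [Fact p.Prime] (hS : IsPGroup p S) : (Cfsg.stableNormalClosure p S).Characteristic ∧ Cfsg.omegaOne p (Subgroup.center S) ≤ Cfsg.stableNormalClosure p S ∧ Cfsg.stableNormalClosure p S ≤ Cfsg.omegaCenterThompson p S ∧ (Nontrivial S → Cfsg.stableNormalClosure p S ≠ ⊥) ∧ ∀ (S' : Type u) [Group S'] (η : S ≃* S'), (Cfsg.stableNormalClosure p S).map η.toMonoidHom = Cfsg.stableNormalClosure p S' := by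
  obtain ⟨hW1, hW2⟩ := PLocal.stableNormalClosure_mem p S
  refine ⟨?_, hW1, PLocal.stableNormalClosure_le_omegaCenterThompson p S, ?_, ?_⟩
  · rw [Subgroup.characteristic_iff_map_eq]
    exact fun e => PLocal.map_stableNormalClosure e
  · intro hne hbot
    haveI := hne
    haveI : Nontrivial (Subgroup.center S) := hS.center_nontrivial
    obtain ⟨n, hn, hcard⟩ := (hS.to_subgroup (Subgroup.center S)).nontrivial_iff_card.mp inferInstance
    obtain ⟨z, hz⟩ := exists_prime_orderOf_dvd_card' (G := ↥(Subgroup.center S)) p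
      (by rw [hcard]; exact dvd_pow_self _ hn.ne')
    have h1 : (z : S) ∈ Cfsg.omegaOne p (Subgroup.center S) := PLocal.mem_omegaOne z.2 (by
      rw [← Subgroup.coe_pow, ← hz, pow_orderOf_eq_one]; rfl)
    have h2 := hW1 h1
    rw [hbot, Subgroup.mem_bot] at h2
    rw [show z = 1 from Subtype.ext h2, orderOf_one] at hz
    exact (Fact.out : p.Prime).ne_one hz.symm
  · intro S' _ e
    haveI : Finite S' := Finite.of_equiv S e.toEquiv
    exact PLocal.map_stableNormalClosure e

end Cfsg.Agent.S0622
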