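import Cfsg.Statements.S0629
import Cfsg.Agent.PSolv.Basic

set_option autoImplicit false
open Cfsg

namespace Cfsg.Agent.S0629

/-- A group in which the centralizer of a Sylow p-subgroup of O_{p',p}(G) is p-solvable is p-constrained. -/
theorem result {G : Type*} [Group G] [Finite G] {p : ℕ} [Fact p.Prime] (P : Sylow p ↥(Cfsg.pPrimePCore p G)) (hsol : Cfsg.IsPSolvable p ↥(Subgroup.centralizer (((P : Subgroup ↥(Cfsg.pPrimePCore p G)).map (Cfsg.pPrimePCore p G).subtype : Subgroup G) : Set G))) : Cfsg.IsPConstrained p G := by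
  rw [PSolv.isPConstrained_iff]
  set R := Cfsg.pCore p (G ⧸ Cfsg.pPrimeCore p G) with hR
  set C := Subgroup.centralizer (R : Set (G ⧸ Cfsg.pPrimeCore p G)) with hC
  set C0 := Subgroup.centralizer (((P : Subgroup ↥(Cfsg.pPrimePCore p G)).map (Cfsg.pPrimePCore p G).subtype : Subgroup G) : Set G) with hC0
  haveI : R.Normal := (Solv.pCore_mem p).1
  haveI : C.Normal := inferInstance
  have hmap := PSolv.centralizer_sylow_map (p := p) P
  let f : ↥C0 →* ↥C := ((QuotientGroup.mk' (Cfsg.pPrimeCore p G)).comp C0.subtype).codRestrict C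
    (fun a => hmap.le (Subgroup.mem_map_of_mem _ a.2))
  have hf : Function.Surjective f := by
    rintro ⟨y, hy⟩
    obtain ⟨c, hc, rfl⟩ := hmap.ge hy
    exact ⟨⟨c, hc⟩, rfl⟩
  have hps : Cfsg.IsPSolvable p ↥C := PSolv.isPSolvable_of_surjective hf hsol
  have hred : Cfsg.pPrimeCore p ↥C = ⊥ := by
    have h1 : (Cfsg.pPrimeCore p ↥C).map C.subtype ≤ Cfsg.pPrimeCore p (G ⧸ Cfsg.pPrimeCore p G) :=
      Solv.le_pPrimeCore inferInstance (by
        rw [Subgroup.card_map_of_injective C.subtype_injective]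
        exact (Solv.pPrimeCore_mem p).2)
    rw [Solv.pPrimeCore_quotient, le_bot_iff] at h1
    exact (Subgroup.map_eq_bot_iff_of_injective _ C.subtype_injective).mp h1
  have h2 := PSolv.selfCentralizingCore_of_pSolvable hps hred
  haveI := (Solv.pCore_mem (G := ↥C) p).1
  have h3 : (Cfsg.pCore p ↥C).map C.subtype ≤ R :=
    Solv.le_pCore inferInstance ((Solv.pCore_mem p).2.map _)
  intro x hx
  refine h3 ⟨⟨x, hx⟩, h2 (Subgroup.mem_centralizer_iff.mpr fun u hu => Subtype.ext ?_), rfl⟩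
  exact Subgroup.mem_centralizer_iff.mp hx _ (h3 (Subgroup.mem_map_of_mem _ hu))

end Cfsg.Agent.S0629
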