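import Cfsg.Statements.S0632
import Cfsg.Agent.PSolv.Basic
import Cfsg.Agent.Solv.Cores

set_option autoImplicit false
open Cfsg
open scoped commutatorElement

namespace Cfsg.Agent.S0632

/-- For a group with a nontrivial normal p-subgroup, p-stability passes to and from the quotient by the largest normal subgroup of order prime to p. -/
theorem result {G : Type*} [Group G] [Finite G] {p : ℕ} [Fact p.Prime] (hO : Cfsg.pCore p G ≠ ⊥) : Cfsg.IsPStable p G ↔ Cfsg.IsPStable p (G ⧸ Cfsg.pPrimeCore p G) := by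
  classical
  have hp : p.Prime := Fact.out
  set O := Cfsg.pPrimeCore p G with hOdef
  haveI hOn : O.Normal := (Solv.pPrimeCore_mem p).1
  set π := QuotientGroup.mk' O with hπ
  have hπs : Function.Surjective π := QuotientGroup.mk'_surjective O
  have hOp : ¬ p ∣ Nat.card ↥O := PSolv.not_dvd_pPrimeCore
  have hbarO : Cfsg.pPrimeCore p (G ⧸ O) = ⊥ := Solv.pPrimeCore_quotient p
  have hbarO' : Cfsg.pPrimePCore p G = (Cfsg.pCore p (G ⧸ O)).comap π := rfl
  have hbarP : Cfsg.pPrimePCore p (G ⧸ O) = Cfsg.pCore p (G ⧸ O) := by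
    let e : G ⧸ O ≃* (G ⧸ O) ⧸ Cfsg.pPrimeCore p (G ⧸ O) :=
      ((QuotientGroup.quotientMulEquivOfEq hbarO).trans QuotientGroup.quotientBot).symm
    show (Cfsg.pCore p ((G ⧸ O) ⧸ Cfsg.pPrimeCore p (G ⧸ O))).comap (QuotientGroup.mk' (Cfsg.pPrimeCore p (G ⧸ O))) = _
    rw [← PSolv.map_pCore e]
    have he : e.toMonoidHom = QuotientGroup.mk' (Cfsg.pPrimeCore p (G ⧸ O)) := by
      refine MonoidHom.ext fun y => ?_
      apply e.symm.injective
      show e.symm (e y) = e.symm (QuotientGroup.mk' (Cfsg.pPrimeCore p (G ⧸ O)) y)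
      rw [e.symm_apply_apply]
      rfl
    rw [← he]
    exact Subgroup.comap_map_eq_self_of_injective e.injective _
  -- the local isomorphism
  have hiso : ∀ (P : Subgroup G), IsPGroup p ↥P → (O ⊔ P).Normal → (∀ (A : Subgroup G), A ≤ Subgroup.normalizer (P : Set G) →
      ((A.subgroupOf (Subgroup.normalizer (P : Set G))).map (QuotientGroup.mk' ((Subgroup.centralizer (P : Set G)).subgroupOf
          (Subgroup.normalizer (P : Set G)))) ≤ Cfsg.pCore p _ ↔
        ((A.map π).subgroupOf (Subgroup.normalizer ((P.map π : Subgroup (G ⧸ O)) : Set (G ⧸ O)))).map (QuotientGroup.mk'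
          ((Subgroup.centralizer ((P.map π : Subgroup (G ⧸ O)) : Set (G ⧸ O))).subgroupOf
            (Subgroup.normalizer ((P.map π : Subgroup (G ⧸ O)) : Set (G ⧸ O))))) ≤ Cfsg.pCore p _)) := by
    intro P hP hOP A hA
    set N := Subgroup.normalizer (P : Set G) with hN
    set Nb := Subgroup.normalizer ((P.map π : Subgroup (G ⧸ O)) : Set (G ⧸ O)) with hNb
    set Cb := (Subgroup.centralizer ((P.map π : Subgroup (G ⧸ O)) : Set (G ⧸ O))).subgroupOf Nb with hCb
    let φ : ↥N →* ↥Nb := (π.comp N.subtype).codRestrict Nb fun n => Subgroup.le_normalizer_map π ⟨n, n.2, rfl⟩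
    let f : ↥N →* ↥Nb ⧸ Cb := (QuotientGroup.mk' Cb).comp φ
    have hPO : P ≤ O ⊔ P := le_sup_right
    have hlift : ∀ g : G, π g ∈ Nb → ∃ n ∈ N, π n = π g := by
      intro g _
      haveI := hOP
      have hi : ¬ p ∣ (P.subgroupOf (O ⊔ P)).index := by
        intro hd
        refine hOp (hd.trans ?_)
        show P.relIndex (O ⊔ P) ∣ _
        have hcm : ∀ H K : Subgroup G, H ≤ K → Nat.card ↥H * H.relIndex K = Nat.card ↥K := fun H K h => by
          have := Subgroup.relIndex_mul_relIndex (⊥ : Subgroup G) H K bot_le h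
          rwa [Subgroup.relIndex_bot_left, Subgroup.relIndex_bot_left] at this
        have h1 := hcm P (O ⊔ P) le_sup_right
        have h2 := hcm O (O ⊔ P) le_sup_left
        rw [Subgroup.relIndex_sup_left (K := O) (H := P)] at h2
        refine Nat.dvd_of_mul_dvd_mul_left (Nat.card_pos (α := ↥P)) ?_
        rw [h1, ← h2, mul_comm (Nat.card ↥P)]
        exact Nat.mul_dvd_mul_left _ (Subgroup.relIndex_dvd_card O P)
      let S : Sylow p ↥(O ⊔ P) := (hP.comap_subtype (K := O ⊔ P)).toSylow hi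
      have hfr : N ⊔ (O ⊔ P) = ⊤ := by
        have := Sylow.normalizer_sup_eq_top S
        rwa [show (S : Subgroup ↥(O ⊔ P)).map (O ⊔ P).subtype = P from Subgroup.map_subgroupOf_eq_of_le hPO] at this
      have hg : g ∈ N ⊔ O := by
        refine (sup_le le_sup_left (sup_le le_sup_right (Subgroup.le_normalizer.trans le_sup_left)) : N ⊔ (O ⊔ P) ≤ N ⊔ O) ?_
        rw [hfr]; exact Subgroup.mem_top g
      obtain ⟨n, hn, o, ho, rfl⟩ := Subgroup.mem_sup_of_normal_right.mp hg
      exact ⟨n, hn, by rw [map_mul, show π o = 1 from (QuotientGroup.eq_one_iff o).mpr ho, mul_one]⟩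
    have hf : Function.Surjective f := by
      intro y
      obtain ⟨⟨y, hy⟩, rfl⟩ := QuotientGroup.mk'_surjective Cb y
      obtain ⟨g, rfl⟩ := hπs y
      obtain ⟨n, hn, he⟩ := hlift g hy
      exact ⟨⟨n, hn⟩, congrArg (QuotientGroup.mk' Cb) (Subtype.ext he)⟩
    have hker : f.ker = (Subgroup.centralizer (P : Set G)).subgroupOf N := by
      ext n
      rw [MonoidHom.mem_ker]
      constructor
      · intro hn
        have h1 : φ n ∈ Cb := (QuotientGroup.eq_one_iff _).mp hn
        refine Subgroup.mem_centralizer_iff.mpr fun x hx => ?_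
        have h2 := Subgroup.mem_centralizer_iff.mp h1 (π x) ⟨x, hx, rfl⟩
        refine (commutatorElement_eq_one_iff_mul_comm.mp ?_).symm
        refine PSolv.eq_one_of_mem hP hOp ?_ ?_
        · rw [commutatorElement_def]
          exact P.mul_mem ((Subgroup.mem_normalizer_iff.mp n.2 x).mp hx) (P.inv_mem hx)
        · refine (QuotientGroup.eq_one_iff (N := O) _).mp ?_
          show π ⁅(n : G), x⁆ = 1
          rw [map_commutatorElement]
          exact commutatorElement_eq_one_iff_mul_comm.mpr h2.symm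
      · intro hn
        refine (QuotientGroup.eq_one_iff _).mpr ?_
        refine Subgroup.mem_centralizer_iff.mpr ?_
        rintro _ ⟨x, hx, rfl⟩
        show π x * π n = π n * π x
        rw [← map_mul, ← map_mul]
        exact congrArg π (Subgroup.mem_centralizer_iff.mp hn x hx)
    let e := (QuotientGroup.quotientMulEquivOfEq hker.symm).trans (QuotientGroup.quotientKerEquivOfSurjective f hf)
    have he : e.toMonoidHom.comp (QuotientGroup.mk' ((Subgroup.centralizer (P : Set G)).subgroupOf N)) = f :=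
      MonoidHom.ext fun n => rfl
    have himg : ((A.map π).subgroupOf Nb).map (QuotientGroup.mk' Cb) = (A.subgroupOf N).map f := by
      rw [← Subgroup.map_map]
      congr 1
      ext y
      constructor
      · rintro ⟨a, ha, hay⟩
        exact ⟨⟨a, hA ha⟩, ha, Subtype.ext hay⟩
      · rintro ⟨a, ha, rfl⟩
        exact ⟨a, ha, rfl⟩
    rw [himg, ← he, ← Subgroup.map_map, ← PSolv.map_pCore e, Subgroup.map_le_map_iff_of_injective e.injective]
  constructor
  · rintro ⟨hodd, -, hst⟩
    refine ⟨hodd, fun h => hO ?_, fun Ab Pb hAb hPb hAP hPle hPn hcomm => ?_⟩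
    · have h1 : (Cfsg.pCore p G).map π ≤ Cfsg.pCore p (G ⧸ O) :=
        Solv.le_pCore ((Solv.pCore_mem p).1.map π hπs) ((Solv.pCore_mem p).2.map π)
      rw [h, le_bot_iff, Subgroup.map_eq_bot_iff, hπ, QuotientGroup.ker_mk'] at h1
      rw [Subgroup.eq_bot_iff_forall]
      exact fun x hx => PSolv.eq_one_of_mem (Solv.pCore_mem p).2 hOp hx (h1 hx)
    rw [hbarO, bot_sup_eq] at hPn
    set M := Pb.comap π with hM
    haveI hMn : M.Normal := hPn.comap π
    obtain ⟨S⟩ : Nonempty (Sylow p ↥M) := inferInstance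
    set P := (S : Subgroup ↥M).map M.subtype with hPdef
    have hPp : IsPGroup p ↥P := S.isPGroup'.map _
    let g : ↥M →* ↥Pb := (π.comp M.subtype).codRestrict Pb fun m => m.2
    have hg : Function.Surjective g := by
      rintro ⟨y, hy⟩
      obtain ⟨x, rfl⟩ := hπs y
      exact ⟨⟨x, hy⟩, rfl⟩
    have hmapP : P.map π = Pb := by
      refine le_antisymm ?_ ?_
      · rintro _ ⟨x, ⟨m, -, rfl⟩, rfl⟩; exact m.2
      · intro y hy
        have htop : ((S.mapSurjective hg : Sylow p ↥Pb) : Subgroup ↥Pb) = ⊤ :=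
          ((S.mapSurjective hg).3 (hPb.to_subgroup ⊤) le_top).symm
        obtain ⟨m, hm, he⟩ := ((Sylow.coe_mapSurjective hg S).symm.trans htop).ge (Subgroup.mem_top ⟨y, hy⟩)
        exact ⟨m, ⟨m, hm, rfl⟩, congrArg Subtype.val he⟩
    have hOP : (O ⊔ P).Normal := by
      rw [show O ⊔ P = M by
        rw [hM, ← hmapP, Subgroup.comap_map_eq, hπ, QuotientGroup.ker_mk', sup_comm]]
      exact hMn
    set N := Subgroup.normalizer (P : Set G) with hN
    set B := Ab.comap π ⊓ N with hB
    obtain ⟨T⟩ : Nonempty (Sylow p ↥B) := inferInstance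
    set A := (T : Subgroup ↥B).map B.subtype with hAdef
    have hAN : A ≤ N := (Subgroup.map_subtype_le _).trans inf_le_right
    have hsurjN : ∀ y, ∃ n ∈ N, π n = y := by
      intro y
      obtain ⟨x, rfl⟩ := hπs y
      haveI := hOP
      have hfr : N ⊔ M = ⊤ := by rw [hN]; exact Sylow.normalizer_sup_eq_top S
      obtain ⟨n, hn, m, hm, rfl⟩ := Subgroup.mem_sup_of_normal_right.mp (hfr ▸ Subgroup.mem_top x)
      obtain ⟨u, hu, he⟩ := hmapP.ge (show π m ∈ Pb from hm)
      exact ⟨n * u, N.mul_mem hn (Subgroup.le_normalizer hu), by rw [map_mul, map_mul, he]⟩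
    let gA : ↥B →* ↥Ab := (π.comp B.subtype).codRestrict Ab fun m => m.2.1
    have hgA : Function.Surjective gA := by
      rintro ⟨y, hy⟩
      obtain ⟨n, hn, rfl⟩ := hsurjN y
      exact ⟨⟨n, hy, hn⟩, rfl⟩
    have hmapA : A.map π = Ab := by
      refine le_antisymm ?_ ?_
      · rintro _ ⟨x, ⟨m, -, rfl⟩, rfl⟩; exact m.2.1
      · intro y hy
        have htop : ((T.mapSurjective hgA : Sylow p ↥Ab) : Subgroup ↥Ab) = ⊤ :=
          ((T.mapSurjective hgA).3 (hAb.to_subgroup ⊤) le_top).symm
        obtain ⟨m, hm, he⟩ := ((Sylow.coe_mapSurjective hgA T).symm.trans htop).ge (Subgroup.mem_top ⟨y, hy⟩)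
        exact ⟨m, ⟨m, hm, rfl⟩, congrArg Subtype.val he⟩
    have h := hst A P (T.isPGroup'.map _) hPp (fun a ha x hx => (Subgroup.mem_normalizer_iff.mp (hAN ha) x).mp hx) (fun x hx => by
        rw [hbarO']
        have := hPle (hmapP.le ⟨x, hx, rfl⟩)
        rw [hbarP] at this
        exact this) hOP (by
      rw [eq_bot_iff]
      intro z hz
      rw [Subgroup.mem_bot]
      have h1 : ⁅⁅P, A⁆, A⁆ ≤ P := (Subgroup.commutator_mono (Subgroup.le_normalizer_iff_commutator_le_left.mp hAN) le_rfl).trans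
        (Subgroup.le_normalizer_iff_commutator_le_left.mp hAN)
      refine PSolv.eq_one_of_mem hPp hOp (h1 hz) ?_
      have h2 : π z ∈ (⊥ : Subgroup (G ⧸ O)) := by
        rw [← hcomm, ← hmapP, ← hmapA, ← Subgroup.map_commutator, ← Subgroup.map_commutator]
        exact ⟨z, hz, rfl⟩
      exact (QuotientGroup.eq_one_iff z).mp h2)
    have := (hiso P hPp hOP A hAN).mp h
    rw [hmapP, hmapA] at this
    exact this
  · rintro ⟨hodd, -, hst⟩
    refine ⟨hodd, hO, fun A P hA hP hAP hPle hPn hcomm => ?_⟩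
    have hAN : A ≤ Subgroup.normalizer (P : Set G) := fun a ha => by
      rw [Subgroup.mem_normalizer_iff_map_conj_eq]
      refine Subgroup.eq_of_le_of_card_ge ?_ (Subgroup.card_map_of_injective (K := P) (MulAut.conj a).injective).ge
      rintro _ ⟨x, hx, rfl⟩
      exact hAP a ha x hx
    refine (hiso P hP hPn A hAN).mpr (hst (A.map π) (P.map π) (hA.map π) (hP.map π) ?_ ?_ ?_ ?_)
    · rintro _ ⟨a, ha, rfl⟩ _ ⟨x, hx, rfl⟩
      exact ⟨a * x * a⁻¹, hAP a ha x hx, by rw [map_mul, map_mul, map_inv]⟩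
    · rw [hbarP]
      exact Subgroup.map_le_iff_le_comap.mpr hPle
    · rw [hbarO, bot_sup_eq]
      have h := hPn.map π hπs
      rwa [Subgroup.map_sup, show O.map π = ⊥ from (Subgroup.map_eq_bot_iff O).mpr (by rw [hπ, QuotientGroup.ker_mk']), bot_sup_eq] at h
    · rw [← Subgroup.map_commutator, ← Subgroup.map_commutator, hcomm, Subgroup.map_bot]

end Cfsg.Agent.S0632
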