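import Cfsg.Statements.S0634
import Cfsg.Agent.PSolv.Basic

set_option autoImplicit false
open Cfsg

namespace Cfsg.Agent.S0634


theorem pPrimeCore_quotient_comap {G : Type*} [Group G] [Finite G] (p : ℕ) [Fact p.Prime] (N T : Subgroup G)
    [N.Normal] [T.Normal] (hT : T = (Cfsg.pPrimeCore p (G ⧸ N)).comap (QuotientGroup.mk' N)) :
    Cfsg.pPrimeCore p (G ⧸ T) = ⊥ := by
  haveI := (Solv.pPrimeCore_mem (G := G ⧸ T) p).1
  set S := (Cfsg.pPrimeCore p (G ⧸ T)).comap (QuotientGroup.mk' T) with hS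
  have hTS : T ≤ S := fun x hx => by
    show QuotientGroup.mk' T x ∈ Cfsg.pPrimeCore p (G ⧸ T)
    rw [show QuotientGroup.mk' T x = 1 from (QuotientGroup.eq_one_iff x).mpr hx]
    exact Subgroup.one_mem _
  have hNT : N ≤ T := fun x hx => by
    rw [hT]
    show QuotientGroup.mk' N x ∈ Cfsg.pPrimeCore p (G ⧸ N)
    rw [show QuotientGroup.mk' N x = 1 from (QuotientGroup.eq_one_iff x).mpr hx]
    exact Subgroup.one_mem _
  have h1 : (N.relIndex T).Coprime p := by
    have h := Subgroup.relIndex_comap (⊥ : Subgroup (G ⧸ N)) (QuotientGroup.mk' N) T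
    rw [MonoidHom.comap_bot, QuotientGroup.ker_mk', Subgroup.relIndex_bot_left, hT,
      Subgroup.map_comap_eq_self_of_surjective (QuotientGroup.mk'_surjective _)] at h
    rw [hT, h]
    exact (Solv.pPrimeCore_mem p).2
  have h2 : (T.relIndex S).Coprime p := by
    have h := Subgroup.relIndex_comap (⊥ : Subgroup (G ⧸ T)) (QuotientGroup.mk' T) S
    rw [MonoidHom.comap_bot, QuotientGroup.ker_mk', Subgroup.relIndex_bot_left, hS,
      Subgroup.map_comap_eq_self_of_surjective (QuotientGroup.mk'_surjective _)] at h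
    rw [hS, h]
    exact (Solv.pPrimeCore_mem p).2
  have h3 : S.map (QuotientGroup.mk' N) ≤ Cfsg.pPrimeCore p (G ⧸ N) := by
    refine Solv.le_pPrimeCore (Subgroup.Normal.map inferInstance _ (QuotientGroup.mk'_surjective _)) ?_
    have h := Subgroup.relIndex_comap (⊥ : Subgroup (G ⧸ N)) (QuotientGroup.mk' N) S
    rw [MonoidHom.comap_bot, QuotientGroup.ker_mk', Subgroup.relIndex_bot_left] at h
    rw [← h, ← Subgroup.relIndex_mul_relIndex N T S hNT hTS]
    exact Nat.Coprime.mul_left h1 h2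
  rw [eq_bot_iff]
  intro y hy
  obtain ⟨x, rfl⟩ := QuotientGroup.mk'_surjective T y
  have hxT : x ∈ T := by
    rw [hT]
    exact h3 (Subgroup.mem_map_of_mem _ (show x ∈ S from hy))
  exact Subgroup.mem_bot.mpr ((QuotientGroup.eq_one_iff x).mpr hxT)


/-- In a p-soluble group each p-factor of the upper p-series contains its own centralizer in the corresponding quotient. -/
theorem result {G : Type*} [Group G] [Finite G] {p : ℕ} [Fact p.Prime] (hsol : Cfsg.IsPSolvable p G) (k : ℕ) : Subgroup.centralizer ((((Cfsg.upperPSeries p G (2 * k + 2)).1.map (QuotientGroup.mk' (Cfsg.upperPSeries p G (2 * k + 1)).1)) : Subgroup (G ⧸ (Cfsg.upperPSeries p G (2 * k + 1)).1)) : Set (G ⧸ (Cfsg.upperPSeries p G (2 * k + 1)).1)) ≤ (Cfsg.upperPSeries p G (2 * k + 2)).1.map (QuotientGroup.mk' (Cfsg.upperPSeries p G (2 * k + 1)).1) := by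
  have hodd : ¬ Even (2 * k + 1) := by simp [parity_simps]
  have heven : Even (2 * k) := by simp
  have hT : (Cfsg.upperPSeries p G (2 * k + 1)).1 =
      (Cfsg.pPrimeCore p (G ⧸ (Cfsg.upperPSeries p G (2 * k)).1)).comap
        (QuotientGroup.mk' (Cfsg.upperPSeries p G (2 * k)).1) := by
    conv_lhs => rw [Cfsg.upperPSeries]
    simp only [heven, if_true]
  have hU : (Cfsg.upperPSeries p G (2 * k + 2)).1 =
      (Cfsg.pCore p (G ⧸ (Cfsg.upperPSeries p G (2 * k + 1)).1)).comap
        (QuotientGroup.mk' (Cfsg.upperPSeries p G (2 * k + 1)).1) := by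
    conv_lhs => rw [show 2 * k + 2 = (2 * k + 1) + 1 from rfl, Cfsg.upperPSeries]
    simp only [hodd, if_false]
  rw [hU, Subgroup.map_comap_eq_self_of_surjective (QuotientGroup.mk'_surjective _)]
  exact PSolv.selfCentralizingCore_of_pSolvable
    (PSolv.isPSolvable_of_surjective (QuotientGroup.mk'_surjective _) hsol)
    (pPrimeCore_quotient_comap p _ _ hT)

end Cfsg.Agent.S0634
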