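import Cfsg.Statements.S0641
import Mathlib

set_option autoImplicit false
open Cfsg

namespace Cfsg.Agent.S0641

/-- Regularity of a p-group passes to quotient groups. -/
theorem result {G : Type*} [Group G] {p : ℕ} [Fact p.Prime] (hG : Cfsg.IsRegularPGroup p G) (N : Subgroup G) [N.Normal] : Cfsg.IsRegularPGroup p (G ⧸ N) := by
  refine ⟨hG.1.to_quotient N, fun a b n => ?_⟩
  obtain ⟨a, rfl⟩ := QuotientGroup.mk'_surjective N a
  obtain ⟨b, rfl⟩ := QuotientGroup.mk'_surjective N b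
  obtain ⟨c, hc, he⟩ := hG.2 a b n
  refine ⟨QuotientGroup.mk' N c, ?_, by rw [← map_mul, ← map_pow, he]; simp⟩
  have hmap : ⁅Subgroup.closure ({a, b} : Set G), Subgroup.closure ({a, b} : Set G)⁆.map (QuotientGroup.mk' N)
      = ⁅Subgroup.closure ({QuotientGroup.mk' N a, QuotientGroup.mk' N b} : Set (G ⧸ N)),
        Subgroup.closure ({QuotientGroup.mk' N a, QuotientGroup.mk' N b} : Set (G ⧸ N))⁆ := by
    rw [Subgroup.map_commutator, MonoidHom.map_closure, Set.image_pair]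
  have h1 := Subgroup.mem_map_of_mem (QuotientGroup.mk' N) hc
  refine (?_ : (Cfsg.powerClosure p n _).map (QuotientGroup.mk' N) ≤ _) h1
  rw [← hmap]
  unfold Cfsg.powerClosure
  rw [MonoidHom.map_closure]
  refine Subgroup.closure_mono ?_
  rintro _ ⟨y, ⟨x, hx, rfl⟩, rfl⟩
  exact ⟨_, Subgroup.mem_map_of_mem _ hx, map_pow _ _ _⟩

end Cfsg.Agent.S0641
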