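import Cfsg.Statements.S0642
import Mathlib

set_option autoImplicit false
open Cfsg
open scoped commutatorElement

namespace Cfsg.Agent.S0642

/-- Among finite 2-groups the regular ones are exactly the abelian ones. -/
theorem result {G : Type*} [Group G] [Finite G] (hG : IsPGroup 2 G) : Cfsg.IsRegularPGroup 2 G ↔ ∀ a b : G, a * b = b * a := by
  constructor
  · intro h
    set D : Subgroup G := ⁅(⊤ : Subgroup G), (⊤ : Subgroup G)⁆ with hD
    have hsq : ∀ M : Subgroup G, M ≤ D → (∀ x ∈ D, x ^ 2 ∈ M) → D ≤ M := by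
      intro M hMD hM
      rw [hD, Subgroup.commutator_le]
      intro x _ y _
      obtain ⟨c, hc, he⟩ := h.2 (y⁻¹ * x) x⁻¹ 1
      have hce : c = ⁅x, y⁆ := by
        have h' : c = ((y⁻¹ * x) ^ (2 ^ 1) * (x⁻¹) ^ (2 ^ 1))⁻¹ * (y⁻¹ * x * x⁻¹) ^ (2 ^ 1) := by
          rw [he]; group
        rw [h', commutatorElement_def]; simp [pow_succ]; group
      rw [← hce]
      refine (Subgroup.closure_le M).mpr ?_ hc
      rintro _ ⟨z, hz, rfl⟩
      simpa using hM z (Subgroup.commutator_mono le_top le_top hz)
    have hbot : D = ⊥ := by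
      by_contra hne
      obtain ⟨k, hk⟩ := (hG.to_subgroup D).exists_card_eq
      cases k with
      | zero => exact hne (Subgroup.eq_bot_of_card_eq _ (by simpa using hk))
      | succ k =>
        haveI : Fact (Nat.Prime 2) := ⟨Nat.prime_two⟩
        obtain ⟨M, hM⟩ := Sylow.exists_subgroup_card_pow_prime (G := ↥D) 2
          (n := k) (by rw [hk]; exact pow_dvd_pow 2 (Nat.le_succ k))
        have hidx : M.index = 2 := by
          have h1 := Subgroup.card_mul_index M
          rw [hM, hk, pow_succ] at h1
          exact Nat.eq_of_mul_eq_mul_left (pow_pos two_pos k) h1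
        have hle := hsq (M.map D.subtype) (Subgroup.map_subtype_le M) (fun x hx => by
          exact ⟨⟨x, hx⟩ ^ 2, Subgroup.sq_mem_of_index_two hidx _, rfl⟩)
        have htop : M = ⊤ := by
          rw [eq_top_iff]
          intro x _
          obtain ⟨y, hy, hyx⟩ := hle x.2
          rwa [Subtype.ext hyx] at hy
        rw [htop, Subgroup.index_top] at hidx
        omega
    intro a b
    have hm : ⁅a, b⁆ ∈ D := Subgroup.commutator_mem_commutator (Subgroup.mem_top a) (Subgroup.mem_top b)
    rw [hbot, Subgroup.mem_bot] at hm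
    exact commutatorElement_eq_one_iff_mul_comm.mp hm
  · intro h
    refine ⟨hG, fun a b n => ⟨1, Subgroup.one_mem _, ?_⟩⟩
    rw [mul_one]
    exact (Commute.mul_pow (h a b) _)

end Cfsg.Agent.S0642
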