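import Cfsg.Statements.S0660
import Cfsg.Agent.PSolv.Basic

set_option autoImplicit false
open Cfsg

namespace Cfsg.Agent.S0660

/-- Under a coprime action on an abelian group, an invariant subgroup that is complemented admits an invariant complement. -/
theorem result {G : Type*} [Group G] [Finite G] (V A U : Subgroup G) (hVab : IsMulCommutative V) (hAV : A ≤ Subgroup.normalizer (V : Set G)) (hcop : (Nat.card A).Coprime (Nat.card V)) (hUV : U ≤ V) (hAU : A ≤ Subgroup.normalizer (U : Set G)) (W : Subgroup G) (hWV : W ≤ V) (hUW : U ⊓ W = ⊥) (hUWV : U ⊔ W = V) : ∃ W' : Subgroup G, W' ≤ V ∧ A ≤ Subgroup.normalizer (W' : Set G) ∧ U ⊓ W' = ⊥ ∧ U ⊔ W' = V := by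
  classical
  haveI := Fintype.ofFinite ↥A
  letI : CommGroup ↥V := { (inferInstance : Group ↥V) with mul_comm := hVab.is_comm.comm }
  have hsplit : ∀ v : ↥V, ∃ u : ↥V, (u : G) ∈ U ∧ ((u⁻¹ * v : ↥V) : G) ∈ W := by
    intro v
    have hn : W ≤ Subgroup.normalizer (U : Set G) := fun w hw => Subgroup.mem_normalizer_iff.mpr fun u => by
      have hc : ∀ y ∈ V, w * y * w⁻¹ = y := fun y hy => by
        rw [show w * y = y * w from congrArg Subtype.val (hVab.is_comm.comm (⟨w, hWV hw⟩ : V) ⟨y, hy⟩)]; group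
      constructor
      · intro hu; rwa [hc u (hUV hu)]
      · intro hu
        have h1 := hc _ (hUV hu)
        have h2 : w * u * w⁻¹ = u := by
          have := congrArg (fun z => w⁻¹ * z * w) h1
          simpa [mul_assoc] using this
        rwa [h2] at hu
    have hv : (v : G) ∈ ((U ⊔ W : Subgroup G) : Set G) := by rw [SetLike.mem_coe, hUWV]; exact v.2
    rw [Subgroup.coe_mul_of_right_le_normalizer_left U W hn] at hv
    obtain ⟨u, hu, w, hw, he⟩ := hv
    refine ⟨⟨u, hUV hu⟩, hu, ?_⟩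
    show u⁻¹ * (v : G) ∈ W
    rw [← show u * w = (v : G) from he, inv_mul_cancel_left]
    exact hw
  choose π hπU hπW using hsplit
  have huniq : ∀ v u : ↥V, (u : G) ∈ U → ((u⁻¹ * v : ↥V) : G) ∈ W → u = π v := by
    intro v u hu hw
    have hmem : ((u⁻¹ * π v : ↥V) : G) ∈ U ⊓ W := ⟨U.mul_mem (U.inv_mem hu) (hπU v), by
      rw [show u⁻¹ * π v = (u⁻¹ * v) * ((π v)⁻¹ * v)⁻¹ by group]
      exact W.mul_mem hw (W.inv_mem (hπW v))⟩
    rw [hUW, Subgroup.mem_bot] at hmem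
    exact inv_mul_eq_one.mp (Subtype.ext hmem)
  let P : ↥V →* ↥V := MonoidHom.mk' π fun x y => (huniq (x * y) (π x * π y) (U.mul_mem (hπU x) (hπU y)) (by
    rw [show (π x * π y)⁻¹ * (x * y) = ((π x)⁻¹ * x) * ((π y)⁻¹ * y) by
      simp only [mul_inv_rev]; ac_rfl]
    exact W.mul_mem (hπW x) (hπW y))).symm
  have hPid : ∀ u : ↥V, (u : G) ∈ U → P u = u := fun u hu => (huniq u u hu (by simp [W.one_mem])).symm
  let c : ↥A → ↥V →* ↥V := fun a => MonoidHom.mk' (fun v => ⟨(a : G) * v * (a : G)⁻¹,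
    (Subgroup.mem_normalizer_iff.mp (hAV a.2) (v : G)).mp v.2⟩)
    fun x y => Subtype.ext (show (a : G) * ((x : G) * y) * (a : G)⁻¹ = _ by
      show _ = ((a : G) * x * (a : G)⁻¹) * ((a : G) * y * (a : G)⁻¹); group)
  have hc1 : ∀ (a b : ↥A) (v : ↥V), c a (c b v) = c (a * b) v := fun a b v => Subtype.ext
    (show (a : G) * ((b : G) * v * (b : G)⁻¹) * (a : G)⁻¹ = ((a : G) * b) * v * ((a : G) * b)⁻¹ by group)
  have hcU : ∀ (a : ↥A) (u : ↥V), (u : G) ∈ U → (c a u : G) ∈ U := fun a u hu =>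
    (Subgroup.mem_normalizer_iff.mp (hAU a.2) (u : G)).mp hu
  let Q : ↥V →* ↥V := MonoidHom.mk' (fun v => ∏ a : ↥A, c a (P (c a⁻¹ v))) fun x y => by
    rw [← Finset.prod_mul_distrib]
    exact Finset.prod_congr rfl fun a _ => by rw [map_mul, map_mul, map_mul]
  have hQU : ∀ v, (Q v : G) ∈ U := fun v => by
    show ((∏ a : ↥A, c a (P (c a⁻¹ v)) : ↥V) : G) ∈ U
    exact (Subgroup.mem_subgroupOf (H := U) (K := V)).mp
      (Subgroup.prod_mem _ fun a _ => Subgroup.mem_subgroupOf.mpr (hcU a _ (hπU _)))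
  have hQid : ∀ u : ↥V, (u : G) ∈ U → Q u = u ^ Nat.card A := by
    intro u hu
    show (∏ a : ↥A, c a (P (c a⁻¹ u))) = _
    rw [Finset.prod_congr rfl (g := fun _ => u) fun a _ => by
      rw [hPid _ (hcU _ u hu), hc1, mul_inv_cancel]
      exact Subtype.ext (show (1 : G) * u * (1 : G)⁻¹ = u by group)]
    rw [Finset.prod_const, Finset.card_univ, Nat.card_eq_fintype_card]
  have hQeq : ∀ (b : ↥A) (v : ↥V), Q (c b v) = c b (Q v) := by
    intro b v
    show (∏ a : ↥A, c a (P (c a⁻¹ (c b v)))) = c b (∏ a : ↥A, c a (P (c a⁻¹ v)))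
    rw [map_prod]
    refine Fintype.prod_equiv (Equiv.mulLeft b⁻¹) _ _ fun a => ?_
    show c a _ = c b (c (b⁻¹ * a) (P (c (b⁻¹ * a)⁻¹ v)))
    rw [hc1, hc1, mul_inv_cancel_left, mul_inv_rev, inv_inv]
  refine ⟨Q.ker.map V.subtype, Subgroup.map_subtype_le _, ?_, ?_, ?_⟩
  · intro b hb
    have key : ∀ b : ↥A, ∀ z ∈ Q.ker.map V.subtype, (b : G) * z * (b : G)⁻¹ ∈ Q.ker.map V.subtype := by
      rintro b _ ⟨v, hv, rfl⟩
      refine ⟨c b v, ?_, rfl⟩
      show Q (c b v) = 1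
      rw [hQeq, show Q v = 1 from hv, map_one]
    rw [Subgroup.mem_normalizer_iff]
    intro z
    refine ⟨key ⟨b, hb⟩ z, fun h => ?_⟩
    have := key ⟨b, hb⟩⁻¹ _ h
    simpa [mul_assoc] using this
  · rw [eq_bot_iff]
    rintro x ⟨hxU, v, hv, rfl⟩
    have h := hQid v hxU
    rw [show Q v = 1 from hv] at h
    rw [Subgroup.mem_bot]
    have h2 : orderOf v ∣ Nat.card A := orderOf_dvd_of_pow_eq_one h.symm
    have h3 : orderOf v = 1 := Nat.eq_one_of_dvd_coprimes hcop h2 (orderOf_dvd_natCard v)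
    rw [orderOf_eq_one_iff.mp h3]
    rfl
  · refine le_antisymm (sup_le hUV (Subgroup.map_subtype_le _)) fun x hx => ?_
    obtain ⟨k, hk⟩ : ∃ k, ∀ v : ↥V, (v ^ Nat.card A) ^ k = v := by
      obtain ⟨k, hk⟩ : ∃ k : ℕ, Nat.card A * k ≡ 1 [MOD Nat.card V] := by
        rcases Nat.lt_or_ge 1 (Nat.card V) with h1 | h1
        · obtain ⟨k, -, hk⟩ := Nat.exists_mul_mod_eq_one_of_coprime hcop h1
          exact ⟨k, by rw [Nat.ModEq, hk, Nat.mod_eq_of_lt h1]⟩
        · refine ⟨0, ?_⟩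
          rw [show Nat.card V = 1 from le_antisymm h1 Nat.card_pos]
          exact Nat.modEq_one
      refine ⟨k, fun v => ?_⟩
      rw [← pow_mul]
      conv_rhs => rw [← pow_one v]
      exact pow_eq_pow_iff_modEq.mpr (hk.of_dvd (orderOf_dvd_natCard v))
    let v : ↥V := ⟨x, hx⟩
    have hu : ((Q v ^ k : ↥V) : G) ∈ U := by rw [SubmonoidClass.coe_pow]; exact U.pow_mem (hQU v) k
    have hker : (Q v ^ k)⁻¹ * v ∈ Q.ker := by
      rw [MonoidHom.mem_ker, map_mul, map_inv, map_pow, hQid _ (hQU v), hk, inv_mul_cancel]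
    have : x = ((Q v ^ k : ↥V) : G) * (((Q v ^ k)⁻¹ * v : ↥V) : G) := by
      rw [← Subgroup.coe_mul, mul_inv_cancel_left]
    rw [this]
    exact mul_mem (Subgroup.mem_sup_left hu) (Subgroup.mem_sup_right ⟨_, hker, rfl⟩)

end Cfsg.Agent.S0660
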