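import Cfsg.Statements.S0663
import Cfsg.Agent.PSolv.Basic
import Cfsg.Agent.Solv.FrattiniFree

set_option autoImplicit false
open Cfsg
open scoped commutatorElement

namespace Cfsg.Agent.S0663

/-- A p-group acts uniserially on a p-group N of order p^n exactly when the iterated commutator chain from N has length n; in that case the chain terms are all the invariant subgroups of N and they are normal in N. -/
theorem result {L : Type*} [Group L] [Finite L] {p : ℕ} [Fact p.Prime] (N G : Subgroup L) (hN : IsPGroup p N) (hG : IsPGroup p G) (hGN : G ≤ Subgroup.normalizer (N : Set L)) (n : ℕ) (hn : Nat.card N = p ^ n) : ((∀ H : Subgroup L, H ≤ N → G ≤ Subgroup.normalizer (H : Set L) → H ≠ ⊥ → (⁅H, G⁆).relIndex H = p) ↔ Cfsg.iterCommutator N G (n - 1) ≠ ⊥ ∨ n = 0) ∧ ((∀ H : Subgroup L, H ≤ N → G ≤ Subgroup.normalizer (H : Set L) → H ≠ ⊥ → (⁅H, G⁆).relIndex H = p) → ∀ H : Subgroup L, H ≤ N → G ≤ Subgroup.normalizer (H : Set L) → (∃ i ≤ n, H = Cfsg.iterCommutator N G i) ∧ N ≤ Subgroup.normalizer (H : Set L)) := by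
  classical
  have hp : p.Prime := Fact.out
  set F := G ⊔ N with hF
  have hFp : IsPGroup p ↥F := PSolv.isPGroup_sup hG hN hGN
  haveI := hFp.isNilpotent
  let it : ℕ → Subgroup L := fun i => Cfsg.iterCommutator N G i
  have it0 : it 0 = N := rfl
  have its : ∀ i, it (i + 1) = ⁅it i, G⁆ := fun i => rfl
  have hGit : ∀ i, G ≤ Subgroup.normalizer (it i : Set L) := by
    intro i
    cases i with
    | zero => exact hGN
    | succ i => rw [its]; exact Subgroup.normalizer_commutator_ge_right _ G
  have hdec : ∀ i, it (i + 1) ≤ it i := fun i => Subgroup.le_normalizer_iff_commutator_le_left.mp (hGit i)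
  have hitN : ∀ i, it i ≤ N := by
    intro i
    induction i with
    | zero => exact le_rfl
    | succ i ih => exact (hdec i).trans ih
  have hstrict : ∀ H : Subgroup L, H ≤ N → G ≤ Subgroup.normalizer (H : Set L) → H ≠ ⊥ → ⁅H, F⁆ ⊓ H ≠ H ∧ ⁅H, G⁆ ≠ H := by
    intro H hH hGH hne
    refine ⟨fun h => hne (Solv.eq_bot_of_le_commutator (hH.trans le_sup_right) (inf_eq_right.mp h)), fun h => hne ?_⟩
    exact Solv.eq_bot_of_le_commutator (hH.trans le_sup_right) (h.ge.trans (Subgroup.commutator_mono le_rfl le_sup_left))
  have hpow : ∀ H K : Subgroup L, H ≤ K → K ≤ N → H ≠ K → p ≤ H.relIndex K := by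
    intro H K hHK hKN hne
    obtain ⟨k, hk⟩ := (hN.to_le hKN).exists_card_eq
    obtain ⟨i, -, hi⟩ := (Nat.dvd_prime_pow hp).mp (hk ▸ Subgroup.relIndex_dvd_card H K)
    cases i with
    | zero => exact absurd (le_antisymm hHK (Subgroup.relIndex_eq_one.mp (by rw [hi, pow_zero]))) hne
    | succ i => rw [hi]; exact Nat.le_self_pow (Nat.succ_ne_zero i) p
  have hcm : ∀ H K : Subgroup L, H ≤ K → Nat.card ↥H * H.relIndex K = Nat.card ↥K := fun H K h => by
    have := Subgroup.relIndex_mul_relIndex (⊥ : Subgroup L) H K bot_le h
    rwa [Subgroup.relIndex_bot_left, Subgroup.relIndex_bot_left] at this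
  have hstep : ∀ i, it i ≠ ⊥ → p * Nat.card ↥(it (i + 1)) ≤ Nat.card ↥(it i) := by
    intro i hi
    rw [← hcm _ _ (hdec i), mul_comm p]
    exact Nat.mul_le_mul_left _ (hpow _ _ (hdec i) (hitN i) (hstrict _ (hitN i) (hGit i) hi).2)
  have hbound : ∀ i, it i ≠ ⊥ → p ^ i * Nat.card ↥(it i) ≤ p ^ n := by
    intro i
    induction i with
    | zero => intro _; rw [pow_zero, one_mul, it0, hn]
    | succ i ih =>
      intro hi
      have hi' : it i ≠ ⊥ := fun h => hi (le_bot_iff.mp (h ▸ hdec i))
      calc p ^ (i + 1) * Nat.card ↥(it (i + 1)) = p ^ i * (p * Nat.card ↥(it (i + 1))) := by rw [pow_succ]; ring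
        _ ≤ p ^ i * Nat.card ↥(it i) := Nat.mul_le_mul_left _ (hstep i hi')
        _ ≤ p ^ n := ih hi'
  -- under the uniserial hypothesis the chain has the orders `p ^ (n - i)`
  let Uni : Prop := ∀ H : Subgroup L, H ≤ N → G ≤ Subgroup.normalizer (H : Set L) → H ≠ ⊥ → (⁅H, G⁆).relIndex H = p
  have hcard : Uni → ∀ i, i ≤ n → Nat.card ↥(it i) = p ^ (n - i) := by
    intro hu i
    induction i with
    | zero => intro _; rw [it0, hn, Nat.sub_zero]
    | succ i ih =>
      intro hi
      have h1 := ih (by omega)
      have hne : it i ≠ ⊥ := fun h => by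
        rw [h, Subgroup.card_bot] at h1
        have h2 : 1 < p ^ (n - i) := Nat.one_lt_pow (by omega) hp.one_lt
        omega
      have h2 := hcm _ _ (hdec i)
      rw [its] at h2 ⊢
      rw [hu _ (hitN i) (hGit i) hne, h1, show n - i = n - (i + 1) + 1 by omega, pow_succ] at h2
      exact Nat.eq_of_mul_eq_mul_right hp.pos h2
  have huni : ∀ hu : Uni, ∀ H : Subgroup L, H ≤ N → G ≤ Subgroup.normalizer (H : Set L) →
      (∃ i ≤ n, H = it i) ∧ N ≤ Subgroup.normalizer (H : Set L) := by
    intro hu
    have hNit : ∀ i, N ≤ Subgroup.normalizer (it i : Set L) := by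
      intro i
      induction i with
      | zero => exact Subgroup.le_normalizer
      | succ i ih =>
        by_cases hne : it i = ⊥
        · have h0 : it (i + 1) = ⊥ := le_bot_iff.mp (hne ▸ hdec i)
          rw [h0]
          exact fun g _ => Subgroup.mem_normalizer_iff.mpr fun x => by simp
        have hFi : F ≤ Subgroup.normalizer (it i : Set L) := sup_le (hGit i) ih
        have hMle : ⁅it i, F⁆ ≤ it i := Subgroup.le_normalizer_iff_commutator_le_left.mp hFi
        have heq : it (i + 1) = ⁅it i, F⁆ := by
          have hle : it (i + 1) ≤ ⁅it i, F⁆ := Subgroup.commutator_mono le_rfl le_sup_left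
          have h1 := Subgroup.relIndex_mul_relIndex _ _ _ hle hMle
          rw [its, hu _ (hitN i) (hGit i) hne] at h1
          have hne2 : ⁅it i, F⁆ ≠ it i := fun h => (hstrict _ (hitN i) (hGit i) hne).1 (by rw [h, inf_idem])
          have h3 := hpow _ _ hMle (hitN i) hne2
          have h4 : (⁅it i, G⁆).relIndex ⁅it i, F⁆ = 1 := by
            rcases (Nat.dvd_prime hp).mp (h1 ▸ dvd_mul_right _ _ : (⁅it i, G⁆).relIndex ⁅it i, F⁆ ∣ p) with h | h
            · exact h
            · rw [h] at h1
              nlinarith [hp.two_le]
          exact le_antisymm hle (Subgroup.relIndex_eq_one.mp h4)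
        rw [heq]
        exact le_sup_right.trans (Subgroup.normalizer_commutator_ge_right (it i) F)
    intro H hHN hGH
    have hbot : it n = ⊥ := Subgroup.eq_bot_of_card_eq _ (by rw [hcard hu n le_rfl, Nat.sub_self, pow_zero])
    have key : ∃ i ≤ n, H = it i := by
      by_contra hno
      simp only [not_exists, not_and] at hno
      have hall : ∀ i, i ≤ n → H ≤ it i := by
        intro i
        induction i with
        | zero => intro _; exact hHN
        | succ i ih =>
          intro hi
          have hHi := ih (by omega)
          have hne := hno i (by omega)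
          have hnei : it i ≠ ⊥ := fun h => hne (le_antisymm hHi (h ▸ bot_le))
          by_contra hH1
          -- otherwise `H` would be all of `it i`
          have hsup : H ⊔ it (i + 1) = it i := by
            have hle : H ⊔ it (i + 1) ≤ it i := sup_le hHi (hdec i)
            have h1 := Subgroup.relIndex_mul_relIndex _ _ _ (le_sup_right : it (i + 1) ≤ H ⊔ it (i + 1)) hle
            have hu' := hu _ (hitN i) (hGit i) hnei
            rw [← its] at hu'
            rw [hu'] at h1
            rcases (Nat.dvd_prime hp).mp (h1 ▸ dvd_mul_right _ _ : (it (i + 1)).relIndex (H ⊔ it (i + 1)) ∣ p) with h | h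
            · exact absurd (le_sup_left.trans (Subgroup.relIndex_eq_one.mp h)) hH1
            · rw [h] at h1
              exact le_antisymm hle (Subgroup.relIndex_eq_one.mp (mul_eq_left₀ hp.ne_zero |>.mp h1))
          have hdown : ∀ j, i + 1 ≤ j → it i ≤ H ⊔ it j := by
            intro j hj
            induction j, hj using Nat.le_induction with
            | base => exact hsup.ge
            | succ j hj ihj =>
              have hHn : H ≤ Subgroup.normalizer (it (j + 1) : Set L) := hHN.trans (hNit _)
              have h1 : it (i + 1) ≤ H ⊔ it (j + 1) := by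
                rw [its i, Subgroup.commutator_le]
                intro y hy g hg
                have hy' := ihj hy
                rw [← SetLike.mem_coe, Subgroup.coe_mul_of_left_le_normalizer_right H (it j) (hHN.trans (hNit j))] at hy'
                obtain ⟨h', hh', z, hz, rfl⟩ := hy'
                have e : ⁅h' * z, g⁆ = h' * ⁅z, g⁆ * h'⁻¹ * ⁅h', g⁆ := by
                  rw [commutatorElement_def, commutatorElement_def, commutatorElement_def]; group
                rw [e]
                refine Subgroup.mul_mem _ (Subgroup.mem_sup_right ((Subgroup.mem_normalizer_iff.mp (hHn hh') _).mp ?_))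
                  (Subgroup.mem_sup_left (Subgroup.le_normalizer_iff_commutator_le_left.mp hGH (Subgroup.commutator_mem_commutator hh' hg)))
                rw [its]; exact Subgroup.commutator_mem_commutator hz hg
              rw [← hsup]
              exact sup_le le_sup_left h1
          have h2 := hdown n hi
          rw [hbot, sup_bot_eq] at h2
          exact hne (le_antisymm hHi h2)
      exact hno n le_rfl (le_antisymm (hall n le_rfl) (hbot ▸ bot_le))
    obtain ⟨i, hi, rfl⟩ := key
    exact ⟨⟨i, hi, rfl⟩, hNit i⟩
  refine ⟨⟨fun hu => ?_, fun hlast H hHN hGH hne => ?_⟩, huni⟩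
  · by_cases h0 : n = 0
    · exact Or.inr h0
    refine Or.inl fun h => ?_
    have h1 := hcard hu (n - 1) (by omega)
    rw [show it (n - 1) = ⊥ from h, Subgroup.card_bot, show n - (n - 1) = 1 by omega, pow_one] at h1
    exact hp.ne_one h1.symm
  · have hn0 : n ≠ 0 := by
      intro h
      subst h
      rw [pow_zero] at hn
      exact hne (le_bot_iff.mp ((Subgroup.eq_bot_of_card_eq N hn) ▸ hHN))
    have hlast' : it (n - 1) ≠ ⊥ := hlast.resolve_right hn0
    -- all the steps are exactly `p`
    have hexact : ∀ i, i ≤ n → Nat.card ↥(it i) = p ^ (n - i) := by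
      have hlow : ∀ k, k ≤ n - 1 → p ^ (k + 1) ≤ Nat.card ↥(it (n - 1 - k)) := by
        intro k
        induction k with
        | zero =>
          intro _
          rw [Nat.sub_zero, zero_add, pow_one]
          obtain ⟨j, hj⟩ := (hN.to_le (hitN (n - 1))).exists_card_eq
          cases j with
          | zero => exact absurd (Subgroup.eq_bot_of_card_eq _ (by rw [hj, pow_zero])) hlast'
          | succ j => rw [hj]; exact Nat.le_self_pow (Nat.succ_ne_zero j) p
        | succ k ih =>
          intro hk
          have h1 := ih (by omega)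
          have hidx : n - 1 - k = n - 1 - (k + 1) + 1 := by omega
          have hne' : it (n - 1 - (k + 1)) ≠ ⊥ := fun h => by
            have : it (n - 1 - k) ≤ ⊥ := by rw [hidx]; exact (hdec _).trans h.le
            rw [le_bot_iff.mp this, Subgroup.card_bot] at h1
            exact absurd h1 (not_le_of_gt (Nat.one_lt_pow (Nat.succ_ne_zero k) hp.one_lt))
          have h2 := hstep _ hne'
          rw [← hidx] at h2
          calc p ^ (k + 1 + 1) = p * p ^ (k + 1) := by ring
            _ ≤ p * Nat.card ↥(it (n - 1 - k)) := Nat.mul_le_mul_left _ h1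
            _ ≤ _ := h2
      intro i hi
      rcases Nat.lt_or_ge i n with hlt | hge
      · have h1 := hlow (n - 1 - i) (by omega)
        rw [show n - 1 - (n - 1 - i) = i by omega, show n - 1 - i + 1 = n - i by omega] at h1
        have hne' : it i ≠ ⊥ := fun h => by
          rw [h, Subgroup.card_bot] at h1
          have := Nat.one_lt_pow (show n - i ≠ 0 by omega) hp.one_lt
          omega
        have h2 := hbound i hne'
        have h2' : p ^ i * Nat.card ↥(it i) ≤ p ^ i * p ^ (n - i) := by
          rw [← pow_add, Nat.add_sub_cancel' (by omega : i ≤ n)]; exact h2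
        exact le_antisymm (Nat.le_of_mul_le_mul_left h2' (pow_pos hp.pos i)) h1
      · have hin : i = n := le_antisymm hi hge
        subst hin
        rw [Nat.sub_self, pow_zero, Subgroup.card_eq_one]
        by_contra hne'
        have h2 := hbound i hne'
        have h3 : Nat.card ↥(it i) ≤ 1 := Nat.le_of_mul_le_mul_left (h2.trans (mul_one _).ge) (pow_pos hp.pos i)
        exact hne' (Subgroup.eq_bot_of_card_le _ h3)
    have hbot : it n = ⊥ := Subgroup.eq_bot_of_card_eq _ (by rw [hexact n le_rfl, Nat.sub_self, pow_zero])
    -- `H` is contained in a first term; its commutator subgroup is not `H`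
    have hsub : H ≤ N := hHN
    have hNit : ∀ i, N ≤ Subgroup.normalizer (it i : Set L) := by
      intro i
      induction i with
      | zero => exact Subgroup.le_normalizer
      | succ i ih =>
        by_cases hlt : i < n
        · have hFi : F ≤ Subgroup.normalizer (it i : Set L) := sup_le (hGit i) ih
          have hMle : ⁅it i, F⁆ ≤ it i := Subgroup.le_normalizer_iff_commutator_le_left.mp hFi
          have hne' : it i ≠ ⊥ := fun h => by
            have h1 := hexact i hlt.le
            rw [h, Subgroup.card_bot] at h1
            have := Nat.one_lt_pow (show n - i ≠ 0 by omega) hp.one_lt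
            omega
          have hle : it (i + 1) ≤ ⁅it i, F⁆ := Subgroup.commutator_mono le_rfl le_sup_left
          have hne2 : ⁅it i, F⁆ ≠ it i := fun h => (hstrict _ (hitN i) (hGit i) hne').1 (by rw [h, inf_idem])
          have h3 := hpow _ _ hMle (hitN i) hne2
          have h4 : Nat.card ↥⁅it i, F⁆ * p ≤ Nat.card ↥(it i) := (Nat.mul_le_mul_left _ h3).trans (hcm _ _ hMle).le
          rw [hexact i hlt.le, show n - i = n - (i + 1) + 1 by omega, pow_succ] at h4
          have heq : it (i + 1) = ⁅it i, F⁆ := Subgroup.eq_of_le_of_card_ge hle (by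
            rw [hexact (i + 1) hlt]; exact Nat.le_of_mul_le_mul_right h4 hp.pos)
          rw [heq]
          exact le_sup_right.trans (Subgroup.normalizer_commutator_ge_right (it i) F)
        · have hb : it (i + 1) = ⊥ := by
            have : ∀ j, n ≤ j → it j = ⊥ := by
              intro j hj
              induction j, hj using Nat.le_induction with
              | base => exact hbot
              | succ j _ ihj => exact le_bot_iff.mp (ihj ▸ hdec j)
            exact this _ (by omega)
          rw [hb]
          exact fun g _ => Subgroup.mem_normalizer_iff.mpr fun x => by simp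
    -- the first index whose successor does not contain `H`
    obtain ⟨i, hi, hHi, hH1⟩ : ∃ i, i < n ∧ H ≤ it i ∧ ¬ H ≤ it (i + 1) := by
      by_contra hno
      simp only [not_exists, not_and, not_not] at hno
      have hall : ∀ i, i ≤ n → H ≤ it i := by
        intro i
        induction i with
        | zero => intro _; exact hHN
        | succ i ih => intro h; exact hno i (by omega) (ih (by omega))
      exact hne (le_bot_iff.mp (hbot ▸ hall n le_rfl))
    have hsup : H ⊔ it (i + 1) = it i := by
      refine Subgroup.eq_of_le_of_card_ge (sup_le hHi (hdec i)) ?_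
      have hne' : it (i + 1) ≠ H ⊔ it (i + 1) := fun h => hH1 (h ▸ le_sup_left)
      have h1 := hpow _ _ le_sup_right ((sup_le hHi (hdec i)).trans (hitN i)) hne'
      rw [← hcm _ _ (le_sup_right : it (i + 1) ≤ H ⊔ it (i + 1)), hexact i hi.le, hexact (i + 1) hi,
        show n - i = n - (i + 1) + 1 by omega, pow_succ]
      exact Nat.mul_le_mul_left _ h1
    have hdown : ∀ j, i + 1 ≤ j → it i ≤ H ⊔ it j := by
      intro j hj
      induction j, hj using Nat.le_induction with
      | base => exact hsup.ge
      | succ j hj ihj =>
        have hHn : H ≤ Subgroup.normalizer (it (j + 1) : Set L) := hHN.trans (hNit _)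
        have h1 : it (i + 1) ≤ H ⊔ it (j + 1) := by
          rw [its i, Subgroup.commutator_le]
          intro y hy g hg
          have hy' := ihj hy
          rw [← SetLike.mem_coe, Subgroup.coe_mul_of_left_le_normalizer_right H (it j) (hHN.trans (hNit j))] at hy'
          obtain ⟨h', hh', z, hz, rfl⟩ := hy'
          have e : ⁅h' * z, g⁆ = h' * ⁅z, g⁆ * h'⁻¹ * ⁅h', g⁆ := by
            rw [commutatorElement_def, commutatorElement_def, commutatorElement_def]; group
          rw [e]
          refine Subgroup.mul_mem _ (Subgroup.mem_sup_right ((Subgroup.mem_normalizer_iff.mp (hHn hh') _).mp ?_))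
            (Subgroup.mem_sup_left (Subgroup.le_normalizer_iff_commutator_le_left.mp hGH (Subgroup.commutator_mem_commutator hh' hg)))
          rw [its]; exact Subgroup.commutator_mem_commutator hz hg
        rw [← hsup]
        exact sup_le le_sup_left h1
    have h2 := hdown n (by omega)
    rw [hbot, sup_bot_eq] at h2
    have hHeq : H = it i := le_antisymm hHi h2
    have h3 := hcm _ _ (hdec i)
    rw [hexact i hi.le, hexact (i + 1) hi, show n - i = n - (i + 1) + 1 by omega, pow_succ] at h3
    rw [hHeq, ← its]
    exact Nat.eq_of_mul_eq_mul_left (pow_pos hp.pos _) h3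

end Cfsg.Agent.S0663
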