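import Cfsg.Statements.S3733
import Mathlib.GroupTheory.GroupAction.Quotient
import Mathlib.Algebra.BigOperators.Group.Finset.Basic


set_option autoImplicit false
open Cfsg
open scoped commutatorElement

namespace Cfsg.Agent.S3733

/-- Let A and V be subgroups of a finite group with V abelian and nontrivial and A normalizing V. Suppose a nonempty finite family of proper subgroups of A partitions A: every non-identity element of A lies in exactly one member. If the number of members minus one is coprime to the order of V, then some member B of the family has a non-identity fixed point on V, that is V ∩ C(B) ≠ 1. -/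
theorem result {G : Type*} [Group G] [Finite G] (A V : Subgroup G) (hVab : IsMulCommutative V) (hV : V ≠ ⊥) (hAV : A ≤ Subgroup.normalizer (V : Set G)) (𝒜 : Finset (Subgroup G)) (hne : 𝒜.Nonempty) (hprop : ∀ B ∈ 𝒜, B < A) (hpart : ∀ a ∈ A, a ≠ 1 → ∃! B, B ∈ 𝒜 ∧ a ∈ B) (hk : (𝒜.card - 1).Coprime (Nat.card V)) : ∃ B ∈ 𝒜, V ⊓ Subgroup.centralizer (B : Set G) ≠ ⊥ := by
  classical
  haveI := hVab
  have hmem : ∀ a ∈ A, ∀ v ∈ V, a * v * a⁻¹ ∈ V := fun a ha v hv => (Subgroup.mem_normalizer_iff.mp (hAV ha) v).mp hv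
  by_contra hcon
  push_neg at hcon
  apply hV
  rw [Subgroup.eq_bot_iff_forall]
  intro v hv
  haveI : Fintype G := Fintype.ofFinite G
  let fin : Subgroup G → Finset G := fun K => Finset.univ.filter (· ∈ K)
  open scoped IsMulCommutative in
  have key : (⟨v, hv⟩ : ↥V) ^ (𝒜.card - 1) = 1 := by
    let f : G → ↥V := fun a => if h : a ∈ A then ⟨a * v * a⁻¹, hmem a h v hv⟩ else 1
    have f1 : f 1 = ⟨v, hv⟩ := by simp [f]
    have hfix : ∀ B : Subgroup G, B ≤ A → ∀ b ∈ B, b * ((∏ a ∈ fin B, f a : ↥V) : G) * b⁻¹ = ((∏ a ∈ fin B, f a : ↥V) : G) := by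
      intro B hBA b hb
      let φ : ↥V →* ↥V :=
        { toFun := fun x => ⟨b * x * b⁻¹, hmem b (hBA hb) x x.2⟩
          map_one' := Subtype.ext (by simp)
          map_mul' := fun x y => Subtype.ext (by
            show b * ((x : G) * y) * b⁻¹ = b * x * b⁻¹ * (b * y * b⁻¹)
            group) }
      refine congrArg Subtype.val (show φ _ = _ from ?_)
      rw [map_prod]
      refine Finset.prod_nbij' (fun a => b * a) (fun a => b⁻¹ * a) ?_ ?_ ?_ ?_ ?_
      · intro a ha; simp [fin] at ha ⊢; exact B.mul_mem hb ha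
      · intro a ha; simp [fin] at ha ⊢; exact B.mul_mem (B.inv_mem hb) ha
      · intro a _; exact inv_mul_cancel_left b a
      · intro a _; exact mul_inv_cancel_left b a
      · intro a ha
        simp [fin] at ha
        have h1 : a ∈ A := hBA ha
        have h2 : b * a ∈ A := A.mul_mem (hBA hb) h1
        refine Subtype.ext ?_
        simp only [f, dif_pos h1, dif_pos h2]
        show b * (a * v * a⁻¹) * b⁻¹ = b * a * v * (b * a)⁻¹
        group
    have hone : ∀ B ∈ 𝒜, ∀ W : Subgroup G, B ≤ W → W ≤ A → (∏ a ∈ fin W, f a) = 1 := by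
      intro B hB W hBW hWA
      have h : ((∏ a ∈ fin W, f a : ↥V) : G) ∈ V ⊓ Subgroup.centralizer (B : Set G) := by
        refine ⟨Subtype.coe_prop _, Subgroup.mem_centralizer_iff.mpr fun b hb => ?_⟩
        have := hfix W hWA b (hBW hb)
        calc b * ((∏ a ∈ fin W, f a : ↥V) : G) = b * ((∏ a ∈ fin W, f a : ↥V) : G) * b⁻¹ * b := by group
          _ = _ := by rw [this]
      rw [hcon B hB, Subgroup.mem_bot] at h
      exact Subtype.ext h
    have hsplit : ∀ W : Subgroup G, (∏ a ∈ (fin W).erase 1, f a) = (⟨v, hv⟩ : ↥V)⁻¹ * ∏ a ∈ fin W, f a := by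
      intro W
      rw [← Finset.mul_prod_erase (fin W) f (show (1 : G) ∈ fin W by simp [fin]), f1, inv_mul_cancel_left]
    obtain ⟨B₀, hB₀⟩ := hne
    have hA : (∏ a ∈ (fin A).erase 1, f a) = (⟨v, hv⟩ : ↥V)⁻¹ := by
      rw [hsplit, hone B₀ hB₀ A (hprop B₀ hB₀).le le_rfl, mul_one]
    have hun : (fin A).erase 1 = 𝒜.biUnion fun B => (fin B).erase 1 := by
      ext a
      simp only [Finset.mem_erase, Finset.mem_biUnion, fin, Finset.mem_filter, Finset.mem_univ, true_and]
      constructor
      · rintro ⟨h1, h2⟩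
        obtain ⟨B, ⟨hB, haB⟩, -⟩ := hpart a h2 h1
        exact ⟨B, hB, h1, haB⟩
      · rintro ⟨B, hB, h1, h2⟩
        exact ⟨h1, (hprop B hB).le h2⟩
    have hdisj : (𝒜 : Set (Subgroup G)).PairwiseDisjoint fun B => (fin B).erase 1 := by
      intro B hB B' hB' hne'
      rw [Function.onFun, Finset.disjoint_left]
      intro a ha ha'
      simp only [Finset.mem_erase, fin, Finset.mem_filter, Finset.mem_univ, true_and] at ha ha'
      exact hne' ((hpart a ((hprop B hB).le ha.2) ha.1).unique ⟨hB, ha.2⟩ ⟨hB', ha'.2⟩)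
    rw [hun, Finset.prod_biUnion hdisj, Finset.prod_congr rfl (fun B hB => by rw [hsplit, hone B hB B le_rfl (hprop B hB).le, mul_one]),
      Finset.prod_const, inv_pow, inv_inj] at hA
    have hk' : 𝒜.card = (𝒜.card - 1) + 1 := (Nat.sub_add_cancel (Finset.card_pos.mpr ⟨B₀, hB₀⟩)).symm
    rw [hk', pow_succ] at hA
    exact mul_eq_right.mp hA
  have h1 : v ^ (𝒜.card - 1) = 1 := congrArg Subtype.val key
  have h2 : orderOf v ∣ Nat.card ↥V := by
    have := orderOf_dvd_natCard (⟨v, hv⟩ : ↥V)
    rwa [Subgroup.orderOf_mk] at this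
  exact orderOf_eq_one_iff.mp (Nat.eq_one_of_dvd_coprimes hk (orderOf_dvd_of_pow_eq_one h1) h2)

end Cfsg.Agent.S3733
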