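import Cfsg.Statements.S0666
import Mathlib.Algebra.BigOperators.Group.Finset.Basic
import Mathlib.GroupTheory.GroupAction.Quotient
import Cfsg.Agent.S3733
import Cfsg.Agent.Frob.Kernel

set_option autoImplicit false
open Cfsg
open scoped commutatorElement Pointwise

namespace Cfsg.Agent.S0666

/-- A Frobenius group acting on a nontrivial abelian group of order prime to that of its kernel, with the kernel acting without nontrivial fixed points, has a complement with a nontrivial fixed point. -/
theorem result {G : Type*} [Group G] [Finite G] (V F : Subgroup G) (hVab : IsMulCommutative V) (hV1 : V ≠ ⊥) (hFV : F ≤ Subgroup.normalizer (V : Set G)) (H : Subgroup ↥F) (hH : Cfsg.IsFrobeniusComplement H) (hcop : (Nat.card V).Coprime (Nat.card (Cfsg.frobeniusKernel H))) (hCK : V ⊓ Subgroup.centralizer (Subtype.val '' Cfsg.frobeniusKernel H : Set G) = ⊥) : V ⊓ Subgroup.centralizer ((H.map F.subtype : Subgroup G) : Set G) ≠ ⊥ := by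
  classical
  obtain ⟨N, hN, hNn, hc⟩ := Frob.kernel_theorem hH
  haveI := hNn
  haveI : Fintype ↥F := Fintype.ofFinite _
  let cH : ↥F → Subgroup G := fun g => (MulAut.conj g • H).map F.subtype
  set N' := N.map F.subtype with hN'
  have hnorm : ∀ n : ↥F, MulAut.conj n • H = H → n ∈ H := by
    intro n hn
    by_contra hc'
    have := hH.2.2 n hc'
    rw [hn, inf_idem] at this
    exact hH.1 this
  have hNne : ∀ x : ↥F, x ∈ N → ∀ g : ↥F, x ∈ MulAut.conj g • H → x = 1 := by
    intro x hx g hg
    rw [← SetLike.mem_coe, hN] at hx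
    exact hx.resolve_right fun h => h g hg
  have hHne : ∀ g : ↥F, (MulAut.conj g • H) ≠ ⊥ := by
    intro g h
    exact hH.1 (by simpa using congrArg (fun K => (MulAut.conj g)⁻¹ • K) h)
  have hN'ne : ∀ g : ↥F, N' ≠ cH g := by
    intro g h
    apply hHne g
    rw [Subgroup.eq_bot_iff_forall]
    intro x hx
    have h1 : (x : G) ∈ N' := h ▸ ⟨x, hx, rfl⟩
    obtain ⟨y, hy, he⟩ := h1
    exact hNne x (Subtype.ext he ▸ hy) g hx
  let q : ↥F ⧸ H → Subgroup G := Quotient.lift cH (fun a b hab => by
    have hab' : a⁻¹ * b ∈ H := QuotientGroup.leftRel_apply.mp hab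
    show (MulAut.conj a • H).map F.subtype = (MulAut.conj b • H).map F.subtype
    rw [show b = a * (a⁻¹ * b) by group, map_mul, mul_smul, Subgroup.conj_smul_eq_self_of_mem hab'])
  have hq : Function.Injective q := by
    intro a b hab
    induction a using Quotient.inductionOn with
    | _ a =>
    induction b using Quotient.inductionOn with
    | _ b =>
    refine Quotient.sound (QuotientGroup.leftRel_apply.mpr (hnorm _ ?_))
    have h : MulAut.conj a • H = MulAut.conj b • H := Subgroup.map_injective F.subtype_injective hab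
    rw [map_mul, mul_smul, ← h, map_inv, inv_smul_smul]
  set 𝒜 := insert N' (Finset.univ.image cH) with h𝒜
  have hcard : (Finset.univ.image cH).card = H.index := by
    have : Finset.univ.image cH = (Finset.univ : Finset (↥F ⧸ H)).image q := by
      ext K
      simp only [Finset.mem_image, Finset.mem_univ, true_and]
      constructor
      · rintro ⟨g, rfl⟩; exact ⟨QuotientGroup.mk g, rfl⟩
      · rintro ⟨a, rfl⟩
        induction a using Quotient.inductionOn with
        | _ a => exact ⟨a, rfl⟩
    rw [this, Finset.card_image_of_injective _ hq, Finset.card_univ, Subgroup.index_eq_card, Nat.card_eq_fintype_card]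
  have hk : 𝒜.card - 1 = Nat.card (Cfsg.frobeniusKernel H) := by
    rw [h𝒜, Finset.card_insert_of_notMem (fun h => by
      obtain ⟨g, -, hg⟩ := Finset.mem_image.mp h
      exact hN'ne g hg.symm), hcard, Nat.add_sub_cancel, Frob.card_kernel hH]
  have hlt : ∀ K : Subgroup ↥F, K ≠ ⊤ → K.map F.subtype < F := by
    intro K hK
    refine lt_of_le_of_ne (Subgroup.map_subtype_le K) fun h => hK (Subgroup.map_injective F.subtype_injective ?_)
    rw [h, ← MonoidHom.range_eq_map, Subgroup.range_subtype]
  obtain ⟨B, hB, hBne⟩ := S3733.result F V hVab hV1 hFV 𝒜 ⟨N', Finset.mem_insert_self _ _⟩ (fun B hB => by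
      rcases Finset.mem_insert.mp hB with rfl | h
      · refine hlt N fun h => hH.1 ?_
        have := hc.symm.index_eq_card
        rw [h, Subgroup.index_top] at this
        exact Subgroup.eq_bot_of_card_eq _ this.symm
      · obtain ⟨g, -, rfl⟩ := Finset.mem_image.mp h
        refine hlt _ fun h => hH.2.1 ?_
        have := congrArg (fun K => (MulAut.conj g)⁻¹ • K) h
        simp only [inv_smul_smul] at this
        rw [this, eq_top_iff]
        intro x _
        rw [Subgroup.mem_inv_pointwise_smul_iff]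
        exact Subgroup.mem_top _) (fun a ha ha1 => by
      have ha1' : (⟨a, ha⟩ : ↥F) ≠ 1 := fun h => ha1 (congrArg Subtype.val h)
      by_cases hK : (⟨a, ha⟩ : ↥F) ∈ N
      · refine ⟨N', ⟨Finset.mem_insert_self _ _, ⟨_, hK, rfl⟩⟩, ?_⟩
        rintro B ⟨hB, haB⟩
        rcases Finset.mem_insert.mp hB with rfl | h
        · rfl
        · obtain ⟨g, -, rfl⟩ := Finset.mem_image.mp h
          obtain ⟨y, hy, he⟩ := haB
          exact absurd (hNne _ hK g ((Subtype.ext he : y = (⟨a, ha⟩ : ↥F)) ▸ hy)) ha1'
      · obtain ⟨g, hg⟩ : ∃ g : ↥F, (⟨a, ha⟩ : ↥F) ∈ MulAut.conj g • H := by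
          by_contra hno
          apply hK
          rw [← SetLike.mem_coe, hN]
          exact Or.inr fun g hg => hno ⟨g, hg⟩
        refine ⟨cH g, ⟨Finset.mem_insert_of_mem (Finset.mem_image.mpr ⟨g, Finset.mem_univ _, rfl⟩), ⟨_, hg, rfl⟩⟩, ?_⟩
        rintro B ⟨hB, haB⟩
        rcases Finset.mem_insert.mp hB with rfl | h
        · obtain ⟨y, hy, he⟩ := haB
          exact absurd ((Subtype.ext he : y = (⟨a, ha⟩ : ↥F)) ▸ hy) hK
        · obtain ⟨g', -, rfl⟩ := Finset.mem_image.mp h
          obtain ⟨y, hy, he⟩ := haB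
          have hg' : (⟨a, ha⟩ : ↥F) ∈ MulAut.conj g' • H := (Subtype.ext he : y = (⟨a, ha⟩ : ↥F)) ▸ hy
          have hmem : g⁻¹ * g' ∈ H := by
            by_contra hne
            have h0 := hH.2.2 _ hne
            have h1 : (MulAut.conj g)⁻¹ • (⟨a, ha⟩ : ↥F) ∈ H ⊓ MulAut.conj (g⁻¹ * g') • H := by
              refine ⟨Subgroup.mem_pointwise_smul_iff_inv_smul_mem.mp hg, ?_⟩
              rw [map_mul, mul_smul, map_inv]
              exact Subgroup.smul_mem_pointwise_smul _ _ _ hg'
            rw [h0, Subgroup.mem_bot, smul_eq_iff_eq_inv_smul, inv_inv, smul_one] at h1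
            exact ha1' h1
          show (MulAut.conj g' • H).map F.subtype = (MulAut.conj g • H).map F.subtype
          rw [show g' = g * (g⁻¹ * g') by group, map_mul, mul_smul, Subgroup.conj_smul_eq_self_of_mem hmem])
      (by rw [hk]; exact hcop.symm)
  rcases Finset.mem_insert.mp hB with rfl | h
  · exfalso
    apply hBne
    rw [eq_bot_iff, ← hCK]
    refine inf_le_inf_left V (Subgroup.centralizer_le ?_)
    rintro _ ⟨x, hx, rfl⟩
    exact ⟨x, hN.ge hx, rfl⟩
  · obtain ⟨g, -, rfl⟩ := Finset.mem_image.mp h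
    intro hbot
    apply hBne
    rw [Subgroup.eq_bot_iff_forall]
    rintro v ⟨hv, hvc⟩
    have hv' : (g : G)⁻¹ * v * g ∈ V ⊓ Subgroup.centralizer ((H.map F.subtype : Subgroup G) : Set G) := by
      refine ⟨?_, Subgroup.mem_centralizer_iff.mpr ?_⟩
      · have := (Subgroup.mem_normalizer_iff.mp (hFV (F.inv_mem g.2)) v).mp hv
        rwa [inv_inv] at this
      · rintro _ ⟨x, hx, rfl⟩
        have hgx : (g : G) * x * (g : G)⁻¹ ∈ cH g := ⟨g * x * g⁻¹, Subgroup.smul_mem_pointwise_smul x (MulAut.conj g) H hx, rfl⟩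
        have := Subgroup.mem_centralizer_iff.mp hvc _ hgx
        show (x : G) * ((g : G)⁻¹ * v * g) = (g : G)⁻¹ * v * g * x
        calc (x : G) * ((g : G)⁻¹ * v * g) = (g : G)⁻¹ * ((g : G) * x * (g : G)⁻¹ * v) * g := by group
          _ = (g : G)⁻¹ * v * g * x := by rw [this]; group
    rw [hbot, Subgroup.mem_bot] at hv'
    rw [show v = (g : G) * ((g : G)⁻¹ * v * g) * (g : G)⁻¹ by group, hv']
    group

end Cfsg.Agent.S0666
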