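import Cfsg.Statements.S0669

set_option autoImplicit false
open Cfsg

namespace Cfsg.Agent.S0669

/-- The rank of a transitive action: orbits on ordered pairs correspond to orbits of a point stabiliser. -/
theorem result {G : Type*} [Group G] {Ω : Type*} [Finite Ω] [MulAction G Ω] [MulAction.IsPretransitive G Ω] (a : Ω) : Nat.card (MulAction.orbitRel.Quotient G (Ω × Ω)) = Nat.card (MulAction.orbitRel.Quotient (MulAction.stabilizer G a) Ω) := by
  classical
  let f : MulAction.orbitRel.Quotient (MulAction.stabilizer G a) Ω → MulAction.orbitRel.Quotient G (Ω × Ω) :=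
    Quotient.lift (fun x => Quotient.mk'' (a, x)) (by
      rintro x y ⟨g, rfl⟩
      apply Quotient.sound
      exact ⟨(g : G), Prod.ext g.2 rfl⟩)
  refine (Nat.card_eq_of_bijective f ⟨?_, ?_⟩).symm
  · intro p q h
    induction p using Quotient.inductionOn with
    | _ x =>
    induction q using Quotient.inductionOn with
    | _ y =>
    obtain ⟨g, hg⟩ := Quotient.exact h
    apply Quotient.sound
    exact ⟨⟨g, congrArg Prod.fst hg⟩, congrArg Prod.snd hg⟩
  · intro q
    induction q using Quotient.inductionOn with
    | _ p =>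
    obtain ⟨g, hg⟩ := MulAction.exists_smul_eq G p.1 a
    refine ⟨Quotient.mk'' (g • p.2), Quotient.sound ⟨g, ?_⟩⟩
    exact Prod.ext hg rfl

end Cfsg.Agent.S0669
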