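import Cfsg.Statements.S0680
import Cfsg.Agent.Perm5.NearField

set_option autoImplicit false
open Cfsg

namespace Cfsg.Agent.S0680

/-- A finite sharply doubly transitive permutation group has degree a prime power `p ^ j`; a Sylow `p`-subgroup is normal, elementary abelian and regular, and consists of the identity together with the elements without fixed points. (Frobenius' Theorem is not needed.) -/
theorem result {α : Type*} [Fintype α] [DecidableEq α] (G : Subgroup (Equiv.Perm α)) [MulAction.IsMultiplyPretransitive G α 2] (hsharp : ∀ x : Fin 2 ↪ α, MulAction.stabilizer G x = ⊥) (h2 : 2 ≤ Fintype.card α) : ∃ p j : ℕ, p.Prime ∧ 1 ≤ j ∧ Fintype.card α = p ^ j ∧ ∀ (hp : Fact p.Prime) (P : Sylow p G), (P : Subgroup G).Normal ∧ IsMulCommutative (P : Subgroup G) ∧ (∀ x ∈ (P : Subgroup G), x ^ p = 1) ∧ MulAction.IsPretransitive (P : Subgroup G) α ∧ (∀ a : α, MulAction.stabilizer (P : Subgroup G) a = ⊥) ∧ ∀ g : G, g ∈ (P : Subgroup G) ↔ g = 1 ∨ ∀ a : α, g • a ≠ a := by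
  classical
  haveI : Nontrivial α := Fintype.one_lt_card_iff_nontrivial.1 (by omega)
  obtain ⟨R, p, j, hn, hm, ht, hr, hp, hj, hcard, hc, he⟩ :=
    Cfsg.Agent.Perm5.sharp_structure (G := G) (α := α) inferInstance (Cfsg.Agent.Perm5.sharp_of_stabilizer hsharp)
  rw [Nat.card_eq_fintype_card] at hcard
  refine ⟨p, j, hp, hj, hcard, ?_⟩
  intro hp' P
  have hRcard : Nat.card R = p ^ j := by
    rw [← hcard, ← Nat.card_eq_fintype_card]
    obtain ⟨a⟩ : Nonempty α := inferInstance
    refine Nat.card_eq_of_bijective (fun r : R => r • a) ⟨fun r s e => ?_, fun x => ht.exists_smul_eq a x⟩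
    have : s⁻¹ * r ∈ MulAction.stabilizer R a := by
      rw [MulAction.mem_stabilizer_iff, mul_smul, inv_smul_eq_iff]; exact e
    rw [hr, Subgroup.mem_bot, inv_mul_eq_one] at this
    exact this.symm
  obtain ⟨a⟩ : Nonempty α := inferInstance
  obtain ⟨-, hG⟩ := Cfsg.Agent.Perm5.sharp_card (G := G) (α := α) inferInstance (Cfsg.Agent.Perm5.sharp_of_stabilizer hsharp) a
  rw [Nat.card_eq_fintype_card (α := α), hcard] at hG
  have hpd : ¬ p ∣ p ^ j - 1 := by
    intro hd
    have h1 : p ∣ p ^ j := dvd_pow_self p (by omega)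
    have h2' : p ∣ 1 := by
      have := Nat.dvd_sub h1 hd
      rwa [Nat.sub_sub_self (Nat.one_le_pow _ _ hp.pos)] at this
    exact hp.ne_one (Nat.dvd_one.1 h2')
  have hRP : IsPGroup p R := IsPGroup.of_card hRcard
  have hPR : (P : Subgroup G) = R := by
    have hle : R ≤ (P : Subgroup G) := by
      haveI := hn
      obtain ⟨Q, hQ⟩ := hRP.exists_le_sylow
      obtain ⟨g, rfl⟩ := MulAction.exists_smul_eq G Q P
      intro x hx
      have h' : g⁻¹ * x * g⁻¹⁻¹ ∈ (Q : Subgroup G) := hQ (hn.conj_mem x hx g⁻¹)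
      rw [Sylow.smul_def, Sylow.pointwise_smul_def, Subgroup.mem_pointwise_smul_iff_inv_smul_mem]
      simpa [MulAut.conj_apply, inv_inv] using h'
    have hPc : Nat.card (P : Subgroup G) = p ^ j := by
      rw [Sylow.card_eq_multiplicity, hG]
      congr 1
      rw [Nat.factorization_mul (pow_ne_zero _ hp.ne_zero) (fun e => hpd (by rw [e]; exact dvd_zero p)), Finsupp.add_apply,
        hp.factorization_pow, Finsupp.single_eq_same, Nat.factorization_eq_zero_of_not_dvd hpd, add_zero]
    exact (Subgroup.eq_of_le_of_card_ge hle (by rw [hPc, hRcard])).symm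
  rw [hPR]
  exact ⟨hn, ⟨⟨fun x y => Subtype.ext (hc x x.2 y y.2)⟩⟩, he, ht, hr, hm⟩

end Cfsg.Agent.S0680
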