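import Cfsg.Statements.S0682
import Cfsg.Agent.Perm5.NearField

set_option autoImplicit false
open Cfsg

namespace Cfsg.Agent.S0682

/-- A finite near-field has prime-power order; its additive group is commutative of prime exponent. -/
theorem result {F : Type*} [Cfsg.NearField F] [Finite F] : ∃ p j : ℕ, p.Prime ∧ 1 ≤ j ∧ Nat.card F = p ^ j ∧ (∀ x y : F, x + y = y + x) ∧ ∀ x : F, p • x = 0 := by
  classical
  obtain ⟨H, hmem, h2, hsharp⟩ := Cfsg.Agent.S0681.result (F := F)
  haveI : Nontrivial F := ⟨⟨0, 1, Cfsg.NearField.zero_ne_one⟩⟩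
  obtain ⟨R, p, j, hn, hm, ht, hr, hp, hj, hcard, hc, he⟩ :=
    Cfsg.Agent.Perm5.sharp_structure (G := H) (α := F) h2 (Cfsg.Agent.Perm5.sharp_of_stabilizer hsharp)
  let T : F → H := fun b => ⟨Equiv.addRight b, (hmem _).2 ⟨1, b, fun e => Cfsg.NearField.zero_ne_one e.symm, fun x => by simp⟩⟩
  have hT : ∀ b, T b ∈ R := fun b => (hm _).2 (by
    by_cases hb : b = 0
    · subst hb
      exact Or.inl (Subtype.ext (Equiv.ext fun x => by simp [T]))
    · refine Or.inr fun x hx => hb ?_
      have hx' : x + b = x := hx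
      simpa using hx')
  refine ⟨p, j, hp, hj, hcard, fun x y => ?_, fun x => ?_⟩
  · have h := congrArg (fun σ : H => (σ : Equiv.Perm F) 0) (hc (T y) (hT y) (T x) (hT x))
    simpa [T] using h
  · have key : ∀ n : ℕ, ((T x ^ n : H) : Equiv.Perm F) 0 = n • x := by
      intro n
      induction n with
      | zero => simp
      | succ n ih =>
        rw [pow_succ', Subgroup.coe_mul, Equiv.Perm.mul_apply, ih, succ_nsmul]
        rfl
    rw [← key, he (T x) (hT x)]
    rfl

end Cfsg.Agent.S0682
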