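import Cfsg.Statements.S0683
import Cfsg.Agent.Perm5.NearField

set_option autoImplicit false
open Cfsg

namespace Cfsg.Agent.S0683

/-- A finite sharply doubly transitive permutation group is the affine group of a near-field: the permuted set carries a near-field structure for which the group consists exactly of the maps `x ↦ x * a + b` with `a ≠ 0`. -/
theorem result {α : Type*} [Fintype α] [DecidableEq α] (H : Subgroup (Equiv.Perm α)) [MulAction.IsMultiplyPretransitive H α 2] (hsharp : ∀ x : Fin 2 ↪ α, MulAction.stabilizer H x = ⊥) (h2 : 2 ≤ Fintype.card α) : ∃ _ : Cfsg.NearField α, ∀ σ : Equiv.Perm α, σ ∈ H ↔ ∃ a b : α, a ≠ 0 ∧ ∀ x : α, σ x = x * a + b := by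
  classical
  haveI : Nontrivial α := Fintype.one_lt_card_iff_nontrivial.1 (by omega)
  have hsh := Cfsg.Agent.Perm5.sharp_of_stabilizer hsharp
  obtain ⟨R, p, j, hn, hm, ht, hr, hp, hj, hcard, hc, he⟩ :=
    Cfsg.Agent.Perm5.sharp_structure (G := H) (α := α) inferInstance hsh
  haveI hH2 : MulAction.IsMultiplyPretransitive H α 2 := inferInstance
  obtain ⟨o, e, hoe⟩ := exists_pair_ne α
  have hr' : ∀ x, ∃ r : R, (r : H) • o = x := fun x => ht.exists_smul_eq o x
  choose r hr1 using hr'
  have hru : ∀ s : R, r ((s : H) • o) = s := fun s =>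
    Subtype.ext (Cfsg.Agent.Perm5.regular_eval_injective hr o (r _).2 s.2 (hr1 _))
  have hh' : ∀ y : α, ∃ h : H, h • o = o ∧ (y ≠ o → h • e = y) := fun y => by
    by_cases hy : y = o
    · exact ⟨1, one_smul _ _, fun h => absurd hy h⟩
    · obtain ⟨g, h1, h2'⟩ := MulAction.is_two_pretransitive_iff.1 hH2 hoe (Ne.symm hy)
      exact ⟨g, h1, fun _ => h2'⟩
  choose h hh1 hh2 using hh'
  let add : α → α → α := fun x y => (r x : H) • y
  let mul : α → α → α := fun x y => if y = o then o else h y • x
  have radd : ∀ x y, r (add x y) = r x * r y := fun x y => by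
    have : add x y = ((r x * r y : R) : H) • o := by
      show _ = ((r x : H) * (r y : H)) • o
      rw [mul_smul, hr1]
    rw [this, hru]
  have ro : r o = 1 := by
    have := hru 1
    simpa using this
  have hne : ∀ x y, x ≠ o → h y • x ≠ o := fun x y hx e' => hx (MulAction.injective (h y) (e'.trans (hh1 y).symm))
  have heq : ∀ g k : H, g • o = k • o → g • e = k • e → g = k := fun g k h1 h2' => by
    have := hsh (k⁻¹ * g) o e hoe (by rw [mul_smul, h1, inv_smul_smul]) (by rw [mul_smul, h2', inv_smul_smul])
    exact (inv_mul_eq_one.1 this).symm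
  have he1 : h e = 1 := heq _ _ (by rw [hh1, one_smul]) (by rw [hh2 e hoe.symm, one_smul])
  have hmm : ∀ x y, x ≠ o → y ≠ o → h (h y • x) = h y * h x := fun x y hx hy =>
    heq _ _ (by rw [hh1, mul_smul, hh1, hh1]) (by rw [hh2 _ (hne x y hx), mul_smul, hh2 x hx])
  have hom : ∀ y, mul o y = o := fun y => by
    by_cases hy : y = o
    · simp [mul, hy]
    · simp [mul, hy, hh1]
  letI iZ : Zero α := ⟨o⟩
  letI iA : Add α := ⟨add⟩
  letI iN : Neg α := ⟨fun x => ((r x)⁻¹ : R) • o⟩
  letI iNF : Cfsg.NearField α :=
    { add := add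
      zero := o
      neg := fun x => ((r x)⁻¹ : R) • o
      nsmul := nsmulRec
      zsmul := zsmulRec
      add_assoc := fun x y z => by
        show (r (add x y) : H) • z = (r x : H) • (r y : H) • z
        rw [radd, Subgroup.coe_mul, mul_smul]
      zero_add := fun x => by
        show (r o : H) • x = x
        rw [ro, Subgroup.coe_one, one_smul]
      add_zero := fun x => hr1 x
      neg_add_cancel := fun x => by
        show (r (((r x)⁻¹ : R) • o) : H) • x = o
        have e1 : r (((r x)⁻¹ : R) • o) = (r x)⁻¹ := hru _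
        rw [e1, Subgroup.coe_inv, inv_smul_eq_iff, hr1]
      mul := mul
      one := e
      mul_assoc := fun x y z => by
        show mul (mul x y) z = mul x (mul y z)
        by_cases hz : z = o
        · simp [mul, hz]
        by_cases hy : y = o
        · subst hy; simp [mul, hh1]
        simp only [mul, if_neg hz, if_neg hy, if_neg (hne y z hy), hmm y z hy hz, mul_smul]
      one_mul := fun y => by
        show mul e y = y
        by_cases hy : y = o
        · simp [mul, hy]
        · simp [mul, hy, hh2 y hy]
      mul_one := fun x => by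
        show mul x e = x
        simp [mul, hoe.symm, he1]
      right_distrib := fun x y z => by
        show mul (add x y) z = add (mul x z) (mul y z)
        by_cases hz : z = o
        · simp [mul, hz, add, ro]
        simp only [mul, if_neg hz, add]
        have : r (h z • x) = (⟨h z * r x * (h z)⁻¹, hn.conj_mem _ (r x).2 _⟩ : R) := by
          rw [← hru ⟨_, hn.conj_mem _ (r x).2 (h z)⟩]
          congr 1
          show _ = (h z * (r x : H) * (h z)⁻¹) • o
          rw [Cfsg.Agent.Perm5.conj_smul_base (hh1 z), hr1]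
        rw [this, mul_smul, mul_smul, inv_smul_smul]
      mul_zero := fun x => if_pos rfl
      zero_ne_one := hoe
      exists_inv := fun a ha => by
        have hinv : h ((h a)⁻¹ • e) * h a = 1 ∧ (h a)⁻¹ • e ≠ o := by
          have hb : (h a)⁻¹ • e ≠ o := fun e' => hoe (by rw [← hh1 a, ← e', smul_inv_smul])
          refine ⟨?_, hb⟩
          have h3 : h ((h a)⁻¹ • e) = (h a)⁻¹ :=
            heq _ _ (by rw [hh1, eq_inv_smul_iff, hh1]) (hh2 _ hb)
          rw [h3, inv_mul_cancel]
        refine ⟨(h a)⁻¹ • e, ?_, ?_⟩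
        · show mul a _ = e
          simp only [mul, if_neg hinv.2]
          rw [eq_inv_of_mul_eq_one_left hinv.1, inv_smul_eq_iff, hh2 a ha]
        · show mul _ a = e
          have ha' : a ≠ o := ha
          simp only [mul, if_neg ha', smul_inv_smul] }
  refine ⟨iNF, fun σ => ⟨fun hσ => ?_, ?_⟩⟩
  · let g : H := ⟨σ, hσ⟩
    set b := g • o with hb
    let k : H := (r b : H)⁻¹ * g
    have hk : k • o = o := by rw [mul_smul, ← hb, inv_smul_eq_iff, hr1]
    have hke : k • e ≠ o := fun e' => hoe (MulAction.injective k (hk.trans e'.symm))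
    refine ⟨k • e, b, hke, fun x => ?_⟩
    show g • x = add (mul x (k • e)) b
    simp only [mul, if_neg hke, add]
    have hka : h (k • e) = k := heq _ _ (by rw [hh1, hk]) (hh2 _ hke)
    rw [hka]
    calc g • x = (r b : H) • k • x := by rw [← mul_smul, mul_inv_cancel_left]
      _ = (r b : H) • (r (k • x) : H) • o := by rw [hr1]
      _ = (r (k • x) : H) • (r b : H) • o := by rw [← mul_smul, ← mul_smul, hc _ (r b).2 _ (r _).2]
      _ = (r (k • x) : H) • b := by rw [hr1]
  · rintro ⟨a, b, ha, hx⟩
    have ha' : a ≠ o := ha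
    have : σ = (((r b : H) * h a : H) : Equiv.Perm α) := Equiv.ext fun x => by
      rw [hx]
      show add (mul x a) b = ((r b : H) * h a) • x
      simp only [mul, if_neg ha', add]
      rw [mul_smul]
      calc (r (h a • x) : H) • b = (r (h a • x) : H) • (r b : H) • o := by rw [hr1]
        _ = (r b : H) • (r (h a • x) : H) • o := by rw [← mul_smul, ← mul_smul, hc _ (r b).2 _ (r _).2]
        _ = (r b : H) • h a • x := by rw [hr1]
    rw [this]
    exact ((r b : H) * h a).2

end Cfsg.Agent.S0683
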