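import Cfsg.Statements.S0695
import Cfsg.Agent.Perm5.RegularNormal

set_option autoImplicit false
open Cfsg

namespace Cfsg.Agent.S0695

/-- A regular normal subgroup of a doubly primitive group of finite degree at least 2 is an elementary abelian 2-group (and the degree is a power of 2), unless the degree is 3. -/
theorem result {G : Type*} [Group G] {X : Type*} [Fintype X] [MulAction G X] (hX : 2 ≤ Fintype.card X) (h2 : MulAction.IsMultiplyPreprimitive G X 2) (N : Subgroup G) [N.Normal] (htrans : MulAction.IsPretransitive N X) (hreg : ∀ x : X, MulAction.stabilizer N x = ⊥) : Fintype.card X = 3 ∨ (IsMulCommutative N ∧ (∀ n ∈ N, n ^ 2 = 1) ∧ ∃ m : ℕ, Fintype.card X = 2 ^ m) := by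
  haveI : Nontrivial X := Fintype.one_lt_card_iff_nontrivial.1 (by omega)
  haveI := h2
  obtain ⟨p, hp, hc, he, m, hm, hcard⟩ := Cfsg.Agent.Perm5.regular_elementary_abelian (inferInstance : N.Normal) htrans hreg h2.isMultiplyPretransitive
  rw [← Nat.card_eq_fintype_card]
  rcases Cfsg.Agent.Perm5.regular_exp_two (inferInstance : N.Normal) hreg h2 with h | h
  · exact Or.inl h
  · refine Or.inr ⟨⟨⟨fun x y => Subtype.ext (hc x x.2 y y.2)⟩⟩, fun n hn => by rw [pow_two]; exact h n hn, m, ?_⟩
    obtain ⟨a, b, hab⟩ := exists_pair_ne X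
    obtain ⟨⟨n, hn⟩, hna⟩ := htrans.exists_smul_eq a b
    have hn1 : n ≠ 1 := fun e => hab (by rw [← hna]; subst e; exact (one_smul G a).symm)
    have hd : orderOf n ∣ p := orderOf_dvd_of_pow_eq_one (he n hn)
    have h2' : orderOf n ∣ 2 := orderOf_dvd_of_pow_eq_one (by rw [pow_two]; exact h n hn)
    rcases (Nat.dvd_prime hp).1 hd with e | e
    · exact absurd (orderOf_eq_one_iff.1 e) hn1
    · rw [e, Nat.prime_dvd_prime_iff_eq hp Nat.prime_two] at h2'
      rw [hcard, h2']

end Cfsg.Agent.S0695
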