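import Cfsg.Statements.S0697
import Cfsg.Agent.Perm5.NormalMulti

set_option autoImplicit false
open Cfsg

namespace Cfsg.Agent.S0697

/-- In a `k`-primitive permutation group which is not the whole symmetric group, a non-trivial non-regular normal subgroup is `k`-transitive. -/
theorem result {α : Type*} [Fintype α] [DecidableEq α] (G : Subgroup (Equiv.Perm α)) {k : ℕ} (hk : 1 ≤ k) (hkn : k ≤ Fintype.card α) (hG : MulAction.IsMultiplyPreprimitive G α k) (htop : G ≠ ⊤) (H : Subgroup G) [H.Normal] (hH : H ≠ ⊥) (hnr : ∃ a : α, MulAction.stabilizer H a ≠ ⊥) : MulAction.IsMultiplyPretransitive H α k := by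
  apply Cfsg.Agent.Perm5.normal_of_multiplyPreprimitive k hk (by rwa [Nat.card_eq_fintype_card]) hG _ H inferInstance hH hnr
  rw [← Nat.card_perm]
  by_contra hge
  exact htop (Subgroup.eq_top_of_card_eq G (le_antisymm (Nat.le_of_dvd Nat.card_pos G.card_subgroup_dvd_card) (not_lt.1 hge)))

end Cfsg.Agent.S0697
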