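import Cfsg.Statements.S0701

set_option autoImplicit false
open Cfsg

namespace Cfsg.Agent.S0701

/-- The centraliser in the full symmetric group of a transitive permutation group `G` is semiregular, and it is transitive if and only if `G` is regular. -/
theorem result {α : Type*} (G : Subgroup (Equiv.Perm α)) [MulAction.IsPretransitive G α] : (∀ c ∈ Subgroup.centralizer (G : Set (Equiv.Perm α)), ∀ a : α, c a = a → c = 1) ∧ (MulAction.IsPretransitive (Subgroup.centralizer (G : Set (Equiv.Perm α))) α ↔ ∀ a : α, MulAction.stabilizer G a = ⊥) := by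
  have key : ∀ c ∈ Subgroup.centralizer (G : Set (Equiv.Perm α)), ∀ g ∈ G, ∀ x : α, g (c x) = c (g x) :=
    fun c hc g hg x => Equiv.congr_fun (Subgroup.mem_centralizer_iff.1 hc g hg) x
  refine ⟨fun c hc a ha => ?_, ?_, fun h => ?_⟩
  · ext x
    obtain ⟨g, hg⟩ := MulAction.exists_smul_eq G a x
    have hg' : (g : Equiv.Perm α) a = x := hg
    rw [← hg', ← key c hc g g.2, ha]; rfl
  · intro ht a
    rw [eq_bot_iff]
    intro g hg
    rw [Subgroup.mem_bot]
    apply Subtype.ext
    ext x
    obtain ⟨c, hc⟩ := ht.exists_smul_eq a x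
    have hc' : (c : Equiv.Perm α) a = x := hc
    have hga : (g : Equiv.Perm α) a = a := hg
    rw [← hc', key c c.2 g g.2, hga]; rfl
  · constructor
    intro a b
    have hu : ∀ g k : G, (g : Equiv.Perm α) a = (k : Equiv.Perm α) a → g = k := by
      intro g k e
      have hm : k⁻¹ * g ∈ MulAction.stabilizer G a := by
        rw [MulAction.mem_stabilizer_iff, mul_smul, inv_smul_eq_iff]
        exact e
      rw [h a, Subgroup.mem_bot, inv_mul_eq_one] at hm
      exact hm.symm
    have hs : ∀ x : α, ∃ g : G, (g : Equiv.Perm α) a = x := fun x => MulAction.exists_smul_eq G a x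
    choose e he using hs
    have hu' : ∀ (g : G), e ((g : Equiv.Perm α) a) = g := fun g => hu _ _ (he _)
    have hub : ∀ g k : G, (g : Equiv.Perm α) b = (k : Equiv.Perm α) b → g = k := by
      intro g k ee
      obtain ⟨d, hd⟩ := MulAction.exists_smul_eq G a b
      have hd' : (d : Equiv.Perm α) a = b := hd
      have := hu (g * d) (k * d) (by simpa [hd'] using ee)
      simpa using this
    have hbij : Function.Bijective fun x => (e x : Equiv.Perm α) b := by
      refine ⟨fun x y hxy => ?_, fun y => ?_⟩
      · rw [← he x, ← he y, hub _ _ hxy]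
      · obtain ⟨g, hg⟩ := MulAction.exists_smul_eq G b y
        exact ⟨(g : Equiv.Perm α) a, by simp only [hu']; exact hg⟩
    refine ⟨⟨Equiv.ofBijective _ hbij, ?_⟩, ?_⟩
    · rw [Subgroup.mem_centralizer_iff]
      intro g hg
      ext x
      show g ((e x : Equiv.Perm α) b) = (e (g x) : Equiv.Perm α) b
      have : e (g x) = ⟨g, hg⟩ * e x := hu _ _ (by rw [he]; simp [he])
      rw [this]; rfl
    · show (e a : Equiv.Perm α) b = b
      have : e a = 1 := by simpa using hu' 1
      rw [this]; rfl

end Cfsg.Agent.S0701
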