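import Cfsg.Statements.S0702
import Cfsg.Agent.Perm5.Regular
import Mathlib.GroupTheory.QuotientGroup.Basic

set_option autoImplicit false
open Cfsg

namespace Cfsg.Agent.S0702

/-- For a transitive permutation group `G` on a finite set, the centraliser of `G` in the symmetric group is isomorphic to `N_G(G_ω)/G_ω`, and its orbit of `ω` is the set of fixed points of `G_ω`. -/
theorem result {α : Type*} [Finite α] (G : Subgroup (Equiv.Perm α)) [MulAction.IsPretransitive G α] (a : α) : Nonempty (Subgroup.centralizer (G : Set (Equiv.Perm α)) ≃* Subgroup.normalizer ((MulAction.stabilizer G a : Subgroup G) : Set G) ⧸ (MulAction.stabilizer G a).subgroupOf (Subgroup.normalizer ((MulAction.stabilizer G a : Subgroup G) : Set G))) ∧ MulAction.orbit (Subgroup.centralizer (G : Set (Equiv.Perm α))) a = MulAction.fixedPoints (MulAction.stabilizer G a) α := by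
  classical
  set K := MulAction.stabilizer G a with hK
  set N := Subgroup.normalizer ((K : Subgroup G) : Set G) with hN
  have hex : ∀ x : α, ∃ g : G, g • a = x := fun x => MulAction.exists_smul_eq G a x
  choose e he using hex
  have hwd : ∀ n ∈ N, ∀ g h : G, g • a = h • a → g • n⁻¹ • a = h • n⁻¹ • a := by
    intro n hn g h hgh
    have h1 : h⁻¹ * g ∈ K := by
      rw [hK, MulAction.mem_stabilizer_iff, mul_smul, hgh, inv_smul_smul]
    have h2 := (Subgroup.mem_normalizer_iff.1 hn (h⁻¹ * g)).1 h1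
    rw [hK, MulAction.mem_stabilizer_iff, mul_smul, mul_smul, mul_smul, smul_eq_iff_eq_inv_smul n, inv_smul_eq_iff] at h2
    exact h2
  let f : N → α → α := fun n x => e x • (n : G)⁻¹ • a
  have hf : ∀ (n : N) (g : G), f n (g • a) = g • (n : G)⁻¹ • a := fun n g => hwd n n.2 _ _ (he _)
  have hfc : ∀ (m n : N) (x : α), f m (f n x) = f (m * n) x := fun m n x => by
    show f m (e x • (n : G)⁻¹ • a) = e x • ((m * n : N) : G)⁻¹ • a
    rw [← mul_smul, hf, mul_smul, Subgroup.coe_mul, mul_inv_rev, mul_smul ((n : G)⁻¹)]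
  have hf1 : ∀ x, f 1 x = x := fun x => by
    show e x • ((1 : N) : G)⁻¹ • a = x
    simp [he]
  let φ : N →* Equiv.Perm α := MonoidHom.mk' (fun n => ⟨f n, f n⁻¹,
      fun x => by rw [hfc, inv_mul_cancel, hf1], fun x => by rw [hfc, mul_inv_cancel, hf1]⟩)
    (fun m n => Equiv.ext fun x => (hfc m n x).symm)
  have hφC : ∀ n, φ n ∈ Subgroup.centralizer (G : Set (Equiv.Perm α)) := fun n => by
    rw [Subgroup.mem_centralizer_iff]
    intro g hg
    ext x
    obtain ⟨k, rfl⟩ := MulAction.exists_smul_eq G a x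
    show g (f n (k • a)) = f n (g (k • a))
    rw [hf, show g (k • a) = ((⟨g, hg⟩ : G) * k) • a from (mul_smul (⟨g, hg⟩ : G) k a).symm, hf, mul_smul]
    rfl
  have hnorm : ∀ g : G, (∀ h ∈ K, h • g⁻¹ • a = g⁻¹ • a) → g ∈ N := by
    intro g hg
    have hle : K.map (MulAut.conj g).toMonoidHom ≤ K := by
      rintro _ ⟨h, hh, rfl⟩
      show (g * h * g⁻¹) • a = a
      rw [mul_smul, mul_smul, hg h hh, smul_inv_smul]
    have heq : K.map (MulAut.conj g).toMonoidHom = K :=
      Subgroup.eq_of_le_of_card_ge hle (le_of_eq (Nat.card_congr (K.equivMapOfInjective _ (MulAut.conj g).injective).toEquiv))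
    rw [hN, Subgroup.mem_normalizer_iff]
    intro h
    refine ⟨fun hh => hle ⟨h, hh, rfl⟩, fun hh => ?_⟩
    rw [← heq] at hh
    obtain ⟨h', hh', e'⟩ := hh
    rw [show h = h' from (MulAut.conj g).injective e'.symm]
    exact hh'
  have hsurj : ∀ c ∈ Subgroup.centralizer (G : Set (Equiv.Perm α)), ∃ n : N, φ n = c := by
    intro c hc
    obtain ⟨g, hg⟩ := MulAction.exists_smul_eq G a (c a)
    have hcomm : ∀ (h : G) (x : α), c (h • x) = h • c x := fun h x =>
      (Equiv.congr_fun (Subgroup.mem_centralizer_iff.1 hc h h.2) x).symm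
    refine ⟨⟨g⁻¹, hnorm g⁻¹ fun h hh => ?_⟩, ?_⟩
    · rw [inv_inv, hg, ← hcomm, MulAction.mem_stabilizer_iff.1 hh]
    · ext x
      obtain ⟨k, rfl⟩ := MulAction.exists_smul_eq G a x
      show f _ (k • a) = c (k • a)
      rw [hf, hcomm, inv_inv, hg]
  refine ⟨?_, ?_⟩
  · let ψ := φ.codRestrict (Subgroup.centralizer (G : Set (Equiv.Perm α))) hφC
    have hker : ψ.ker = K.subgroupOf N := by
      ext n
      rw [MonoidHom.mem_ker, Subgroup.mem_subgroupOf, hK, MulAction.mem_stabilizer_iff]
      constructor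
      · intro h
        have := congrArg (fun c : Subgroup.centralizer (G : Set (Equiv.Perm α)) => (c : Equiv.Perm α) a) h
        have h' : f n ((1 : G) • a) = a := by rw [one_smul]; exact this
        rw [hf, one_smul, inv_smul_eq_iff] at h'
        exact h'.symm
      · intro h
        apply Subtype.ext
        ext x
        obtain ⟨k, rfl⟩ := MulAction.exists_smul_eq G a x
        show f n (k • a) = k • a
        rw [hf, inv_smul_eq_iff.2 h.symm]
    have hs : Function.Surjective ψ := fun c => by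
      obtain ⟨n, hn⟩ := hsurj c c.2
      exact ⟨n, Subtype.ext hn⟩
    exact ⟨((QuotientGroup.quotientMulEquivOfEq hker).symm.trans (QuotientGroup.quotientKerEquivOfSurjective ψ hs)).symm⟩
  · ext x
    constructor
    · rintro ⟨⟨c, hc⟩, rfl⟩ ⟨h, hh⟩
      show (h : G) • c a = c a
      rw [← show c ((h : G) • a) = (h : G) • c a from (Equiv.congr_fun (Subgroup.mem_centralizer_iff.1 hc _ h.2) a).symm,
        MulAction.mem_stabilizer_iff.1 hh]
    · intro hx
      obtain ⟨g, rfl⟩ := MulAction.exists_smul_eq G a x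
      have hgN : g⁻¹ ∈ N := hnorm g⁻¹ fun h hh => by
        rw [inv_inv]; exact hx ⟨h, hh⟩
      refine ⟨⟨φ ⟨g⁻¹, hgN⟩, hφC _⟩, ?_⟩
      have h1 := hf ⟨g⁻¹, hgN⟩ 1
      simp only [one_smul, inv_inv] at h1
      exact h1

end Cfsg.Agent.S0702
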