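import Cfsg.Statements.S0703
import Cfsg.Agent.Perm5.Regular

set_option autoImplicit false
open Cfsg

namespace Cfsg.Agent.S0703

/-- An abelian transitive minimal normal subgroup `M` of a permutation group on a finite set is self-centralising in the symmetric group, regular, elementary abelian, and is the unique minimal normal subgroup. -/
theorem result {α : Type*} [Finite α] (G : Subgroup (Equiv.Perm α)) (M : Subgroup G) [M.Normal] (hM : M ≠ ⊥) (hmin : ∀ L : Subgroup G, L.Normal → L ≤ M → L = ⊥ ∨ L = M) (hab : IsMulCommutative M) (htrans : MulAction.IsPretransitive M α) : Subgroup.centralizer ((M.map G.subtype : Subgroup (Equiv.Perm α)) : Set (Equiv.Perm α)) = M.map G.subtype ∧ (∀ a : α, MulAction.stabilizer M a = ⊥) ∧ (∃ p : ℕ, p.Prime ∧ ∀ m ∈ M, m ^ p = 1) ∧ ∀ L : Subgroup G, L.Normal → L ≠ ⊥ → (∀ L' : Subgroup G, L'.Normal → L' ≤ L → L' = ⊥ ∨ L' = L) → L = M := by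
  have habm : ∀ x ∈ M, ∀ y ∈ M, x * y = y * x := fun x hx y hy =>
    congrArg Subtype.val (hab.is_comm.comm ⟨x, hx⟩ ⟨y, hy⟩)
  have hreg : ∀ a : α, MulAction.stabilizer M a = ⊥ := Cfsg.Agent.Perm5.stabilizer_eq_bot_of_commute htrans habm
  have hK : MulAction.IsPretransitive (M.map G.subtype) α := ⟨fun a b => by
    obtain ⟨⟨m, hm⟩, h⟩ := htrans.exists_smul_eq a b
    exact ⟨⟨m, m, hm, rfl⟩, h⟩⟩
  have hC : Subgroup.centralizer ((M.map G.subtype : Subgroup (Equiv.Perm α)) : Set (Equiv.Perm α)) = M.map G.subtype := by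
    refine le_antisymm (fun c hc => ?_) ?_
    · rcases isEmpty_or_nonempty α with h | ⟨⟨a⟩⟩
      · have : c = 1 := Subsingleton.elim _ _
        exact this ▸ Subgroup.one_mem _
      obtain ⟨⟨k, hk⟩, hka⟩ := hK.exists_smul_eq a (c a)
      have hka' : k a = c a := hka
      have : k⁻¹ * c = 1 := Cfsg.Agent.Perm5.eq_one_of_commute hK (α := α) (a := a) (fun x hx => by
        obtain ⟨x', hx', rfl⟩ := hx
        obtain ⟨k', hk', rfl⟩ := hk
        have h1 : (x' : Equiv.Perm α) * c = c * x' := Subgroup.mem_centralizer_iff.1 hc _ ⟨x', hx', rfl⟩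
        have h2 : Commute (x' : Equiv.Perm α) (k' : Equiv.Perm α) := congrArg Subtype.val (habm x' hx' k' hk')
        exact (h2.inv_right.mul_right h1).eq) (by
          show (k⁻¹ * c) a = a
          rw [Equiv.Perm.mul_apply, ← hka']
          exact k.symm_apply_apply a)
      rw [← inv_mul_eq_one.1 this]
      exact hk
    · rintro _ ⟨m, hm, rfl⟩
      rw [Subgroup.mem_centralizer_iff]
      rintro _ ⟨m', hm', rfl⟩
      exact congrArg Subtype.val (habm m' hm' m hm)
  refine ⟨hC, hreg, Cfsg.Agent.Perm5.minimal_abelian_exponent M inferInstance hM hmin habm, fun L hLn hL hLmin => ?_⟩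
  haveI := hLn
  rcases hmin (L ⊓ M) inferInstance inf_le_right with h | h
  · exfalso
    apply hL
    rw [eq_bot_iff]
    intro l hl
    have hlM : (l : Equiv.Perm α) ∈ Subgroup.centralizer ((M.map G.subtype : Subgroup (Equiv.Perm α)) : Set (Equiv.Perm α)) := by
      rw [Subgroup.mem_centralizer_iff]
      rintro _ ⟨m, hm, rfl⟩
      exact congrArg Subtype.val (Cfsg.Agent.Perm5.commute_of_inf_eq_bot hLn inferInstance h l hl m hm).symm
    rw [hC] at hlM
    obtain ⟨m, hm, hml⟩ := hlM
    exact h ▸ ⟨hl, by rw [← Subtype.ext hml]; exact hm⟩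
  · rcases hLmin M inferInstance (h ▸ inf_le_left) with h' | h'
    exacts [absurd h' hM, h'.symm]

end Cfsg.Agent.S0703
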