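import Cfsg.Statements.S0704
import Cfsg.Agent.Perm5.Regular

set_option autoImplicit false
open Cfsg

namespace Cfsg.Agent.S0704

/-- Two distinct transitive minimal normal subgroups `M`, `N` of a permutation group are regular, non-abelian, isomorphic, each other's centraliser in the symmetric group, and the only minimal normal subgroups. -/
theorem result {α : Type*} (G : Subgroup (Equiv.Perm α)) (M N : Subgroup G) [M.Normal] [N.Normal] (hM : M ≠ ⊥) (hN : N ≠ ⊥) (hMmin : ∀ L : Subgroup G, L.Normal → L ≤ M → L = ⊥ ∨ L = M) (hNmin : ∀ L : Subgroup G, L.Normal → L ≤ N → L = ⊥ ∨ L = N) (hMN : M ≠ N) (hMt : MulAction.IsPretransitive M α) (hNt : MulAction.IsPretransitive N α) : (∀ a : α, MulAction.stabilizer M a = ⊥) ∧ (∀ a : α, MulAction.stabilizer N a = ⊥) ∧ ¬ IsMulCommutative M ∧ Nonempty (M ≃* N) ∧ Subgroup.centralizer ((M.map G.subtype : Subgroup (Equiv.Perm α)) : Set (Equiv.Perm α)) = N.map G.subtype ∧ Subgroup.centralizer ((N.map G.subtype : Subgroup (Equiv.Perm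 α)) : Set (Equiv.Perm α)) = M.map G.subtype ∧ ∀ L : Subgroup G, L.Normal → L ≠ ⊥ → (∀ L' : Subgroup G, L'.Normal → L' ≤ L → L' = ⊥ ∨ L' = L) → L = M ∨ L = N := by
  classical
  have hinf : M ⊓ N = ⊥ := by
    rcases hMmin (M ⊓ N) inferInstance inf_le_left with h | h
    · exact h
    · rcases hNmin M inferInstance (h ▸ inf_le_right) with h' | h'
      exacts [absurd h' hM, absurd h' hMN]
  have hc := Cfsg.Agent.Perm5.commute_of_inf_eq_bot (inferInstance : M.Normal) (inferInstance : N.Normal) hinf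
  have hNr : ∀ a : α, MulAction.stabilizer N a = ⊥ := Cfsg.Agent.Perm5.stabilizer_eq_bot_of_commute hMt hc
  have hMr : ∀ a : α, MulAction.stabilizer M a = ⊥ :=
    Cfsg.Agent.Perm5.stabilizer_eq_bot_of_commute hNt (fun k hk l hl => (hc l hl k hk).symm)
  have hne : Nonempty α := by
    by_contra h
    rw [not_nonempty_iff] at h
    exact hM (Subgroup.eq_bot_iff_forall _ |>.2 fun x _ => Subtype.ext (Subsingleton.elim _ _))
  obtain ⟨a⟩ := hne
  have cen : ∀ (A B : Subgroup G), MulAction.IsPretransitive A α → MulAction.IsPretransitive B α →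
      (∀ x ∈ A, ∀ y ∈ B, x * y = y * x) →
      Subgroup.centralizer ((A.map G.subtype : Subgroup (Equiv.Perm α)) : Set (Equiv.Perm α)) = B.map G.subtype := by
    intro A B hA hB hAB
    have hK : MulAction.IsPretransitive (A.map G.subtype) α := ⟨fun a b => by
      obtain ⟨⟨m, hm⟩, h⟩ := hA.exists_smul_eq a b
      exact ⟨⟨m, m, hm, rfl⟩, h⟩⟩
    refine le_antisymm (fun c hc => ?_) ?_
    · obtain ⟨⟨k, hk⟩, hka⟩ := hB.exists_smul_eq a (c a)
      have hka' : (k : Equiv.Perm α) a = c a := hka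
      refine ⟨k, hk, ?_⟩
      have : (k : Equiv.Perm α)⁻¹ * c = 1 := Cfsg.Agent.Perm5.eq_one_of_commute hK (α := α) (a := a) (fun x hx => by
        obtain ⟨x', hx', rfl⟩ := hx
        have h1 : (x' : Equiv.Perm α) * c = c * x' := Subgroup.mem_centralizer_iff.1 hc _ ⟨x', hx', rfl⟩
        have h2 : Commute (x' : Equiv.Perm α) (k : Equiv.Perm α) := congrArg Subtype.val (hAB x' hx' k hk)
        exact (h2.inv_right.mul_right h1).eq) (by
          show ((k : Equiv.Perm α)⁻¹ * c) a = a
          rw [Equiv.Perm.mul_apply, ← hka']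
          exact (k : Equiv.Perm α).symm_apply_apply a)
      exact inv_mul_eq_one.1 this
    · rintro _ ⟨y, hy, rfl⟩
      rw [Subgroup.mem_centralizer_iff]
      rintro _ ⟨x, hx, rfl⟩
      exact congrArg Subtype.val (hAB x hx y hy)
  have hnab : ¬ IsMulCommutative M := fun hab => by
    obtain ⟨n, hn, hn1⟩ := (Subgroup.bot_or_exists_ne_one N).resolve_left hN
    have hmem : (n : Equiv.Perm α) ∈ N.map G.subtype := ⟨n, hn, rfl⟩
    rw [← cen M N hMt hNt hc, cen M M hMt hMt (fun x hx y hy => congrArg Subtype.val (hab.is_comm.comm ⟨x, hx⟩ ⟨y, hy⟩))] at hmem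
    obtain ⟨m, hm, hmn⟩ := hmem
    have : n ∈ M := Subtype.ext hmn ▸ hm
    exact hn1 (by simpa [hinf] using (show n ∈ M ⊓ N from ⟨this, hn⟩))
  have hphi : ∀ m : M, ∃ n : N, n • a = m • a := fun m => hNt.exists_smul_eq a (m • a)
  choose φ hφ using hphi
  have hu : ∀ n n' : N, n • a = n' • a → n = n' := fun n n' e => by
    have : n'⁻¹ * n ∈ MulAction.stabilizer N a := by
      rw [MulAction.mem_stabilizer_iff, mul_smul, inv_smul_eq_iff]; exact e
    rw [hNr, Subgroup.mem_bot, inv_mul_eq_one] at this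
    exact this.symm
  have huM : ∀ m m' : M, m • a = m' • a → m = m' := fun n n' e => by
    have : n'⁻¹ * n ∈ MulAction.stabilizer M a := by
      rw [MulAction.mem_stabilizer_iff, mul_smul, inv_smul_eq_iff]; exact e
    rw [hMr, Subgroup.mem_bot, inv_mul_eq_one] at this
    exact this.symm
  have hmul : ∀ m m' : M, φ (m * m') = φ m' * φ m := fun m m' => hu _ _ (by
    rw [hφ, mul_smul, mul_smul, ← hφ m', hφ m]
    show (m : G) • (φ m' : G) • a = (φ m' : G) • (m : G) • a
    rw [← mul_smul, hc m m.2 (φ m') (φ m').2, mul_smul])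
  let f : M →* N := MonoidHom.mk' (fun m => (φ m)⁻¹) (fun m m' => by simp [hmul])
  have hbij : Function.Bijective f := by
    refine ⟨fun m m' e => huM _ _ ?_, fun n => ?_⟩
    · have : φ m = φ m' := inv_injective e
      rw [← hφ, ← hφ, this]
    · obtain ⟨m, hm⟩ := hMt.exists_smul_eq a (n⁻¹ • a)
      refine ⟨m, ?_⟩
      show (φ m)⁻¹ = n
      rw [hu (φ m) n⁻¹ (by rw [hφ, hm]), inv_inv]
  refine ⟨hMr, hNr, hnab, ⟨MulEquiv.ofBijective f hbij⟩, cen M N hMt hNt hc, cen N M hNt hMt (fun x hx y hy => (hc y hy x hx).symm), ?_⟩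
  intro L hLn hL hLmin
  haveI := hLn
  by_contra! hne
  have hLM : L ⊓ M = ⊥ := by
    rcases hLmin (L ⊓ M) inferInstance inf_le_left with h | h
    · exact h
    · rcases hMmin L hLn (h ▸ inf_le_right) with h' | h'
      exacts [absurd h' hL, absurd h' hne.1]
  have hLN : L ⊓ N = ⊥ := by
    rcases hLmin (L ⊓ N) inferInstance inf_le_left with h | h
    · exact h
    · rcases hNmin L hLn (h ▸ inf_le_right) with h' | h'
      exacts [absurd h' hL, absurd h' hne.2]
  apply hL
  rw [eq_bot_iff]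
  intro l hl
  have hlM : (l : Equiv.Perm α) ∈ Subgroup.centralizer ((M.map G.subtype : Subgroup (Equiv.Perm α)) : Set (Equiv.Perm α)) := by
    rw [Subgroup.mem_centralizer_iff]
    rintro _ ⟨m, hm, rfl⟩
    exact congrArg Subtype.val (Cfsg.Agent.Perm5.commute_of_inf_eq_bot hLn inferInstance hLM l hl m hm).symm
  rw [cen M N hMt hNt hc] at hlM
  obtain ⟨n, hn, hnl⟩ := hlM
  exact hLN ▸ ⟨hl, by rw [← Subtype.ext hnl]; exact hn⟩

end Cfsg.Agent.S0704
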