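import Cfsg.Statements.S0705
import Cfsg.Agent.Perm5.Criteria

set_option autoImplicit false
open scoped Pointwise
open Cfsg

namespace Cfsg.Agent.S0705

/-- A generously `k`-transitive permutation group (every `(k+1)`-subset has its full symmetric group induced by the setwise stabiliser) of degree greater than `k` is `k`-transitive, and for a `k`-subset the setwise and pointwise stabilisers have the same orbits outside it. -/
theorem result {α : Type*} [Fintype α] [DecidableEq α] (G : Subgroup (Equiv.Perm α)) {k : ℕ} (hk : k < Fintype.card α) (hgen : ∀ s : Finset α, s.card = k + 1 → ∀ σ : Equiv.Perm ↥s, ∃ g ∈ G, ∀ x : ↥s, g (x : α) = σ x) : MulAction.IsMultiplyPretransitive G α k ∧ ∀ s : Finset α, s.card = k → ∀ a b : α, a ∉ s → b ∉ s → (∃ g ∈ G, g • s = s ∧ g a = b) → ∃ g ∈ G, (∀ x ∈ s, g x = x) ∧ g a = b := by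
  classical
  refine ⟨Cfsg.Agent.Perm5.isMultiplyPretransitive_of_move (by rwa [Nat.card_eq_fintype_card]) fun t ht x y hx hy => ?_, ?_⟩
  · by_cases hxy : x = y
    · exact ⟨1, fun z _ => one_smul _ _, by rw [hxy, one_smul]⟩
    let s : Finset α := insert x (insert y t)
    have hs : s.card = k + 1 := by
      rw [Finset.card_insert_of_notMem (by simp [hxy, hx]), Finset.card_insert_of_notMem hy]; omega
    obtain ⟨g, hg, hgσ⟩ := hgen s hs (Equiv.swap ⟨x, by simp [s]⟩ ⟨y, by simp [s]⟩)
    refine ⟨⟨g, hg⟩, fun z hz => ?_, ?_⟩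
    · show g z = z
      have := hgσ ⟨z, by simp [s, hz]⟩
      rw [Equiv.swap_apply_of_ne_of_ne (by simp; rintro rfl; exact hx hz) (by simp; rintro rfl; exact hy hz)] at this
      exact this
    · show g x = y
      have := hgσ ⟨x, by simp [s]⟩
      rwa [Equiv.swap_apply_left] at this
  · rintro s hs a b ha hb ⟨g, hg, hgs, hgab⟩
    by_cases hab : a = b
    · exact ⟨1, G.one_mem, fun x _ => rfl, hab⟩
    let u : Finset α := insert b s
    have hgim : ∀ x, g x ∈ s ↔ x ∈ s := fun x => by
      have h' : (g • x ∈ g • s) ↔ x ∈ s := Finset.smul_mem_smul_finset_iff g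
      rw [hgs] at h'
      exact h'
    let σ : Equiv.Perm ↥u :=
      { toFun := fun x => if h : (x : α) ∈ s then ⟨g⁻¹ x, Finset.mem_insert_of_mem ((hgim _).1 (by rw [Equiv.Perm.inv_def, Equiv.apply_symm_apply]; exact h))⟩ else ⟨b, Finset.mem_insert_self _ _⟩
        invFun := fun x => if h : (x : α) ∈ s then ⟨g x, Finset.mem_insert_of_mem ((hgim _).2 h)⟩ else ⟨b, Finset.mem_insert_self _ _⟩
        left_inv := fun ⟨x, hx⟩ => by
          by_cases h : x ∈ s
          · have h' : g⁻¹ x ∈ s := (hgim _).1 (by rw [Equiv.Perm.inv_def, Equiv.apply_symm_apply]; exact h)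
            simp only [h, h', dite_true]
            exact Subtype.ext (by simp)
          · have : x = b := by simpa [u, h] using hx
            subst this
            simp [h]
        right_inv := fun ⟨x, hx⟩ => by
          by_cases h : x ∈ s
          · have h' : g x ∈ s := (hgim _).2 h
            simp only [h, h', dite_true]
            exact Subtype.ext (by simp)
          · have : x = b := by simpa [u, h] using hx
            subst this
            simp [h] }
    obtain ⟨g', hg', hgσ⟩ := hgen u (by rw [Finset.card_insert_of_notMem hb, hs]) σ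
    refine ⟨g' * g, G.mul_mem hg' hg, fun x hx => ?_, ?_⟩
    · have := hgσ ⟨g x, Finset.mem_insert_of_mem ((hgim x).2 hx)⟩
      rw [Equiv.Perm.mul_apply, this]
      show ((if h : g x ∈ s then _ else _ : ↥u) : α) = x
      rw [dif_pos ((hgim x).2 hx)]
      simp
    · have := hgσ ⟨b, Finset.mem_insert_self _ _⟩
      rw [Equiv.Perm.mul_apply, hgab, this]
      show ((if h : b ∈ s then _ else _ : ↥u) : α) = b
      rw [dif_neg hb]

end Cfsg.Agent.S0705
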