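import Cfsg.Statements.S0706
import Mathlib

set_option autoImplicit false
open Cfsg

namespace Cfsg.Agent.S0706

open scoped Pointwise

theorem exists_map_kset {α : Type*} [Fintype α] [DecidableEq α] (G : Subgroup (Equiv.Perm α)) {k : ℕ}
    (hgen : ∀ s : Finset α, s.card = k + 1 → ∀ σ : Equiv.Perm ↥s, ∃ g ∈ G, ∀ x : ↥s, g (x : α) = σ x)
    (m : ℕ) : ∀ A B : Finset α, A.card = k → B.card = k → (B \ A).card = m →
      ∃ h : G, ∀ a ∈ A, h • a ∈ B := by
  induction m with
  | zero =>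
    intro A B hA hB hm
    refine ⟨1, fun a ha => ?_⟩
    have hsub : B ⊆ A := Finset.sdiff_eq_empty_iff_subset.mp (Finset.card_eq_zero.mp hm)
    rw [one_smul, Finset.eq_of_subset_of_card_le hsub (by omega)]
    exact ha
  | succ m ih =>
    intro A B hA hB hm
    obtain ⟨b, hb⟩ := Finset.card_pos.mp (by omega : 0 < (B \ A).card)
    obtain ⟨hbB, hbA⟩ := Finset.mem_sdiff.mp hb
    have hne : (A \ B).Nonempty := Finset.card_pos.mp (by
      have := Finset.card_sdiff_add_card_inter A B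
      have := Finset.card_sdiff_add_card_inter B A
      rw [Finset.inter_comm] at this
      omega)
    obtain ⟨a, ha⟩ := hne
    obtain ⟨haA, haB⟩ := Finset.mem_sdiff.mp ha
    obtain ⟨g, hgG, hg⟩ := hgen (insert b A) (by rw [Finset.card_insert_of_notMem hbA, hA])
      (Equiv.swap ⟨a, Finset.mem_insert_of_mem haA⟩ ⟨b, Finset.mem_insert_self _ _⟩)
    have hA' : (insert b (A.erase a)).card = k := by
      rw [Finset.card_insert_of_notMem (fun h => hbA (Finset.mem_of_mem_erase h)), Finset.card_erase_of_mem haA]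
      have := Finset.card_pos.mpr ⟨a, haA⟩
      omega
    have hm' : (B \ insert b (A.erase a)).card = m := by
      have : B \ insert b (A.erase a) = (B \ A).erase b := by
        ext x
        simp only [Finset.mem_sdiff, Finset.mem_insert, Finset.mem_erase]
        constructor
        · rintro ⟨h1, h2⟩
          exact ⟨fun h => h2 (Or.inl h), h1, fun h => h2 (Or.inr ⟨fun e => haB (e ▸ h1), h⟩)⟩
        · rintro ⟨h1, h2, h3⟩
          exact ⟨h2, by rintro (h | ⟨_, h⟩); exacts [h1 h, h3 h]⟩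
      rw [this, Finset.card_erase_of_mem hb]; omega
    obtain ⟨h, hh⟩ := ih _ B hA' hB hm'
    refine ⟨h * ⟨g, hgG⟩, fun x hx => ?_⟩
    rw [mul_smul]
    apply hh
    have e := hg ⟨x, Finset.mem_insert_of_mem hx⟩
    show g x ∈ _
    rw [e]
    by_cases hxa : x = a
    · subst hxa; rw [Equiv.swap_apply_left]; exact Finset.mem_insert_self _ _
    · rw [Equiv.swap_apply_of_ne_of_ne (by simpa [Subtype.ext_iff] using hxa) (by simp [Subtype.ext_iff]; rintro rfl; exact hbA hx)]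
      exact Finset.mem_insert_of_mem (Finset.mem_erase.mpr ⟨hxa, hx⟩)



/-- In a generously `k`-transitive permutation group, for a prime `p ≤ k` and a `k`-set `Γ`, there are no `p` points outside `Γ` lying in distinct orbits of the pointwise stabiliser of `Γ` all of length prime to `p` (at most `p - 1` such orbits). -/
theorem result {α : Type*} [Fintype α] [DecidableEq α] (G : Subgroup (Equiv.Perm α)) {k : ℕ} (hk : k < Fintype.card α) (hgen : ∀ s : Finset α, s.card = k + 1 → ∀ σ : Equiv.Perm ↥s, ∃ g ∈ G, ∀ x : ↥s, g (x : α) = σ x) {p : ℕ} (hp : p.Prime) (hpk : p ≤ k) (Γ : Finset α) (hΓ : Γ.card = k) (f : Fin p → α) (hf : ∀ i, f i ∉ Γ) (hdist : ∀ i j, i ≠ j → f j ∉ MulAction.orbit (fixingSubgroup G (Γ : Set α)) (f i)) : ∃ i, p ∣ Nat.card (MulAction.orbit (fixingSubgroup G (Γ : Set α)) (f i)) := by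
  classical
  haveI : Fact p.Prime := ⟨hp⟩
  by_contra hcon
  push Not at hcon
  set K : Subgroup G := fixingSubgroup G (Γ : Set α) with hK
  have hmemK : ∀ g : G, g ∈ K ↔ ∀ x ∈ Γ, g • x = x := fun g => by
    simp [hK, mem_fixingSubgroup_iff]
  obtain ⟨Δ, hΔΓ, hΔ⟩ := Finset.exists_subset_card_eq (hΓ ▸ hpk : p ≤ Γ.card)
  obtain ⟨c, hc, hcs⟩ := Finset.exists_cycleOn Δ
  let M : Subgroup G :=
    { carrier := {g | (∀ x, g • x ∈ Γ ↔ x ∈ Γ) ∧ (∀ x ∈ Γ, x ∉ Δ → g • x = x) ∧ ∀ x, x ∉ Γ → g • x ∈ MulAction.orbit K x}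
      mul_mem' := by
        rintro a b ⟨a1, a2, a3⟩ ⟨b1, b2, b3⟩
        refine ⟨fun x => by rw [mul_smul, a1, b1], fun x hx hxΔ => by rw [mul_smul, b2 x hx hxΔ, a2 x hx hxΔ], fun x hx => ?_⟩
        rw [mul_smul]
        have h1 := a3 (b • x) (fun h => hx ((b1 x).mp h))
        rwa [MulAction.orbit_eq_iff.mpr (b3 x hx)] at h1
      one_mem' := ⟨fun x => by rw [one_smul], fun x _ _ => one_smul _ x, fun x _ => by rw [one_smul]; exact MulAction.mem_orbit_self x⟩
      inv_mem' := by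
        rintro a ⟨a1, a2, a3⟩
        refine ⟨fun x => by rw [← a1 (a⁻¹ • x), smul_inv_smul], fun x hx hxΔ => by rw [inv_smul_eq_iff, a2 x hx hxΔ], fun x hx => ?_⟩
        have h1 := a3 (a⁻¹ • x) (fun h => hx (by rw [← smul_inv_smul a x, a1]; exact h))
        rw [smul_inv_smul] at h1
        rw [← MulAction.orbit_eq_iff] at h1 ⊢
        exact h1.symm }
  have hKM : K ≤ M := by
    intro g hg
    rw [hmemK] at hg
    refine ⟨fun x => ⟨fun h => ?_, fun h => by rwa [hg x h]⟩, fun x hx _ => hg x hx, fun x _ => ⟨⟨g, (hmemK g).mpr hg⟩, rfl⟩⟩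
    have : g • x = x := by
      have h2 := hg (g • x) h
      exact smul_left_cancel g h2
    rwa [this] at h
  have hcΓ : ∀ x, c x ∈ Γ ↔ x ∈ Γ := by
    intro x
    by_cases hx : c x = x
    · rw [hx]
    · exact ⟨fun _ => hΔΓ (hcs (Equiv.Perm.mem_support.mpr hx)),
        fun _ => hΔΓ (hcs (Equiv.Perm.apply_mem_support.mpr (Equiv.Perm.mem_support.mpr hx)))⟩
  have hgx : ∀ x, x ∉ Γ → ∃ g : G, (∀ y ∈ Γ, g • y = c y) ∧ g • x = x := by
    intro x hx
    have hst : ∀ y, y ∈ insert x Γ ↔ c y ∈ insert x Γ := by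
      intro y
      have hcx : c x = x := by_contra fun h => hx (hΔΓ (hcs (Equiv.Perm.mem_support.mpr h)))
      simp only [Finset.mem_insert, hcΓ]
      constructor
      · rintro (rfl | h); exacts [Or.inl hcx, Or.inr h]
      · rintro (h | h); exacts [Or.inl (c.injective (h.trans hcx.symm)), Or.inr h]
    obtain ⟨g, hgG, hg⟩ := hgen (insert x Γ) (by rw [Finset.card_insert_of_notMem hx, hΓ]) (c.subtypePerm (fun y => (hst y).symm))
    refine ⟨⟨g, hgG⟩, fun y hy => hg ⟨y, Finset.mem_insert_of_mem hy⟩, ?_⟩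
    exact (hg ⟨x, Finset.mem_insert_self _ _⟩).trans (by_contra fun h => hx (hΔΓ (hcs (Equiv.Perm.mem_support.mpr h))))
  obtain ⟨g0, hg0, -⟩ := hgx (f ⟨0, hp.pos⟩) (hf _)
  have hg0Γ : ∀ y, g0 • y ∈ Γ ↔ y ∈ Γ := by
    intro y
    refine ⟨fun h => ?_, fun h => by rw [hg0 y h]; exact (hcΓ y).mpr h⟩
    obtain ⟨z, hz⟩ : ∃ z, c z = g0 • y := c.surjective _
    have hzΓ : z ∈ Γ := (hcΓ z).mp (hz ▸ h)
    rw [← hg0 z hzΓ] at hz
    exact smul_left_cancel g0 hz ▸ hzΓ
  have hg0M : g0 ∈ M := by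
    refine ⟨hg0Γ, fun x hx hxΔ => ?_, fun x hx => ?_⟩
    · rw [hg0 x hx]; exact by_contra fun h => hxΔ (hcs (Equiv.Perm.mem_support.mpr h))
    · obtain ⟨g, hg, hgfix⟩ := hgx x hx
      have hk : g0 * g⁻¹ ∈ K := by
        rw [hmemK]
        intro y hy
        obtain ⟨z, hz⟩ : ∃ z, c z = y := c.surjective y
        have hzΓ : z ∈ Γ := (hcΓ z).mp (hz ▸ hy)
        subst hz
        rw [mul_smul, ← hg z hzΓ, inv_smul_smul, hg0 z hzΓ, hg z hzΓ]
      exact ⟨⟨_, hk⟩, by show (g0 * g⁻¹) • x = g0 • x; rw [mul_smul, inv_smul_eq_iff.mpr hgfix.symm]⟩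
  let φ : M →* Equiv.Perm {x // x ∈ Γ} :=
    { toFun := fun g => Equiv.Perm.subtypePerm (MulAction.toPermHom G α g.1) (fun x => g.2.1 x)
      map_one' := Equiv.ext fun x => Subtype.ext (one_smul G (x : α))
      map_mul' := fun a b => Equiv.ext fun x => Subtype.ext (mul_smul (a : G) (b : G) (x : α)) }
  have hker : φ.ker = K.subgroupOf M := by
    ext g
    rw [MonoidHom.mem_ker, Subgroup.mem_subgroupOf, hmemK]
    exact ⟨fun h x hx => congrArg Subtype.val (DFunLike.congr_fun h (⟨x, hx⟩ : {x // x ∈ Γ})), fun h => Equiv.ext fun x => Subtype.ext (h x x.2)⟩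
  have hdvd : p ∣ Nat.card φ.range := by
    have hord : orderOf (φ ⟨g0, hg0M⟩) = p := by
      have hne : φ ⟨g0, hg0M⟩ ≠ 1 := by
        obtain ⟨d, hd⟩ := Finset.card_pos.mp (hΔ ▸ hp.pos)
        intro h
        have h1 : g0 • d = d := congrArg Subtype.val (DFunLike.congr_fun h (⟨d, hΔΓ hd⟩ : {x // x ∈ Γ}))
        rw [hg0 d (hΔΓ hd)] at h1
        exact hc.apply_ne (Finset.one_lt_card_iff_nontrivial.mp (hΔ ▸ hp.one_lt)) hd h1
      refine orderOf_eq_prime (Equiv.ext fun x => Subtype.ext ?_) hne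
      have key : ∀ j : ℕ, ∀ y ∈ Γ, g0 ^ j • y = (c ^ j) y ∧ (c ^ j) y ∈ Γ := by
        intro j
        induction j with
        | zero => intro y hy; simp [hy]
        | succ j ih =>
          intro y hy
          obtain ⟨h1, h2⟩ := ih y hy
          rw [pow_succ', mul_smul, h1, pow_succ', Equiv.Perm.mul_apply, hg0 _ h2]
          exact ⟨rfl, (hcΓ _).mpr h2⟩
      have e : (((φ ⟨g0, hg0M⟩) ^ p) x : α) = g0 ^ p • (x : α) := by
        rw [← map_pow]; rfl
      rw [e, (key p x x.2).1]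
      by_cases hxΔ : (x : α) ∈ Δ
      · simpa [← hΔ] using hc.pow_card_apply hxΔ
      · simpa using Equiv.Perm.pow_apply_eq_self_of_apply_eq_self (by_contra fun h => hxΔ (hcs (Equiv.Perm.mem_support.mpr h))) p
    have := orderOf_dvd_natCard (⟨φ ⟨g0, hg0M⟩, ⟨_, rfl⟩⟩ : φ.range)
    rwa [← Subgroup.orderOf_coe, hord] at this
  have hcardM : Nat.card M = Nat.card φ.range * Nat.card K := by
    rw [← Nat.card_congr (Subgroup.subgroupOfEquivOfLe hKM).toEquiv, ← hker, ← Subgroup.index_ker, Subgroup.index_mul_card]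
  obtain ⟨Q⟩ : Nonempty (Sylow p M) := inferInstance
  have hy : ∀ i : Fin p, ∃ y ∈ MulAction.orbit K (f i), ∀ q ∈ (Q : Subgroup M), (q : G) • y = y := by
    intro i
    have hO : ∀ (g : M) (x : α), x ∈ MulAction.orbit K (f i) → (g : G) • x ∈ MulAction.orbit K (f i) := by
      intro g x hx
      have hxΓ : x ∉ Γ := by
        obtain ⟨k', rfl⟩ := hx
        intro h
        exact hf i (((hKM k'.2).1 (f i)).mp h)
      rw [← MulAction.orbit_eq_iff.mpr hx]
      exact g.2.2.2 x hxΓ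
    letI : MulAction (Q : Subgroup M) (MulAction.orbit K (f i)) :=
      { smul := fun q y => ⟨((q : M) : G) • (y : α), hO q y y.2⟩
        one_smul := fun y => Subtype.ext (one_smul G (y : α))
        mul_smul := fun a b y => Subtype.ext (mul_smul ((a : M) : G) ((b : M) : G) (y : α)) }
    obtain ⟨y, hy⟩ := Q.isPGroup'.nonempty_fixed_point_of_prime_not_dvd_card (MulAction.orbit K (f i)) (hcon i)
    exact ⟨y, y.2, fun q hq => congrArg Subtype.val (hy ⟨q, hq⟩)⟩
  choose y hy1 hy2 using hy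
  have hyΓ : ∀ i, y i ∉ Γ := by
    intro i h
    obtain ⟨k', hk'⟩ := hy1 i
    exact hf i (((hKM k'.2).1 (f i)).mp (show (k' : G) • f i ∈ Γ from (show (k' : G) • f i = y i from hk') ▸ h))
  have hyinj : Function.Injective y := fun i j e => by
    by_contra hne
    exact hdist i j hne (MulAction.orbit_eq_iff.mp ((MulAction.orbit_eq_iff.mpr (hy1 j)).symm.trans
      ((congrArg _ e.symm).trans (MulAction.orbit_eq_iff.mpr (hy1 i)))))
  set B : Finset α := (Γ \ Δ) ∪ Finset.univ.image y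
  have hB : B.card = k := by
    rw [Finset.card_union_of_disjoint (Finset.disjoint_left.mpr fun x hx hx' => by
        obtain ⟨i, -, rfl⟩ := Finset.mem_image.mp hx'
        exact hyΓ i (Finset.mem_sdiff.mp hx).1),
      Finset.card_image_of_injective _ hyinj, Finset.card_sdiff_of_subset hΔΓ, Finset.card_univ, Fintype.card_fin]
    omega
  obtain ⟨h, hh⟩ := exists_map_kset G hgen _ Γ B hΓ hB rfl
  have hmapK : ((Q : Subgroup M).map M.subtype).map (MulAut.conj h⁻¹).toMonoidHom ≤ K := by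
    rintro _ ⟨_, ⟨q, hq, rfl⟩, rfl⟩
    rw [hmemK]
    intro x hx
    show (h⁻¹ * (q : G) * h⁻¹⁻¹) • x = x
    rw [inv_inv, mul_smul, mul_smul, inv_smul_eq_iff]
    rcases Finset.mem_union.mp (hh x hx) with hb | hb
    · exact q.2.2.1 _ (Finset.mem_sdiff.mp hb).1 (Finset.mem_sdiff.mp hb).2
    · obtain ⟨i, -, hi⟩ := Finset.mem_image.mp hb
      rw [← hi]; exact hy2 i q hq
  have h1 := Subgroup.card_dvd_of_le hmapK
  rw [Subgroup.card_map_of_injective (MulAut.conj h⁻¹).injective, Subgroup.card_map_of_injective M.subtype_injective,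
    Q.card_eq_multiplicity, hcardM] at h1
  have hK0 : Nat.card K ≠ 0 := Nat.card_pos.ne'
  have hR0 : Nat.card φ.range ≠ 0 := Nat.card_pos.ne'
  rw [Nat.factorization_mul hR0 hK0, Finsupp.add_apply, hp.pow_dvd_iff_le_factorization hK0] at h1
  have := hp.factorization_pos_of_dvd hR0 hdvd
  omega

end Cfsg.Agent.S0706
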