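import Cfsg.Statements.S0710
import Cfsg.Agent.Perm5.Basic
import Mathlib.GroupTheory.Perm.Cycle.Type
import Mathlib.GroupTheory.Sylow
import Mathlib.GroupTheory.Transfer

set_option autoImplicit false
open Cfsg

namespace Cfsg.Agent.S0710

/-- No transitive permutation group on 13 points has order `13 * 12 * 11 * 10 * 9 * 8`. -/
theorem result {α : Type*} [Fintype α] [DecidableEq α] (hα : Fintype.card α = 13) (G : Subgroup (Equiv.Perm α)) [MulAction.IsPretransitive G α] : Nat.card G ≠ 13 * 12 * 11 * 10 * 9 * 8 := by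
  intro hcard
  haveI : Fact (Nat.Prime 13) := ⟨by decide⟩
  obtain ⟨P⟩ := (inferInstance : Nonempty (Sylow 13 G))
  have hPc : Nat.card (P : Subgroup G) = 13 := by
    rw [Sylow.card_eq_multiplicity, hcard]
    rw [show 13 * 12 * 11 * 10 * 9 * 8 = 13 * 95040 by norm_num, Nat.factorization_mul (by norm_num) (by norm_num),
      Finsupp.add_apply, (by decide : Nat.Prime 13).factorization_self, Nat.factorization_eq_zero_of_not_dvd (by norm_num)]
    norm_num
  set N := Subgroup.normalizer ((P : Subgroup G) : Set G) with hN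
  have hcen : Subgroup.centralizer ((P : Subgroup G) : Set G) ≤ P := by
    intro c hc
    obtain ⟨x, hx⟩ := exists_prime_orderOf_dvd_card' (G := (P : Subgroup G)) 13 (by rw [hPc])
    have hxo : orderOf ((x : G) : Equiv.Perm α) = 13 := by rw [Subgroup.orderOf_coe, Subgroup.orderOf_coe, hx]
    have hcyc : ((x : G) : Equiv.Perm α).IsCycle :=
      Equiv.Perm.isCycle_of_prime_order'' (by rw [hα]; decide) (by rw [hxo, hα])
    have hcc : Commute ((c : G) : Equiv.Perm α) ((x : G) : Equiv.Perm α) :=
      congrArg Subtype.val (Subgroup.mem_centralizer_iff.1 hc x x.2).symm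
    obtain ⟨i, hi⟩ : ∃ i : ℤ, ((c : G) : Equiv.Perm α) = ((x : G) : Equiv.Perm α) ^ i := by
      have hsupp : ((x : G) : Equiv.Perm α).support = Finset.univ := by
        apply Finset.eq_univ_of_card
        rw [← hcyc.orderOf, hxo, hα]
      obtain ⟨a, -⟩ : ∃ a : α, True := by
        obtain ⟨a⟩ : Nonempty α := Fintype.card_pos_iff.1 (by omega)
        exact ⟨a, trivial⟩
      have hmem : ∀ z, ((x : G) : Equiv.Perm α) z ≠ z := fun z => Equiv.Perm.mem_support.1 (hsupp ▸ Finset.mem_univ z)
      obtain ⟨i, hi⟩ := hcyc.sameCycle (hmem a) (hmem (((c : G) : Equiv.Perm α) a))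
      refine ⟨i, Equiv.ext fun z => ?_⟩
      obtain ⟨j, rfl⟩ := hcyc.sameCycle (hmem a) (hmem z)
      have := Equiv.congr_fun (hcc.zpow_right j).eq a
      simp only [Equiv.Perm.mul_apply] at this
      rw [this, ← hi, ← Equiv.Perm.mul_apply, ← Equiv.Perm.mul_apply, ← zpow_add, ← zpow_add, add_comm]
    have : c = (x : G) ^ i := Subtype.ext (by rw [hi]; simp)
    rw [this]
    exact Subgroup.zpow_mem _ x.2 i
  haveI : IsCyclic (P : Subgroup G) := isCyclic_of_prime_card hPc
  haveI : Finite (MulAut (P : Subgroup G)) := Finite.of_injective (fun φ : MulAut (P : Subgroup G) => φ.toEquiv) MulEquiv.toEquiv_injective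
  have hdvd : Nat.card N ∣ 13 * 12 := by
    have e := Subgroup.normalizerMonoidHom_ker (H := (P : Subgroup G))
    have h1 := (Subgroup.normalizerMonoidHom (P : Subgroup G)).ker.card_mul_index
    rw [Subgroup.index_ker] at h1
    have h2 : Nat.card (Subgroup.normalizerMonoidHom (P : Subgroup G)).ker ∣ 13 := by
      rw [e, Nat.card_congr (Subgroup.subgroupOfEquivOfLe (show (Subgroup.centralizer ((P : Subgroup G) : Set G)) ≤ N from fun c hc => Subgroup.le_normalizer (hcen hc))).toEquiv]
      exact (Subgroup.card_dvd_of_le hcen).trans (dvd_of_eq hPc)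
    have h3 : Nat.card (Subgroup.normalizerMonoidHom (P : Subgroup G)).range ∣ 12 := by
      have := Subgroup.card_subgroup_dvd_card (Subgroup.normalizerMonoidHom (P : Subgroup G)).range
      rw [IsCyclic.card_mulAut, hPc] at this
      exact this
    rw [← h1]
    exact Nat.mul_dvd_mul h2 h3
  have hle : 13 ∣ Nat.card N := hPc ▸ Subgroup.card_dvd_of_le Subgroup.le_normalizer
  obtain ⟨d, hd⟩ := hle
  have hd12 : d ∣ 12 := by rw [hd] at hdvd; exact (Nat.mul_dvd_mul_iff_left (by norm_num)).1 hdvd
  have hn := card_sylow_modEq_one 13 G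
  rw [P.card_eq_index_normalizer] at hn
  have hmul := N.card_mul_index
  rw [hcard, hd] at hmul
  have hmul' : d * N.index = 95040 := by
    rw [mul_assoc] at hmul
    omega
  have hd0 : d ∈ Nat.divisors 12 := Nat.mem_divisors.2 ⟨hd12, by norm_num⟩
  have : Nat.divisors 12 = {1, 2, 3, 4, 6, 12} := by decide
  rw [this] at hd0
  simp only [Finset.mem_insert, Finset.mem_singleton] at hd0
  change N.index ≡ 1 [MOD 13] at hn
  unfold Nat.ModEq at hn
  rcases hd0 with rfl | rfl | rfl | rfl | rfl | rfl <;> omega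

end Cfsg.Agent.S0710
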