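import Cfsg.Statements.S0713
import Cfsg.Agent.Perm5.Basic
import Mathlib.GroupTheory.Perm.Cycle.Type
import Mathlib.GroupTheory.Sylow
import Mathlib.GroupTheory.SpecificGroups.Alternating

set_option autoImplicit false
open Cfsg

namespace Cfsg.Agent.S0713

/-- Jordan's Theorem: a primitive permutation group of degree `n ≥ 5` containing a `p`-cycle for a prime `p ≤ n - 3` contains the alternating group. -/
theorem result {α : Type*} [Fintype α] [DecidableEq α] (G : Subgroup (Equiv.Perm α)) (hG : MulAction.IsPreprimitive G α) {p : ℕ} (hp : p.Prime) (hn : 5 ≤ Fintype.card α) (hpn : p + 3 ≤ Fintype.card α) {g : Equiv.Perm α} (hgc : g.IsCycle) (hgp : g.support.card = p) (hg : g ∈ G) : alternatingGroup α ≤ G := by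
  classical
  by_cases hp3 : p = 3
  · subst hp3
    exact Equiv.Perm.alternatingGroup_le_of_isPreprimitive_of_isThreeCycle_mem hG (card_support_eq_three_iff.1 hgp) hg
  haveI := Fact.mk hp
  obtain ⟨m, hm⟩ : ∃ m, Fintype.card α = p + (m + 1) := ⟨Fintype.card α - p - 1, by omega⟩
  have hsc : Set.ncard ((g.support : Set α)ᶜ) = m + 1 := by
    have := Set.ncard_add_ncard_compl (g.support : Set α)
    rw [Set.ncard_coe_finset, hgp, Nat.card_eq_fintype_card] at this
    omega
  have hcyc := Equiv.Perm.isPretransitive_of_isCycle_mem (G := G) hgc hg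
  have hprim : MulAction.IsPreprimitive (fixingSubgroup G (g.support : Set α)ᶜ) (SubMulAction.ofFixingSubgroup G (g.support : Set α)ᶜ) := by
    apply MulAction.IsPreprimitive.of_prime_card
    convert! hp
    rw [Nat.card_eq_fintype_card, Fintype.card_subtype, ← hgp]
    apply congr_arg
    ext x
    simp [SubMulAction.mem_ofFixingSubgroup_iff]
  have hk := hG.isMultiplyPreprimitive hsc (by rw [Nat.card_eq_fintype_card]; have := hp.two_le; omega) hprim
  haveI : MulAction.IsMultiplyPretransitive G α (m + 2) := hk.isMultiplyPretransitive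
  haveI hm1 : MulAction.IsMultiplyPretransitive G α (m + 1) :=
    MulAction.isMultiplyPretransitive_of_le (n := m + 2) (by omega) (by rw [Nat.card_eq_fintype_card]; have := hp.two_le; omega)
  -- the pointwise stabilizer of the complement
  let Γ := g.supportᶜ
  let K : Subgroup (Equiv.Perm α) := G ⊓ fixingSubgroup (Equiv.Perm α) (Γ : Set α)
  have hgK : g ∈ K := ⟨hg, (mem_fixingSubgroup_iff _).2 fun z hz => by
    simp only [Γ, Finset.coe_compl, Set.mem_compl_iff, Finset.mem_coe, Equiv.Perm.mem_support, not_not] at hz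
    exact hz⟩
  have hKs : ∀ k ∈ K, ∀ z, z ∈ g.support ↔ k z ∈ g.support := by
    intro k hk z
    have hfix := (mem_fixingSubgroup_iff _).1 hk.2
    constructor <;> intro h <;> by_contra hc
    · have := hfix (k z) (by simpa [Γ] using hc)
      exact hc ((k.injective this).symm ▸ h)
    · have := hfix z (by simpa [Γ] using hc)
      exact hc (by have h' : k z = z := this; rwa [h'] at h)
  have hKdvd : Nat.card K ∣ p.factorial := by
    let φ : K →* Equiv.Perm {z // z ∈ g.support} :=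
      { toFun := fun k => (k : Equiv.Perm α).subtypePerm fun z => (hKs k k.2 z).symm
        map_one' := by ext; simp
        map_mul' := fun a b => by ext z; rfl }
    have hφ : Function.Injective φ := by
      intro a b hab
      apply Subtype.ext
      ext z
      by_cases hz : z ∈ g.support
      · have := congrArg (fun σ : Equiv.Perm {z // z ∈ g.support} => (σ ⟨z, hz⟩ : α)) hab
        simpa [φ] using this
      · have hz' : z ∈ (Γ : Set α) := by simpa [Γ] using hz
        exact ((mem_fixingSubgroup_iff _).1 a.2.2 z hz').trans ((mem_fixingSubgroup_iff _).1 b.2.2 z hz').symm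
    have := Subgroup.card_dvd_of_injective φ hφ
    rwa [Nat.card_perm, Nat.card_eq_finsetCard, hgp] at this
  have hord : orderOf g = p := by rw [hgc.orderOf, hgp]
  have hsyl : ∀ x (hx : x ∈ K), orderOf x = p → ∃ P : Sylow p K, (P : Subgroup K) = Subgroup.zpowers ⟨x, hx⟩ := by
    intro x hx hxo
    have hc : Nat.card (Subgroup.zpowers (⟨x, hx⟩ : K)) = p ^ (Nat.card K).factorization p := by
      rw [Nat.card_zpowers, Subgroup.orderOf_mk, hxo]
      have h1 : p ∣ Nat.card K := hxo ▸ Subgroup.orderOf_mk x hx ▸ orderOf_dvd_natCard _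
      have h2 : (Nat.card K).factorization p = 1 := by
        refine le_antisymm ?_ ((hp.dvd_iff_one_le_factorization Nat.card_pos.ne').1 h1)
        have h3 := (Nat.factorization_le_iff_dvd Nat.card_pos.ne' (Nat.factorial_ne_zero p)).2 hKdvd p
        have h4 : (p.factorial).factorization p = 1 := by
          obtain ⟨q, rfl⟩ : ∃ q, p = q + 1 := ⟨p - 1, by have := hp.pos; omega⟩
          rw [Nat.factorial_succ, Nat.factorization_mul (by omega) (Nat.factorial_ne_zero q), Finsupp.add_apply,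
            hp.factorization_self, Nat.factorization_eq_zero_of_not_dvd (fun h => by have := hp.dvd_factorial.1 h; omega)]
        omega
      rw [h2, pow_one]
    exact ⟨Sylow.ofCard _ hc, Sylow.coe_ofCard _ hc⟩
  have hW : ∀ u v : α, u ∈ Γ → v ∈ Γ → ∃ w ∈ G, (∃ i : ℤ, w * g * w⁻¹ = g ^ i) ∧ ∀ z ∈ Γ, w z = Equiv.swap u v z := by
    intro u v hu hv
    have hΓc : Γ.card = m + 1 := by rw [Finset.card_compl, hgp]; omega
    let en : Fin (m + 1) ↪ α := ((finCongr hΓc.symm).trans Γ.equivFin.symm).toEmbedding.trans (Function.Embedding.subtype _)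
    obtain ⟨⟨h, hh⟩, hhe⟩ := hm1.exists_smul_eq en (en.trans (Equiv.swap u v).toEmbedding)
    have hhΓ : ∀ z ∈ Γ, h z = Equiv.swap u v z := by
      intro z hz
      obtain ⟨i, hi⟩ : ∃ i, en i = z := ⟨finCongr hΓc (Γ.equivFin ⟨z, hz⟩), by simp [en]⟩
      rw [← hi]
      exact congrArg (fun f : Fin (m + 1) ↪ α => f i) hhe
    have hswap : ∀ z, z ∈ Γ → Equiv.swap u v z ∈ Γ := fun z hz => by
      rcases eq_or_ne z u with rfl | h1
      · rwa [Equiv.swap_apply_left]
      rcases eq_or_ne z v with rfl | h2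
      · rwa [Equiv.swap_apply_right]
      · rwa [Equiv.swap_apply_of_ne_of_ne h1 h2]
    have hcK : h * g * h⁻¹ ∈ K := by
      refine ⟨G.mul_mem (G.mul_mem hh hg) (G.inv_mem hh), (mem_fixingSubgroup_iff _).2 fun z hz => ?_⟩
      show h (g (h⁻¹ z)) = z
      have hpre : h⁻¹ z = Equiv.swap u v z := by
        rw [Equiv.Perm.inv_eq_iff_eq, hhΓ _ (hswap z hz), Equiv.swap_apply_self]
      have := (mem_fixingSubgroup_iff _).1 hgK.2 _ (hswap z hz)
      rw [hpre, show g (Equiv.swap u v z) = _ from this, hhΓ _ (hswap z hz), Equiv.swap_apply_self]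
    obtain ⟨P, hP⟩ := hsyl g hgK hord
    obtain ⟨Q, hQ⟩ := hsyl _ hcK (by rw [← hord]; exact (MulAut.conj h).orderOf_eq g)
    obtain ⟨k, hk⟩ := MulAction.exists_smul_eq K Q P
    have hmem : k * ⟨h * g * h⁻¹, hcK⟩ * k⁻¹ ∈ (P : Subgroup K) := by
      rw [← hk, Sylow.smul_def, Sylow.pointwise_smul_def, Subgroup.mem_pointwise_smul_iff_inv_smul_mem, hQ]
      simp [MulAut.conj_apply, mul_assoc]
    rw [hP] at hmem
    obtain ⟨i, hi⟩ := hmem
    refine ⟨(k : Equiv.Perm α) * h, G.mul_mem k.2.1 hh, ⟨i, ?_⟩, fun z hz => ?_⟩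
    · have := congrArg Subtype.val hi
      simp only [Subgroup.coe_zpow, Subgroup.coe_mul, Subgroup.coe_inv] at this
      rw [this]; group
    · rw [Equiv.Perm.mul_apply, hhΓ z hz]
      exact (mem_fixingSubgroup_iff _).1 k.2.2 _ (hswap z hz)
  obtain ⟨a, ha, b, hb, c, hc, hab, hac, hbc⟩ := Finset.two_lt_card.1 (show 2 < Γ.card by rw [Finset.card_compl, hgp]; omega)
  obtain ⟨v, hv, ⟨i, hvi⟩, hvΓ⟩ := hW a b ha hb
  obtain ⟨w, hw, ⟨j, hwj⟩, hwΓ⟩ := hW a c ha hc
  let x := v⁻¹ * w⁻¹ * v * w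
  have hxG : x ∈ G := G.mul_mem (G.mul_mem (G.mul_mem (G.inv_mem hv) (G.inv_mem hw)) hv) hw
  have hxg : Commute x g := by
    have e1 : ∀ (y : Equiv.Perm α) (n l : ℤ), y * g * y⁻¹ = g ^ n → y * g ^ l * y⁻¹ = g ^ (n * l) := fun y n l h => by
      rw [← conj_zpow, h, zpow_mul]
    have e2 : v * (w * g * w⁻¹) * v⁻¹ = g ^ (i * j) := by rw [hwj, e1 v i j hvi]
    have e3 : w * (v * g * v⁻¹) * w⁻¹ = g ^ (i * j) := by rw [hvi, e1 w j i hwj, mul_comm]
    show x * g = g * x
    calc x * g = (w * v)⁻¹ * (v * (w * g * w⁻¹) * v⁻¹) * (v * w) := by simp only [x]; group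
      _ = (w * v)⁻¹ * (w * (v * g * v⁻¹) * w⁻¹) * (v * w) := by rw [e2, e3]
      _ = g * x := by simp only [x]; group
  let τ := Equiv.swap a b * Equiv.swap a c
  have h3 : τ.IsThreeCycle := Equiv.Perm.isThreeCycle_swap_mul_swap_same hab hac hbc
  have hΓs : ∀ u v : α, u ∈ Γ → v ∈ Γ → ∀ z ∈ Γ, Equiv.swap u v z ∈ Γ := fun u v hu hv z hz => by
    rcases eq_or_ne z u with rfl | h1
    · rwa [Equiv.swap_apply_left]
    rcases eq_or_ne z v with rfl | h2
    · rwa [Equiv.swap_apply_right]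
    · rwa [Equiv.swap_apply_of_ne_of_ne h1 h2]
  have hab' := hΓs a b ha hb
  have hac' := hΓs a c ha hc
  have hxΓ : ∀ z ∈ Γ, x z = (τ * τ) z ∧ x z ∈ Γ := by
    intro z hz
    have hinv : ∀ (y : Equiv.Perm α) (s : Equiv.Perm α), (∀ z ∈ Γ, y z = s z) → (∀ z, s (s z) = z) → (∀ z ∈ Γ, s z ∈ Γ) →
        ∀ z ∈ Γ, y⁻¹ z = s z := fun y s hy hs hsΓ z hz => by
      rw [Equiv.Perm.inv_eq_iff_eq, hy _ (hsΓ z hz), hs]
    have q1 := hac' z hz
    have q2 := hab' _ q1
    have q3 := hac' _ q2
    have e : x z = Equiv.swap a b (Equiv.swap a c (Equiv.swap a b (Equiv.swap a c z))) := by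
      simp only [x, Equiv.Perm.mul_apply]
      rw [hwΓ z hz, hvΓ _ q1,
        hinv w _ hwΓ (Equiv.swap_apply_self a c) hac' _ q2,
        hinv v _ hvΓ (Equiv.swap_apply_self a b) hab' _ q3]
    exact ⟨by simp only [e, τ, Equiv.Perm.mul_apply], e ▸ hab' _ q3⟩
  have hxn : ∀ n : ℕ, ∀ z ∈ Γ, (x ^ n) z = ((τ * τ) ^ n) z ∧ (x ^ n) z ∈ Γ := by
    intro n
    induction n with
    | zero => exact fun z hz => ⟨rfl, hz⟩
    | succ n ih =>
      intro z hz
      obtain ⟨h1, h2⟩ := ih z hz
      obtain ⟨h4, h5⟩ := hxΓ _ h2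
      rw [pow_succ', pow_succ']
      refine ⟨?_, h5⟩
      show x ((x ^ n) z) = (τ * τ) (((τ * τ) ^ n) z)
      rw [← h1]
      exact h4
  have hy : x ^ p = (τ * τ) ^ p := by
    ext z
    by_cases hz : z ∈ Γ
    · exact (hxn p z hz).1
    · have hz' : g z ≠ z := by simpa [Γ] using hz
      have hxz : g (x z) ≠ x z := by
        rw [← Equiv.Perm.mul_apply, ← hxg.eq, Equiv.Perm.mul_apply]
        exact fun e => hz' (x.injective e)
      obtain ⟨t, ht⟩ := hgc.sameCycle hz' hxz
      have hn : ∀ n : ℕ, (x ^ n) z = (g ^ (t * n)) z := by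
        intro n
        induction n with
        | zero => simp
        | succ n ih =>
          rw [pow_succ', Equiv.Perm.mul_apply, ih, ← Equiv.Perm.mul_apply, (hxg.zpow_right (t * n)).eq,
            Equiv.Perm.mul_apply, ← ht, ← Equiv.Perm.mul_apply, ← zpow_add]
          congr 2
          push_cast
          ring
      rw [hn, show t * (p : ℤ) = (p : ℤ) * t by ring, zpow_mul, zpow_natCast, ← hord, pow_orderOf_eq_one, one_zpow, Equiv.Perm.one_apply]
      have hfix : (τ * τ) z = z := by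
        have hne : ∀ y ∈ Γ, z ≠ y := fun y hy e => hz (e ▸ hy)
        simp only [τ, Equiv.Perm.mul_apply, Equiv.swap_apply_of_ne_of_ne (hne a ha) (hne c hc),
          Equiv.swap_apply_of_ne_of_ne (hne a ha) (hne b hb)]
      exact (Equiv.Perm.pow_apply_eq_self_of_apply_eq_self hfix _).symm
  have hty : ((τ * τ) ^ p).IsThreeCycle := by
    have h33 : τ ^ 3 = 1 := by rw [← h3.orderOf, pow_orderOf_eq_one]
    have e : (τ * τ) ^ p = τ ^ ((2 * p) % 3) := by
      rw [← pow_two, ← pow_mul, pow_eq_pow_mod _ h33]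
    rw [e]
    have hp' : ¬ 3 ∣ p := fun h => hp3 ((Nat.prime_dvd_prime_iff_eq Nat.prime_three hp).1 h).symm
    rcases (show (2 * p) % 3 = 1 ∨ (2 * p) % 3 = 2 by omega) with h | h <;> rw [h]
    · rwa [pow_one]
    · rw [pow_two]; exact h3.isThreeCycle_sq
  exact Equiv.Perm.alternatingGroup_le_of_isPreprimitive_of_isThreeCycle_mem hG hty (hy ▸ G.pow_mem hxG p)

end Cfsg.Agent.S0713
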