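import Cfsg.Statements.S0714
import Mathlib

set_option autoImplicit false
open Cfsg

namespace Cfsg.Agent.S0714

theorem even_exists {α : Type*} [Fintype α] [DecidableEq α] (hα : 4 ≤ Fintype.card α) {x y a b : α}
    (hxy : x ≠ y) (hab : a ≠ b) :
    ∃ σ : Equiv.Perm α, σ ∈ alternatingGroup α ∧ σ x = a ∧ σ y = b := by
  classical
  set σ := Equiv.swap (Equiv.swap x a y) b * Equiv.swap x a with hσ
  have hy : σ y = b := by simp [hσ]
  have hya : Equiv.swap x a y ≠ a := by
    intro h
    have h' := congrArg (Equiv.swap x a) h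
    rw [Equiv.swap_apply_self, Equiv.swap_apply_right] at h'
    exact hxy h'.symm
  have hx : σ x = a := by
    rw [hσ, Equiv.Perm.mul_apply, Equiv.swap_apply_left, Equiv.swap_apply_of_ne_of_ne hya.symm hab]
  rcases Int.units_eq_one_or (Equiv.Perm.sign σ) with h | h
  · exact ⟨σ, Equiv.Perm.mem_alternatingGroup.mpr h, hx, hy⟩
  · obtain ⟨c, hc⟩ := Finset.exists_mem_notMem_of_card_lt_card (s := ({a, b} : Finset α)) (t := Finset.univ)
      (lt_of_le_of_lt Finset.card_le_two (by rw [Finset.card_univ]; omega))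
    obtain ⟨d, hd⟩ := Finset.exists_mem_notMem_of_card_lt_card (s := ({a, b, c} : Finset α)) (t := Finset.univ)
      (lt_of_le_of_lt Finset.card_le_three (by rw [Finset.card_univ]; omega))
    simp only [Finset.mem_univ, Finset.mem_insert, Finset.mem_singleton, true_and, not_or] at hc hd
    refine ⟨Equiv.swap c d * σ, Equiv.Perm.mem_alternatingGroup.mpr ?_, ?_, ?_⟩
    · rw [Equiv.Perm.sign_mul, h, Equiv.Perm.sign_swap (Ne.symm hd.2.2)]; rfl
    · rw [Equiv.Perm.mul_apply, hx, Equiv.swap_apply_of_ne_of_ne (Ne.symm hc.1) (Ne.symm hd.1)]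
    · rw [Equiv.Perm.mul_apply, hy, Equiv.swap_apply_of_ne_of_ne (Ne.symm hc.2) (Ne.symm hd.2.1)]

theorem sum_zero_le {α : Type*} [Fintype α] [DecidableEq α] (hα : 5 ≤ Fintype.card α) {K : Type*} [Field K]
    (W : Submodule K (α → K))
    (hW : ∀ σ : Equiv.Perm α, σ ∈ alternatingGroup α → ∀ f ∈ W, (fun x => f (σ x)) ∈ W)
    {f : α → K} (hf : f ∈ W) {a b : α} (hfab : f a ≠ f b) :
    ∀ g : α → K, ∑ x, g x = 0 → g ∈ W := by
  classical
  have hab : a ≠ b := fun h => hfab (by rw [h])
  obtain ⟨c, hc⟩ := Finset.exists_mem_notMem_of_card_lt_card (s := ({a, b} : Finset α)) (t := Finset.univ)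
    (lt_of_le_of_lt Finset.card_le_two (by rw [Finset.card_univ]; omega))
  obtain ⟨d, hd⟩ := Finset.exists_mem_notMem_of_card_lt_card (s := ({a, b, c} : Finset α)) (t := Finset.univ)
    (lt_of_le_of_lt Finset.card_le_three (by rw [Finset.card_univ]; omega))
  obtain ⟨e, he⟩ := Finset.exists_mem_notMem_of_card_lt_card (s := ({a, b, c, d} : Finset α)) (t := Finset.univ)
    (lt_of_le_of_lt Finset.card_le_four (by rw [Finset.card_univ]; omega))
  simp only [Finset.mem_univ, Finset.mem_insert, Finset.mem_singleton, true_and, not_or] at hc hd he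
  obtain ⟨hca, hcb⟩ := hc
  obtain ⟨hda, hdb, hdc⟩ := hd
  obtain ⟨hea, heb, hec, hed⟩ := he
  set E : α → α → K := fun p => Pi.single p 1 with hE
  have hL1 : ∀ (w : α → K) (p q : α), p ≠ q → (w - fun x => w (Equiv.swap p q x)) = (w p - w q) • (E p - E q) := by
    intro w p q hpq
    funext x
    simp only [Pi.sub_apply, Pi.smul_apply, smul_eq_mul, hE, Pi.single_apply]
    rcases eq_or_ne x p with rfl | h1
    · rw [Equiv.swap_apply_left, if_pos rfl, if_neg hpq]; ring
    rcases eq_or_ne x q with rfl | h2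
    · rw [Equiv.swap_apply_right, if_pos rfl, if_neg h1]; ring
    · rw [Equiv.swap_apply_of_ne_of_ne h1 h2, if_neg h1, if_neg h2]; ring
  have hmemW : ∀ w ∈ W, ∀ p q r s : α, p ≠ q → r ≠ s → r ≠ p → r ≠ q → s ≠ p → s ≠ q →
      (w p - w q) • (E p - E q) + (w r - w s) • (E r - E s) ∈ W := by
    intro w hw p q r s hpq hrs h1 h2 h3 h4
    have hev : Equiv.swap p q * Equiv.swap r s ∈ alternatingGroup α :=
      Equiv.Perm.mem_alternatingGroup.mpr (by
        rw [Equiv.Perm.sign_mul, Equiv.Perm.sign_swap hpq, Equiv.Perm.sign_swap hrs]; rfl)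
    have h := W.sub_mem hw (hW _ hev w hw)
    have e1 := hL1 (fun x => w (Equiv.swap p q x)) r s hrs
    rw [Equiv.swap_apply_of_ne_of_ne h1 h2, Equiv.swap_apply_of_ne_of_ne h3 h4] at e1
    rw [← hL1 w p q hpq, ← e1]
    convert h using 1
    funext x
    simp
  have hstep : ∃ u v : α, u ≠ v ∧ E u - E v ∈ W := by
    have h := hmemW f hf a b d e hab (Ne.symm hed) hda hdb hea heb
    by_cases hde : f d = f e
    · refine ⟨a, b, hab, ?_⟩
      rw [hde, sub_self, zero_smul, add_zero] at h
      exact (W.smul_mem_iff (sub_ne_zero.mpr hfab)).mp h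
    set A := f a - f b
    set D := f d - f e
    set k := A • (E a - E b) + D • (E d - E e) with hk
    have hg := hmemW k h a b c d hab (Ne.symm hdc) hca hcb hda hdb
    have ka : k a = A := by simp [hk, hE, hab, Ne.symm hda, Ne.symm hea]
    have kb : k b = -A := by simp [hk, hE, Ne.symm hab, Ne.symm hdb, Ne.symm heb]
    have kc : k c = 0 := by simp [hk, hE, hca, hcb, Ne.symm hdc, Ne.symm hec]
    have kd : k d = D := by simp [hk, hE, hda, hdb, Ne.symm hed]
    have hg2 := W.sub_mem (W.add_mem h h) hg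
    rw [ka, kb, kc, kd] at hg2
    have e1 : k + k - ((A - -A) • (E a - E b) + (0 - D) • (E c - E d)) = D • (E d + E c - E e - E e) := by
      rw [hk]; module
    rw [e1, W.smul_mem_iff (sub_ne_zero.mpr hde)] at hg2
    by_cases h2 : (2 : K) = 0
    · refine ⟨c, d, Ne.symm hdc, ?_⟩
      convert hg2 using 1
      funext x
      simp only [Pi.add_apply, Pi.sub_apply]
      linear_combination (-(E d x) + E e x) * h2
    · refine ⟨a, e, Ne.symm hea, ?_⟩
      have hg3 := hmemW _ hg2 e a c d hea (Ne.symm hdc) (Ne.symm hec) hca (Ne.symm hed) hda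
      have e2 : ((E d + E c - E e - E e) e - (E d + E c - E e - E e) a) • (E e - E a) +
          ((E d + E c - E e - E e) c - (E d + E c - E e - E e) d) • (E c - E d) = (2 : K) • (E a - E e) := by
        simp [hE, hab, Ne.symm hda, Ne.symm hca, Ne.symm hea, hea, hed, hec, Ne.symm hed, Ne.symm hec, hdc, Ne.symm hdc]
        module
      rw [e2] at hg3
      exact (W.smul_mem_iff h2).mp hg3
  obtain ⟨u, v, huv, hW1⟩ := hstep
  have hall : ∀ x y : α, x ≠ y → (Pi.single x 1 - Pi.single y 1 : α → K) ∈ W := by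
    intro x y hxy
    obtain ⟨σ, hσ, hσx, hσy⟩ := even_exists (by omega) hxy huv
    convert hW σ hσ _ hW1 using 1
    funext z
    simp only [hE, Pi.sub_apply, Pi.single_apply, ← hσx, ← hσy, σ.injective.eq_iff]
  intro g hg
  have e : g = ∑ x, g x • (Pi.single x 1 - Pi.single a 1 : α → K) := by
    funext z
    simp only [Finset.sum_apply, Pi.smul_apply, Pi.sub_apply, smul_eq_mul, mul_sub, Finset.sum_sub_distrib,
      Pi.single_apply, mul_ite, mul_one, mul_zero]
    simp [hg]
  rw [e]
  refine W.sum_mem fun x _ => ?_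
  by_cases hxa : x = a
  · subst hxa; simp
  · exact W.smul_mem _ (hall x a hxa)



/-- Over any field, the permutation module of the alternating group of degree at least 5 has exactly four invariant subspaces: zero, the constant functions, the functions with coordinate sum zero, and everything. -/
theorem result {α : Type*} [Fintype α] [DecidableEq α] (hα : 5 ≤ Fintype.card α) {K : Type*} [Field K] (W : Subrepresentation (Cfsg.permRep K (alternatingGroup α) α)) : W.toSubmodule = ⊥ ∨ W = Cfsg.permConstants K (alternatingGroup α) α ∨ W = Cfsg.permSumZero K (alternatingGroup α) α ∨ W.toSubmodule = ⊤ := by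
  classical
  have hW : ∀ σ : Equiv.Perm α, σ ∈ alternatingGroup α → ∀ f ∈ W.toSubmodule,
      (fun x => f (σ x)) ∈ W.toSubmodule := by
    intro σ hσ f hf
    have := W.apply_mem_toSubmodule (⟨σ, hσ⟩⁻¹ : alternatingGroup α) hf
    simpa [Cfsg.permRep] using this
  by_cases hconst : ∀ f ∈ W.toSubmodule, ∀ a b : α, f a = f b
  · by_cases h0 : W.toSubmodule = ⊥
    · exact Or.inl h0
    · refine Or.inr (Or.inl (Subrepresentation.toSubmodule_injective ?_))
      obtain ⟨f, hf, hf0⟩ := Submodule.exists_mem_ne_zero_of_ne_bot h0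
      haveI : Nonempty α := Fintype.card_pos_iff.mp (by omega)
      obtain ⟨a⟩ := ‹Nonempty α›
      have hfa : f a ≠ 0 := fun h => hf0 (funext fun x => (hconst f hf x a).trans h)
      apply le_antisymm
      · intro g hg
        exact Submodule.mem_span_singleton.mpr ⟨g a, funext fun x => by simp [hconst g hg x a]⟩
      · refine Submodule.span_le.mpr (Set.singleton_subset_iff.mpr ?_)
        have h1 : (fun _ : α => (1 : K)) = (f a)⁻¹ • f := funext fun x => by simp [hconst f hf x a, hfa]
        rw [SetLike.mem_coe, h1]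
        exact W.toSubmodule.smul_mem _ hf
  · push Not at hconst
    obtain ⟨f, hf, a, b, hab⟩ := hconst
    have hsum := sum_zero_le hα W.toSubmodule hW hf hab
    by_cases hall : ∀ g ∈ W.toSubmodule, ∑ x, g x = 0
    · exact Or.inr (Or.inr (Or.inl (Subrepresentation.toSubmodule_injective
        (le_antisymm hall fun g hg => hsum g hg))))
    · push Not at hall
      obtain ⟨w, hw, hw0⟩ := hall
      refine Or.inr (Or.inr (Or.inr (eq_top_iff.mpr fun g _ => ?_)))
      have h1 := hsum (g - ((∑ x, g x) / (∑ x, w x)) • w) (by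
        simp only [Pi.sub_apply, Pi.smul_apply, smul_eq_mul, Finset.sum_sub_distrib, ← Finset.mul_sum]
        rw [div_mul_cancel₀ _ hw0, sub_self])
      have := W.toSubmodule.add_mem h1 (W.toSubmodule.smul_mem ((∑ x, g x) / (∑ x, w x)) hw)
      simpa using this

end Cfsg.Agent.S0714
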