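import Cfsg.Statements.S0721
import Mathlib

set_option autoImplicit false
open Cfsg

namespace Cfsg.Agent.S0721

def minType {X : Type*} [Group X] (T : Subgroup X) : Set (Subgroup X) :=
  {V | V.Normal ∧ V ≠ ⊥ ∧ (∀ N : Subgroup X, N.Normal → N ≤ V → N = ⊥ ∨ N = V) ∧ Nonempty (V ≃* T)}

theorem minType_cover {X : Type*} [Group X] [Finite X] (T : Subgroup X) :
    ∃ (n : ℕ) (V : Fin n → Subgroup X), (∀ i, V i ∈ minType T) ∧ iSupIndep V ∧ (⨆ i, V i) = sSup (minType T) := by
  classical
  let good : Set (Finset (Subgroup X)) := {F | (∀ V ∈ F, V ∈ minType T) ∧ ∀ V ∈ F, V ⊓ (F.erase V).sup id = ⊥}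
  obtain ⟨F, hF, hmax⟩ := (Set.toFinite good).exists_maximal ⟨∅, by simp, by simp⟩
  have hnorm : ∀ (E : Finset (Subgroup X)), (∀ V ∈ E, V ∈ minType T) → (E.sup id).Normal := by
    intro E
    induction E using Finset.induction with
    | empty => intro _; simp only [Finset.sup_empty]; infer_instance
    | insert a E' ha ih =>
      intro hE
      rw [Finset.sup_insert]
      haveI : (id a : Subgroup X).Normal := (hE a (Finset.mem_insert_self a E')).1
      haveI := ih fun V hV => hE V (Finset.mem_insert_of_mem hV)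
      exact Subgroup.sup_normal _ _
  have hcover : ∀ V ∈ minType T, V ≤ F.sup id := by
    intro V hV
    by_contra hle
    haveI := hnorm F hF.1
    haveI := hV.1
    have hinf : V ⊓ F.sup id = ⊥ :=
      (hV.2.2.1 _ inferInstance inf_le_left).resolve_right fun h => hle (h ▸ inf_le_right)
    have hVF : V ∉ F := fun h => hle (Finset.le_sup (f := id) h)
    have hgood : insert V F ∈ good := by
      refine ⟨fun W hW => ?_, fun W hW => ?_⟩
      · rcases Finset.mem_insert.mp hW with rfl | hW
        exacts [hV, hF.1 W hW]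
      rcases Finset.mem_insert.mp hW with rfl | hW
      · rwa [Finset.erase_insert hVF]
      · have hne : V ≠ W := fun h => hVF (h ▸ hW)
        haveI := hnorm (F.erase W) fun U hU => hF.1 U (Finset.mem_of_mem_erase hU)
        rw [Finset.erase_insert_of_ne hne, Finset.sup_insert, id, eq_bot_iff]
        rintro x ⟨hxW, hx⟩
        obtain ⟨v, hv, w, hw, rfl⟩ := Subgroup.mem_sup_of_normal_right.mp hx
        have hv' : v = 1 := by
          have : v ∈ V ⊓ F.sup id := by
            refine ⟨hv, ?_⟩
            have e : v = v * w * w⁻¹ := by group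
            rw [e]
            exact Subgroup.mul_mem _ (Finset.le_sup (f := id) hW hxW)
              (Subgroup.inv_mem _ ((Finset.sup_mono (f := id) (Finset.erase_subset W F) : (F.erase W).sup id ≤ F.sup id) hw))
          rwa [hinf, Subgroup.mem_bot] at this
        subst hv'
        rw [one_mul] at hxW ⊢
        have : w ∈ W ⊓ (F.erase W).sup id := ⟨hxW, hw⟩
        rwa [hF.2 W hW] at this
    exact hVF (hmax hgood (Finset.subset_insert V F) (Finset.mem_insert_self V F))
  refine ⟨F.card, fun i => (F.equivFin.symm i : Subgroup X), fun i => hF.1 _ (F.equivFin.symm i).2, ?_, ?_⟩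
  · intro i
    rw [disjoint_iff, eq_bot_iff, ← hF.2 _ (F.equivFin.symm i).2]
    refine inf_le_inf_left _ (iSup₂_le fun j hj => Finset.le_sup (f := id) ?_)
    exact Finset.mem_erase.mpr ⟨fun h => hj (F.equivFin.symm.injective (Subtype.ext h)), (F.equivFin.symm j).2⟩
  · refine le_antisymm (iSup_le fun i => le_sSup (hF.1 _ (F.equivFin.symm i).2)) (sSup_le fun V hV => ?_)
    refine (hcover V hV).trans (Finset.sup_le fun W hW => ?_)
    exact le_iSup_of_le (F.equivFin ⟨W, hW⟩) (by simp)

theorem minType_map {X : Type*} [Group X] (T V : Subgroup X) (e : X ≃* X) (hV : V ∈ minType T) :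
    V.map e.toMonoidHom ∈ minType T := by
  obtain ⟨hn, hne, hmin, ⟨f⟩⟩ := hV
  refine ⟨hn.map _ e.surjective, fun h => hne ?_, fun N hN hle => ?_, ⟨(V.equivMapOfInjective _ e.injective).symm.trans f⟩⟩
  · exact (V.map_eq_bot_iff_of_injective e.injective).mp h
  · have key : (N.comap e.toMonoidHom).map e.toMonoidHom = N := Subgroup.map_comap_eq_self_of_surjective e.surjective N
    rcases hmin (N.comap e.toMonoidHom) (hN.comap _) (fun x hx => by
      obtain ⟨y, hy, hyx⟩ := hle hx
      rwa [← e.injective hyx]) with h | h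
    · left; rw [← key, h, Subgroup.map_bot]
    · right; rw [← key, h]

theorem simple_of_minType {X : Type*} [Group X] (n : ℕ) (V : Fin n → Subgroup X) (T : Subgroup X)
    (hV : ∀ i, V i ∈ minType T) (hind : iSupIndep V) (htop : (⨆ i, V i) = ⊤) (i : Fin n) :
    IsSimpleGroup (V i) := by
  haveI : Nontrivial (V i) := (Subgroup.nontrivial_iff_ne_bot _).mpr (hV i).2.1
  refine ⟨fun K hK => ?_⟩
  have hn : (K.map (V i).subtype).Normal := by
    rw [← Subgroup.normalizer_eq_top_iff, eq_top_iff, ← htop, iSup_le_iff]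
    intro j x hx
    rw [Subgroup.mem_normalizer_iff]
    rcases eq_or_ne j i with rfl | hji
    · intro y
      constructor
      · rintro ⟨k, hk, rfl⟩
        exact ⟨⟨x, hx⟩ * k * ⟨x, hx⟩⁻¹, hK.conj_mem k hk _, rfl⟩
      · rintro ⟨k, hk, hky⟩
        refine ⟨⟨x, hx⟩⁻¹ * k * ⟨x, hx⟩⁻¹⁻¹, hK.conj_mem k hk _, ?_⟩
        simp only [map_mul, map_inv, Subgroup.subtype_apply] at hky ⊢
        rw [hky]; group
    · have hc : ∀ y ∈ V i, x * y = y * x := fun y hy =>
        Subgroup.commute_of_normal_of_disjoint _ _ (hV j).1 (hV i).1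
          ((hind j).mono_right (le_iSup₂ (f := fun k (_ : k ≠ j) => V k) i hji.symm)) x y hx hy
      intro y
      constructor
      · rintro ⟨k, hk, rfl⟩
        exact ⟨k, hk, by simp only [Subgroup.subtype_apply]; rw [hc _ k.2, mul_inv_cancel_right]⟩
      · rintro ⟨k, hk, hky⟩
        refine ⟨k, hk, ?_⟩
        have h1 := hc _ k.2
        simp only [Subgroup.subtype_apply] at hky ⊢
        rw [hky] at h1 ⊢
        simpa [mul_assoc] using congrArg (x⁻¹ * ·) (h1.trans (by group : x * y * x⁻¹ * x = x * y))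
  rcases (hV i).2.2.1 _ hn (Subgroup.map_subtype_le K) with h | h
  · left; exact (K.map_eq_bot_iff_of_injective (V i).subtype_injective).mp h
  · right; exact Subgroup.map_injective (V i).subtype_injective (h.trans (by rw [← MonoidHom.range_eq_map, Subgroup.range_subtype]))



/-- A minimal normal subgroup of a finite group is isomorphic to a direct power `T ^ m` of a simple group `T` (possibly of prime order). -/
theorem result {H : Type*} [Group H] [Finite H] (N : Subgroup H) [N.Normal] (hN : N ≠ ⊥) (hmin : ∀ M : Subgroup H, M.Normal → M ≤ N → M = ⊥ ∨ M = N) : ∃ (T : Type) (_ : Group T) (m : ℕ), IsSimpleGroup T ∧ 0 < m ∧ Nonempty (N ≃* (Fin m → T)) := by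
  classical
  obtain ⟨T₀, hT₀, hT₀min⟩ := (Set.toFinite {V : Subgroup N | V.Normal ∧ V ≠ ⊥}).exists_minimal
    ⟨⊤, inferInstance, fun h => hN ((Subgroup.eq_bot_iff_forall _).mpr fun x hx => congrArg Subtype.val
      (((Subgroup.eq_bot_iff_forall _).mp h) ⟨x, hx⟩ trivial))⟩
  have hT₀mem : T₀ ∈ minType T₀ := by
    refine ⟨hT₀.1, hT₀.2, fun M hM hle => ?_, ⟨MulEquiv.refl _⟩⟩
    by_cases hb : M = ⊥
    · exact Or.inl hb
    · exact Or.inr (le_antisymm hle (hT₀min ⟨hM, hb⟩ hle))
  haveI hchar : (sSup (minType T₀)).Characteristic := Subgroup.characteristic_iff_map_le.mpr fun e => by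
    rw [Subgroup.map_le_iff_le_comap, sSup_le_iff]
    intro V hV x hx
    exact (le_sSup (minType_map T₀ V e hV)) ⟨x, hx, rfl⟩
  have htop : sSup (minType T₀) = ⊤ := by
    have hnH : ((sSup (minType T₀)).map N.subtype).Normal := inferInstance
    rcases hmin _ hnH (Subgroup.map_subtype_le _) with h | h
    · have := (Subgroup.map_eq_bot_iff_of_injective _ N.subtype_injective).mp h
      exact absurd (eq_bot_iff.mpr (this ▸ le_sSup hT₀mem)) hT₀.2
    · exact Subgroup.map_injective N.subtype_injective (h.trans (by rw [← MonoidHom.range_eq_map, Subgroup.range_subtype]))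
  obtain ⟨n, V, hV, hind, hsup⟩ := minType_cover T₀
  rw [htop] at hsup
  have hn : 0 < n := by
    rcases Nat.eq_zero_or_pos n with rfl | h
    · rw [iSup_of_empty] at hsup
      exact absurd (eq_bot_iff.mpr (hsup ▸ le_top : T₀ ≤ ⊥)) hT₀.2
    · exact h
  haveI := simple_of_minType n V T₀ hV hind hsup ⟨0, hn⟩
  obtain ⟨e0⟩ := (hV ⟨0, hn⟩).2.2.2
  let eT : Shrink.{0} T₀ ≃* T₀ := Shrink.mulEquiv
  refine ⟨Shrink.{0} T₀, inferInstance, n, ?_, hn, ?_⟩
  · exact MulEquiv.isSimpleGroup (eT.trans e0.symm)
  · have hcomm : Pairwise fun i j => ∀ x y, x ∈ V i → y ∈ V j → Commute x y := fun i j hij x y hx hy =>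
      Subgroup.commute_of_normal_of_disjoint _ _ (hV i).1 (hV j).1
        ((hind i).mono_right (le_iSup₂ (f := fun k (_ : k ≠ i) => V k) j hij.symm)) x y hx hy
    let ψ : ((i : Fin n) → V i) ≃* N :=
      MulEquiv.ofBijective (Subgroup.noncommPiCoprod hcomm)
        ⟨Subgroup.injective_noncommPiCoprod_of_iSupIndep hind, fun x => by
          have : x ∈ (Subgroup.noncommPiCoprod hcomm).range := by
            rw [Subgroup.noncommPiCoprod_range, hsup]; trivial
          exact this⟩
    exact ⟨ψ.symm.trans (MulEquiv.piCongrRight fun i => ((hV i).2.2.2.some).trans eT.symm)⟩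

end Cfsg.Agent.S0721
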