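import Cfsg.Statements.S0722
import Cfsg.Agent.Perm5.Basic

set_option autoImplicit false
open Cfsg

namespace Cfsg.Agent.S0722

/-- In a primitive group `H`, with `N` a minimal normal subgroup and `K` a point stabiliser, `K ⊓ N` is maximal among proper `K`-invariant subgroups of `N`. -/
theorem result {α : Type*} [Finite α] (H : Subgroup (Equiv.Perm α)) [MulAction.IsPreprimitive H α] (N : Subgroup H) [N.Normal] (hN : N ≠ ⊥) (hmin : ∀ M : Subgroup H, M.Normal → M ≤ N → M = ⊥ ∨ M = N) (a : α) (X : Subgroup H) (hX : X ≤ N) (hKX : MulAction.stabilizer H a ⊓ N ≤ X) (hinv : MulAction.stabilizer H a ≤ Subgroup.normalizer (X : Set H)) : X = MulAction.stabilizer H a ⊓ N ∨ X = N := by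
  classical
  set K := MulAction.stabilizer H a with hK
  haveI : Nontrivial α := by
    by_contra h
    rw [not_nontrivial_iff_subsingleton] at h
    exact hN (Subgroup.eq_bot_iff_forall _ |>.2 fun x _ => Subtype.ext (Subsingleton.elim _ _))
  let Y : Subgroup H :=
    { carrier := {g | ∃ x ∈ X, ∃ k ∈ K, g = x * k}
      one_mem' := ⟨1, X.one_mem, 1, K.one_mem, by simp⟩
      mul_mem' := by
        rintro _ _ ⟨x, hx, k, hk, rfl⟩ ⟨y, hy, l, hl, rfl⟩
        refine ⟨x * (k * y * k⁻¹), X.mul_mem hx ((Subgroup.mem_normalizer_iff.1 (hinv hk) y).1 hy), k * l, K.mul_mem hk hl, by group⟩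
      inv_mem' := by
        rintro _ ⟨x, hx, k, hk, rfl⟩
        exact ⟨k⁻¹ * x⁻¹ * k⁻¹⁻¹, (Subgroup.mem_normalizer_iff.1 (hinv (K.inv_mem hk)) x⁻¹).1 (X.inv_mem hx), k⁻¹, K.inv_mem hk, by group⟩ }
  have hKY : K ≤ Y := fun k hk => ⟨1, X.one_mem, k, hk, by simp⟩
  have hXY : X ≤ Y := fun x hx => ⟨x, hx, 1, K.one_mem, by simp⟩
  rcases eq_or_lt_of_le hKY with h | h
  · left
    exact le_antisymm (le_inf (h.symm ▸ hXY) hX) hKX
  · right
    have htop := (MulAction.IsPreprimitive.isCoatom_stabilizer_of_isPreprimitive H a).2 Y h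
    refine le_antisymm hX fun n hn => ?_
    obtain ⟨x, hx, k, hk, rfl⟩ := (htop ▸ Subgroup.mem_top n : n ∈ Y)
    refine X.mul_mem hx (hKX ⟨hk, ?_⟩)
    simpa using N.mul_mem (N.inv_mem (hX hx)) hn

end Cfsg.Agent.S0722
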