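import Cfsg.Statements.S0724
import Cfsg.Agent.Perm5.Basic
import Mathlib.Algebra.Polynomial.BigOperators
import Mathlib.Algebra.Polynomial.Eval.Degree

set_option autoImplicit false
open Cfsg

namespace Cfsg.Agent.S0724

/-- Blichfeldt's Theorem: if a finite set `L` of natural numbers contains the number of fixed points of every non-identity element of a permutation group `G` of degree `n`, then the order of `G` divides `∏ (n - l)` over `l ∈ L`. -/
theorem result {α : Type*} [Fintype α] [DecidableEq α] (G : Subgroup (Equiv.Perm α)) (L : Finset ℕ) (hL : ∀ g ∈ G, g ≠ 1 → Nat.card (MulAction.fixedBy α g) ∈ L) : Nat.card G ∣ ∏ l ∈ L, (Fintype.card α - l) := by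
  classical
  have hpow : ∀ j : ℕ, (Nat.card G : ℤ) ∣ ∑ g : G, (Nat.card (MulAction.fixedBy α g) : ℤ) ^ j := by
    intro j
    haveI : Fintype (MulAction.orbitRel.Quotient G (Fin j → α)) := Fintype.ofFinite _
    have h := MulAction.sum_card_fixedBy_eq_card_orbits_mul_card_group G (Fin j → α)
    have e : ∀ g : G, Fintype.card (MulAction.fixedBy (Fin j → α) g) = Nat.card (MulAction.fixedBy α g) ^ j := by
      intro g
      have e1 : MulAction.fixedBy (Fin j → α) g ≃ (Fin j → MulAction.fixedBy α g) :=
        { toFun := fun f i => ⟨f.1 i, congrFun f.2 i⟩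
          invFun := fun f => ⟨fun i => (f i).1, funext fun i => (f i).2⟩
          left_inv := fun f => rfl
          right_inv := fun f => rfl }
      rw [Fintype.card_congr e1, Fintype.card_fun, Fintype.card_fin, Nat.card_eq_fintype_card]
    simp only [e] at h
    refine ⟨(Fintype.card (MulAction.orbitRel.Quotient G (Fin j → α)) : ℤ), ?_⟩
    rw [Nat.card_eq_fintype_card, mul_comm]
    exact_mod_cast h
  let P : Polynomial ℤ := ∏ l ∈ L, (Polynomial.X - Polynomial.C (l : ℤ))
  have heval : ∀ x : ℤ, P.eval x = ∏ l ∈ L, (x - (l : ℤ)) := fun x => by simp [P, Polynomial.eval_prod]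
  have hsum : (Nat.card G : ℤ) ∣ ∑ g : G, P.eval (Nat.card (MulAction.fixedBy α g) : ℤ) := by
    simp only [Polynomial.eval_eq_sum_range]
    rw [Finset.sum_comm]
    refine Finset.dvd_sum fun j _ => ?_
    rw [← Finset.mul_sum]
    exact Dvd.dvd.mul_left (hpow j) _
  rw [Finset.sum_eq_single (1 : G) (fun g _ hg => by
      rw [heval]
      exact Finset.prod_eq_zero (hL g g.2 fun e => hg (Subtype.ext e)) (sub_self _))
    (fun h => absurd (Finset.mem_univ _) h)] at hsum
  have h1 : Nat.card (MulAction.fixedBy α (1 : G)) = Fintype.card α := by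
    rw [Nat.card_congr ((Equiv.setCongr (MulAction.fixedBy_one_eq_univ α G)).trans (Equiv.Set.univ α)), Nat.card_eq_fintype_card]
  rw [h1, heval] at hsum
  by_cases hbad : ∃ l ∈ L, Fintype.card α ≤ l
  · obtain ⟨l, hl, hle⟩ := hbad
    rw [Finset.prod_eq_zero hl (Nat.sub_eq_zero_of_le hle)]
    exact dvd_zero _
  · push_neg at hbad
    rw [← Int.natCast_dvd_natCast, Nat.cast_prod]
    rw [Finset.prod_congr rfl fun l hl => Nat.cast_sub (R := ℤ) (hbad l hl).le]
    exact hsum

end Cfsg.Agent.S0724
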