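import Cfsg.Statements.S0726

set_option autoImplicit false
open Cfsg

namespace Cfsg.Agent.S0726

/-- The left and right regular permutation representations of a group are each other's centralisers in the symmetric group: the centraliser of the left regular image is the right regular image, and a transitive subgroup centralising the left regular image is the whole right regular image. -/
theorem result {G : Type*} [Group G] : Subgroup.centralizer ((MulAction.toPermHom G G).range : Set (Equiv.Perm G)) = (MulAction.toPermHom Gᵐᵒᵖ G).range ∧ ∀ H : Subgroup (Equiv.Perm G), H ≤ Subgroup.centralizer ((MulAction.toPermHom G G).range : Set (Equiv.Perm G)) → MulAction.IsPretransitive H G → H = (MulAction.toPermHom Gᵐᵒᵖ G).range := by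
  have h1 : ∀ σ : Equiv.Perm G, σ ∈ Subgroup.centralizer ((MulAction.toPermHom G G).range : Set (Equiv.Perm G)) → ∀ x, σ x = x * σ 1 := by
    intro σ hσ x
    have := Equiv.congr_fun (Subgroup.mem_centralizer_iff.1 hσ (MulAction.toPermHom G G x) ⟨x, rfl⟩) 1
    simpa using this.symm
  have heq : Subgroup.centralizer ((MulAction.toPermHom G G).range : Set (Equiv.Perm G)) = (MulAction.toPermHom Gᵐᵒᵖ G).range := by
    apply le_antisymm
    · intro σ hσ
      exact ⟨MulOpposite.op (σ 1), Equiv.ext fun x => (h1 σ hσ x).symm⟩
    · rintro σ ⟨y, rfl⟩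
      rw [Subgroup.mem_centralizer_iff]
      rintro τ ⟨g, rfl⟩
      ext x
      simp [mul_assoc]
  refine ⟨heq, fun H hH ht => le_antisymm (heq ▸ hH) ?_⟩
  rintro σ hσ
  obtain ⟨k, hk⟩ := ht.exists_smul_eq (1 : G) (σ 1)
  have hk' : (k : Equiv.Perm G) 1 = σ 1 := hk
  have : (k : Equiv.Perm G) = σ := Equiv.ext fun x => by
    rw [h1 _ (hH k.2) x, h1 σ (heq ▸ hσ) x, hk']
  exact this ▸ k.2

end Cfsg.Agent.S0726
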