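import Cfsg.Statements.S0733
import Cfsg.Agent.Perm5.Basic
import Mathlib.Algebra.Module.ZMod
import Mathlib.Algebra.Module.Equiv.Basic

set_option autoImplicit false
open Cfsg

namespace Cfsg.Agent.S0733

/-- A permutation group of affine type — generated by the translations of a finite vector space `V` over `ZMod p` together with a group `G₀` of linear automorphisms — is primitive on `V` if and only if `G₀` is irreducible on `V`. -/
theorem result {p : ℕ} [Fact p.Prime] {V : Type*} [AddCommGroup V] [Module (ZMod p) V] [Finite V] [Nontrivial V] (G₀ : Subgroup (V ≃ₗ[ZMod p] V)) (G : Subgroup (Equiv.Perm V)) (hG : ∀ σ : Equiv.Perm V, σ ∈ G ↔ ∃ g ∈ G₀, ∃ b : V, ∀ x : V, σ x = (g : V ≃ₗ[ZMod p] V) x + b) : MulAction.IsPreprimitive G V ↔ ∀ W : Submodule (ZMod p) V, (∀ g ∈ G₀, ∀ v ∈ W, (g : V ≃ₗ[ZMod p] V) v ∈ W) → W = ⊥ ∨ W = ⊤ := by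
  classical
  have hmem : ∀ g ∈ G₀, ∀ b : V, ((g : V ≃ₗ[ZMod p] V).toEquiv.trans (Equiv.addRight b)) ∈ G := fun g hg b =>
    (hG _).2 ⟨g, hg, b, fun x => rfl⟩
  constructor
  · intro hp W hW
    have hB : MulAction.IsBlock G (W : Set V) := by
      rw [MulAction.isBlock_iff_smul_eq_of_mem]
      intro σ x hx hσx
      obtain ⟨g, hg, b, hgb⟩ := (hG _).1 σ.2
      have hb : b ∈ W := by
        have h1 : g x + b ∈ W := by
          have : (σ : Equiv.Perm V) x = g x + b := hgb x
          rw [← this]; exact hσx
        exact (W.add_mem_iff_right (hW g hg x hx)).1 h1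
      refine Set.eq_of_subset_of_ncard_le ?_ ?_
      · rintro _ ⟨z, hz, rfl⟩
        show (σ : Equiv.Perm V) z ∈ W
        rw [hgb]; exact W.add_mem (hW g hg z hz) hb
      · rw [← Set.image_smul, Set.ncard_image_of_injective _ (MulAction.injective σ)]
    rcases hp.isTrivialBlock_of_isBlock hB with h | h
    · left
      rw [eq_bot_iff]
      intro x hx
      exact (Submodule.mem_bot _).2 (h hx W.zero_mem)
    · right
      rw [eq_top_iff]
      exact fun x _ => (Set.eq_univ_iff_forall.1 h x : x ∈ (W : Set V))
  · intro hirr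
    haveI : MulAction.IsPretransitive G V := ⟨fun x y => ⟨⟨_, hmem 1 G₀.one_mem (y - x)⟩, by
      show x + (y - x) = y
      abel⟩⟩
    refine MulAction.IsPreprimitive.of_isTrivialBlock_base (0 : V) fun {B} h0 hB => ?_
    have hblk := MulAction.isBlock_iff_smul_eq_of_mem.1 hB
    have hadd : ∀ b ∈ B, ∀ z ∈ B, z + b ∈ B := by
      intro b hb z hz
      let σ : G := ⟨_, hmem 1 G₀.one_mem b⟩
      have h1 : σ • (0 : V) = b := zero_add b
      rw [← hblk (g := σ) h0 (h1.symm ▸ hb)]
      exact ⟨z, hz, rfl⟩
    let A : AddSubgroup V :=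
      { carrier := B
        add_mem' := fun {x y} hx hy => hadd y hy x hx
        zero_mem' := h0
        neg_mem' := fun {x} hx => by
          have hn : ∀ n : ℕ, n • x ∈ B := fun n => by
            induction n with
            | zero => simpa using h0
            | succ n ih => rw [succ_nsmul]; exact hadd x hx _ ih
          obtain ⟨k, hk⟩ : ∃ k, p = k + 1 := ⟨p - 1, by have := (Fact.out : p.Prime).pos; omega⟩
          have hpx : p • x = 0 := by rw [← Nat.cast_smul_eq_nsmul (ZMod p), ZMod.natCast_self, zero_smul]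
          rw [hk, succ_nsmul] at hpx
          rw [show -x = k • x from (eq_neg_of_add_eq_zero_left hpx).symm]
          exact hn k }
    rcases hirr (AddSubgroup.toZModSubmodule p A) (fun g hg v hv => by
      let σ : G := ⟨_, hmem g hg 0⟩
      have h1 : σ • (0 : V) = 0 := by show g 0 + 0 = 0; simp
      show g v ∈ B
      rw [← hblk (g := σ) h0 (h1.symm ▸ h0)]
      exact ⟨v, hv, add_zero _⟩) with h | h
    · left
      intro x hx y hy
      have e : ∀ z ∈ B, z = 0 := fun z hz => by
        have : z ∈ AddSubgroup.toZModSubmodule p A := hz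
        rw [h] at this
        exact (Submodule.mem_bot _).1 this
      rw [e x hx, e y hy]
    · right
      rw [Set.eq_univ_iff_forall]
      intro x
      have : x ∈ AddSubgroup.toZModSubmodule p A := by rw [h]; exact Submodule.mem_top
      exact this

end Cfsg.Agent.S0733
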