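import Cfsg.Statements.S0734
import Cfsg.Agent.Perm5.Basic
import Mathlib.Combinatorics.SimpleGraph.Connectivity.Connected

set_option autoImplicit false
open Cfsg

namespace Cfsg.Agent.S0734

/-- Higman's criterion for primitivity: a transitive action on a finite set is primitive if and only if every non-trivial orbital graph (edges = images of a fixed pair of distinct points) is connected. -/
theorem result {G : Type*} [Group G] {Ω : Type*} [Finite Ω] [MulAction G Ω] [MulAction.IsPretransitive G Ω] [Nontrivial Ω] : MulAction.IsPreprimitive G Ω ↔ ∀ a b : Ω, a ≠ b → (SimpleGraph.fromRel fun x y : Ω => ∃ g : G, g • a = x ∧ g • b = y).Connected := by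
  constructor
  · intro hp a b hab
    set Γ := SimpleGraph.fromRel fun x y : Ω => ∃ g : G, g • a = x ∧ g • b = y with hΓ
    have hadj : ∀ (g : G) x y, Γ.Adj x y → Γ.Adj (g • x) (g • y) := by
      rintro g x y ⟨hne, h⟩
      refine ⟨(MulAction.injective g).ne hne, ?_⟩
      rcases h with ⟨k, rfl, rfl⟩ | ⟨k, rfl, rfl⟩
      exacts [Or.inl ⟨g * k, mul_smul _ _ _, mul_smul _ _ _⟩, Or.inr ⟨g * k, mul_smul _ _ _, mul_smul _ _ _⟩]
    let hom : ∀ g : G, Γ →g Γ := fun g => ⟨fun x => g • x, fun h => hadj g _ _ h⟩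
    have hreach : ∀ (g : G) x y, Γ.Reachable x y → Γ.Reachable (g • x) (g • y) := fun g x y h => h.map (hom g)
    let B : Set Ω := {x | Γ.Reachable a x}
    have hB : MulAction.IsBlock G B := by
      rw [MulAction.isBlock_iff_smul_eq_of_mem]
      intro g x hx hgx
      have h1 : Γ.Reachable a (g • a) := hgx.trans (hreach g _ _ hx).symm
      ext y
      rw [Set.mem_smul_set_iff_inv_smul_mem]
      refine ⟨fun hy => ?_, fun hy => ?_⟩
      · have := hreach g _ _ hy
        rw [smul_inv_smul] at this
        exact h1.trans this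
      · have := hreach g⁻¹ _ _ (h1.symm.trans hy)
        rwa [inv_smul_smul] at this
    have hBu : B = Set.univ := by
      refine (hp.isTrivialBlock_of_isBlock hB).resolve_left fun hs => hab ?_
      exact hs (SimpleGraph.Reachable.refl a) (SimpleGraph.Adj.reachable ⟨hab, Or.inl ⟨1, one_smul _ _, one_smul _ _⟩⟩)
    refine ⟨fun x y => ?_⟩
    have hx : x ∈ B := hBu ▸ Set.mem_univ x
    have hy : y ∈ B := hBu ▸ Set.mem_univ y
    exact hx.symm.trans hy
  · intro h
    refine ⟨fun {B} hB => ?_⟩
    by_contra hne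
    rw [MulAction.IsTrivialBlock, not_or, Set.not_subsingleton_iff] at hne
    obtain ⟨⟨a, ha, b, hb, hab⟩, hu⟩ := hne
    apply hu
    rw [Set.eq_univ_iff_forall]
    intro y
    set Γ := SimpleGraph.fromRel fun x y : Ω => ∃ g : G, g • a = x ∧ g • b = y
    obtain ⟨w⟩ := (h a b hab).preconnected a y
    have step : ∀ x y, Γ.Adj x y → x ∈ B → y ∈ B := by
      rintro x y ⟨-, ⟨g, rfl, rfl⟩ | ⟨g, rfl, rfl⟩⟩ hx
      · rw [← MulAction.isBlock_iff_smul_eq_of_mem.1 hB ha hx]
        exact Set.smul_mem_smul_set hb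
      · rw [← MulAction.isBlock_iff_smul_eq_of_mem.1 hB hb hx]
        exact Set.smul_mem_smul_set ha
    have hwalk : ∀ x y, Γ.Walk x y → x ∈ B → y ∈ B := by
      intro x y w'
      induction w' with
      | nil => exact id
      | cons h' _ ih => exact fun hh => ih (step _ _ h' hh)
    exact hwalk a y w ha

end Cfsg.Agent.S0734
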