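import Cfsg.Statements.S0735
import Cfsg.Agent.Perm5.Criteria
import Mathlib.GroupTheory.Perm.Cycle.Type

set_option autoImplicit false
open Cfsg

namespace Cfsg.Agent.S0735

/-- A 2-homogeneous permutation group (transitive on 2-subsets) of even order is doubly transitive; a non-trivial 2-homogeneous group is primitive. -/
theorem result {α : Type*} [Fintype α] [DecidableEq α] (G : Subgroup (Equiv.Perm α)) (h2 : MulAction.IsPretransitive G (Set.powersetCard α 2)) (hα : 3 ≤ Fintype.card α) : (Even (Nat.card G) → MulAction.IsMultiplyPretransitive G α 2) ∧ (G ≠ ⊥ → MulAction.IsPreprimitive G α) := by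
  classical
  have h3 : ∀ x y : α, ∃ z, z ≠ x ∧ z ≠ y := fun x y => by
    by_contra! hc
    have := Finset.card_le_card (fun a _ => by
      by_cases ha : a = x
      · simp [ha]
      · simp [hc a ha] : (Finset.univ : Finset α) ⊆ {x, y})
    have := Finset.card_le_two (a := x) (b := y)
    rw [Finset.card_univ] at *
    omega
  obtain ⟨htr, key⟩ := Cfsg.Agent.Perm5.transitive_of_pairs (G := G) h2 h3
  refine ⟨fun hev => ?_, fun _ => ?_⟩
  · obtain ⟨t, ht⟩ := exists_prime_orderOf_dvd_card' 2 (even_iff_two_dvd.1 hev)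
    obtain ⟨a, ha⟩ : ∃ a : α, t • a ≠ a := by
      by_contra! hc
      have : t = 1 := Subtype.ext (Equiv.ext hc)
      rw [this, orderOf_one] at ht
      omega
    have htt : t • t • a = a := by rw [← mul_smul, ← pow_two, ← ht, pow_orderOf_eq_one, one_smul]
    rw [MulAction.is_two_pretransitive_iff]
    intro x y z w hxy hzw
    obtain ⟨g, hg | hg⟩ := key x y z w hxy hzw
    · exact ⟨g, hg⟩
    obtain ⟨k, hk | hk⟩ := key a (t • a) z w (Ne.symm ha) hzw
    · refine ⟨k * t * k⁻¹ * g, ?_, ?_⟩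
      · rw [mul_smul, hg.1, ← hk.2, mul_smul, inv_smul_smul, mul_smul, htt, hk.1]
      · rw [mul_smul, hg.2, ← hk.1, mul_smul, inv_smul_smul, mul_smul, hk.2]
    · refine ⟨k * t * k⁻¹ * g, ?_, ?_⟩
      · rw [mul_smul, hg.1, ← hk.1, mul_smul, inv_smul_smul, mul_smul, hk.2]
      · rw [mul_smul, hg.2, ← hk.2, mul_smul, inv_smul_smul, mul_smul, htt, hk.1]
  · haveI := htr
    refine ⟨fun {B} hB => ?_⟩
    by_contra hne
    rw [MulAction.IsTrivialBlock, not_or, Set.not_subsingleton_iff] at hne
    obtain ⟨⟨a, ha, b, hb, hab⟩, hu⟩ := hne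
    apply hu
    rw [Set.eq_univ_iff_forall]
    intro c
    by_cases hca : a = c
    · exact hca ▸ ha
    obtain ⟨g, hg | hg⟩ := key a b a c hab hca
    · rw [← MulAction.isBlock_iff_smul_eq_of_mem.1 hB ha (by rw [hg.1]; exact ha), ← hg.2]
      exact Set.smul_mem_smul_set hb
    · rw [← MulAction.isBlock_iff_smul_eq_of_mem.1 hB hb (by rw [hg.2]; exact ha), ← hg.1]
      exact Set.smul_mem_smul_set ha

end Cfsg.Agent.S0735
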