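import Cfsg.Statements.S0736
import Mathlib

set_option autoImplicit false
open Cfsg

namespace Cfsg.Agent.S0736

open scoped Pointwise

theorem choose_top_modEq_one (p : ℕ) [hp : Fact p.Prime] (t : ℕ) : ∀ e : ℕ,
    Nat.choose (p ^ e * t + (p ^ e - 1)) (p ^ e - 1) ≡ 1 [MOD p] := by
  intro e
  induction e with
  | zero => simp [Nat.ModEq.refl]
  | succ e ih =>
    have hp1 := hp.out.pos
    have hq : 0 < p ^ e := pow_pos hp1 e
    have e1 : p ^ (e + 1) - 1 = (p - 1) + p * (p ^ e - 1) := by
      rw [pow_succ', Nat.mul_sub, mul_one]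
      have : p ≤ p * p ^ e := Nat.le_mul_of_pos_right p hq
      omega
    have e2 : p ^ (e + 1) * t + (p ^ (e + 1) - 1) = (p - 1) + p * (p ^ e * t + (p ^ e - 1)) := by
      rw [e1, pow_succ']; ring
    rw [e2, e1]
    refine Nat.ModEq.trans Choose.choose_modEq_choose_mod_mul_choose_div_nat ?_
    rw [Nat.add_mul_mod_self_left, Nat.add_mul_mod_self_left, Nat.mod_eq_of_lt (by omega),
      Nat.choose_self, one_mul, Nat.add_mul_div_left _ _ hp1, Nat.add_mul_div_left _ _ hp1,
      Nat.div_eq_of_lt (by omega), zero_add, zero_add]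
    exact ih



/-- A `k`-homogeneous permutation group of degree `n`, `k ≥ 2`, with `k + q - 1 ≤ n` for every prime power `q` dividing `k`, is `(k-1)`-homogeneous. -/
theorem result {α : Type*} [Fintype α] [DecidableEq α] (G : Subgroup (Equiv.Perm α)) {k : ℕ} (hk : 2 ≤ k) (hG : MulAction.IsPretransitive G (Set.powersetCard α k)) (hq : ∀ q : ℕ, IsPrimePow q → q ∣ k → k + q - 1 ≤ Fintype.card α) : MulAction.IsPretransitive G (Set.powersetCard α (k - 1)) := by
  classical
  set n := Fintype.card α
  have key : ∀ (A : Set.powersetCard α (k - 1)) (a : ℕ),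
      (∀ B : Finset α, B.card = k → ((B.powersetCard (k - 1)).filter fun X => ∃ g : G, g • (A : Finset α) = X).card = a) →
      k ∣ a := by
    intro A a ha
    have hM : ∀ m, k ≤ m → m ≤ n → k ∣ a * m.choose (k - 1) := by
      intro m hkm hmn
      obtain ⟨M, -, hMc⟩ := Finset.exists_subset_card_eq (show m ≤ (Finset.univ : Finset α).card by rwa [Finset.card_univ])
      set O := (M.powersetCard (k - 1)).filter fun X => ∃ g : G, g • (A : Finset α) = X with hO
      have hcount := Finset.sum_card_bipartiteAbove_eq_sum_card_bipartiteBelow (fun (X B : Finset α) => X ⊆ B)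
        (s := O) (t := M.powersetCard k)
      have h1 : ∀ X ∈ O, (Finset.bipartiteAbove (fun (X B : Finset α) => X ⊆ B) (M.powersetCard k) X).card = m - (k - 1) := by
        intro X hX
        obtain ⟨hXM, hXc⟩ := Finset.mem_powersetCard.mp (Finset.mem_filter.mp hX).1
        rw [← hMc, ← hXc, ← Finset.card_sdiff_of_subset hXM]
        symm
        refine Finset.card_bij (fun x _ => insert x X) (fun x hx => ?_) (fun x hx y hy he => ?_) (fun B hB => ?_)
        · obtain ⟨hxM, hxX⟩ := Finset.mem_sdiff.mp hx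
          exact (Finset.mem_bipartiteAbove _).mpr ⟨Finset.mem_powersetCard.mpr ⟨Finset.insert_subset hxM hXM,
            by rw [Finset.card_insert_of_notMem hxX]; omega⟩, Finset.subset_insert _ _⟩
        · have : x ∈ insert y X := he ▸ Finset.mem_insert_self x X
          exact (Finset.mem_insert.mp this).resolve_right (Finset.mem_sdiff.mp hx).2
        · obtain ⟨hB', hXB⟩ := (Finset.mem_bipartiteAbove _).mp hB
          obtain ⟨hBM, hBc⟩ := Finset.mem_powersetCard.mp hB'
          obtain ⟨x, hx⟩ := Finset.card_eq_one.mp (show (B \ X).card = 1 by rw [Finset.card_sdiff_of_subset hXB]; omega)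
          have hxm := Finset.mem_sdiff.mp (hx ▸ Finset.mem_singleton_self x : x ∈ B \ X)
          refine ⟨x, Finset.mem_sdiff.mpr ⟨hBM hxm.1, hxm.2⟩, ?_⟩
          rw [Finset.insert_eq, ← hx, Finset.sdiff_union_of_subset hXB]
      have h2 : ∀ B ∈ M.powersetCard k, (Finset.bipartiteBelow (fun (X B : Finset α) => X ⊆ B) O B).card = a := by
        intro B hB
        obtain ⟨hBM, hBc⟩ := Finset.mem_powersetCard.mp hB
        rw [← ha B hBc]
        congr 1
        ext X
        simp only [Finset.mem_bipartiteBelow, hO, Finset.mem_filter, Finset.mem_powersetCard]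
        constructor
        · rintro ⟨⟨⟨-, h'⟩, h''⟩, hXB⟩; exact ⟨⟨hXB, h'⟩, h''⟩
        · rintro ⟨⟨hXB, h'⟩, h''⟩; exact ⟨⟨⟨hXB.trans hBM, h'⟩, h''⟩, hXB⟩
      rw [Finset.sum_congr rfl h1, Finset.sum_congr rfl h2, Finset.sum_const, Finset.sum_const, Finset.card_powersetCard, hMc,
        smul_eq_mul, smul_eq_mul] at hcount
      have h3 : m.choose k * k = m.choose (k - 1) * (m - (k - 1)) := by
        have := Nat.choose_succ_right_eq m (k - 1)
        rwa [show k - 1 + 1 = k by omega] at this
      refine ⟨O.card, Nat.eq_of_mul_eq_mul_right (show 0 < m - (k - 1) by omega) ?_⟩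
      calc a * m.choose (k - 1) * (m - (k - 1)) = a * (m.choose k * k) := by rw [h3, Nat.mul_assoc]
        _ = k * (m.choose k * a) := by ring
        _ = k * O.card * (m - (k - 1)) := by rw [← hcount]; ring
    rw [← Nat.factorization_prime_le_iff_dvd (by omega)]
    rotate_left
    · rintro rfl
      obtain ⟨g⟩ : Nonempty G := inferInstance
      have hne : (A : Finset α).card + 1 ≤ n := by
        rw [show (A : Finset α).card = k - 1 from A.2]
        obtain ⟨p, hp, hpk⟩ := Nat.exists_prime_and_dvd (show k ≠ 1 by omega)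
        have := hq p hp.isPrimePow hpk
        have := hp.two_le
        omega
      obtain ⟨x, hx⟩ := Finset.exists_of_ssubset (Finset.ssubset_univ_iff.mpr (fun h : (A : Finset α) = Finset.univ => by rw [h, Finset.card_univ] at hne; omega))
      have := ha (insert x (A : Finset α)) (by rw [Finset.card_insert_of_notMem hx.2, show (A : Finset α).card = k - 1 from A.2]; omega)
      rw [Finset.card_eq_zero, Finset.filter_eq_empty_iff] at this
      exact this (Finset.mem_powersetCard.mpr ⟨Finset.subset_insert _ _, A.2⟩) ⟨1, one_smul _ _⟩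
    intro p hp
    haveI : Fact p.Prime := ⟨hp⟩
    set e := k.factorization p with he
    rcases Nat.eq_zero_or_pos e with h0 | h0
    · omega
    have hqk : p ^ e ∣ k := Nat.ordProj_dvd k p
    obtain ⟨t, ht⟩ := hqk
    have hpow : IsPrimePow (p ^ e) := (isPrimePow_nat_iff _).mpr ⟨p, e, hp, h0, rfl⟩
    have hle := hq (p ^ e) hpow ⟨t, ht⟩
    have hq0 : 0 < p ^ e := pow_pos hp.pos e
    have hdv := hM (k + p ^ e - 1) (by omega) hle
    have htp : ¬ p ∣ t := by
      intro hd
      have hd' : p ^ (e + 1) ∣ k := by rw [pow_succ, ht]; exact Nat.mul_dvd_mul_left _ hd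
      have := (hp.pow_dvd_iff_le_factorization (by omega)).mp hd'
      omega
    have hC : (k + p ^ e - 1).choose (k - 1) = t * Nat.choose (p ^ e * t + (p ^ e - 1)) (p ^ e - 1) := by
      rw [Nat.choose_symm_of_eq_add (show k + p ^ e - 1 = (k - 1) + p ^ e by omega)]
      have h1 := Nat.choose_succ_right_eq (k + p ^ e - 1) (p ^ e - 1)
      rw [show p ^ e - 1 + 1 = p ^ e by omega, show k + p ^ e - 1 - (p ^ e - 1) = k by omega,
        show k + p ^ e - 1 = p ^ e * t + (p ^ e - 1) by omega] at h1
      rw [show k + p ^ e - 1 = p ^ e * t + (p ^ e - 1) by omega]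
      refine Nat.eq_of_mul_eq_mul_right hq0 ?_
      calc _ = _ := h1
        _ = (p ^ e * t + (p ^ e - 1)).choose (p ^ e - 1) * (p ^ e * t) := by rw [← ht]
        _ = _ := by ring
    have hcop : ¬ p ∣ (k + p ^ e - 1).choose (k - 1) := by
      rw [hC, hp.dvd_mul, not_or]
      refine ⟨htp, fun h => ?_⟩
      have h1 := ((choose_top_modEq_one p t e).symm.trans (Nat.modEq_zero_iff_dvd.mpr h))
      exact hp.one_lt.ne' (Nat.eq_one_of_dvd_one (Nat.modEq_zero_iff_dvd.mp h1))
    have hqa : p ^ e ∣ a := (Nat.Coprime.pow_left e (hp.coprime_iff_not_dvd.mpr hcop)).dvd_of_dvd_mul_right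
      ((dvd_trans ⟨t, ht⟩ hdv))
    have ha0 : a ≠ 0 := by
      intro h0'
      subst h0'
      have hlt : k - 1 < n := by omega
      have hA : (A : Finset α).card = k - 1 := A.2
      obtain ⟨x, hx⟩ := Finset.exists_of_ssubset (Finset.ssubset_univ_iff.mpr (fun h : (A : Finset α) = Finset.univ => by rw [h, Finset.card_univ] at hA; omega))
      have := ha (insert x (A : Finset α)) (by rw [Finset.card_insert_of_notMem hx.2, hA]; omega)
      rw [Finset.card_eq_zero, Finset.filter_eq_empty_iff] at this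
      exact this (Finset.mem_powersetCard.mpr ⟨Finset.subset_insert _ _, hA⟩) ⟨1, one_smul _ _⟩
    exact (hp.pow_dvd_iff_le_factorization ha0).mp hqa
  have hkn : k < n := by
    obtain ⟨p, hp, hpk⟩ := Nat.exists_prime_and_dvd (show k ≠ 1 by omega)
    have := hq p hp.isPrimePow hpk
    have := hp.two_le
    omega
  refine ⟨fun A A' => ?_⟩
  have hA : (A : Finset α).card = k - 1 := A.2
  obtain ⟨y, hy⟩ := Finset.exists_of_ssubset (Finset.ssubset_univ_iff.mpr (fun h : (A : Finset α) = Finset.univ => by rw [h, Finset.card_univ] at hA; omega))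
  set B₀ := insert y (A : Finset α) with hB₀
  have hB₀c : B₀.card = k := by rw [hB₀, Finset.card_insert_of_notMem hy.2, hA]; omega
  let cnt : Finset α → ℕ := fun B => ((B.powersetCard (k - 1)).filter fun X => ∃ g : G, g • (A : Finset α) = X).card
  have hcnt : ∀ B : Finset α, B.card = k → cnt B = cnt B₀ := by
    intro B hB
    obtain ⟨g, hg⟩ := hG.exists_smul_eq ⟨B₀, hB₀c⟩ ⟨B, hB⟩
    have hg' : g • B₀ = B := by rw [← Set.powersetCard.coe_smul (s := ⟨B₀, hB₀c⟩)]; exact congrArg Subtype.val hg
    symm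
    refine Finset.card_bij (fun X _ => g • X) (fun X hX => ?_) (fun X _ Y _ h => smul_left_cancel g h) (fun Y hY => ⟨g⁻¹ • Y, ?_, smul_inv_smul g Y⟩)
    · obtain ⟨hX1, h', hh'⟩ := Finset.mem_filter.mp hX
      obtain ⟨hs, hc⟩ := Finset.mem_powersetCard.mp hX1
      exact Finset.mem_filter.mpr ⟨Finset.mem_powersetCard.mpr ⟨hg' ▸ Finset.smul_finset_subset_smul_finset hs,
        by rw [Finset.card_smul_finset, hc]⟩, g * h', by rw [mul_smul, hh']⟩
    · obtain ⟨hY1, h', hh'⟩ := Finset.mem_filter.mp hY
      obtain ⟨hs, hc⟩ := Finset.mem_powersetCard.mp hY1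
      refine Finset.mem_filter.mpr ⟨Finset.mem_powersetCard.mpr ⟨?_, by rw [Finset.card_smul_finset, hc]⟩, g⁻¹ * h', by rw [mul_smul, hh']⟩
      have h2 : g⁻¹ • Y ⊆ g⁻¹ • B := Finset.smul_finset_subset_smul_finset hs
      rwa [← hg', inv_smul_smul] at h2
  have hdvd := key A (cnt B₀) hcnt
  have hpos : 0 < cnt B₀ := Finset.card_pos.mpr ⟨A, Finset.mem_filter.mpr
    ⟨Finset.mem_powersetCard.mpr ⟨Finset.subset_insert _ _, hA⟩, 1, one_smul _ _⟩⟩
  have hA' : (A' : Finset α).card = k - 1 := A'.2
  obtain ⟨x, hx⟩ := Finset.exists_of_ssubset (Finset.ssubset_univ_iff.mpr (fun h : (A' : Finset α) = Finset.univ => by rw [h, Finset.card_univ] at hA'; omega))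
  have hB : (insert x (A' : Finset α)).card = k := by rw [Finset.card_insert_of_notMem hx.2, hA']; omega
  have hfull : ((insert x (A' : Finset α)).powersetCard (k - 1)).filter (fun X => ∃ g : G, g • (A : Finset α) = X) =
      (insert x (A' : Finset α)).powersetCard (k - 1) := by
    apply Finset.eq_of_subset_of_card_le (Finset.filter_subset _ _)
    rw [Finset.card_powersetCard, hB, Nat.choose_symm_of_eq_add (show k = (k - 1) + 1 by omega), Nat.choose_one_right]
    exact (Nat.le_of_dvd hpos hdvd).trans (le_of_eq (hcnt _ hB).symm)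
  have hmem : (A' : Finset α) ∈ (insert x (A' : Finset α)).powersetCard (k - 1) :=
    Finset.mem_powersetCard.mpr ⟨Finset.subset_insert _ _, hA'⟩
  rw [← hfull] at hmem
  obtain ⟨g, hg⟩ := (Finset.mem_filter.mp hmem).2
  exact ⟨g, Subtype.ext hg⟩

end Cfsg.Agent.S0736
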