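import Cfsg.Statements.S0743
import Cfsg.Agent.Perm5.Criteria

set_option autoImplicit false
open Cfsg

namespace Cfsg.Agent.S0743

/-- Gleason's Lemma: let `p` be a prime and `1 ≤ k < n`; if every `k`-subset of the `n` points is exactly the fixed-point set of some `p`-subgroup of `G`, then `G` is `k`-transitive. -/
theorem result {α : Type*} [Fintype α] [DecidableEq α] (G : Subgroup (Equiv.Perm α)) {p k : ℕ} (hp : p.Prime) (hk : 1 ≤ k) (hkn : k < Fintype.card α) (h : ∀ s : Finset α, s.card = k → ∃ P : Subgroup G, IsPGroup p P ∧ MulAction.fixedPoints P α = (s : Set α)) : MulAction.IsMultiplyPretransitive G α k := by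
  classical
  haveI := Fact.mk hp
  refine Cfsg.Agent.Perm5.isMultiplyPretransitive_of_move (by rwa [Nat.card_eq_fintype_card]) fun t ht x y hx hy => ?_
  let K : Subgroup G := fixingSubgroup G (t : Set α)
  have hKm : ∀ g : K, ∀ z ∈ t, g • z = z := fun g z hz => (mem_fixingSubgroup_iff G).1 g.2 z hz
  obtain ⟨g, hg⟩ := Cfsg.Agent.Perm5.transitive_on_of_dvd (G := K) {z | z ∉ t} p hp.one_lt
    (fun g z hz hgz => hz (by
      have h' : g • z = z := MulAction.injective g (hKm g _ hgz)
      rwa [h'] at hgz))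
    (fun u hu => by
      obtain ⟨P, hP, hfix⟩ := h (insert u t) (by rw [Finset.card_insert_of_notMem hu]; omega)
      have hm : ∀ z, (∀ q ∈ P, q • z = z) ↔ z = u ∨ z ∈ t := fun z => by
        have := Set.ext_iff.1 hfix z
        simp only [MulAction.mem_fixedPoints, Finset.coe_insert, Set.mem_insert_iff, Finset.mem_coe] at this
        exact ⟨fun hz => this.1 fun q => hz q q.2, fun hz q hq => this.2 hz ⟨q, hq⟩⟩
      refine ⟨P.subgroupOf K, fun q hq => (hm u).2 (Or.inl rfl) q hq, fun z hz hzu => ?_⟩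
      have hQ : IsPGroup p (P.subgroupOf K) := hP.comap_of_injective K.subtype K.subtype_injective
      obtain ⟨n, hn⟩ := hQ.card_orbit z
      rw [hn]
      refine dvd_pow_self p fun hn0 => ?_
      rw [hn0, pow_zero, Nat.card_eq_one_iff_unique] at hn
      haveI := hn.1
      have hP_le : P ≤ K := fun q hq => (mem_fixingSubgroup_iff G).2 fun w hw => (hm w).2 (Or.inr hw) q hq
      refine ((hm z).1 fun q hq => ?_).elim hzu hz
      exact congrArg Subtype.val (Subsingleton.elim (⟨_, ⟨⟨⟨q, hP_le hq⟩, hq⟩, rfl⟩⟩ : MulAction.orbit (P.subgroupOf K) z) ⟨z, MulAction.mem_orbit_self z⟩))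
    x hx y hy
  exact ⟨(g : G), fun z hz => hKm g z hz, hg⟩

end Cfsg.Agent.S0743
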