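import Cfsg.Statements.S0744
import Cfsg.Agent.Perm5.Criteria

set_option autoImplicit false
open Cfsg

namespace Cfsg.Agent.S0744

/-- If for some `k > 1` the pointwise stabilisers of all `(k-1)`-subsets have the same order `> 1` and those of all `k`-subsets have the same order, then the group is `(k-1)`-transitive. -/
theorem result {α : Type*} [Fintype α] [DecidableEq α] (G : Subgroup (Equiv.Perm α)) {k : ℕ} (hk : 1 < k) (hkn : k ≤ Fintype.card α) (l m : ℕ) (hl : 1 < l) (hkm1 : ∀ s : Finset α, s.card = k - 1 → Nat.card (fixingSubgroup G (s : Set α)) = l) (hkm : ∀ s : Finset α, s.card = k → Nat.card (fixingSubgroup G (s : Set α)) = m) : MulAction.IsMultiplyPretransitive G α (k - 1) := by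
  classical
  refine Cfsg.Agent.Perm5.isMultiplyPretransitive_of_move (by rw [Nat.card_eq_fintype_card]; omega) fun t ht x y hx hy => ?_
  let K : Subgroup G := fixingSubgroup G (t : Set α)
  have hKm : ∀ g : K, ∀ z ∈ t, g • z = z := fun g z hz => (mem_fixingSubgroup_iff G).1 g.2 z hz
  let L := fixingSubgroup G ((insert x t : Finset α) : Set α)
  have hLc : Nat.card L = l := hkm1 _ (by rw [Finset.card_insert_of_notMem hx]; omega)
  have horb : ∀ u, u ∉ t → ∀ z, z ∉ t → z ≠ u →
      Nat.card (MulAction.orbit ((fixingSubgroup G ((insert u t : Finset α) : Set α)).subgroupOf K) z) * m = l := by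
    intro u hu z hz hzu
    set H := (fixingSubgroup G ((insert u t : Finset α) : Set α)).subgroupOf K with hH
    have hle : fixingSubgroup G ((insert u t : Finset α) : Set α) ≤ K :=
      fixingSubgroup_antitone G α (by simp)
    have hc : Nat.card H = l := by
      rw [Nat.card_congr (Subgroup.subgroupOfEquivOfLe hle).toEquiv]
      exact hkm1 _ (by rw [Finset.card_insert_of_notMem hu]; omega)
    have hs : Nat.card (MulAction.stabilizer H z) = m := by
      rw [← hkm (insert z (insert u t)) (by rw [Finset.card_insert_of_notMem (by simp [hz, hzu]), Finset.card_insert_of_notMem hu]; omega)]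
      refine Nat.card_congr ⟨fun g => ⟨((g.1 : K) : G), (mem_fixingSubgroup_iff G).2 fun w hw => ?_⟩,
        fun g => ⟨⟨⟨g.1, ?_⟩, ?_⟩, ?_⟩, fun g => rfl, fun g => rfl⟩
      · rcases Finset.mem_insert.1 hw with rfl | hw
        · exact g.2
        · exact (mem_fixingSubgroup_iff G).1 g.1.2 w hw
      · exact hle ((mem_fixingSubgroup_iff G).2 fun w hw => (mem_fixingSubgroup_iff G).1 g.2 w (by simp only [Finset.coe_insert, Set.mem_insert_iff] at hw ⊢; exact Or.inr hw))
      · exact (mem_fixingSubgroup_iff G).2 fun w hw => (mem_fixingSubgroup_iff G).1 g.2 w (by simp only [Finset.coe_insert, Set.mem_insert_iff] at hw ⊢; exact Or.inr hw)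
      · exact (mem_fixingSubgroup_iff G).1 g.2 z (by simp)
    rw [← hs, ← hc, ← (MulAction.stabilizer H z).index_mul_card, Subgroup.index]
    congr 1
    exact Nat.card_congr (MulAction.orbitEquivQuotientStabilizer H z)
  have hm0 : m ≠ 0 := by
    obtain ⟨s, hs⟩ := Finset.exists_subset_card_eq (s := (Finset.univ : Finset α)) (n := k) (by simpa using hkn)
    rw [← hkm s hs.2]; exact Nat.card_pos.ne'
  have he : m ∣ l ∧ 1 < l / m := by
    obtain ⟨z, hz⟩ : ∃ z, z ∉ insert x t := by
      by_contra! hc
      have := Finset.card_le_card (fun a _ => hc a : (Finset.univ : Finset α) ⊆ insert x t)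
      rw [Finset.card_univ, Finset.card_insert_of_notMem hx] at this
      omega
    simp only [Finset.mem_insert, not_or] at hz
    have h1 := horb x hx z hz.2 hz.1
    refine ⟨⟨_, by rw [mul_comm] at h1; exact h1.symm⟩, ?_⟩
    by_contra hle
    have hlm : l = m := by
      rw [← h1, Nat.mul_div_cancel _ (Nat.pos_of_ne_zero hm0)] at hle
      have : 0 < Nat.card (MulAction.orbit ((fixingSubgroup G ((insert x t : Finset α) : Set α)).subgroupOf K) z) := by
        haveI : Nonempty (MulAction.orbit ((fixingSubgroup G ((insert x t : Finset α) : Set α)).subgroupOf K) z) := ⟨⟨z, MulAction.mem_orbit_self z⟩⟩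
        exact Nat.card_pos
      rw [← h1, show Nat.card (MulAction.orbit ((fixingSubgroup G ((insert x t : Finset α) : Set α)).subgroupOf K) z) = 1 by omega, one_mul]
    have hbot : L = ⊥ := by
      rw [eq_bot_iff]
      intro g hg
      rw [Subgroup.mem_bot]
      apply Subtype.ext
      ext w
      by_cases hw : w ∈ insert x t
      · exact (mem_fixingSubgroup_iff G).1 hg w hw
      · simp only [Finset.mem_insert, not_or] at hw
        have h3 := horb x hx w hw.2 hw.1
        rw [hlm] at h3
        have h3' := (Nat.mul_eq_right hm0).1 h3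
        rw [Nat.card_eq_one_iff_unique] at h3'
        haveI := h3'.1
        have hgK : g ∈ K := (mem_fixingSubgroup_iff G).2 fun v hv => (mem_fixingSubgroup_iff G).1 hg v (by simp only [Finset.coe_insert, Set.mem_insert_iff]; exact Or.inr hv)
        exact congrArg Subtype.val (Subsingleton.elim (⟨_, ⟨⟨⟨g, hgK⟩, hg⟩, rfl⟩⟩ : MulAction.orbit ((fixingSubgroup G ((insert x t : Finset α) : Set α)).subgroupOf K) w) ⟨w, MulAction.mem_orbit_self w⟩)
    rw [hbot, Subgroup.card_bot] at hLc
    omega
  obtain ⟨g, hg⟩ := Cfsg.Agent.Perm5.transitive_on_of_dvd (G := K) {z | z ∉ t} (l / m) he.2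
    (fun g z hz hgz => hz (by
      have h' : g • z = z := MulAction.injective g (hKm g _ hgz)
      rwa [h'] at hgz))
    (fun u hu => ⟨(fixingSubgroup G ((insert u t : Finset α) : Set α)).subgroupOf K,
      fun g hg => (mem_fixingSubgroup_iff G).1 hg u (by simp),
      fun z hz hzu => dvd_of_eq (by rw [← horb u hu z hz hzu, Nat.mul_div_cancel _ (Nat.pos_of_ne_zero hm0)])⟩)
    x hx y hy
  exact ⟨(g : G), fun z hz => hKm g z hz, hg⟩

end Cfsg.Agent.S0744
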