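import Cfsg.Statements.S0753
import Mathlib

set_option autoImplicit false
open Cfsg

namespace Cfsg.Agent.S0753

/-- If σ is a ring endomorphism of the field F other than the identity and B is a σ-sesquilinear conjugate-symmetric form with B v v = 0 for every v, then B = 0. -/
theorem result {F V : Type*} [Field F] [AddCommGroup V] [Module F V] (σ : F →+* F) (hσ : σ ≠ RingHom.id F) (B : V →ₛₗ[σ] V →ₗ[F] F) (hS : B.IsSymm) (h0 : ∀ v : V, B v v = 0) : B = 0 := by
  by_contra hB
  obtain ⟨x, y, hxy⟩ : ∃ x y, B x y ≠ 0 := by
    by_contra h
    push Not at h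
    exact hB (LinearMap.ext fun x => LinearMap.ext fun y => by simpa using h x y)
  have key : ∀ u w : V, σ (B u w) = - B u w := by
    intro u w
    have h1 := h0 (u + w)
    simp only [map_add, LinearMap.add_apply, h0, zero_add, add_zero] at h1
    rw [hS.eq u w]
    linear_combination h1
  apply hσ
  ext c
  have h2 := key x (c • y)
  rw [LinearMap.map_smul, smul_eq_mul, map_mul, key] at h2
  have h3 : (σ c - c) * B x y = 0 := by linear_combination -h2
  simpa [sub_eq_zero] using (mul_eq_zero.1 h3).resolve_right hxy

end Cfsg.Agent.S0753
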