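import Cfsg.Statements.S0754
import Mathlib

set_option autoImplicit false
open Cfsg

namespace Cfsg.Agent.S0754

/-- In a field F with q^2 elements, every non-zero μ with μ^q = μ (that is, μ in the subfield of order q) has exactly q + 1 solutions λ of λ^(q+1) = μ. -/
theorem result {F : Type*} [Field F] [Fintype F] {q : ℕ} (hF : Fintype.card F = q ^ 2) (μ : F) (hμ : μ ≠ 0) (hμq : μ ^ q = μ) : Nat.card {x : F // x ^ (q + 1) = μ} = q + 1 := by
  classical
  obtain ⟨g, hg⟩ := IsCyclic.exists_ofOrder_eq_natCard (α := Fˣ)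
  have hq2 : 2 ≤ q := by
    have := Fintype.one_lt_card (α := F)
    rw [hF] at this
    rcases q with _ | _ | q <;> simp_all
  have hN : Nat.card Fˣ = (q + 1) * (q - 1) := by
    rw [Nat.card_units, Nat.card_eq_fintype_card, hF, ← Nat.sq_sub_sq, one_pow]
  have hζ : IsPrimitiveRoot ((g : F) ^ (q - 1)) (q + 1) := by
    rw [← Units.val_pow_eq_pow_val, IsPrimitiveRoot.coe_units_iff]
    refine (IsPrimitiveRoot.orderOf g).pow (orderOf_pos g) ?_
    rw [hg, hN, mul_comm]
  obtain ⟨k, hk⟩ : ∃ k : ℕ, (g : F) ^ k = μ := by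
    obtain ⟨k, hk⟩ : Units.mk0 μ hμ ∈ Submonoid.powers g := by
      rw [mem_powers_iff_mem_zpowers]
      have := Subgroup.eq_top_of_card_eq (Subgroup.zpowers g) (by rw [Nat.card_zpowers, hg])
      rw [this]; trivial
    exact ⟨k, by simpa using congrArg Units.val hk⟩
  have hdvd : q + 1 ∣ k := by
    have h1 : g ^ (k * (q - 1)) = 1 := by
      ext
      have h2 : μ ^ (q - 1) = 1 := by
        have h3 : μ ^ (q - 1) * μ = 1 * μ := by rw [← pow_succ, show q - 1 + 1 = q by omega, hμq, one_mul]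
        exact mul_right_cancel₀ hμ h3
      rw [Units.val_pow_eq_pow_val, pow_mul, hk, h2, Units.val_one]
    have h4 := orderOf_dvd_of_pow_eq_one h1
    rw [hg, hN] at h4
    exact Nat.dvd_of_mul_dvd_mul_right (by omega) h4
  obtain ⟨l, rfl⟩ := hdvd
  have hα : ((g : F) ^ l) ^ (q + 1) = μ := by rw [← pow_mul, mul_comm, hk]
  have hα0 : (g : F) ^ l ≠ 0 := pow_ne_zero _ g.ne_zero
  have hset : ({x : F | x ^ (q + 1) = μ}) = ↑(Polynomial.nthRoots (q + 1) μ).toFinset := by
    ext x
    simp [Polynomial.mem_nthRoots]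
  calc Nat.card {x : F // x ^ (q + 1) = μ} = ({x : F | x ^ (q + 1) = μ}).ncard := rfl
    _ = (Polynomial.nthRoots (q + 1) μ).toFinset.card := by rw [hset, Set.ncard_coe_finset]
    _ = q + 1 := by
      rw [Multiset.toFinset_card_of_nodup (hζ.nthRoots_nodup hμ), hζ.nthRoots_eq hα]
      simp

end Cfsg.Agent.S0754
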