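import Cfsg.Statements.S0761
import Mathlib

set_option autoImplicit false
open Cfsg

namespace Cfsg.Agent.S0761

/-- Hyperbolic partners: let B be a non-degenerate bilinear form on a finite-dimensional space, either alternating, or symmetric with 2 ≠ 0. If Z is a subspace on which B vanishes, x ∉ Z is isotropic and orthogonal to Z, then there is an isotropic y with B x y = 1 which is orthogonal to Z. -/
theorem result {F V : Type*} [Field F] [AddCommGroup V] [Module F V] [FiniteDimensional F V] (B : LinearMap.BilinForm F V) (hB : B.Nondegenerate) (hform : B.IsAlt ∨ (B.IsSymm ∧ (2 : F) ≠ 0)) (x : V) (Z : Submodule F V) (hxZ : x ∉ Z) (hx : B x x = 0) (hxz : ∀ z ∈ Z, B x z = 0) (hZ : ∀ z ∈ Z, ∀ z' ∈ Z, B z z' = 0) : ∃ y : V, B y y = 0 ∧ B x y = 1 ∧ ∀ z ∈ Z, B z y = 0 := by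
  classical
  obtain ⟨φ, hφx, hφZ⟩ : ∃ φ : V →ₗ[F] F, φ x = 1 ∧ Z ≤ LinearMap.ker φ := by
    obtain ⟨φ, hφ, hφZ⟩ := Submodule.exists_le_ker_of_notMem hxZ
    exact ⟨(φ x)⁻¹ • φ, by simp [inv_mul_cancel₀ hφ], fun z hz => by simp [LinearMap.mem_ker.1 (hφZ hz)]⟩
  obtain ⟨y0, hy0⟩ : ∃ y0, ∀ w, B w y0 = φ w := by
    refine ⟨((LinearMap.BilinForm.flip B).toDual hB.flip).symm φ, fun w => ?_⟩
    have := LinearMap.BilinForm.apply_toDual_symm_apply (B := LinearMap.BilinForm.flip B) (hB := hB.flip) φ w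
    exact this
  have hZx : ∀ z ∈ Z, B z x = 0 := by
    intro z hz
    rcases hform with h | ⟨h, -⟩
    · rw [← LinearMap.BilinForm.IsAlt.neg_eq h x z, hxz z hz, neg_zero]
    · rw [h.eq z x, hxz z hz]
  have h0 : ∀ z ∈ Z, B z y0 = 0 := fun z hz => by rw [hy0]; exact LinearMap.mem_ker.1 (hφZ hz)
  have hxy : B x y0 = 1 := by rw [hy0, hφx]
  rcases hform with h | ⟨h, h2⟩
  · exact ⟨y0, h y0, hxy, h0⟩
  · refine ⟨y0 + (-(B y0 y0) / 2) • x, ?_, ?_, fun z hz => ?_⟩
    · simp only [map_add, map_smul, LinearMap.add_apply, LinearMap.smul_apply, smul_eq_mul, hx, hxy, h.eq y0 x]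
      field_simp
      ring
    · simp [hxy, hx]
    · simp [h0 z hz, hZx z hz]

end Cfsg.Agent.S0761
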