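import Cfsg.Statements.S0762
import Mathlib

set_option autoImplicit false
open Cfsg

namespace Cfsg.Agent.S0762

/-- In characteristic two over a finite field, a quadratic form on a space of dimension at least 3 vanishes on some non-zero vector. -/
theorem result {F V : Type*} [Field F] [Finite F] [CharP F 2] [AddCommGroup V] [Module F V] [FiniteDimensional F V] (Q : QuadraticForm F V) (h3 : 3 ≤ Module.finrank F V) : ∃ v : V, v ≠ 0 ∧ Q v = 0 := by
  have hsq : ∀ a : F, ∃ b : F, b ^ 2 = a := fun a =>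
    let ⟨b, hb⟩ := (PerfectRing.bijective_frobenius (R := F) (p := 2)).2 a
    ⟨b, hb⟩
  obtain ⟨v, hv⟩ := Module.finrank_pos_iff_exists_ne_zero.1 (show 0 < Module.finrank F V by omega)
  obtain ⟨w, hw, hwv⟩ : ∃ w, QuadraticMap.polar (⇑Q) v w = 0 ∧ w ∉ Submodule.span F {v} := by
    by_contra hc
    push Not at hc
    have h1 := Submodule.finrank_mono (s := LinearMap.ker (QuadraticMap.polarBilin Q v)) (t := Submodule.span F {v}) (fun w hw => hc w (by simpa using hw))
    have h2 := LinearMap.finrank_range_add_finrank_ker (QuadraticMap.polarBilin Q v)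
    have h3 := Submodule.finrank_le (LinearMap.range (QuadraticMap.polarBilin Q v))
    rw [Module.finrank_self] at h3
    rw [finrank_span_singleton hv] at h1
    omega
  obtain ⟨a, ha⟩ := hsq (Q w)
  obtain ⟨b, hb⟩ := hsq (Q v)
  by_cases hQ : Q v = 0
  · exact ⟨v, hv, hQ⟩
  refine ⟨a • v + b • w, fun h => ?_, ?_⟩
  · have hb0 : b ≠ 0 := fun h0 => hQ (by rw [← hb, h0]; simp)
    apply hwv
    rw [Submodule.mem_span_singleton]
    refine ⟨-b⁻¹ * a, ?_⟩
    have h5 := congrArg (fun u => b⁻¹ • u) h
    simp only [smul_add, smul_smul, inv_mul_cancel₀ hb0, one_smul, smul_zero] at h5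
    rw [neg_mul, neg_smul, eq_comm, eq_neg_iff_add_eq_zero, add_comm, h5]
  · rw [QuadraticMap.map_add Q, QuadraticMap.map_smul, QuadraticMap.map_smul, QuadraticMap.polar_smul_left, QuadraticMap.polar_smul_right, hw, smul_eq_mul, smul_eq_mul, ← ha, ← hb]
    linear_combination (a ^ 2 * b ^ 2) * CharTwo.two_eq_zero (R := F)

end Cfsg.Agent.S0762
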