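import Cfsg.Statements.S0767
import Mathlib
import Cfsg.Agent.Classical.SympGen

set_option autoImplicit false
open Cfsg

namespace Cfsg.Agent.S0767
open Cfsg.Agent.Classical.Symp

/-- The root group of a point: T_v(c) T_v(d) = T_v(c + d), and for A in the symplectic group with A v = a v, the conjugate A T_v(c) A⁻¹ is again some T_v(d). -/
theorem result {F : Type*} [Field F] (m : ℕ) (v : Fin m ⊕ Fin m → F) : (∀ c d : F, Cfsg.sympTransvection m v c * Cfsg.sympTransvection m v d = Cfsg.sympTransvection m v (c + d)) ∧ ∀ (A : Matrix (Fin m ⊕ Fin m) (Fin m ⊕ Fin m) F) (a : F), A ∈ Matrix.symplecticGroup (Fin m) F → A.mulVec v = a • v → ∀ c : F, ∃ d : F, A * Cfsg.sympTransvection m v c * A⁻¹ = Cfsg.sympTransvection m v d := by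
  refine ⟨fun c d => congrArg Subtype.val (T_mul v c d), fun A a hA hAv c => ?_⟩
  refine ⟨c * a ^ 2, ?_⟩
  have h := conj_T ⟨A, hA⟩ v c
  rw [show act ⟨A, hA⟩ v = a • v from hAv, T_smul] at h
  have hdet : IsUnit A.det := SymplecticGroup.symplectic_det hA
  have h2 : A * Cfsg.sympTransvection m v c = Cfsg.sympTransvection m v (c * a ^ 2) * A :=
    congrArg Subtype.val (mul_inv_eq_iff_eq_mul.1 h)
  rw [h2, Matrix.mul_assoc, Matrix.mul_nonsing_inv A hdet, Matrix.mul_one]

end Cfsg.Agent.S0767
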