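import Cfsg.Statements.S0779
import Mathlib

set_option autoImplicit false
open Cfsg

namespace Cfsg.Agent.S0779

/-- Unitary transvections: let |F| = q², h the standard Hermitian form Σ x_i y_i^q and v ≠ 0 with h(v, v) = 0. The linear map x ↦ x + c h(x, v) v is an isometry of h if and only if c = 0 or c^(q−1) = −1. -/
theorem result {F : Type*} [Field F] [Fintype F] {q : ℕ} (hF : Fintype.card F = q ^ 2) (n : ℕ) (v : Fin n → F) (hv : v ≠ 0) (hv0 : Cfsg.hermForm n F q v v = 0) (c : F) : (∀ x y : Fin n → F, Cfsg.hermForm n F q ((Cfsg.unitaryTransvection n q v c).mulVec x) ((Cfsg.unitaryTransvection n q v c).mulVec y) = Cfsg.hermForm n F q x y) ↔ (c = 0 ∨ c ^ (q - 1) = -1) := by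
  obtain ⟨p, hp⟩ := CharP.exists F
  haveI := hp
  haveI : Fact p.Prime := ⟨CharP.char_is_prime F p⟩
  obtain ⟨j, hj⟩ : ∃ j, q = p ^ j := by
    obtain ⟨k, hk, hkc⟩ := FiniteField.card F p
    rw [hF] at hkc
    obtain ⟨j, -, hj⟩ := (Nat.dvd_prime_pow hk).1 (show q ∣ p ^ (k : ℕ) from hkc ▸ dvd_pow_self q (by norm_num))
    exact ⟨j, hj⟩
  let φ : F →+* F := iterateFrobenius F p j
  have hφ : ∀ x, x ^ q = φ x := fun x => by rw [hj]; rfl
  have hφφ : ∀ x, φ (φ x) = x := fun x => by
    rw [← hφ, ← hφ, ← pow_mul, ← pow_two, ← hF, FiniteField.pow_card]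
  have hq0 : q ≠ 0 := by rw [hj]; exact pow_ne_zero _ (Fact.out : p.Prime).ne_zero
  have hT : ∀ x, (Cfsg.unitaryTransvection n q v c).mulVec x = fun i => x i + c * Cfsg.hermForm n F q x v * v i := by
    intro x
    ext i
    simp only [Cfsg.unitaryTransvection, Matrix.add_mulVec, Matrix.one_mulVec, Pi.add_apply, Matrix.smul_mulVec,
      Pi.smul_apply, Matrix.vecMulVec_mulVec, op_smul_eq_smul, smul_eq_mul, dotProduct, Cfsg.hermForm]
    rw [Finset.sum_congr rfl (fun j _ => mul_comm ((v j) ^ q) (x j))]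
    ring
  have key : ∀ x y, Cfsg.hermForm n F q ((Cfsg.unitaryTransvection n q v c).mulVec x) ((Cfsg.unitaryTransvection n q v c).mulVec y)
      = Cfsg.hermForm n F q x y + (c + φ c) * (Cfsg.hermForm n F q x v * φ (Cfsg.hermForm n F q y v)) := by
    intro x y
    have h2 : φ (Cfsg.hermForm n F q y v) = ∑ i, v i * φ (y i) := by
      simp only [Cfsg.hermForm, hφ, map_sum, map_mul, hφφ]
      exact Finset.sum_congr rfl fun i _ => mul_comm _ _
    have h3 : ∑ i, v i * φ (v i) = 0 := by simpa [Cfsg.hermForm, hφ] using hv0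
    rw [hT, hT]
    generalize hX : Cfsg.hermForm n F q x v = a
    generalize hY : Cfsg.hermForm n F q y v = b at h2 ⊢
    simp only [Cfsg.hermForm, hφ] at hX ⊢
    calc ∑ i, (x i + c * a * v i) * φ (y i + c * b * v i)
        = ∑ i, (x i * φ (y i) + φ c * φ b * (x i * φ (v i)) + c * a * (v i * φ (y i)) + c * a * φ c * φ b * (v i * φ (v i))) :=
          Finset.sum_congr rfl fun i _ => by simp only [map_add, map_mul]; ring
      _ = _ := by
        simp only [Finset.sum_add_distrib, ← Finset.mul_sum, hX, h3, ← h2]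
        ring
  have hiff : (c = 0 ∨ c ^ (q - 1) = -1) ↔ c + φ c = 0 := by
    rw [← hφ]
    constructor
    · rintro (rfl | h)
      · simp [zero_pow hq0]
      · rw [show q = q - 1 + 1 by omega, pow_succ, h]; ring
    · intro h
      rcases eq_or_ne c 0 with h0 | h0
      · exact Or.inl h0
      · refine Or.inr (mul_right_cancel₀ h0 ?_)
        rw [← pow_succ, show q - 1 + 1 = q by omega]
        linear_combination h
  rw [hiff]
  constructor
  · intro h
    obtain ⟨i, hi⟩ := Function.ne_iff.1 hv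
    set x : Fin n → F := Pi.single i ((v i) ^ q)⁻¹
    have h1 : Cfsg.hermForm n F q x v = 1 := by
      simp only [Cfsg.hermForm, x]
      rw [Finset.sum_eq_single i (fun b _ hb => by simp [hb]) (fun hh => absurd (Finset.mem_univ i) hh)]
      simp [pow_ne_zero q hi]
    have h2 := h x x
    rw [key, h1, map_one, mul_one, mul_one] at h2
    simpa using h2
  · intro h x y
    rw [key, h, zero_mul, add_zero]

end Cfsg.Agent.S0779
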