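import Cfsg.Statements.S0785
import Mathlib
import Cfsg.Agent.Classical.Quad

set_option autoImplicit false
open Cfsg

namespace Cfsg.Agent.S0785

/-- det(I) = {±1}: for a quadratic form on F^n whose polar form is non-degenerate, every element of the isometry group has determinant 1 or −1, and as soon as Q takes a non-zero value some isometry has determinant −1. -/
theorem result {F : Type*} [Field F] {n : ℕ} (Q : QuadraticForm F (Fin n → F)) (hQ : (QuadraticMap.polarBilin Q).Nondegenerate) : (∀ g : ↥(Cfsg.isometryGroup F ⇑Q), ((g : Matrix.GeneralLinearGroup (Fin n) F) : Matrix (Fin n) (Fin n) F).det = 1 ∨ ((g : Matrix.GeneralLinearGroup (Fin n) F) : Matrix (Fin n) (Fin n) F).det = -1) ∧ ((∃ v, Q v ≠ 0) → ∃ g : ↥(Cfsg.isometryGroup F ⇑Q), ((g : Matrix.GeneralLinearGroup (Fin n) F) : Matrix (Fin n) (Fin n) F).det = -1) := by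
  have hmem : ∀ g : Matrix.GeneralLinearGroup (Fin n) F, g ∈ Cfsg.isometryGroup F ⇑Q →
      ∀ x, Q ((g : Matrix (Fin n) (Fin n) F).mulVec x) = Q x := fun g hg x => hg x x
  set B : Matrix (Fin n) (Fin n) F := Matrix.of (fun i j => QuadraticMap.polar (⇑Q) (Pi.single i 1) (Pi.single j 1)) with hBdef
  have hBv : ∀ (x y : Fin n → F), x ⬝ᵥ B.mulVec y = QuadraticMap.polar (⇑Q) x y := by
    intro x y
    have h1 : B.mulVec y = Cfsg.polarVec (⇑Q) y := by
      funext i
      change Cfsg.polarVec (⇑Q) (Pi.single i 1) ⬝ᵥ y = _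
      rw [Classical.polarVec_dotProduct, QuadraticMap.polar_comm]
      rfl
    rw [h1, dotProduct_comm, Classical.polarVec_dotProduct, QuadraticMap.polar_comm]
  have hB : B.det ≠ 0 := by
    intro h
    obtain ⟨y, hy, hy0⟩ := Matrix.exists_mulVec_eq_zero_iff.2 h
    refine hy (hQ.2 y (fun x => ?_))
    rw [QuadraticMap.polarBilin_apply_apply, ← hBv, hy0, dotProduct_zero]
  refine ⟨fun g => ?_, ?_⟩
  · set A := ((g : Matrix.GeneralLinearGroup (Fin n) F) : Matrix (Fin n) (Fin n) F)
    have h2 : ∀ x y, QuadraticMap.polar (⇑Q) (A.mulVec x) (A.mulVec y) = QuadraticMap.polar (⇑Q) x y := by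
      intro x y
      simp only [QuadraticMap.polar, ← Matrix.mulVec_add, hmem _ g.2, A]
    have h1 : A.transpose * B * A = B := by
      ext i j
      have e : ∀ M : Matrix (Fin n) (Fin n) F, M i j = Pi.single i 1 ⬝ᵥ M.mulVec (Pi.single j 1) := by
        intro M; simp
      rw [e (A.transpose * B * A), e B, ← Matrix.mulVec_mulVec, ← Matrix.mulVec_mulVec, Matrix.dotProduct_mulVec,
        Matrix.vecMul_transpose, hBv, hBv, h2]
    have h4 := congrArg Matrix.det h1
    rw [Matrix.det_mul, Matrix.det_mul, Matrix.det_transpose] at h4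
    have h5 : A.det * A.det = 1 := mul_right_cancel₀ hB (by linear_combination h4)
    exact mul_self_eq_one_iff.1 h5
  · rintro ⟨v, hv⟩
    have hd := Classical.reflection_det Q hv
    refine ⟨⟨Matrix.GeneralLinearGroup.mkOfDetNeZero (Cfsg.reflectionMatrix (⇑Q) v) (by rw [hd]; simp), fun x y => Classical.reflection_preserves Q hv x⟩, hd⟩

end Cfsg.Agent.S0785
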