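import Cfsg.Statements.S0836
import Cfsg.Agent.Classical.SL

set_option autoImplicit false
open Cfsg

namespace Cfsg.Agent.S0836

/-- For i ≠ j and any scalar c, the elementary transvection 1 + c E_ij is a commutator ⁅g, h⁆ of two elements of SL_n(F) provided n ≥ 3, or n = 2 and F contains x ≠ 0 with x² ≠ 1. -/
theorem result {F : Type*} [Field F] (n : ℕ) (hn : 3 ≤ n ∨ (n = 2 ∧ ∃ x : F, x ≠ 0 ∧ x ^ 2 ≠ 1)) (i j : Fin n) (hij : i ≠ j) (c : F) (t : Matrix.SpecialLinearGroup (Fin n) F) (ht : (t : Matrix (Fin n) (Fin n) F) = Matrix.transvection i j c) : t ∈ commutatorSet (Matrix.SpecialLinearGroup (Fin n) F) := by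
  have ht' : t = Classical.tv hij c := Subtype.ext ht
  subst ht'
  rcases hn with h3 | ⟨rfl, x, hx0, hx2⟩
  · exact Classical.tv_mem_commutatorSet (by simpa using h3) hij c
  · have hne : x ^ 2 - 1 ≠ 0 := sub_ne_zero.2 hx2
    have key : ∀ d : Matrix.SpecialLinearGroup (Fin 2) F, ∀ a : F, a ≠ 0 →
        (d : Matrix (Fin 2) (Fin 2) F) = Matrix.diagonal (fun k => if k = i then a else a⁻¹) → ∀ b : F,
        d * Classical.tv hij b = Classical.tv hij (a ^ 2 * b) * d := by
      intro d a ha hd b
      apply Matrix.SpecialLinearGroup.coeMonoidHom_injective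
      simp only [map_mul, Matrix.SpecialLinearGroup.coeMonoidHom_apply, Classical.tv, Matrix.SpecialLinearGroup.transvection_coe, hd]
      ext k l
      simp only [Matrix.diagonal_mul, Matrix.mul_diagonal, Matrix.add_apply, Matrix.one_apply, Matrix.single_apply]
      fin_cases i <;> fin_cases j <;> first | exact absurd rfl hij | (fin_cases k <;> fin_cases l <;> simp <;> field_simp)
    let d : Matrix.SpecialLinearGroup (Fin 2) F := ⟨Matrix.diagonal (fun k => if k = i then x else x⁻¹), by
      rw [Matrix.det_diagonal, Fin.prod_univ_two]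
      fin_cases i <;> simp [hx0]⟩
    refine ⟨d, Classical.tv hij (c / (x ^ 2 - 1)), ?_⟩
    rw [commutatorElement_def, key d x hx0 rfl, mul_inv_cancel_right]
    rw [Matrix.SpecialLinearGroup.transvection_inv, ← Matrix.SpecialLinearGroup.transvection_add]
    congr 1
    field_simp
    ring

end Cfsg.Agent.S0836
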