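import Cfsg.Statements.S0839
import Mathlib

set_option autoImplicit false
open Cfsg

namespace Cfsg.Agent.S0839

/-- Every transvection t ∈ SL_(n+2)(F) (rank(t − 1) = 1, (t − 1)² = 0) is conjugate in SL_(n+2)(F) to 1 + v·e_0ᵀ for some column vector v with v_0 = 0 (the group A of matrices that are the identity except in the first column below the diagonal); the dimension is written n + 2 ≥ 2. -/
theorem result {F : Type*} [Field F] (n : ℕ) (t : Matrix.SpecialLinearGroup (Fin (n + 2)) F) (ht : Cfsg.IsTransvection (t : Matrix (Fin (n + 2)) (Fin (n + 2)) F)) : ∃ (g : Matrix.SpecialLinearGroup (Fin (n + 2)) F) (v : Fin (n + 2) → F), v 0 = 0 ∧ ((g⁻¹ * t * g : Matrix.SpecialLinearGroup (Fin (n + 2)) F) : Matrix (Fin (n + 2)) (Fin (n + 2)) F) = 1 + Matrix.vecMulVec v (Pi.single 0 1) := by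
  obtain ⟨hr, hsq⟩ := ht
  obtain ⟨u, w, huw⟩ : ∃ (u w : Fin (n + 2) → F), (t : Matrix (Fin (n + 2)) (Fin (n + 2)) F) - 1 = Matrix.vecMulVec u w := by
    set A := (t : Matrix (Fin (n + 2)) (Fin (n + 2)) F) - 1 with hA
    rw [Matrix.rank] at hr
    obtain ⟨⟨u, hu⟩, hu0, hspan⟩ := finrank_eq_one_iff'.1 hr
    have h := fun j => hspan ⟨A.col j, ⟨Pi.single j 1, by simp [Matrix.mulVec_single]⟩⟩
    choose w hw using h
    refine ⟨u, w, ?_⟩
    ext i j
    have h2 := congrFun (congrArg Subtype.val (hw j)) i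
    simp [Matrix.col_apply] at h2
    rw [Matrix.vecMulVec_apply, ← h2, mul_comm]
  rw [huw] at hr hsq
  have hu : u ≠ 0 := by rintro rfl; simp at hr
  have hw : w ≠ 0 := by rintro rfl; simp at hr
  have hdot : w ⬝ᵥ u = 0 := by
    rw [Matrix.vecMulVec_mul_vecMulVec] at hsq
    obtain ⟨i, hi⟩ := Function.ne_iff.1 hu
    obtain ⟨j, hj⟩ := Function.ne_iff.1 hw
    have := congrFun (congrFun hsq i) j
    simp [Matrix.vecMulVec_apply] at this
    tauto
  -- a matrix of determinant one with first row `w`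
  obtain ⟨M, hM⟩ : ∃ M : Matrix.SpecialLinearGroup (Fin (n + 2)) F, (M : Matrix (Fin (n + 2)) (Fin (n + 2)) F) 0 = w := by
    obtain ⟨g, hg⟩ : ∃ g : Matrix (Fin (n + 2)) (Fin (n + 2)) F, g.det ≠ 0 ∧ g 0 = w := by
      obtain ⟨j, hj⟩ := Function.ne_iff.1 hw
      refine ⟨(Matrix.updateRow 1 j w).submatrix (Equiv.swap 0 j) id, ?_, ?_⟩
      · rw [show (Matrix.updateRow (1 : Matrix (Fin (n + 2)) (Fin (n + 2)) F) j w).submatrix (Equiv.swap 0 j) id =
          Matrix.submatrix (Matrix.updateRow 1 j w) (Equiv.swap 0 j) id from rfl, Matrix.det_permute]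
        refine mul_ne_zero (by rcases Int.units_eq_one_or (Equiv.Perm.sign (Equiv.swap 0 j)) with h | h <;> simp [h]) ?_
        have e : w = ∑ k, w k • (1 : Matrix (Fin (n + 2)) (Fin (n + 2)) F) k := by
          funext i; simp [Matrix.one_apply]
        rw [e, Matrix.det_updateRow_sum, Matrix.det_one, smul_eq_mul, mul_one]
        exact hj
      · funext i
        simp
    obtain ⟨hdet, hg0⟩ := hg
    refine ⟨⟨Matrix.updateRow g 1 (g.det⁻¹ • g 1), ?_⟩, ?_⟩
    · rw [Matrix.det_updateRow_smul, Matrix.updateRow_eq_self, inv_mul_cancel₀ hdet]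
    · change Matrix.updateRow g 1 (g.det⁻¹ • g 1) 0 = w
      rw [Matrix.updateRow_ne (by simp), hg0]
  refine ⟨M⁻¹, (M : Matrix (Fin (n + 2)) (Fin (n + 2)) F).mulVec u, ?_, ?_⟩
  · change (M : Matrix (Fin (n + 2)) (Fin (n + 2)) F) 0 ⬝ᵥ u = 0
    rw [hM, hdot]
  · have h1 : (Pi.single 0 1 : Fin (n + 2) → F) = Matrix.vecMul w ((M⁻¹ : Matrix.SpecialLinearGroup (Fin (n + 2)) F) : Matrix (Fin (n + 2)) (Fin (n + 2)) F) := by
      have h2 := congrArg Subtype.val (mul_inv_cancel M)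
      funext i
      have h3 := congrFun (congrFun h2 0) i
      rw [Matrix.SpecialLinearGroup.coe_mul, Matrix.SpecialLinearGroup.coe_one, Matrix.mul_apply, Matrix.one_apply] at h3
      rw [Matrix.vecMul, dotProduct, ← hM, h3, Pi.single_apply]
      simp [eq_comm]
    rw [h1, inv_inv, Matrix.SpecialLinearGroup.coe_mul, Matrix.SpecialLinearGroup.coe_mul, sub_eq_iff_eq_add'.1 huw,
      Matrix.mul_add, Matrix.mul_one, Matrix.add_mul, ← Matrix.SpecialLinearGroup.coe_mul, mul_inv_cancel,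
      Matrix.SpecialLinearGroup.coe_one, Matrix.mul_vecMulVec, Matrix.vecMulVec_mul]

end Cfsg.Agent.S0839
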