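import Cfsg.Statements.S0855
import Cfsg.Agent.CharLead.Clifford
import Cfsg.Agent.CharLead.Linear
import Cfsg.Agent.Transfer.Basic
import Cfsg.Agent.S0169
import Cfsg.Agent.S0534
import Mathlib

set_option autoImplicit false
open Cfsg

namespace Cfsg.Agent.S0855

open Cfsg.Agent.Char Cfsg.Agent.CharLead in
theorem constituent_pow {G : Type*} [Group G] [Finite G] (p : ℕ) (hp : p.Prime)
    (h : ∀ χ : Cfsg.IrrCharacter G, ∃ k : ℕ, (χ : G → ℂ) 1 = (p : ℂ) ^ k)
    (N : Subgroup G) [N.Normal] (θ : Cfsg.IrrCharacter N) : ∃ k : ℕ, (θ : N → ℂ) 1 = (p : ℂ) ^ k := by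
  classical
  haveI := Fintype.ofFinite G
  haveI := Fintype.ofFinite N
  obtain ⟨t, ht0, ht⟩ := irr_apply_one θ
  obtain ⟨χ, hχ⟩ : ∃ χ : Cfsg.IrrCharacter G, Cfsg.classInner (fun n : N => (χ : G → ℂ) n) (θ : N → ℂ) ≠ 0 := by
    by_contra hne
    push Not at hne
    have h1 := congrFun (classFunction_expand (indFun_isClassFunction N (θ : N → ℂ))) 1
    rw [indFun_apply_one, ht, Finset.sum_apply, Finset.sum_eq_zero (fun χ _ => ?_)] at h1
    · exact Nat.mul_ne_zero N.index_ne_zero_of_finite ht0.ne' (by exact_mod_cast h1)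
    · rw [Pi.smul_apply, classInner_indFun N _ (irr_isClassFunction χ), ← classInner_conj_symm, hne χ, map_zero, zero_smul]
  obtain ⟨e, he⟩ := exists_nat_classInner (isCharacter_comp (isCharacter_of_isIrrCharacter χ.2) N.subtype) θ
  have hdeg := degree_eq_mul_index N χ θ hχ
  obtain ⟨k, hk⟩ := h χ
  rw [show Cfsg.classInner (fun n : N => (χ : G → ℂ) n) (θ : N → ℂ) = (e : ℂ) from he, hk, ht] at hdeg
  have hdvd : t ∣ p ^ k := ⟨e * (inertiaGroup N (θ : N → ℂ)).index, by
    have : p ^ k = e * (inertiaGroup N (θ : N → ℂ)).index * t := by exact_mod_cast hdeg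
    rw [this]; ring⟩
  obtain ⟨j, -, rfl⟩ := (Nat.dvd_prime_pow hp).1 hdvd
  exact ⟨j, by rw [ht]; push_cast; rfl⟩

open Cfsg.Agent.Char Cfsg.Agent.CharLead in
theorem npc_of_degrees.{w} (p : ℕ) [Fact p.Prime] : ∀ (n : ℕ) (G : Type w) [Group G] [Finite G], Nat.card G = n →
    (∀ χ : Cfsg.IrrCharacter G, ∃ k : ℕ, (χ : G → ℂ) 1 = (p : ℂ) ^ k) → Cfsg.HasNormalPComplement p G := by
  intro n
  induction n using Nat.strong_induction_on with
  | _ n IH =>
  intro G _ _ hn h
  classical
  by_cases hpG : p ∣ Nat.card G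
  swap
  · exact Cfsg.Agent.Transfer.hasNPC_of_not_dvd hpG
  have hp : p.Prime := Fact.out
  choose k hk using h
  have hlin : p ∣ (commutator G).index := by
    rw [← card_linear, ← CharP.cast_eq_zero_iff (ZMod p) p]
    have hsum : ∑ χ : Cfsg.IrrCharacter G, (p ^ k χ) ^ 2 = Nat.card G := by
      have := sum_irr_sq (G := G)
      simp only [hk] at this
      exact_mod_cast this
    have h1 := congrArg (Nat.cast : ℕ → ZMod p) hsum
    rw [(CharP.cast_eq_zero_iff (ZMod p) p _).2 hpG] at h1
    push_cast at h1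
    rw [← h1, Nat.card_eq_fintype_card, Fintype.card_subtype, ← Finset.sum_boole]
    refine Finset.sum_congr rfl fun χ _ => ?_
    by_cases h0 : k χ = 0
    · rw [if_pos (by rw [hk, h0, pow_zero]), h0, pow_zero, one_pow]
    · rw [if_neg (fun e => ?_), ZMod.natCast_self, zero_pow h0, zero_pow two_ne_zero]
      rw [hk] at e
      have e' : p ^ k χ = 1 := by exact_mod_cast e
      exact (Nat.one_lt_pow h0 hp.one_lt).ne' e'
  obtain ⟨m, hm⟩ := hlin
  obtain ⟨B, hB⟩ := Cfsg.Agent.S0534.abelian_subgroup_of_dvd m (Abelianization G)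
    (by rw [show Nat.card (Abelianization G) = (commutator G).index from rfl, hm]; exact dvd_mul_left m p)
  let N : Subgroup G := B.comap Abelianization.of
  haveI : N.Normal := inferInstance
  have hNi : N.index = p := by
    show (B.comap (QuotientGroup.mk' (commutator G))).index = p
    erw [Subgroup.index_comap_of_surjective B (f := QuotientGroup.mk' (commutator G)) (QuotientGroup.mk'_surjective (commutator G))]
    have h1 := B.card_mul_index
    rw [show Nat.card (Abelianization G) = (commutator G).index from rfl, hm, hB, mul_comm p] at h1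
    exact Nat.eq_of_mul_eq_mul_left (Nat.pos_of_ne_zero fun e => (commutator G).index_ne_zero_of_finite (by rw [hm, e, mul_zero])) h1
  refine Cfsg.Agent.Transfer.hasNPC_of_normal_index inferInstance ⟨1, by rw [hNi, pow_one]⟩
    (IH (Nat.card N) ?_ N rfl fun θ => constituent_pow p hp (fun χ => ⟨k χ, hk χ⟩) N θ)
  rw [← hn, ← N.card_mul_index, hNi]
  exact lt_mul_right Nat.card_pos hp.one_lt

/-- For a finite group G and a prime p: every irreducible character of G has degree a power of p if and only if G has an abelian normal subgroup whose order is prime to p and whose index is a power of p. -/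
theorem result {G : Type*} [Group G] [Finite G] (p : ℕ) (hp : p.Prime) : (∀ χ : Cfsg.IrrCharacter G, ∃ k : ℕ, (χ : G → ℂ) 1 = (p : ℂ) ^ k) ↔ ∃ A : Subgroup G, A.Normal ∧ (∀ a ∈ A, ∀ b ∈ A, a * b = b * a) ∧ Nat.Coprime (Nat.card A) p ∧ ∃ k : ℕ, A.index = p ^ k := by
  classical
  haveI := Fact.mk hp
  constructor
  · intro h
    obtain ⟨A, hA, hAc, hAi⟩ := Cfsg.Agent.Transfer.hasNPC_iff.1 (npc_of_degrees p _ G rfl h)
    haveI := hA
    have hcop : Nat.Coprime (Nat.card A) p := ((hp.coprime_iff_not_dvd).2 hAc).symm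
    refine ⟨A, hA, ?_, hcop, hAi⟩
    have hone : ∀ θ : Cfsg.IrrCharacter A, (θ : A → ℂ) 1 = 1 := by
      intro θ
      obtain ⟨j, hj⟩ := constituent_pow p hp h A θ
      obtain ⟨d, -, hdd, hd⟩ := Cfsg.Agent.Char.irr_degree_dvd_card θ
      rw [hd] at hj
      have hj' : d = p ^ j := by exact_mod_cast hj
      have : d = 1 := Nat.eq_one_of_dvd_coprimes (Nat.Coprime.pow_right j hcop) hdd hj'.dvd
      rw [hd, this, Nat.cast_one]
    have hcount : (commutator A).index = Nat.card A := by
      rw [← Cfsg.Agent.CharLead.card_linear, Nat.card_congr (Equiv.subtypeUnivEquiv hone)]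
      have h2 := Cfsg.Agent.Char.sum_irr_sq (G := A)
      simp only [hone, one_pow, Finset.sum_const, nsmul_eq_mul, mul_one, Finset.card_univ] at h2
      rw [Nat.card_eq_fintype_card]
      exact_mod_cast h2
    have hbot : commutator A = ⊥ := Subgroup.eq_bot_of_card_eq _ (Nat.eq_of_mul_eq_mul_right (Nat.pos_of_ne_zero (commutator A).index_ne_zero_of_finite) (by rw [(commutator A).card_mul_index, one_mul, hcount]))
    intro a ha b hb
    have hm := Subgroup.commutator_mem_commutator (Subgroup.mem_top (⟨a, ha⟩ : A)) (Subgroup.mem_top (⟨b, hb⟩ : A))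
    rw [← commutator_def, hbot, Subgroup.mem_bot] at hm
    exact congrArg Subtype.val (commutatorElement_eq_one_iff_mul_comm.1 hm)
  · rintro ⟨A, hA, hAc, -, k, hk⟩ χ
    obtain ⟨d, hd, hdd⟩ := Cfsg.Agent.S0169.degree_dvd_index _ G rfl A hA hAc χ
    rw [hk] at hdd
    obtain ⟨j, -, rfl⟩ := (Nat.dvd_prime_pow hp).1 hdd
    exact ⟨j, by rw [hd]; push_cast; rfl⟩

end Cfsg.Agent.S0855
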