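import Cfsg.Statements.S0893
import Cfsg.Agent.CharLead.Linear
import Cfsg.Agent.Char.Induced
import Cfsg.Agent.Char.Irr
import Mathlib

set_option autoImplicit false
open Cfsg
set_option maxHeartbeats 1000000
open Cfsg.Agent.Char

namespace Cfsg.Agent.S0893

theorem fin_one_scalar (f : Module.End ℂ (Fin 1 → ℂ)) :
    f = LinearMap.trace ℂ (Fin 1 → ℂ) f • LinearMap.id := by
  rw [LinearMap.trace_eq_matrix_trace ℂ (Pi.basisFun ℂ (Fin 1)) f]
  apply (LinearMap.toMatrix (Pi.basisFun ℂ (Fin 1)) (Pi.basisFun ℂ (Fin 1))).injective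
  rw [map_smul, LinearMap.toMatrix_id]
  ext i j
  fin_cases i; fin_cases j
  simp [Matrix.trace]

/-- Let P be an extraspecial p-group of order p ^ (2 * n + 1), A an abelian subgroup of order p ^ (n + 1), and λ a character of A of degree 1 that is not identically 1 on the elements of A lying in the centre of P. Then the function induced from λ to P is an irreducible character of P and vanishes at every element outside the centre. -/
theorem result {P : Type*} [Group P] [Fintype P] (p n : ℕ) [Fact p.Prime] (hP : Cfsg.IsExtraspecial p P) (hcard : Nat.card P = p ^ (2 * n + 1)) (A : Subgroup P) (hab : ∀ a ∈ A, ∀ b ∈ A, a * b = b * a) (hA : Nat.card A = p ^ (n + 1)) (lam : A → ℂ) (hlam : Cfsg.IsCharacter A lam ∧ lam 1 = 1) (hZ : ∃ a : A, (a : P) ∈ Subgroup.center P ∧ lam a ≠ 1) : Cfsg.IsIrrCharacter P (Cfsg.indFun A lam) ∧ ∀ x : P, x ∉ Subgroup.center P → Cfsg.indFun A lam x = 0 := by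
  classical
  obtain ⟨⟨-, -, hcom⟩, hZcard⟩ := hP
  set Z := Subgroup.center P with hZdef
  haveI := Fintype.ofFinite A
  have hmem : ∀ g x : P, g * x * g⁻¹ * x⁻¹ ∈ Z := fun g x => by
    rw [← hcom]; exact Subgroup.commutator_mem_commutator (Subgroup.mem_top g) (Subgroup.mem_top x)
  have hZA : Z ≤ A := by
    obtain ⟨a, haZ, hla⟩ := hZ
    intro z hz
    haveI : IsCyclic Z := isCyclic_of_prime_card hZcard
    have hane : (⟨(a : P), haZ⟩ : Z) ≠ 1 := fun e => hla (by
      rw [show a = 1 from Subtype.ext (congrArg (fun w : Z => (w : P)) e)]; exact hlam.2)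
    have h := mem_zpowers_of_prime_card (p := p) hZcard (g' := (⟨z, hz⟩ : Z)) hane
    obtain ⟨i, hi⟩ := Subgroup.mem_zpowers_iff.1 h
    rw [show z = (a : P) ^ i from (congrArg Subtype.val hi).symm]
    exact zpow_mem a.2 i
  haveI hAn : A.Normal := ⟨fun a ha g => by
    have := mul_mem (hZA (hmem g a)) ha
    rwa [inv_mul_cancel_right] at this⟩
  have hirr : Cfsg.IsIrrCharacter A lam := by
    refine isIrrCharacter_of_inner_self hlam.1 ?_
    obtain ⟨n', ρ, hρ⟩ := hlam.1
    have hn' : n' = 1 := by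
      have h := hlam.2
      rw [← hρ, ρ.char_one, Module.finrank_fin_fun] at h
      exact_mod_cast h
    have hnorm : ∀ a : A, lam a * (starRingEnd ℂ) (lam a) = 1 := by
      intro a
      obtain ⟨c, hc⟩ : ∃ c : ℂ, ρ a = c • LinearMap.id := by
        subst hn'
        exact ⟨LinearMap.trace ℂ _ (ρ a), fin_one_scalar _⟩
      have h2 : ‖lam a‖ = 1 := by
        rw [← hρ, (norm_char_eq_iff ρ a).2 ⟨c, hc⟩, Module.finrank_fin_fun, hn', Nat.cast_one]
      rw [Complex.mul_conj', h2]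
      norm_num
    simp only [Cfsg.classInner, hnorm, Finset.sum_const, Finset.card_univ, nsmul_eq_mul, mul_one]
    rw [← Nat.card_eq_fintype_card, inv_mul_cancel₀]
    exact_mod_cast Nat.card_pos.ne'
  have hmul := Cfsg.Agent.CharLead.irr_mul_of_apply_one_eq_one hirr hlam.2
  let f : A →* ℂ := { toFun := lam, map_one' := hlam.2, map_mul' := hmul }
  -- nontrivial on every nontrivial central element
  have hf : ∀ z : A, (z : P) ∈ Z → z ≠ 1 → lam z ≠ 1 := by
    intro z hz hz1 h1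
    obtain ⟨a, haZ, hla⟩ := hZ
    have hzne : (⟨(z : P), hz⟩ : Z) ≠ 1 := fun e => hz1 (Subtype.ext (congrArg Subtype.val e : (z : P) = 1))
    have h := mem_zpowers_of_prime_card (p := p) hZcard (g' := (⟨(a : P), haZ⟩ : Z)) hzne
    obtain ⟨i, hi⟩ := Subgroup.mem_zpowers_iff.1 h
    have he : z ^ i = a := Subtype.ext (by simpa using congrArg (fun w : Z => (w : P)) hi)
    have hk : z ∈ f.toHomUnits.ker := Units.ext h1
    have := zpow_mem hk i
    rw [he] at this
    exact hla (congrArg Units.val this)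
  have hzero : ∀ x : P, x ∉ Z → Cfsg.indFun A lam x = 0 := by
    intro x hx
    by_cases hxA : x ∈ A
    swap
    · exact indFun_eq_zero_of_not_mem A lam hxA
    obtain ⟨h₀, hh₀⟩ : ∃ g : P, g * x * g⁻¹ * x⁻¹ ≠ 1 := by
      by_contra hne
      push Not at hne
      exact hx (Subgroup.mem_center_iff.2 fun g => by
        have h := hne g
        calc g * x = g * x * g⁻¹ * x⁻¹ * x * g := by group
          _ = x * g := by rw [h, one_mul])
    have hsum : ∀ g : P, Cfsg.extendByZero A lam (g⁻¹ * x * g) =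
        lam ⟨x, hxA⟩ * lam ⟨g⁻¹ * x * g * x⁻¹, hZA (by simpa using hmem g⁻¹ x)⟩ := by
      intro g
      rw [extendByZero_of_mem A lam (by simpa using hAn.conj_mem x hxA g⁻¹), ← hmul]
      congr 1
      refine Subtype.ext ?_
      show g⁻¹ * x * g = x * (g⁻¹ * x * g * x⁻¹)
      rw [Subgroup.mem_center_iff.1 (by simpa using hmem g⁻¹ x : g⁻¹ * x * g * x⁻¹ ∈ Z) x]
      group
    rw [indFun_eq_of_mem_iff]
    simp only [hsum, ← Finset.mul_sum]
    set F : P → ℂ := fun g => lam ⟨g⁻¹ * x * g * x⁻¹, hZA (by simpa using hmem g⁻¹ x)⟩ with hF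
    have hmulF : ∀ g : P, F (g * h₀⁻¹) = F h₀⁻¹ * F g := by
      intro g
      rw [hF]
      simp only
      rw [← hmul]
      congr 1
      refine Subtype.ext ?_
      show (g * h₀⁻¹)⁻¹ * x * (g * h₀⁻¹) * x⁻¹ = (h₀⁻¹)⁻¹ * x * h₀⁻¹ * x⁻¹ * (g⁻¹ * x * g * x⁻¹)
      have hz : g⁻¹ * x * g * x⁻¹ ∈ Z := by simpa using hmem g⁻¹ x
      have e := Subgroup.mem_center_iff.1 hz h₀
      calc (g * h₀⁻¹)⁻¹ * x * (g * h₀⁻¹) * x⁻¹ = h₀ * (g⁻¹ * x * g * x⁻¹) * (x * h₀⁻¹ * x⁻¹) := by group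
        _ = (g⁻¹ * x * g * x⁻¹) * h₀ * (x * h₀⁻¹ * x⁻¹) := by rw [e]
        _ = (g⁻¹ * x * g * x⁻¹) * ((h₀⁻¹)⁻¹ * x * h₀⁻¹ * x⁻¹) := by group
        _ = ((h₀⁻¹)⁻¹ * x * h₀⁻¹ * x⁻¹) * (g⁻¹ * x * g * x⁻¹) :=
          (Subgroup.mem_center_iff.1 hz _).symm
    have hsumF : F h₀⁻¹ * ∑ g, F g = ∑ g, F g := by
      rw [Finset.mul_sum]
      simp only [← hmulF]
      exact Equiv.sum_comp (Equiv.mulRight h₀⁻¹) F
    have hne : F h₀⁻¹ ≠ 1 := by
      refine hf _ (by simpa using hmem h₀ x) fun e => hh₀ ?_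
      simpa using congrArg Subtype.val e
    have hs0 : ∑ g, F g = 0 := by
      by_contra h0
      exact hne ((mul_eq_right₀ h0).1 hsumF)
    rw [hs0, mul_zero, mul_zero]
  refine ⟨isIrrCharacter_of_inner_self (indFun_isCharacter A hlam.1) ?_, hzero⟩
  have hval : ∀ z ∈ Z, ∃ c : ℂ, c * (starRingEnd ℂ) c = 1 ∧ Cfsg.indFun A lam z = (A.index : ℂ) * c := by
    intro z hz
    refine ⟨lam ⟨z, hZA hz⟩, ?_, ?_⟩
    · rw [Complex.mul_conj', show ‖lam ⟨z, hZA hz⟩‖ = 1 from ?_]
      · norm_num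
      refine Complex.norm_eq_one_of_pow_eq_one (n := orderOf (⟨z, hZA hz⟩ : A)) ?_ (orderOf_pos _).ne'
      show f ⟨z, hZA hz⟩ ^ _ = 1
      rw [← map_pow, pow_orderOf_eq_one, map_one]
    · rw [indFun_eq_of_mem_iff, Finset.sum_congr rfl (fun g _ => by
        rw [mul_assoc, ← Subgroup.mem_center_iff.1 hz g, inv_mul_cancel_left, extendByZero_of_mem A lam (hZA hz)] :
        ∀ g ∈ (Finset.univ : Finset P), Cfsg.extendByZero A lam (g⁻¹ * z * g) = lam ⟨z, hZA hz⟩),
        Finset.sum_const, Finset.card_univ, nsmul_eq_mul, ← mul_assoc, ← Nat.card_eq_fintype_card, ← A.card_mul_index,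
        Nat.cast_mul, inv_mul_cancel_left₀ (by exact_mod_cast Nat.card_pos.ne')]
  rw [Cfsg.classInner, ← Finset.sum_filter_add_sum_filter_not Finset.univ (fun g : P => g ∈ Z),
    Finset.sum_eq_zero (s := Finset.univ.filter fun g : P => g ∉ Z) (fun g hg => by
      rw [hzero g (Finset.mem_filter.1 hg).2, zero_mul]), add_zero,
    Finset.sum_congr rfl (fun g hg => by
      obtain ⟨c, hc, he⟩ := hval g (Finset.mem_filter.1 hg).2
      rw [he, map_mul, Complex.conj_natCast]
      linear_combination ((A.index : ℂ) * A.index) * hc :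
      ∀ g ∈ Finset.univ.filter (fun g : P => g ∈ Z), Cfsg.indFun A lam g * (starRingEnd ℂ) (Cfsg.indFun A lam g)
        = (A.index : ℂ) * A.index), Finset.sum_const, nsmul_eq_mul, ← Fintype.card_subtype, ← Nat.card_eq_fintype_card]
  have hidx : A.index = p ^ n := by
    have h := A.card_mul_index
    rw [hA, hcard, show 2 * n + 1 = (n + 1) + n by omega, pow_add p (n + 1) n] at h
    exact Nat.eq_of_mul_eq_mul_left (pow_pos (Fact.out : p.Prime).pos _) h
  rw [show Nat.card {x : P // x ∈ Z} = p from hZcard, hidx, hcard]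
  push_cast
  rw [show (p : ℂ) * ((p : ℂ) ^ n * (p : ℂ) ^ n) = (p : ℂ) ^ (2 * n + 1) by ring, inv_mul_cancel₀]
  exact pow_ne_zero _ (by exact_mod_cast (Fact.out : p.Prime).ne_zero)

end Cfsg.Agent.S0893
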