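import Cfsg.Statements.S0865
import Cfsg.Agent.S0893
import Mathlib

set_option autoImplicit false
open Cfsg
set_option maxHeartbeats 1000000

namespace Cfsg.Agent.S0865

theorem linear_mul {H : Type*} [Group H] {χ : H → ℂ} (hχ : Cfsg.IsCharacter H χ) (h1 : χ 1 = 1)
    (a b : H) : χ (a * b) = χ a * χ b := by
  obtain ⟨n, ρ, rfl⟩ := hχ
  have hn : n = 1 := by
    rw [ρ.char_one, Module.finrank_fin_fun] at h1
    exact_mod_cast h1
  subst hn
  show LinearMap.trace ℂ _ (ρ (a * b)) = _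
  rw [map_mul]
  conv_lhs => rw [Cfsg.Agent.S0893.fin_one_scalar (ρ a), smul_mul_assoc, map_smul, smul_eq_mul]
  rfl

theorem linear_isCharacter {H : Type*} [Group H] (f : H →* ℂ) : Cfsg.IsCharacter H f := by
  refine ⟨1, { toFun := fun g => f g • (LinearMap.id : (Fin 1 → ℂ) →ₗ[ℂ] (Fin 1 → ℂ)), map_one' := ?_, map_mul' := fun a b => ?_ }, funext fun g => ?_⟩
  · rw [map_one, one_smul]; rfl
  · rw [map_mul, smul_mul_smul_comm]; rfl
  · show LinearMap.trace ℂ _ (f g • (LinearMap.id : (Fin 1 → ℂ) →ₗ[ℂ] (Fin 1 → ℂ))) = f g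
    rw [map_smul, LinearMap.trace_id, Module.finrank_fin_fun, Nat.cast_one, smul_eq_mul, mul_one]

/-- Let N be a normal subgroup of the finite group G and λ a character of N of degree 1, invariant under conjugation by G, whose order (under pointwise multiplication) is coprime to the index of N. Then there is a character μ of G of degree 1 restricting to λ with the same order as λ, and μ is the only degree-1 character of G restricting to λ whose order is coprime to the index of N. -/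
theorem result {G : Type*} [Group G] [Finite G] (N : Subgroup G) [hN : N.Normal] (lam : N → ℂ) (hlam : Cfsg.IsCharacter N lam ∧ lam 1 = 1) (hinv : ∀ (g : G) (n : N), lam ⟨g * n * g⁻¹, hN.conj_mem (n : G) n.2 g⟩ = lam n) (hcop : Nat.Coprime N.index (orderOf lam)) : ∃ μ : G → ℂ, (Cfsg.IsCharacter G μ ∧ μ 1 = 1 ∧ (∀ n : N, μ n = lam n) ∧ orderOf μ = orderOf lam) ∧ ∀ μ' : G → ℂ, Cfsg.IsCharacter G μ' ∧ μ' 1 = 1 → (∀ n : N, μ' n = lam n) → Nat.Coprime N.index (orderOf μ') → μ' = μ := by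
  classical
  let f : N →* ℂ := { toFun := lam, map_one' := hlam.2, map_mul' := linear_mul hlam.1 hlam.2 }
  let L : N →* ℂˣ := f.toHomUnits
  have hL : ∀ n : N, (L n : ℂ) = lam n := fun n => rfl
  let K : Subgroup G := L.ker.map N.subtype
  haveI hK : K.Normal := ⟨by
    rintro _ ⟨n, hn, rfl⟩ g
    refine ⟨⟨g * n * g⁻¹, hN.conj_mem (n : G) n.2 g⟩, Units.ext ?_, rfl⟩
    show lam _ = 1
    rw [hinv g n]
    exact congrArg Units.val hn⟩
  let π := QuotientGroup.mk' K
  set Z := N.map π with hZ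
  have hZc : ∀ z ∈ Z, ∀ q : G ⧸ K, q * z = z * q := by
    rintro _ ⟨n, hn, rfl⟩ q
    obtain ⟨g, rfl⟩ := QuotientGroup.mk'_surjective K q
    rw [← map_mul, ← map_mul, QuotientGroup.mk'_eq_mk']
    refine ⟨(g * n)⁻¹ * (n * g), ?_, mul_inv_cancel_left _ _⟩
    let a : N := ⟨n, hn⟩
    let b : N := ⟨g⁻¹ * n * g, by simpa using hN.conj_mem n hn g⁻¹⟩
    refine ⟨a⁻¹ * b, ?_, by simp [a, b, mul_assoc]⟩
    have h : lam b = lam a := by
      have := hinv g⁻¹ a
      rw [← this]
      congr 1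
      exact Subtype.ext (by simp [a, b])
    rw [SetLike.mem_coe, MonoidHom.mem_ker, map_mul, map_inv, inv_mul_eq_one]
    exact Units.ext h.symm
  haveI : Z.FiniteIndex := Subgroup.finiteIndex_of_finite_quotient
  letI : CommGroup Z := { (inferInstance : Group Z) with mul_comm := fun a b => Subtype.ext (hZc b b.2 a) }
  have hmulQ : ∀ u v : G ⧸ K, (u * v) ^ Z.index = u ^ Z.index * v ^ Z.index := by
    have key : ∀ (u : G ⧸ K) (k : ℕ) (g₀ : G ⧸ K), g₀⁻¹ * u ^ k * g₀ ∈ Z → g₀⁻¹ * u ^ k * g₀ = u ^ k := by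
      intro u k g₀ h
      have h2 : g₀ * (g₀⁻¹ * u ^ k * g₀) = (g₀⁻¹ * u ^ k * g₀) * g₀ := hZc _ h g₀
      calc g₀⁻¹ * u ^ k * g₀ = (g₀⁻¹ * u ^ k * g₀) * g₀ * g₀⁻¹ := by group
        _ = g₀ * (g₀⁻¹ * u ^ k * g₀) * g₀⁻¹ := by rw [h2]
        _ = u ^ k := by group
    intro u v
    have h := map_mul (MonoidHom.transfer (MonoidHom.id Z)) u v
    rw [MonoidHom.transfer_eq_pow (MonoidHom.id Z) _ (key _), MonoidHom.transfer_eq_pow (MonoidHom.id Z) _ (key _),
      MonoidHom.transfer_eq_pow (MonoidHom.id Z) _ (key _)] at h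
    exact congrArg Subtype.val h
  have hidx : Z.index = N.index := by
    rw [hZ, Subgroup.index_map_eq (H := N) (QuotientGroup.mk'_surjective K)
      (by rw [QuotientGroup.ker_mk']; exact Subgroup.map_subtype_le _)]
  rw [hidx] at hmulQ
  let M : G →* ℂˣ := MonoidHom.mk' (fun g => L ⟨g ^ N.index, N.pow_index_mem g⟩) (fun a b => by
    have h := hmulQ (π a) (π b)
    rw [← map_mul, ← map_pow, ← map_pow, ← map_pow, ← map_mul, eq_comm, QuotientGroup.mk'_eq_mk'] at h
    obtain ⟨k, ⟨w, hw, rfl⟩, hk⟩ := h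
    have he : (⟨(a * b) ^ N.index, N.pow_index_mem _⟩ : N) =
        ⟨a ^ N.index, N.pow_index_mem _⟩ * ⟨b ^ N.index, N.pow_index_mem _⟩ * w := Subtype.ext hk.symm
    rw [he, map_mul, map_mul, show L w = 1 from hw, mul_one])
  -- an inverse of the index modulo the order
  have hord : ∀ n : N, lam n ^ orderOf lam = 1 := fun n => congrFun (pow_orderOf_eq_one lam) n
  obtain ⟨s, hs⟩ : ∃ s : ℕ, ∀ n : N, lam n ^ (N.index * s) = lam n := by
    by_cases he1 : orderOf lam = 1
    · refine ⟨1, fun n => ?_⟩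
      have h := congrFun (orderOf_eq_one_iff.1 he1) n
      rw [h, Pi.one_apply, one_pow]
    obtain ⟨s, hs⟩ := Nat.exists_mul_mod_eq_one_of_coprime hcop (by
      have : orderOf lam ≠ 0 := by
        intro h0
        rw [h0, Nat.coprime_zero_right] at hcop
        have htop : N = ⊤ := Subgroup.index_eq_one.1 hcop
        have hfin : IsOfFinOrder lam := isOfFinOrder_iff_pow_eq_one.2 ⟨Nat.card N, Nat.card_pos, funext fun n => by
          show f n ^ Nat.card N = 1
          rw [← map_pow, pow_card_eq_one', map_one]⟩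
        exact hfin.orderOf_pos.ne' h0
      omega)
    refine ⟨s, fun n => ?_⟩
    rw [← Nat.div_add_mod (N.index * s) (orderOf lam), hs.2, pow_add, pow_mul, hord, one_pow, one_mul, pow_one]
  let μh : G →* ℂ := (Units.coeHom ℂ).comp ((powMonoidHom s).comp M)
  have hres : ∀ n : N, μh n = lam n := fun n => by
    show ((L ⟨(n : G) ^ N.index, _⟩ ^ s : ℂˣ) : ℂ) = lam n
    rw [show (⟨(n : G) ^ N.index, N.pow_index_mem _⟩ : N) = n ^ N.index from Subtype.ext rfl, map_pow,
      ← pow_mul, Units.val_pow_eq_pow_val, hL, hs]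
  have hμord : orderOf (μh : G → ℂ) = orderOf lam := by
    refine Nat.dvd_antisymm (orderOf_dvd_of_pow_eq_one (funext fun g => ?_)) (orderOf_dvd_of_pow_eq_one (funext fun n => ?_))
    · show ((L ⟨g ^ N.index, _⟩ ^ s : ℂˣ) : ℂ) ^ orderOf lam = 1
      rw [Units.val_pow_eq_pow_val, ← pow_mul, mul_comm, pow_mul, hL, hord, one_pow]
    · show lam n ^ orderOf (μh : G → ℂ) = 1
      rw [← hres n]
      exact congrFun (pow_orderOf_eq_one (μh : G → ℂ)) n
  refine ⟨μh, ⟨linear_isCharacter μh, map_one μh, hres, hμord⟩, fun μ' hμ' hres' hcop' => funext fun g => ?_⟩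
  let g' : G →* ℂ := { toFun := μ', map_one' := hμ'.2, map_mul' := linear_mul hμ'.1 hμ'.2 }
  have h1 : μ' g ^ N.index = μh g ^ N.index := by
    show g' g ^ N.index = μh g ^ N.index
    rw [← map_pow, ← map_pow, show g' (g ^ N.index) = μ' _ from rfl,
      hres' ⟨_, N.pow_index_mem g⟩, hres ⟨_, N.pow_index_mem g⟩]
  have h2 : μ' g ^ orderOf μ' = 1 := congrFun (pow_orderOf_eq_one μ') g
  have h3 : μh g ^ orderOf (μh : G → ℂ) = 1 := congrFun (pow_orderOf_eq_one (μh : G → ℂ)) g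
  have hne : μh g ≠ 0 := by
    intro h0
    have h := map_mul μh g g⁻¹
    rw [mul_inv_cancel, map_one, h0, zero_mul] at h
    exact one_ne_zero h
  have hq1 : (μ' g / μh g) ^ N.index = 1 := by rw [div_pow, h1, div_self (pow_ne_zero _ hne)]
  have hq2 : (μ' g / μh g) ^ (orderOf μ' * orderOf lam) = 1 := by
    rw [div_pow, pow_mul, h2, one_pow, mul_comm, pow_mul, ← hμord, h3, one_pow, div_one]
  have hq := pow_gcd_eq_one.2 ⟨hq1, hq2⟩
  rw [(Nat.Coprime.mul_right hcop' hcop).gcd_eq_one, pow_one, div_eq_one_iff_eq hne] at hq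
  exact hq

end Cfsg.Agent.S0865
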