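import Mathlib
import Cfsg.Statements.S0869
-- no helpers

set_option autoImplicit false
open Cfsg

namespace Cfsg.Agent.S0869

/-- Let S be a nonempty finite type and R an additive subgroup of the integer-valued functions on S that is closed under pointwise multiplication. If the constant function 1 is not in R, then there exist a point x of S and a prime p such that p divides f x for every f in R. -/
theorem result {S : Type*} [Finite S] [Nonempty S] (R : AddSubgroup (S → ℤ)) (hmul : ∀ f ∈ R, ∀ g ∈ R, f * g ∈ R) (h1 : (1 : S → ℤ) ∉ R) : ∃ (x : S) (p : ℕ), p.Prime ∧ ∀ f ∈ R, (p : ℤ) ∣ f x := by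
  classical
  haveI := Fintype.ofFinite S
  by_contra hne
  push Not at hne
  have hone : ∀ x : S, ∃ f ∈ R, f x = 1 := by
    intro x
    let I : AddSubgroup ℤ := R.map (Pi.evalAddMonoidHom (fun _ : S => ℤ) x)
    obtain ⟨d, hd⟩ := Int.subgroup_cyclic I
    have hmem : ∀ f ∈ R, d ∣ f x := by
      intro f hf
      have : f x ∈ I := ⟨f, hf, rfl⟩
      rw [hd, AddSubgroup.mem_closure_singleton] at this
      obtain ⟨k, hk⟩ := this
      exact ⟨k, by rw [← hk, zsmul_eq_mul, mul_comm]; rfl⟩
    have hd1 : d.natAbs = 1 := by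
      by_contra h
      obtain ⟨p, hp, hpd⟩ := Nat.exists_prime_and_dvd h
      obtain ⟨f, hf, hfx⟩ := hne x p hp
      exact hfx (((Int.natCast_dvd.2 hpd)).trans (hmem f hf))
    have h1I : (1 : ℤ) ∈ I := by
      rw [hd, AddSubgroup.mem_closure_singleton]
      rcases Int.natAbs_eq d with e | e <;> rw [hd1] at e
      · exact ⟨1, by simp [e]⟩
      · exact ⟨-1, by simp [e]⟩
    exact h1I
  have hall : ∀ T : Finset S, ∃ f ∈ R, ∀ x ∈ T, f x = 1 := by
    intro T
    induction T using Finset.induction_on with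
    | empty => exact ⟨0, R.zero_mem, by simp⟩
    | @insert a T ha ih =>
      obtain ⟨f, hf, hf1⟩ := ih
      obtain ⟨g, hg, hg1⟩ := hone a
      refine ⟨f + g - f * g, R.sub_mem (R.add_mem hf hg) (hmul f hf g hg), ?_⟩
      intro x hx
      rcases Finset.mem_insert.1 hx with rfl | hx
      · simp [hg1]
      · simp [hf1 x hx]
  obtain ⟨f, hf, hf1⟩ := hall Finset.univ
  exact h1 ((funext fun x => hf1 x (Finset.mem_univ x) : f = 1) ▸ hf)

end Cfsg.Agent.S0869
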