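import Cfsg.Statements.S0871
import Cfsg.Agent.CharLead.QuasiElem
import Mathlib

set_option autoImplicit false
open Cfsg

namespace Cfsg.Agent.S0871

theorem rel_form {G : Type*} [Group G] [Finite G] {p : ℕ} (H : Subgroup G) (hH : Cfsg.Agent.Char.IsQuasiElem p H) :
    ∃ C : Subgroup G, C ≤ H ∧ H ≤ Subgroup.normalizer (C : Set G) ∧ IsCyclic C ∧
      Nat.Coprime (Nat.card C) p ∧ ∃ k : ℕ, C.relIndex H = p ^ k := by
  obtain ⟨C, hC, hcyc, hcop, k, hk⟩ := hH
  haveI := hcyc
  have hs : (C.map H.subtype).subgroupOf H = C := Subgroup.comap_map_eq_self_of_injective H.subtype_injective C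
  refine ⟨C.map H.subtype, Subgroup.map_subtype_le C, ?_, ?_, ?_, k, ?_⟩
  · refine (Subgroup.normal_subgroupOf_iff_le_normalizer (Subgroup.map_subtype_le C)).1 ?_
    rw [hs]
    exact hC
  · exact isCyclic_of_surjective (C.equivMapOfInjective H.subtype H.subtype_injective)
      (C.equivMapOfInjective H.subtype H.subtype_injective).surjective
  · rwa [← Nat.card_congr (C.equivMapOfInjective H.subtype H.subtype_injective).toEquiv]
  · rw [Subgroup.relIndex, hs, hk]

/-- Let x be an element of the finite group G and p a prime. Then there is a subgroup H having a cyclic normal subgroup C of order prime to p and p-power index in H, such that the value at x of the function induced from the constant function 1 on H is a natural number not divisible by p. -/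
theorem result {G : Type*} [Group G] [Fintype G] (x : G) (p : ℕ) (hp : p.Prime) : ∃ H : Subgroup G, (∃ C : Subgroup G, C ≤ H ∧ H ≤ Subgroup.normalizer (C : Set G) ∧ IsCyclic C ∧ Nat.Coprime (Nat.card C) p ∧ ∃ k : ℕ, C.relIndex H = p ^ k) ∧ ∃ n : ℕ, Cfsg.indFun H (fun _ => 1) x = (n : ℂ) ∧ ¬ p ∣ n := by
  obtain ⟨H, hH, hnd⟩ := Cfsg.Agent.CharLead.exists_quasi_not_dvd hp x
  refine ⟨H, rel_form H hH, Nat.card {y : G ⧸ H // x • y = y}, ?_, ?_⟩
  · rw [Cfsg.Agent.Char.indFun_one_eq_permFix, Cfsg.Agent.Char.permFix, Int.cast_natCast]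
  · exact fun h => hnd (Int.natCast_dvd_natCast.2 h)

end Cfsg.Agent.S0871
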