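import Cfsg.Statements.S0872
import Cfsg.Agent.CharLead.QuasiElem
import Mathlib

set_option autoImplicit false
open Cfsg

namespace Cfsg.Agent.S0872

theorem rel_form {G : Type*} [Group G] [Finite G] {p : ℕ} (H : Subgroup G) (hH : Cfsg.Agent.Char.IsQuasiElem p H) :
    ∃ C : Subgroup G, C ≤ H ∧ H ≤ Subgroup.normalizer (C : Set G) ∧ IsCyclic C ∧
      Nat.Coprime (Nat.card C) p ∧ ∃ k : ℕ, C.relIndex H = p ^ k := by
  obtain ⟨C, hC, hcyc, hcop, k, hk⟩ := hH
  haveI := hcyc
  have hs : (C.map H.subtype).subgroupOf H = C := Subgroup.comap_map_eq_self_of_injective H.subtype_injective C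
  refine ⟨C.map H.subtype, Subgroup.map_subtype_le C, ?_, ?_, ?_, k, ?_⟩
  · refine (Subgroup.normal_subgroupOf_iff_le_normalizer (Subgroup.map_subtype_le C)).1 ?_
    rw [hs]
    exact hC
  · exact isCyclic_of_surjective (C.equivMapOfInjective H.subtype H.subtype_injective)
      (C.equivMapOfInjective H.subtype H.subtype_injective).surjective
  · rwa [← Nat.card_congr (C.equivMapOfInjective H.subtype H.subtype_injective).toEquiv]
  · rw [Subgroup.relIndex, hs, hk]

/-- For a finite group G and a prime p there are an integer m not divisible by p and a ℤ-linear combination of functions induced from the constant function 1 on subgroups H, each having a cyclic normal subgroup of order prime to p and p-power index in H, that equals the constant function m. -/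
theorem result {G : Type*} [Group G] [Fintype G] (p : ℕ) (hp : p.Prime) : ∃ (m : ℤ) (a : Subgroup G → ℤ), ¬ (p : ℤ) ∣ m ∧ (∀ H, a H ≠ 0 → (∃ C : Subgroup G, C ≤ H ∧ H ≤ Subgroup.normalizer (C : Set G) ∧ IsCyclic C ∧ Nat.Coprime (Nat.card C) p ∧ ∃ k : ℕ, C.relIndex H = p ^ k)) ∧ (fun _ : G => (m : ℂ)) = ∑ H : Subgroup G, (a H : ℂ) • Cfsg.indFun H (fun _ => 1) := by
  classical
  obtain ⟨m, hm, hmem⟩ := Cfsg.Agent.CharLead.exists_const_mem_pSpan (G := G) hp
  suffices key : ∀ f : G → ℤ, f ∈ Cfsg.Agent.CharLead.pSpan G p → ∃ a : Subgroup G → ℤ,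
      (∀ H, a H ≠ 0 → Cfsg.Agent.Char.IsQuasiElem p H) ∧
      ∀ g, (f g : ℂ) = ∑ H : Subgroup G, (a H : ℂ) * Cfsg.indFun H (fun _ => 1) g by
    obtain ⟨a, ha, hag⟩ := key _ hmem
    refine ⟨m, a, hm, fun H hH => rel_form H (ha H hH), funext fun g => ?_⟩
    rw [Finset.sum_apply]
    exact hag g
  intro f hf
  induction hf using AddSubgroup.closure_induction with
  | mem f hf =>
    obtain ⟨K, hK, rfl⟩ := hf
    refine ⟨fun H => if H = K then 1 else 0, fun H hH => ?_, fun g => ?_⟩
    · by_cases h : H = K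
      · exact h ▸ hK
      · exact absurd (if_neg h) hH
    · rw [Finset.sum_eq_single K (fun H _ hne => by simp [if_neg hne]) (by simp)]
      simp [Cfsg.Agent.Char.indFun_one_eq_permFix]
  | zero => exact ⟨0, fun H hH => absurd rfl hH, fun g => by simp⟩
  | add u v _ _ hu hv =>
    obtain ⟨a, ha, hag⟩ := hu
    obtain ⟨b, hb, hbg⟩ := hv
    refine ⟨a + b, fun H hH => ?_, fun g => ?_⟩
    · by_cases h : a H = 0
      · exact hb H fun h' => hH (by rw [Pi.add_apply, h, h', add_zero])
      · exact ha H h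
    · simp only [Pi.add_apply, Int.cast_add, add_mul, Finset.sum_add_distrib, hag, hbg]
  | neg u _ hu =>
    obtain ⟨a, ha, hag⟩ := hu
    refine ⟨-a, fun H hH => ha H fun h => hH (by rw [Pi.neg_apply, h, neg_zero]), fun g => ?_⟩
    simp only [Pi.neg_apply, Int.cast_neg, neg_mul, Finset.sum_neg_distrib, hag]

end Cfsg.Agent.S0872
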