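import Cfsg.Statements.S0887
import Cfsg.Agent.Char.DegreeRatio

set_option autoImplicit false
set_option linter.all false
open Cfsg

namespace Cfsg.Agent.S0887

/-- Let N be a normal subgroup of the finite group G, χ an irreducible character of G and ϑ an irreducible character of N having nonzero inner product with the restriction of χ. If χ 1 = c and ϑ 1 = d as natural numbers, then d divides c and c / d divides the index of N. -/
theorem result {G : Type*} [Group G] [Fintype G] (N : Subgroup G) [N.Normal] [Fintype N] (χ : G → ℂ) (hχ : Cfsg.IsIrrCharacter G χ) (ϑ : N → ℂ) (hϑ : Cfsg.IsIrrCharacter N ϑ) (hcon : Cfsg.classInner (fun n : N => χ n) ϑ ≠ 0) (c d : ℕ) (hc : χ 1 = c) (hd : ϑ 1 = d) : d ∣ c ∧ c / d ∣ N.index := by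
  obtain ⟨k, hk, hdvd⟩ := Cfsg.Agent.Char.degree_ratio N ⟨χ, hχ⟩ ⟨ϑ, hϑ⟩ hcon
  have hd0 : 0 < d := by
    obtain ⟨n, hn, hn1⟩ := Cfsg.Agent.Char.irr_apply_one (⟨ϑ, hϑ⟩ : Cfsg.IrrCharacter N)
    have : d = n := by exact_mod_cast (hd.symm.trans hn1)
    omega
  have hck : c = k * d := by
    have : (c : ℂ) = (k : ℂ) * d := by rw [← hc, ← hd]; exact hk
    exact_mod_cast this
  rw [hck, Nat.mul_div_cancel _ hd0]
  exact ⟨dvd_mul_left d k, hdvd⟩

end Cfsg.Agent.S0887
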