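import Cfsg.Statements.S0894
import Cfsg.Agent.CharLead.Linear
import Cfsg.Agent.CharLead.Kernel
import Cfsg.Agent.Char.Integral
import Mathlib

set_option autoImplicit false
open Cfsg
set_option maxHeartbeats 1000000
open Cfsg.Agent.Char Cfsg.Agent.CharLead

namespace Cfsg.Agent.S0894

/-- Let P be an extraspecial p-group of order p ^ (2 * n + 1). Then every irreducible character of P has degree 1 or p ^ n, and exactly p - 1 of them have degree p ^ n. -/
theorem result {P : Type*} [Group P] [Finite P] (p n : ℕ) [Fact p.Prime] (hP : Cfsg.IsExtraspecial p P) (hcard : Nat.card P = p ^ (2 * n + 1)) : (∀ χ : Cfsg.IrrCharacter P, (χ : P → ℂ) 1 = 1 ∨ (χ : P → ℂ) 1 = (p : ℂ) ^ n) ∧ Nat.card {χ : Cfsg.IrrCharacter P // (χ : P → ℂ) 1 = (p : ℂ) ^ n} = p - 1 := by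
  classical
  haveI := Fintype.ofFinite P
  obtain ⟨⟨-, -, hcom⟩, hZcard⟩ := hP
  set Z := Subgroup.center P with hZdef
  have hp : p.Prime := Fact.out
  have hn : n ≠ 0 := by
    rintro rfl
    have htop : Z = ⊤ := Subgroup.eq_top_of_card_eq _ (by rw [hZcard, hcard, mul_zero, zero_add, pow_one])
    have hbot : commutator P = ⊥ := by
      rw [commutator_def, eq_bot_iff]
      refine Subgroup.commutator_le.2 fun a _ b _ => ?_
      rw [Subgroup.mem_bot, commutatorElement_eq_one_iff_mul_comm]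
      exact Subgroup.mem_center_iff.1 (htop ▸ Subgroup.mem_top b : b ∈ Z) a
    rw [hbot] at hcom
    rw [← hcom, Subgroup.card_bot] at hZcard
    exact hp.one_lt.ne hZcard
  have hdeg : ∀ χ : Cfsg.IrrCharacter P, (χ : P → ℂ) 1 = 1 ∨ (χ : P → ℂ) 1 = (p : ℂ) ^ n := by
    intro χ
    obtain ⟨d, hd0, hd⟩ := irr_apply_one χ
    obtain ⟨m, ρ, hρ, hχ⟩ := χ.2
    haveI := hρ
    haveI : IsCyclic Z := isCyclic_of_prime_card hZcard
    by_cases htriv : ∀ z ∈ Z, ρ z = 1
    · left
      obtain ⟨ψ, hψ, hψe⟩ := isIrrCharacter_descend Z χ.2 fun z hz => by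
        rw [← hχ]; exact (rep_eq_one_iff_char ρ z).2 (htriv z hz)
      rw [hψe 1, map_one]
      refine irr_apply_one_eq_one_of_comm (A := P ⧸ Z) ?_ ⟨ψ, hψ⟩
      intro a b
      obtain ⟨a, rfl⟩ := QuotientGroup.mk_surjective a
      obtain ⟨b, rfl⟩ := QuotientGroup.mk_surjective b
      rw [← QuotientGroup.mk_mul, ← QuotientGroup.mk_mul, QuotientGroup.eq]
      have : (a * b)⁻¹ * (b * a) = b⁻¹ * a⁻¹ * b⁻¹⁻¹ * a⁻¹⁻¹ := by group
      rw [this, ← hcom]
      exact Subgroup.commutator_mem_commutator (Subgroup.mem_top b⁻¹) (Subgroup.mem_top a⁻¹)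
    right
    obtain ⟨z₀, hz₀, hz₀1⟩ : ∃ z ∈ Z, ρ z ≠ 1 := by
      by_contra h; exact htriv fun z hz => by_contra fun h' => h ⟨z, hz, h'⟩
    have hscal : ∀ z ∈ Z, ∃ c : ℂ, ρ z = c • LinearMap.id := fun z hz =>
      exists_smul_id_of_commute ρ (ρ z) fun g => by
        rw [← map_mul, ← map_mul, Subgroup.mem_center_iff.1 hz g]
    have hinj : ∀ z ∈ Z, ρ z = 1 → z = 1 := by
      intro z hz h1
      by_contra hne
      have h := mem_zpowers_of_prime_card (p := p) hZcard (g := (⟨z, hz⟩ : Z)) (g' := ⟨z₀, hz₀⟩)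
        fun e => hne (congrArg (fun w : Z => (w : P)) e)
      obtain ⟨i, hi⟩ := Subgroup.mem_zpowers_iff.1 h
      have he : z ^ i = z₀ := by simpa using congrArg (fun w : Z => (w : P)) hi
      have hk : z ∈ MonoidHom.ker ρ := h1
      exact hz₀1 (he ▸ zpow_mem hk i)
    have hzero : ∀ x : P, x ∉ Z → (χ : P → ℂ) x = 0 := by
      intro x hx
      obtain ⟨g, hg⟩ : ∃ g : P, g * x * g⁻¹ * x⁻¹ ≠ 1 := by
        by_contra hne
        push Not at hne
        exact hx (Subgroup.mem_center_iff.2 fun g => by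
          have h := hne g
          calc g * x = g * x * g⁻¹ * x⁻¹ * x * g := by group
            _ = x * g := by rw [h, one_mul])
      have hz : g * x * g⁻¹ * x⁻¹ ∈ Z := by
        rw [← hcom]; exact Subgroup.commutator_mem_commutator (Subgroup.mem_top g) (Subgroup.mem_top x)
      obtain ⟨c, hc⟩ := hscal _ hz
      by_contra hx0
      have h1 : ρ.character ((g * x * g⁻¹ * x⁻¹) * x) = c * ρ.character x := by
        show LinearMap.trace ℂ _ (ρ _) = c * LinearMap.trace ℂ _ (ρ x)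
        rw [map_mul, hc, smul_mul_assoc, map_smul, smul_eq_mul]
        rfl
      rw [inv_mul_cancel_right, ρ.char_conj x g] at h1
      rw [← hχ] at hx0
      have hc1 : c = 1 := (mul_eq_right₀ hx0).1 h1.symm
      exact hg (hinj _ hz (by rw [hc, hc1, one_smul]; rfl))
    have hone := classInner_irr_self χ
    simp only [Cfsg.classInner] at hone
    rw [← Finset.sum_filter_add_sum_filter_not Finset.univ (fun g : P => g ∈ Z),
      Finset.sum_eq_zero (s := Finset.univ.filter fun g : P => g ∉ Z) (fun g hg => by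
        rw [hzero g (Finset.mem_filter.1 hg).2, zero_mul]), add_zero,
      Finset.sum_congr rfl (fun g hg => by
        rw [Complex.mul_conj']
        obtain ⟨c, hc⟩ := hscal g (Finset.mem_filter.1 hg).2
        have := (norm_char_eq_iff ρ g).2 ⟨c, hc⟩
        rw [hχ] at this
        rw [this, Complex.ofReal_natCast] :
        ∀ g ∈ Finset.univ.filter (fun g : P => g ∈ Z), (χ : P → ℂ) g * (starRingEnd ℂ) ((χ : P → ℂ) g)
          = (Module.finrank ℂ (Fin m → ℂ) : ℂ) ^ 2), Finset.sum_const, nsmul_eq_mul, ← Fintype.card_subtype,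
      ← Nat.card_eq_fintype_card, show Nat.card {x : P // x ∈ Z} = p from hZcard, hcard,
      inv_mul_eq_iff_eq_mul₀ (by exact_mod_cast (pow_pos hp.pos _).ne'), mul_one, Module.finrank_fin_fun] at hone
    have h2 : p * m ^ 2 = p ^ (2 * n + 1) := by exact_mod_cast hone
    have h4 : p * m ^ 2 = p * (p ^ n) ^ 2 := by rw [h2]; ring
    have h3 : m = p ^ n := Nat.pow_left_injective two_ne_zero (Nat.eq_of_mul_eq_mul_left hp.pos h4)
    rw [← hχ, ρ.char_one, Module.finrank_fin_fun, h3, Nat.cast_pow]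
  refine ⟨hdeg, ?_⟩
  have hne : (p : ℂ) ^ n ≠ 1 := by
    intro e
    have : p ^ n = 1 := by exact_mod_cast e
    exact (Nat.one_lt_pow hn hp.one_lt).ne' this
  have hindex : (commutator P).index = p ^ (2 * n) := by
    have h := (commutator P).card_mul_index
    rw [show Nat.card (commutator P) = p by rw [hcom]; exact hZcard, hcard, pow_succ'] at h
    exact Nat.eq_of_mul_eq_mul_left hp.pos h
  have hlin := card_linear (G := P)
  rw [hindex, Nat.card_eq_fintype_card, Fintype.card_subtype] at hlin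
  have hsum := sum_irr_sq (G := P)
  rw [← Finset.sum_filter_add_sum_filter_not Finset.univ (fun χ : Cfsg.IrrCharacter P => (χ : P → ℂ) 1 = 1),
    Finset.sum_congr rfl (fun χ hχ => by rw [(Finset.mem_filter.1 hχ).2, one_pow] :
      ∀ χ ∈ Finset.univ.filter (fun χ : Cfsg.IrrCharacter P => (χ : P → ℂ) 1 = 1), (χ : P → ℂ) 1 ^ 2 = 1),
    Finset.sum_congr rfl (fun χ hχ => by rw [(hdeg χ).resolve_left (Finset.mem_filter.1 hχ).2] :
      ∀ χ ∈ Finset.univ.filter (fun χ : Cfsg.IrrCharacter P => ¬ (χ : P → ℂ) 1 = 1), (χ : P → ℂ) 1 ^ 2 = ((p : ℂ) ^ n) ^ 2),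
    Finset.sum_const, Finset.sum_const, hlin, hcard] at hsum
  rw [Nat.card_eq_fintype_card, Fintype.card_subtype]
  have hset : (Finset.univ.filter fun χ : Cfsg.IrrCharacter P => (χ : P → ℂ) 1 = (p : ℂ) ^ n)
      = Finset.univ.filter fun χ : Cfsg.IrrCharacter P => ¬ (χ : P → ℂ) 1 = 1 :=
    Finset.filter_congr fun χ _ => ⟨fun e h => hne (e.symm.trans h), fun h => (hdeg χ).resolve_left h⟩
  rw [hset]
  generalize (Finset.univ.filter fun χ : Cfsg.IrrCharacter P => ¬ (χ : P → ℂ) 1 = 1).card = N at *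
  simp only [nsmul_eq_mul, mul_one] at hsum
  have h2 : p ^ (2 * n) + N * (p ^ n) ^ 2 = p ^ (2 * n + 1) := by exact_mod_cast hsum
  rw [← pow_mul, mul_comm n 2, pow_succ'] at h2
  have h3 : (1 + N) * p ^ (2 * n) = p * p ^ (2 * n) := by rw [add_mul, one_mul, h2]
  have := Nat.eq_of_mul_eq_mul_right (pow_pos hp.pos _) h3
  omega

end Cfsg.Agent.S0894
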