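import Cfsg.Statements.S0895
import Cfsg.Agent.Solv.SquareRoots
import Mathlib

set_option autoImplicit false
open Cfsg
set_option maxHeartbeats 800000
open scoped Kronecker BigOperators ComplexConjugate Matrix

namespace Cfsg.Agent.S0895

/-- Let χ be a real-valued irreducible character of a finite group G whose degree is an odd natural number. Then the average over s in G of χ (s * s) equals 1. -/
theorem result {G : Type*} [Group G] [Fintype G] (χ : G → ℂ) (hχ : Cfsg.IsIrrCharacter G χ) (hreal : ∀ g : G, (χ g).im = 0) (d : ℕ) (hd : χ 1 = d) (hodd : Odd d) : (Nat.card G : ℂ)⁻¹ * ∑ s : G, χ (s * s) = 1 := by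
  classical
  obtain ⟨n, ρ, hirr, rfl⟩ := hχ
  let A : G → Matrix (Fin n) (Fin n) ℂ := fun g => LinearMap.toMatrix' (ρ g)
  have hA : ∀ g h, A (g * h) = A g * A h := fun g h => by
    show LinearMap.toMatrix' (ρ (g * h)) = _
    rw [map_mul, LinearMap.toMatrix'_mul]
  let K : G → Matrix (Fin n × Fin n) (Fin n × Fin n) ℂ := fun g => A g ⊗ₖ A g
  have hK : ∀ g h, K g * K h = K (g * h) := fun g h => by
    show A g ⊗ₖ A g * (A h ⊗ₖ A h) = A (g * h) ⊗ₖ A (g * h)
    rw [hA, Matrix.mul_kronecker_mul]
  let c : ℂ := (Nat.card G : ℂ)⁻¹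
  have hc : c * (Nat.card G : ℂ) = 1 := inv_mul_cancel₀ (by exact_mod_cast Nat.card_pos.ne')
  let E : Matrix (Fin n × Fin n) (Fin n × Fin n) ℂ := c • ∑ g : G, K g
  have hKE : ∀ g, K g * E = E := fun g => by
    show K g * (c • _) = c • _
    rw [Matrix.mul_smul, Finset.mul_sum]
    congr 1
    simp only [hK]
    exact Equiv.sum_comp (Equiv.mulLeft g) K
  have hEE : E * E = E := by
    show (c • ∑ g : G, K g) * E = E
    rw [Matrix.smul_mul, Finset.sum_mul]
    simp only [hKE, Finset.sum_const, Finset.card_univ, ← Nat.card_eq_fintype_card]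
    rw [← Nat.cast_smul_eq_nsmul ℂ, smul_smul, hc, one_smul]
  let S : Matrix (Fin n × Fin n) (Fin n × Fin n) ℂ := fun i j => if i.swap = j then 1 else 0
  have hSmul : ∀ (M : Matrix (Fin n × Fin n) (Fin n × Fin n) ℂ) i j, (S * M) i j = M i.swap j := by
    intro M i j; rw [Matrix.mul_apply]; simp [S]
  have hmulS : ∀ (M : Matrix (Fin n × Fin n) (Fin n × Fin n) ℂ) i j, (M * S) i j = M i j.swap := by
    intro M i j
    rw [Matrix.mul_apply, Finset.sum_eq_single j.swap]
    · simp [S]
    · intro b _ hb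
      have : b.swap ≠ j := fun h => hb (by rw [← h, Prod.swap_swap])
      simp [S, this]
    · simp
  have hSK : ∀ g, S * K g = K g * S := fun g => by
    ext i j
    rw [hSmul, hmulS]
    simp [K, Matrix.kroneckerMap_apply, mul_comm]
  have hSE : S * E = E * S := by
    show S * (c • _) = (c • _) * S
    rw [Matrix.mul_smul, Matrix.smul_mul, Finset.mul_sum, Finset.sum_mul]
    simp only [hSK]
  have hSS : S * S = 1 := by
    ext i j
    rw [hSmul]
    simp [S, Matrix.one_apply, Prod.swap_swap]
  have htrA : ∀ g, ρ.character g = (A g).trace := fun g => by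
    show LinearMap.trace ℂ _ (ρ g) = _
    rw [LinearMap.trace_eq_matrix_trace ℂ (Pi.basisFun ℂ (Fin n)), LinearMap.toMatrix_eq_toMatrix']
  have htrE : E.trace = 1 := by
    have h := Cfsg.Agent.Char.classInner_irr_self (⟨ρ.character, n, ρ, hirr, rfl⟩ : Cfsg.IrrCharacter G)
    rw [Cfsg.classInner] at h
    rw [← h]
    show (c • ∑ g : G, K g).trace = _
    rw [Matrix.trace_smul, Matrix.trace_sum, smul_eq_mul]
    congr 1
    refine Finset.sum_congr rfl fun g _ => ?_
    rw [Complex.conj_eq_iff_im.2 (hreal g)]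
    show (K g).trace = ρ.character g * ρ.character g
    rw [htrA]
    exact Matrix.trace_kronecker (A g) (A g)
  have hfs : (Nat.card G : ℂ)⁻¹ * ∑ s : G, ρ.character (s * s) = (S * E).trace := by
    show c * _ = (S * (c • _)).trace
    rw [Matrix.mul_smul, Matrix.trace_smul, smul_eq_mul]
    congr 1
    rw [Finset.mul_sum, Matrix.trace_sum]
    refine Finset.sum_congr rfl fun g _ => ?_
    rw [htrA, hA]
    simp only [Matrix.trace, Matrix.diag, hSmul, Fintype.sum_prod_type]
    simp [K, Matrix.mul_apply, Matrix.kroneckerMap_apply]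
    rw [Finset.sum_comm]
  rw [hfs]
  have hidem : IsIdempotentElem E.toLin' := by
    show E.toLin' * E.toLin' = E.toLin'
    rw [Module.End.mul_eq_comp, ← Matrix.toLin'_mul, hEE]
  have hproj := LinearMap.IsIdempotentElem.isProj_range _ hidem
  have hrank : Module.finrank ℂ (LinearMap.range E.toLin') = 1 := by
    have h := LinearMap.IsProj.trace hproj
    rw [Matrix.trace_toLin'_eq, htrE] at h
    exact_mod_cast h.symm
  obtain ⟨⟨v, hv⟩, hv0, hvspan⟩ := finrank_eq_one_iff'.1 hrank
  have hv0' : v ≠ 0 := fun e => hv0 (Subtype.ext e)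
  have hEv : E *ᵥ v = v := hproj.map_id v hv
  obtain ⟨t, ht⟩ : ∃ t : ℂ, S *ᵥ v = t • v := by
    have hm : S *ᵥ v ∈ LinearMap.range E.toLin' := ⟨S *ᵥ v, by
      rw [Matrix.toLin'_apply, Matrix.mulVec_mulVec, ← hSE, ← Matrix.mulVec_mulVec, hEv]⟩
    obtain ⟨t, ht⟩ := hvspan ⟨_, hm⟩
    exact ⟨t, (congrArg Subtype.val ht).symm⟩
  have ht2 : t * t = 1 := by
    have h : v = (t * t) • v := by
      conv_lhs => rw [← Matrix.one_mulVec v, ← hSS, ← Matrix.mulVec_mulVec, ht, Matrix.mulVec_smul, ht,
        smul_smul]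
    by_contra hne
    have h2 : ((1 : ℂ) - t * t) • v = 0 := by rw [sub_smul, one_smul, ← h, sub_self]
    rcases smul_eq_zero.1 h2 with h3 | h3
    · exact hne (sub_eq_zero.1 h3).symm
    · exact hv0' h3
  have hSEt : S * E = t • E := by
    apply Matrix.toLin'.injective
    refine LinearMap.ext fun x => ?_
    obtain ⟨a, ha⟩ := hvspan ⟨E *ᵥ x, ⟨x, Matrix.toLin'_apply _ _⟩⟩
    have ha' : a • v = E *ᵥ x := congrArg Subtype.val ha
    show (S * E).toLin' x = (t • E).toLin' x
    clear_value E
    rw [Matrix.toLin'_apply, Matrix.toLin'_apply, ← Matrix.mulVec_mulVec, Matrix.smul_mulVec, ← ha',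
      Matrix.mulVec_smul, ht, smul_comm]
  rcases mul_self_eq_one_iff.1 ht2 with rfl | rfl
  · rw [hSEt, one_smul, htrE]
  exfalso
  have hKv : ∀ g, K g *ᵥ v = v := fun g => by
    conv_lhs => rw [← hEv, Matrix.mulVec_mulVec, hKE, hEv]
  let M : Matrix (Fin n) (Fin n) ℂ := Matrix.of fun i j => v (i, j)
  have hMT : M.transpose = -M := by
    ext i j
    have h := congrFun ht (i, j)
    rw [Pi.smul_apply, smul_eq_mul, neg_one_mul] at h
    show v (j, i) = -v (i, j)
    rw [← h]
    simp [Matrix.mulVec, dotProduct, S]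
  have hinv : ∀ g, A g * M * (A g).transpose = M := fun g => by
    ext i j
    show _ = v (i, j)
    have := congrFun (hKv g) (i, j)
    rw [← this]
    simp [Matrix.mulVec, dotProduct, Matrix.mul_apply, K, M, Fintype.sum_prod_type, Finset.sum_mul]
    rw [Finset.sum_comm]
    exact Finset.sum_congr rfl fun a _ => Finset.sum_congr rfl fun b _ => by ring
  have hA1 : A 1 = 1 := by
    show LinearMap.toMatrix' (ρ 1) = 1
    rw [map_one, LinearMap.toMatrix'_one]
  have hcomm : ∀ g, A g * M = M * (A g⁻¹).transpose := fun g => by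
    calc A g * M = A g * M * (A g).transpose * (A g⁻¹).transpose := by
          rw [mul_assoc (A g * M), ← Matrix.transpose_mul, ← hA, inv_mul_cancel, hA1, Matrix.transpose_one,
            mul_one]
      _ = _ := by rw [hinv]
  let W : Subrepresentation ρ := ⟨LinearMap.range M.toLin', by
    rintro g _ ⟨x, rfl⟩
    refine ⟨(A g⁻¹).transpose *ᵥ x, ?_⟩
    have e : ρ g (M *ᵥ x) = A g *ᵥ (M *ᵥ x) := (LinearMap.toMatrix'_mulVec (ρ g) (M *ᵥ x)).symm
    rw [Matrix.toLin'_apply, Matrix.toLin'_apply, Matrix.mulVec_mulVec, ← hcomm, e, Matrix.mulVec_mulVec]⟩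
  haveI := hirr
  have hW : W = ⊥ ∨ W = ⊤ := IsSimpleOrder.eq_bot_or_eq_top W
  have hM0 : M ≠ 0 := fun e => hv0' (funext fun p => congrFun (congrFun e p.1) p.2)
  have hsurj : Function.Surjective M.toLin' := by
    rcases hW with h | h
    · exfalso
      apply hM0
      apply Matrix.toLin'.injective
      rw [map_zero]
      exact LinearMap.range_eq_bot.1 (congrArg Subrepresentation.toSubmodule h)
    · exact LinearMap.range_eq_top.1 (congrArg Subrepresentation.toSubmodule h)
  have hdet : M.det ≠ 0 := by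
    rw [← isUnit_iff_ne_zero, ← Matrix.isUnit_iff_isUnit_det]
    exact (Matrix.mulVec_surjective_iff_isUnit).1 hsurj
  have hn : n = d := by
    have := Representation.char_one ρ
    rw [hd, Module.finrank_fin_fun] at this
    exact_mod_cast this.symm
  have h := congrArg Matrix.det hMT
  rw [Matrix.det_transpose, Matrix.det_neg, Fintype.card_fin, Odd.neg_one_pow (show Odd n by rw [hn]; exact hodd), neg_one_mul] at h
  exact hdet (by linear_combination h / 2)

end Cfsg.Agent.S0895
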