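import Cfsg.Statements.S0900
import Cfsg.Agent.CharLead.Basic
import Cfsg.Agent.Char.Induced
import Mathlib

set_option autoImplicit false
open Cfsg
open scoped ComplexConjugate
open Cfsg.Agent.Char Cfsg.Agent.CharLead

namespace Cfsg.Agent.S0900

/-- Let N be a normal subgroup of the finite group G, χ an irreducible character of G and ϑ an irreducible character of N having nonzero inner product with the restriction of χ. Consider: (a) the restriction of χ to N is e • ϑ for a natural number e with e ^ 2 equal to the index of N; (b) χ vanishes outside N and ϑ is invariant under conjugation by G; (c) ϑ is invariant and every irreducible character of G having nonzero inner product with the function induced from ϑ equals χ. Then (a) ↔ (b) and (a) ↔ (c). -/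
theorem result {G : Type*} [Group G] [Fintype G] (N : Subgroup G) [hN : N.Normal] [Fintype N] (χ : G → ℂ) (hχ : Cfsg.IsIrrCharacter G χ) (ϑ : N → ℂ) (hϑ : Cfsg.IsIrrCharacter N ϑ) (hcon : Cfsg.classInner (fun n : N => χ n) ϑ ≠ 0) : ((∃ e : ℕ, (fun n : N => χ n) = (e : ℂ) • ϑ ∧ e ^ 2 = N.index) ↔ ((∀ g : G, g ∉ N → χ g = 0) ∧ ∀ (g : G) (n : N), ϑ ⟨g * n * g⁻¹, hN.conj_mem (n : G) n.2 g⟩ = ϑ n)) ∧ ((∃ e : ℕ, (fun n : N => χ n) = (e : ℂ) • ϑ ∧ e ^ 2 = N.index) ↔ (∀ (g : G) (n : N), ϑ ⟨g * n * g⁻¹, hN.conj_mem (n : G) n.2 g⟩ = ϑ n ∧ ∀ ψ : G → ℂ, Cfsg.IsIrrCharacter G ψ → Cfsg.classInner (Cfsg.indFun N ϑ) ψ ≠ 0 → ψ = χ)) := by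
  classical
  let θ : Cfsg.IrrCharacter N := ⟨ϑ, hϑ⟩
  let X : Cfsg.IrrCharacter G := ⟨χ, hχ⟩
  obtain ⟨e, he⟩ := exists_nat_classInner (isCharacter_comp (isCharacter_of_isIrrCharacter hχ) N.subtype) θ
  have he' : Cfsg.classInner (fun n : N => χ n) ϑ = e := he
  have hinvEq : (∀ (g : G) (n : N), ϑ ⟨g * n * g⁻¹, hN.conj_mem (n : G) n.2 g⟩ = ϑ n) ↔
      ∀ g : G, conjFn N ϑ g = ϑ :=
    ⟨fun h g => funext (h g), fun h g n => congrFun (h g) n⟩
  have hres : (∀ g : G, conjFn N ϑ g = ϑ) → (fun n : N => χ n) = (e : ℂ) • ϑ := by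
    intro hinv
    have h := res_eq_smul_sum_conj N X θ hcon
    have hset : {ψ : N → ℂ | ∃ g : G, ψ = conjFn N (θ : N → ℂ) g} = {ϑ} := by
      ext ψ
      refine ⟨?_, fun e => ⟨1, by rw [conjFn_one]; exact e⟩⟩
      rintro ⟨g, rfl⟩
      exact hinv g
    rw [hset, finsum_mem_singleton] at h
    rw [← he']
    exact h
  have hinvA : ∀ k : ℕ, (fun n : N => χ n) = (k : ℂ) • ϑ → (k = e) ∧ ∀ g : G, conjFn N ϑ g = ϑ := by
    intro k hk
    have hke : k = e := by
      have h := he'
      rw [hk, classInner_smul_left, classInner_irr_self θ, mul_one] at h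
      exact_mod_cast h
    refine ⟨hke, fun g => ?_⟩
    have hk0 : (k : ℂ) ≠ 0 := by
      rw [hke]
      intro h
      exact hcon (by rw [he', h])
    funext n
    have h1 := congrFun hk (⟨g * n * g⁻¹, hN.conj_mem (n : G) n.2 g⟩ : N)
    have h2 := congrFun hk n
    simp only [Pi.smul_apply, smul_eq_mul] at h1 h2
    rw [show χ (g * n * g⁻¹) = χ n from (irr_eq_of_isConj X (isConj_iff.2 ⟨g, rfl⟩)).symm, h2] at h1
    exact (mul_left_cancel₀ hk0 h1.symm)
  have hNc : (Nat.card N : ℂ) ≠ 0 := by exact_mod_cast Nat.card_pos.ne'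
  -- the norm of χ split into the part inside and outside N
  have hsplit : ∀ (_ : (fun n : N => χ n) = (e : ℂ) • ϑ),
      (Nat.card G : ℂ) = (e : ℂ) ^ 2 * Nat.card N + ∑ g ∈ Finset.univ.filter (fun g : G => g ∉ N), χ g * conj (χ g) := by
    intro hr
    have h1 := classInner_irr_self X
    simp only [Cfsg.classInner] at h1
    rw [inv_mul_eq_iff_eq_mul₀ (by exact_mod_cast Nat.card_pos.ne'), mul_one] at h1
    rw [← h1, ← Finset.sum_filter_add_sum_filter_not Finset.univ (fun g : G => g ∈ N)]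
    congr 1
    have h2 := classInner_irr_self θ
    simp only [Cfsg.classInner] at h2
    rw [inv_mul_eq_iff_eq_mul₀ hNc, mul_one] at h2
    rw [← h2, Finset.mul_sum, ← Finset.sum_subtype_eq_sum_filter, Finset.subtype_univ]
    refine Finset.sum_congr rfl fun n _ => ?_
    have h3 := congrFun hr n
    simp only [Pi.smul_apply, smul_eq_mul] at h3
    rw [show (X : G → ℂ) n = χ n from rfl, h3, map_mul, Complex.conj_natCast]
    ring
  have hexp : (∀ g : G, conjFn N ϑ g = ϑ) → ∃ c : Cfsg.IrrCharacter G → ℕ,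
      (∀ ξ : Cfsg.IrrCharacter G, Cfsg.classInner (Cfsg.indFun N ϑ) (ξ : G → ℂ) = c ξ) ∧ c X = e ∧
        ∑ ξ, c ξ ^ 2 = N.index := by
    intro hinv
    choose c hc using fun ξ : Cfsg.IrrCharacter G =>
      exists_nat_classInner (indFun_isCharacter N (isCharacter_of_isIrrCharacter hϑ)) ξ
    refine ⟨c, hc, ?_, ?_⟩
    · have h := classInner_indFun N ϑ (irr_isClassFunction X)
      rw [hc, ← classInner_conj_symm] at h
      rw [show Cfsg.classInner (fun n : N => (X : G → ℂ) n) ϑ = (e : ℂ) from he', Complex.conj_natCast] at h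
      exact_mod_cast h
    · have h := classInner_indFun_irr N θ θ
      have hall : Nat.card {x : G // conjFn N (θ : N → ℂ) x = θ} = Nat.card G :=
        Nat.card_congr (Equiv.subtypeUnivEquiv hinv)
      rw [hall, ← N.card_mul_index, Nat.cast_mul] at h
      have h2 := mul_left_cancel₀ hNc h
      have h3 : Cfsg.classInner (Cfsg.indFun N ϑ) (Cfsg.indFun N ϑ) = ∑ ξ, (c ξ : ℂ) ^ 2 := by
        conv_lhs => arg 1; rw [classFunction_expand (indFun_isClassFunction N ϑ)]
        rw [classInner_sum_left]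
        refine Finset.sum_congr rfl fun ξ _ => ?_
        rw [classInner_smul_left, hc, ← classInner_conj_symm (Cfsg.indFun N ϑ), hc, Complex.conj_natCast, sq]
      rw [show Cfsg.classInner (Cfsg.indFun N (θ : N → ℂ)) (Cfsg.indFun N (θ : N → ℂ)) = _ from h3] at h2
      exact_mod_cast h2
  constructor
  · constructor
    · rintro ⟨k, hk, hk2⟩
      obtain ⟨rfl, hinv⟩ := hinvA k hk
      refine ⟨?_, hinvEq.2 hinv⟩
      intro g hg
      have h := hsplit hk
      rw [← N.card_mul_index, Nat.cast_mul, ← hk2, Nat.cast_pow, mul_comm] at h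
      have h0 : (∑ x ∈ Finset.univ.filter (fun x : G => x ∉ N), χ x * conj (χ x)) = 0 := by
        linear_combination -h
      simp only [Complex.mul_conj] at h0
      rw [← Complex.ofReal_sum] at h0
      have h1 := (Finset.sum_eq_zero_iff_of_nonneg fun x _ => Complex.normSq_nonneg (χ x)).1
        (Complex.ofReal_eq_zero.1 h0) g (Finset.mem_filter.2 ⟨Finset.mem_univ g, hg⟩)
      exact Complex.normSq_eq_zero.1 h1
    · rintro ⟨hz, hinv⟩
      refine ⟨e, hres (hinvEq.1 hinv), ?_⟩
      have h := hsplit (hres (hinvEq.1 hinv))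
      rw [Finset.sum_eq_zero (fun g hg => by rw [hz g (Finset.mem_filter.1 hg).2, zero_mul]), add_zero,
        ← N.card_mul_index, Nat.cast_mul] at h
      have h2 : (N.index : ℂ) = (e : ℂ) ^ 2 := mul_left_cancel₀ hNc (by linear_combination h)
      exact_mod_cast h2.symm
  · constructor
    · rintro ⟨k, hk, hk2⟩ g n
      obtain ⟨rfl, hinv⟩ := hinvA k hk
      refine ⟨hinvEq.2 hinv g n, fun ψ hψ hne => ?_⟩
      obtain ⟨c, hc, hcX, hcs⟩ := hexp hinv
      rw [← Finset.add_sum_erase _ _ (Finset.mem_univ X), hcX, hk2] at hcs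
      by_contra hψX
      refine hne ?_
      have hz := (Finset.sum_eq_zero_iff.1 (Nat.add_eq_left.1 hcs)) (⟨ψ, hψ⟩ : Cfsg.IrrCharacter G)
        (Finset.mem_erase.2 ⟨fun h => hψX (congrArg Subtype.val h), Finset.mem_univ _⟩)
      rw [show Cfsg.classInner (Cfsg.indFun N ϑ) ψ = _ from hc ⟨ψ, hψ⟩, pow_eq_zero_iff two_ne_zero |>.1 hz, Nat.cast_zero]
    · intro h
      have hinv : ∀ g : G, conjFn N ϑ g = ϑ := fun g => funext fun n => (h g n).1
      obtain ⟨c, hc, hcX, hcs⟩ := hexp hinv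
      refine ⟨e, hres hinv, ?_⟩
      rw [← hcs, Finset.sum_eq_single X, hcX]
      · intro ξ _ hne
        rw [show c ξ = 0 from by_contra fun h0 => hne (Subtype.ext ((h 1 1).2 _ ξ.2 (by
          rw [hc]; exact_mod_cast h0)))]
        rfl
      · simp

end Cfsg.Agent.S0900
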