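import Cfsg.Statements.S0905
import Cfsg.Agent.Blocks.Nilpotent
import Cfsg.Agent.Solv.Cores

set_option autoImplicit false
set_option linter.all false
open Cfsg

namespace Cfsg.Agent.S0905

/-- Let F be a field of characteristic p and let g be an element of the finite group G no conjugate of which centralizes O_p(G). Then the class sum of g is a nilpotent element of the group algebra F[G]. -/
theorem result {G : Type*} [Group G] [Finite G] (p : ℕ) [Fact p.Prime] (F : Type*) [Field F] [CharP F p] (g : G) (hg : ∀ x : G, IsConj g x → x ∉ Subgroup.centralizer (Cfsg.pCore p G : Set G)) : IsNilpotent (∑ᶠ x ∈ ConjClasses.carrier (ConjClasses.mk g), MonoidAlgebra.single x (1 : F) : MonoidAlgebra F G) := by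
  classical
  haveI := (Solv.pCore_mem (G := G) p).1
  haveI := Fintype.ofFinite G
  refine Blocks.isNilpotent_of_vanish_centralizer (Cfsg.pCore p G)
    (Solv.pCore_mem (G := G) p).2 _ (fun h y => ?_) fun x hx => ?_
  all_goals
    rw [finsum_mem_eq_finite_toFinset_sum _ (Set.toFinite _)]
    simp only [MonoidAlgebra.coeff_sum, Finsupp.finsetSum_apply, MonoidAlgebra.coeff_single,
      Finsupp.single_apply, Finset.sum_ite_eq', Set.Finite.mem_toFinset,
      ConjClasses.mem_carrier_iff_mk_eq]
  · have : ConjClasses.mk (y * h * y⁻¹) = ConjClasses.mk h :=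
      ConjClasses.mk_eq_mk_iff_isConj.2 (isConj_iff.2 ⟨y⁻¹, by simp [mul_assoc]⟩)
    rw [this]
  · rw [if_neg]
    intro h
    exact hg x (ConjClasses.mk_eq_mk_iff_isConj.1 h).symm hx

end Cfsg.Agent.S0905
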