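import Cfsg.Statements.S0911
import Cfsg.Agent.Blocks.Defect

set_option autoImplicit false
set_option linter.all false
open Cfsg

namespace Cfsg.Agent.S0911

/-- The min–max Theorem for defect classes. Let B be a block of the finite group G relative to a maximal ideal M of the algebraic integers containing the prime p, let g represent a defect class of B and let D be a Sylow p-subgroup of the centralizer of g (viewed in G). For any h: (a) if the idempotent coefficient of B at h is a local integer outside the local ideal, then some conjugate of D contains a Sylow p-subgroup of the centralizer of h; (b) if the central character of some member of B at h is outside the local ideal, then some conjugate of D is contained in a Sylow p-subgroup of the centralizer of h. -/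
theorem result {G : Type*} [Group G] [Finite G] (p : ℕ) [Fact p.Prime] (M : Ideal Cfsg.AlgInt) (hM : Cfsg.IsPModular p M) (B : Set (Cfsg.IrrCharacter G)) (hB : Cfsg.IsPBlock M B) (g : G) (hg : Cfsg.IsDefectClass M B g) (D : Sylow p (Subgroup.centralizer ({g} : Set G))) (h : G) : (Cfsg.MemLocalRing M (Cfsg.blockCoeff B h) → ¬ Cfsg.MemLocalIdeal M (Cfsg.blockCoeff B h) → ∃ (x : G) (Q : Sylow p (Subgroup.centralizer ({h} : Set G))), (Q : Subgroup (Subgroup.centralizer ({h} : Set G))).map (Subgroup.centralizer ({h} : Set G)).subtype ≤ ((D : Subgroup (Subgroup.centralizer ({g} : Set G))).map (Subgroup.centralizer ({g} : Set G)).subtype).map (MulAut.conj x).toMonoidHom) ∧ ((∃ χ ∈ B, ¬ Cfsg.MemLocalIdeal M (Cfsg.centralChar (χ : G → ℂ) h)) → ∃ (x : G) (Q : Sylow p (Subgroup.centralizer ({h} : Set G))), ((D : Subgroup (Subgroup.centralizer ({g} : Set G))).map (Subgroup.centralizer ({g} : Set G)).subtype).map (MulAut.conj x).toMonoidHom ≤ (Q : Subgroup (Subgroup.centralizer ({h} : Set G))).map (Subgroup.centralizer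 ({h} : Set G)).subtype) := by
  have hD' : Cfsg.IsDefectGroup p M B _ := ⟨g, hg, D, rfl⟩
  refine ⟨fun _ hh => ?_, ?_⟩
  · let Q := Classical.arbitrary (Sylow p (Subgroup.centralizer ({h} : Set G)))
    have hQ := Cfsg.Agent.Blocks.maxP_of_sylow Q
    obtain ⟨x, hx⟩ := Cfsg.Agent.Blocks.cj_le_defect hM hB hD' hh hQ.2.1 hQ.1
    refine ⟨x⁻¹, Q, ?_⟩
    have h2 := Cfsg.Agent.Blocks.cj_mono x⁻¹ hx
    rw [Cfsg.Agent.Blocks.cj_inv_self] at h2
    exact h2
  · rintro ⟨χ, hχ, hω⟩
    obtain ⟨y, hy, hyD⟩ := Cfsg.Agent.Blocks.defect_le_centralizer hM hB hD' hχ hω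
    obtain ⟨a, ha⟩ := isConj_iff.1 hy.symm
    have h1 := Cfsg.Agent.Blocks.cj_le_centralizer hyD a
    rw [ha] at h1
    obtain ⟨E, hE, hDE⟩ := Cfsg.Agent.Blocks.exists_maxP h1
      (Cfsg.Agent.Blocks.isPGroup_cj (Cfsg.Agent.Blocks.maxP_of_sylow D).2.1 a)
    obtain ⟨Q, rfl⟩ := Cfsg.Agent.Blocks.exists_sylow_of_maxP hE
    exact ⟨a, Q, hDE⟩

end Cfsg.Agent.S0911
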