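import Cfsg.Statements.S0914
import Cfsg.Agent.Blocks.DefectNumber

set_option autoImplicit false
set_option linter.all false
open Cfsg

namespace Cfsg.Agent.S0914

/-- Let χ be an irreducible character of the finite group G, p a prime and M a maximal ideal of the algebraic integers containing p. Then p does not divide the integer (Nat.card G) / χ(1) if and only if the block of χ relative to M consists of χ alone. -/
theorem result {G : Type*} [Group G] [Finite G] (p : ℕ) [Fact p.Prime] (M : Ideal Cfsg.AlgInt) (hM : Cfsg.IsPModular p M) (χ : Cfsg.IrrCharacter G) : ¬ p ∣ Nat.card G / Cfsg.charDegree (χ : G → ℂ) ↔ Cfsg.blockOf M (χ : G → ℂ) = {χ} := by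
  rw [Cfsg.Agent.Blocks.singleton_block_iff hM]
  obtain ⟨n, hn0, hdvd, hn⟩ := Cfsg.Agent.Char.irr_degree_dvd_card χ
  have h1 := (Cfsg.Agent.Blocks.irr_charDegree χ).1
  rw [hn] at h1
  have hne : Cfsg.charDegree (χ : G → ℂ) = n := by exact_mod_cast h1.symm
  rw [hne]
  have hG : Nat.card G ≠ 0 := Nat.card_pos.ne'
  have hq : Nat.card G / n ≠ 0 := (Nat.div_pos (Nat.le_of_dvd (Nat.pos_of_ne_zero hG) hdvd) hn0).ne'
  rw [hM.1.dvd_iff_one_le_factorization hq, Nat.factorization_div hdvd, Finsupp.tsub_apply]
  have := (Nat.factorization_le_iff_dvd hn0.ne' hG).2 hdvd p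
  omega

end Cfsg.Agent.S0914
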