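import Cfsg.Statements.S0916
import Cfsg.Agent.Blocks.BlockInd

set_option autoImplicit false
set_option linter.all false
open Cfsg

namespace Cfsg.Agent.S0916

/-- Let P be a p-subgroup of the finite group G, C its centralizer and N its normalizer. Say that a conjugacy class (of G, or of N) has defect group P when P is a Sylow p-subgroup of the centralizer (in G, respectively in N) of some element of the class. Then: (i) if the class of g in G has defect group P, the elements of that class lying in C form a single N-class, again with defect group P; (ii) every N-class with defect group P arises this way from exactly one G-class with defect group P. -/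
theorem result {G : Type*} [Group G] [Finite G] (p : ℕ) [Fact p.Prime] (P : Subgroup G) (hP : IsPGroup p P) : (∀ g : G, (∃ S : Sylow p (Subgroup.centralizer ({g} : Set G)), (S : Subgroup (Subgroup.centralizer ({g} : Set G))).map (Subgroup.centralizer ({g} : Set G)).subtype = P) → (∃ c : G, IsConj g c ∧ c ∈ Subgroup.centralizer (P : Set G)) ∧ (∀ c₁ c₂ : G, IsConj g c₁ → IsConj g c₂ → c₁ ∈ Subgroup.centralizer (P : Set G) → c₂ ∈ Subgroup.centralizer (P : Set G) → ∃ n ∈ Subgroup.normalizer (P : Set G), n * c₁ * n⁻¹ = c₂)) ∧ (∀ c : G, c ∈ Subgroup.centralizer (P : Set G) → (∃ S : Sylow p (Subgroup.centralizer ({c} : Set G) ⊓ Subgroup.normalizer (P : Set G) : Subgroup G), (S : Subgroup ↥(Subgroup.centralizer ({c} : Set G) ⊓ Subgroup.normalizer (P : Set G))).map (Subgroup.centralizer ({c} : Set G) ⊓ Subgroup.normalizer (P : Set G)).subtype = P) → ∃ S : Sylow p (Subgroup.centralizer ({c} : Set G)), (S : Subgroup (Subgroup.centralizer ({c} : Set G))).map (Subgroup.centralizer ({c} :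 Set G)).subtype = P) := by
  refine ⟨?_, ?_⟩
  · rintro g ⟨S, hS⟩
    have hP' := Cfsg.Agent.Blocks.maxP_of_sylow S
    rw [hS] at hP'
    refine ⟨⟨g, IsConj.refl g, Cfsg.Agent.Blocks.mem_centralizer_iff_le.2 hP'.1⟩, ?_⟩
    intro c₁ c₂ h1 h2 hc1 hc2
    obtain ⟨n₁, hn1, e1⟩ := Cfsg.Agent.Blocks.exists_normalizer_conj hP' h1 hc1
    obtain ⟨n₂, hn2, e2⟩ := Cfsg.Agent.Blocks.exists_normalizer_conj hP' h2 hc2
    refine ⟨n₂⁻¹ * n₁, Subgroup.mul_mem _ (Subgroup.inv_mem _ hn2) hn1, ?_⟩
    calc n₂⁻¹ * n₁ * c₁ * (n₂⁻¹ * n₁)⁻¹ = n₂⁻¹ * (n₁ * c₁ * n₁⁻¹) * n₂ := by group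
      _ = n₂⁻¹ * (n₂ * c₂ * n₂⁻¹) * n₂ := by rw [e1, e2]
      _ = c₂ := by group
  · rintro c hc ⟨S, hS⟩
    have h := Cfsg.Agent.Blocks.maxP_of_normalizer hP (Cfsg.Agent.Blocks.mem_centralizer_iff_le.1 hc)
      (fun Q h1 h2 h3 h4 => by
        have hle : (S : Subgroup _) ≤ Q.subgroupOf (Subgroup.centralizer ({c} : Set G) ⊓
            Subgroup.normalizer (P : Set G)) := fun s hs => h1 (hS.le (Subgroup.mem_map_of_mem _ hs))
        have h5 := S.3 (h4.comap_of_injective _ (Subgroup.subtype_injective _)) hle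
        refine le_antisymm (fun q hq => hS.le ?_) h1
        exact ⟨⟨q, h2 hq, h3 hq⟩, h5.le hq, rfl⟩)
    obtain ⟨T, hT⟩ := Cfsg.Agent.Blocks.exists_sylow_of_maxP h
    exact ⟨T, hT.symm⟩

end Cfsg.Agent.S0916
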