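import Cfsg.Statements.S0921
import Cfsg.Agent.Blocks.Covering
import Cfsg.Agent.Solv.Cores

set_option autoImplicit false
set_option linter.all false
open Cfsg

namespace Cfsg.Agent.S0921

/-- Let N = O_p'(G) be the largest normal subgroup of the finite group G of order prime to p, and fix a maximal ideal M of the algebraic integers containing p. If two irreducible characters χ, ψ of G lie in the same block relative to M, then an irreducible character of N occurs in the restriction of χ exactly when it occurs in the restriction of ψ. -/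
theorem result {G : Type*} [Group G] [Finite G] (p : ℕ) [Fact p.Prime] (M : Ideal Cfsg.AlgInt) (hM : Cfsg.IsPModular p M) [Fintype G] (χ ψ : Cfsg.IrrCharacter G) (h : Cfsg.SameBlock M (χ : G → ℂ) (ψ : G → ℂ)) (θ : Cfsg.IrrCharacter (Cfsg.pPrimeCore p G)) [Fintype (Cfsg.pPrimeCore p G)] : Cfsg.classInner (fun n : Cfsg.pPrimeCore p G => (χ : G → ℂ) n) (θ : Cfsg.pPrimeCore p G → ℂ) ≠ 0 ↔ Cfsg.classInner (fun n : Cfsg.pPrimeCore p G => (ψ : G → ℂ) n) (θ : Cfsg.pPrimeCore p G → ℂ) ≠ 0 := by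
  classical
  haveI := (Solv.pPrimeCore_mem (G := G) p).1
  have hN : ¬ p ∣ Nat.card (Cfsg.pPrimeCore p G) :=
    (Nat.Prime.coprime_iff_not_dvd hM.1).1 (Solv.pPrimeCore_mem (G := G) p).2.symm
  suffices key : ∀ χ ψ : Cfsg.IrrCharacter G, Cfsg.SameBlock M (χ : G → ℂ) (ψ : G → ℂ) →
      Cfsg.classInner (fun n : Cfsg.pPrimeCore p G => (χ : G → ℂ) n) (θ : Cfsg.pPrimeCore p G → ℂ) ≠ 0 →
      Cfsg.classInner (fun n : Cfsg.pPrimeCore p G => (ψ : G → ℂ) n) (θ : Cfsg.pPrimeCore p G → ℂ) ≠ 0 from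
    ⟨key χ ψ h, key ψ χ (Blocks.sameBlock_symm h)⟩
  intro χ ψ h hθ
  obtain ⟨η, hη⟩ := Blocks.exists_constituent (Cfsg.pPrimeCore p G) ψ
  have hA := Blocks.conjClosed_orbitSet (Cfsg.pPrimeCore p G) ({θ} : Set (Cfsg.IrrCharacter _))
  have hAi : Blocks.idem (Blocks.orbitSet (Cfsg.pPrimeCore p G) ({θ} : Set (Cfsg.IrrCharacter _)))
      ∈ Blocks.intAlg hM (Cfsg.pPrimeCore p G) := by
    intro g
    show Cfsg.MemLocalRing M (Cfsg.blockCoeff _ g)
    rw [Cfsg.blockCoeff, finsum_mem_eq_finite_toFinset_sum _ (Set.toFinite _)]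
    refine Blocks.lr_mul hM (Blocks.inv_natCast_lr hM hN) (Blocks.lr_sum hM _ fun η _ => ?_)
    refine Blocks.lr_mul hM ?_ ?_
    · exact (Blocks.mem_locRing hM).1 (Blocks.algInt_mem_locRing hM
        (Cfsg.Agent.Char.isCharacter_isIntegral (Cfsg.Agent.Char.isCharacter_of_isIrrCharacter η.2) 1))
    · rw [← Cfsg.Agent.Char.irr_apply_inv]
      exact (Blocks.mem_locRing hM).1 (Blocks.algInt_mem_locRing hM
        (Cfsg.Agent.Char.isCharacter_isIntegral (Cfsg.Agent.Char.isCharacter_of_isIrrCharacter η.2) _))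
  have h1 := Blocks.li_omega_sub hM h
    (Blocks.isCentral_emb_of_invariant _ (Blocks.invariant_idem _ hA)) (Blocks.emb_mem hM _ hAi)
  rw [Blocks.omega_emb_idem _ χ θ hθ hA, if_pos (Blocks.subset_orbitSet _ _ (Set.mem_singleton _)),
    Blocks.omega_emb_idem _ ψ η hη hA] at h1
  split_ifs at h1 with hηA
  · obtain ⟨g, θ', rfl, rfl⟩ := hηA
    intro h0
    refine hη ?_
    rw [← h0]
    conv_lhs => rw [← Cfsg.Agent.Char.conjFn_res _ (Cfsg.Agent.Char.irr_isClassFunction ψ) g]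
    exact Cfsg.Agent.Char.classInner_conjFn _ _ _ g
  · rw [sub_zero] at h1
    exact absurd h1 (Blocks.not_li_one hM)

end Cfsg.Agent.S0921
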