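import Cfsg.Statements.S0922
import Cfsg.Agent.Blocks.SecondMain

set_option autoImplicit false
set_option linter.all false
open Cfsg

namespace Cfsg.Agent.S0922

/-- Let H be a subgroup of the finite group G and let the block b of H induce the block B of G (relative to a maximal ideal M of the algebraic integers containing the prime p). Let h ∈ H be such that the centralizer in G of the p-part of h lies in H, and let χ be an irreducible character of G not in B. Then the sum over k ∈ H of (the idempotent coefficient of b at k) times χ (k * h) vanishes; that is, χ annihilates f_b h where f_b is the sum of the central idempotents of the members of b. -/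
theorem result {G : Type*} [Group G] [Finite G] (p : ℕ) [Fact p.Prime] (M : Ideal Cfsg.AlgInt) (hM : Cfsg.IsPModular p M) (H : Subgroup G) (b : Set (Cfsg.IrrCharacter H)) (B : Set (Cfsg.IrrCharacter G)) (hind : Cfsg.IsInducedBlock M H b B) (h : H) (hC : ∀ z : G, Cfsg.IsPPart p (h : G) z → Subgroup.centralizer ({z} : Set G) ≤ H) (χ : Cfsg.IrrCharacter G) (hχ : χ ∉ B) : ∑ᶠ k : H, Cfsg.blockCoeff b k * (χ : G → ℂ) ((k : G) * (h : G)) = 0 := by
  classical
  haveI := Fintype.ofFinite G
  haveI := Fintype.ofFinite H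
  obtain ⟨x, s, hxs, hc, ⟨k, hk⟩, hs, -, -⟩ := Cfsg.Agent.Blocks.exists_pPart hM.1 (h : G)
  have h0 := Cfsg.Agent.Blocks.ev_second_main hM (Cfsg.Agent.Char.irr_isClassFunction χ) hk hs hc
    (hC x ⟨s, hxs, hc, ⟨k, hk⟩, hs⟩) hind
  rw [hxs, Cfsg.Agent.Blocks.ev_mul_comm (Cfsg.Agent.Char.irr_isClassFunction χ), sub_mul, one_mul,
    sub_mul] at h0
  have h1 : ∀ a, Cfsg.Agent.Blocks.ev (χ : G → ℂ) (Cfsg.Agent.Blocks.idem B * a) = 0 := by
    intro a
    have := Cfsg.Agent.Blocks.omega_mul χ (Cfsg.Agent.Blocks.isCentral_idem B) a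
    rw [Cfsg.Agent.Blocks.omega_idem, if_neg hχ, zero_mul, Cfsg.Agent.Blocks.omega,
      div_eq_zero_iff] at this
    exact this.resolve_right (Cfsg.Agent.Char.irr_one_ne_zero χ)
  have h2 : ∀ a b : MonoidAlgebra ℂ G, Cfsg.Agent.Blocks.ev (χ : G → ℂ) (a - b)
      = Cfsg.Agent.Blocks.ev (χ : G → ℂ) a - Cfsg.Agent.Blocks.ev (χ : G → ℂ) b := fun a b => by
    simp [Cfsg.Agent.Blocks.ev, sub_mul, Finset.sum_sub_distrib]
  rw [h2, mul_assoc, h1, sub_zero, Cfsg.Agent.Blocks.ev_mul_single,
    Cfsg.Agent.Blocks.sum_emb_mul] at h0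
  rw [finsum_eq_sum_of_fintype]
  exact h0

end Cfsg.Agent.S0922
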