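import Cfsg.Statements.S0923
import Cfsg.Agent.Blocks.SecondMain

set_option autoImplicit false
set_option linter.all false
open Cfsg

namespace Cfsg.Agent.S0923

/-- Brauer's Second Main Theorem, in terms of ordinary characters. Let x be a p-element of the finite group G with centralizer C, let χ lie in the block B of G and let b be a block of C that does not induce B (relative to a maximal ideal M of the algebraic integers containing p). Form the class function ϑ(c) = χ(x c) on C and its b-part (the sum over ψ ∈ b of the inner product of ϑ with ψ, times ψ). Then the b-part of ϑ vanishes at every p-regular element of C. (Equivalently, the generalized decomposition numbers of χ with respect to b are zero.) -/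
theorem result {G : Type*} [Group G] [Finite G] (p : ℕ) [Fact p.Prime] (M : Ideal Cfsg.AlgInt) (hM : Cfsg.IsPModular p M) (x : G) (hx : ∃ k : ℕ, orderOf x = p ^ k) (B : Set (Cfsg.IrrCharacter G)) (hB : Cfsg.IsPBlock M B) (χ : Cfsg.IrrCharacter G) (hχ : χ ∈ B) (b : Set (Cfsg.IrrCharacter (Subgroup.centralizer ({x} : Set G)))) (hb : Cfsg.IsPBlock M b) (hnot : ¬ Cfsg.IsInducedBlock M (Subgroup.centralizer ({x} : Set G)) b B) (y : Subgroup.centralizer ({x} : Set G)) (hy : ¬ p ∣ orderOf y) : Cfsg.blockPart b (fun c : Subgroup.centralizer ({x} : Set G) => (χ : G → ℂ) (x * (c : G))) y = 0 := by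
  classical
  haveI := Fintype.ofFinite G
  haveI := Fintype.ofFinite ↥(Subgroup.centralizer ({x} : Set G))
  obtain ⟨k, hk⟩ := hx
  obtain ⟨ξ, hξ⟩ := Cfsg.Agent.Blocks.block_nonempty hM hb
  have hP := Cfsg.Agent.Blocks.centralizer_zpowers x
  have hφ := Cfsg.Agent.Blocks.isModHom_trunc hM (Cfsg.Agent.Blocks.isPGroup_zpowers hk)
    (H := Subgroup.centralizer ({x} : Set G)) hP.le (by
      intro z hz c hc
      rw [hP] at hc ⊢
      exact Cfsg.Agent.Blocks.centralizer_conj_mem _ z hz c hc) ξ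
  rw [hP] at hφ
  obtain ⟨B', hB', hBφ⟩ := hφ.exists_block
  obtain ⟨χ', hχ'⟩ := Cfsg.Agent.Blocks.block_nonempty hM hB'
  have hind : Cfsg.IsInducedBlock M _ b B' := Cfsg.Agent.Blocks.isInducedBlock_of_hom hM hb hB' hξ hχ'
    fun g => by
      rw [← Cfsg.Agent.Blocks.trunc_coe_eq_univ]
      exact hBφ χ' hχ' _ (Cfsg.Agent.Blocks.isCentral_classSum g) (Cfsg.Agent.Blocks.classSum_mem hM g)
  have hne : B' ≠ B := fun e => hnot (e ▸ hind)
  have hχB' : χ ∉ B' := fun h => Set.disjoint_left.1 (Cfsg.Agent.Blocks.disjoint_blocks hM hB' hB hne) h hχ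
  have hcl := Cfsg.Agent.Char.irr_isClassFunction χ
  have hxC : x ∈ Subgroup.centralizer ({x} : Set G) := Subgroup.mem_centralizer_singleton_iff.2 rfl
  have hθ : Cfsg.IsClassFunction ↥(Subgroup.centralizer ({x} : Set G))
      (fun c => (χ : G → ℂ) (x * (c : G))) := by
    intro c d
    have h1 := hcl (x * (c : G)) (d : G)
    have hdx : (d : G) * x = x * d := Subgroup.mem_centralizer_singleton_iff.1 d.2
    simp only [Subgroup.coe_mul, Subgroup.coe_inv]
    rw [← h1]
    congr 1
    rw [← mul_assoc (d : G) x, hdx]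
    simp only [mul_assoc]
  rw [Cfsg.Agent.Blocks.blockPart_eq hθ]
  have hxy : Commute x (y : G) := (Subgroup.mem_centralizer_singleton_iff.1 y.2).symm
  have h0 := Cfsg.Agent.Blocks.ev_second_main hM hcl hk (s := (y : G))
    (by rwa [Subgroup.orderOf_coe]) hxy (H := Subgroup.centralizer ({x} : Set G)) le_rfl hind
  rw [Cfsg.Agent.Blocks.ev_mul_comm hcl, sub_mul, one_mul, sub_mul] at h0
  have h1 : ∀ a, Cfsg.Agent.Blocks.ev (χ : G → ℂ) (Cfsg.Agent.Blocks.idem B' * a) = 0 := by
    intro a
    have := Cfsg.Agent.Blocks.omega_mul χ (Cfsg.Agent.Blocks.isCentral_idem B') a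
    rw [Cfsg.Agent.Blocks.omega_idem, if_neg hχB', zero_mul, Cfsg.Agent.Blocks.omega,
      div_eq_zero_iff] at this
    exact this.resolve_right (Cfsg.Agent.Char.irr_one_ne_zero χ)
  have h2 : ∀ a b : MonoidAlgebra ℂ G, Cfsg.Agent.Blocks.ev (χ : G → ℂ) (a - b)
      = Cfsg.Agent.Blocks.ev (χ : G → ℂ) a - Cfsg.Agent.Blocks.ev (χ : G → ℂ) b := fun a b => by
    simp [Cfsg.Agent.Blocks.ev, sub_mul, Finset.sum_sub_distrib]
  rw [h2, mul_assoc, h1, sub_zero, Cfsg.Agent.Blocks.ev_mul_single,
    Cfsg.Agent.Blocks.sum_emb_mul] at h0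
  rw [Cfsg.Agent.Blocks.ev_mul_single, ← h0]
  refine Finset.sum_congr rfl fun c _ => ?_
  congr 1
  have hcx : (c : G) * x = x * c := Subgroup.mem_centralizer_singleton_iff.1 c.2
  simp only [Subgroup.coe_mul]
  rw [← mul_assoc (c : G) x, hcx, mul_assoc]

end Cfsg.Agent.S0923
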