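import Cfsg.Statements.S0925
import Cfsg.Agent.Blocks.SecondMain

set_option autoImplicit false
set_option linter.all false
open Cfsg

namespace Cfsg.Agent.S0925

/-- (i) Let ϑ be a class function on the finite group G and x a p-element, and suppose ϑ vanishes at every element whose p-part is conjugate to x. Then for every block B (relative to a maximal ideal M of the algebraic integers containing p) the B-part of ϑ — the sum over χ ∈ B of the inner product of ϑ with χ, times χ — also vanishes at every such element. (ii) Block orthogonality, its corollary: if the p-parts of g and h are not conjugate, then the sum over χ ∈ B of χ g * χ h⁻¹ is zero for every block B. -/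
theorem result {G : Type*} [Group G] [Finite G] (p : ℕ) [Fact p.Prime] (M : Ideal Cfsg.AlgInt) (hM : Cfsg.IsPModular p M) : (∀ (ϑ : G → ℂ), Cfsg.IsClassFunction G ϑ → ∀ x : G, (∃ k : ℕ, orderOf x = p ^ k) → (∀ u z : G, Cfsg.IsPPart p u z → IsConj x z → ϑ u = 0) → ∀ B : Set (Cfsg.IrrCharacter G), Cfsg.IsPBlock M B → ∀ u z : G, Cfsg.IsPPart p u z → IsConj x z → Cfsg.blockPart B ϑ u = 0) ∧ (∀ g h x y : G, Cfsg.IsPPart p g x → Cfsg.IsPPart p h y → ¬ IsConj x y → ∀ B : Set (Cfsg.IrrCharacter G), Cfsg.IsPBlock M B → ∑ᶠ χ ∈ B, (χ : G → ℂ) g * (χ : G → ℂ) h⁻¹ = 0) := by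
  classical
  letI := Fintype.ofFinite G
  have part1 : ∀ (ϑ : G → ℂ), Cfsg.IsClassFunction G ϑ → ∀ x : G, (∃ k : ℕ, orderOf x = p ^ k) →
      (∀ u z : G, Cfsg.IsPPart p u z → IsConj x z → ϑ u = 0) →
      ∀ B : Set (Cfsg.IrrCharacter G), Cfsg.IsPBlock M B →
      ∀ u z : G, Cfsg.IsPPart p u z → IsConj x z → Cfsg.blockPart B ϑ u = 0 := by
    intro ϑ hϑ x _ h0 B hB u z hz hxz
    obtain ⟨s, hzs, hc, ⟨k, hk⟩, hs⟩ := hz
    rw [Cfsg.Agent.Blocks.blockPart_eq hϑ, ← hzs]
    exact Cfsg.Agent.Blocks.ev_idem_eq_zero_of_section hM hB hϑ hk hs hc fun c hcc hcp =>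
      h0 (z * c) z ⟨c, rfl, hcc.symm, ⟨k, hk⟩, hcp⟩ hxz
  refine ⟨part1, fun g h x y hgx hhy hxy B hB => ?_⟩
  let κ : G → ℂ := fun u => if IsConj h u then 1 else 0
  have hκ : Cfsg.IsClassFunction G κ := fun u a => by
    have h1 : IsConj u (a * u * a⁻¹) := isConj_iff.2 ⟨a, rfl⟩
    exact if_congr ⟨fun h2 => h2.trans h1.symm, fun h2 => h2.trans h1⟩ rfl rfl
  have h1 := part1 κ hκ x (by obtain ⟨_, _, _, h, _⟩ := hgx; exact h) (fun u z hz hxz => by
    refine if_neg fun hu => hxy ?_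
    obtain ⟨a, ha⟩ := isConj_iff.1 hu
    have h2 := Cfsg.Agent.Blocks.isPPart_conj hhy a
    rw [ha] at h2
    rw [Cfsg.Agent.Blocks.eq_of_isPPart hM.1 hz h2] at hxz
    exact hxz.trans (isConj_iff.2 ⟨a, rfl⟩).symm) B hB g x hgx (IsConj.refl x)
  have hinner : ∀ χ : Cfsg.IrrCharacter G, @Cfsg.classInner G _ (Fintype.ofFinite G) κ (χ : G → ℂ)
      = (Nat.card G : ℂ)⁻¹ * (Finset.univ.filter fun u => IsConj h u).card * (χ : G → ℂ) h⁻¹ := by
    intro χ
    rw [Cfsg.classInner, mul_assoc, ← nsmul_eq_mul, ← Finset.sum_const, Finset.sum_filter]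
    congr 1
    refine Finset.sum_congr (by ext; simp) fun u _ => ?_
    simp only [κ, ite_mul, one_mul, zero_mul]
    split_ifs with hu
    · obtain ⟨a, ha⟩ := isConj_iff.1 hu
      rw [← ha, Cfsg.Agent.Char.irr_isClassFunction χ h a, Cfsg.Agent.Char.irr_apply_inv]
    · rfl
  have hne : ((Nat.card G : ℂ)⁻¹ * (Finset.univ.filter fun u => IsConj h u).card) ≠ 0 := by
    refine mul_ne_zero (inv_ne_zero (by exact_mod_cast Nat.card_pos.ne')) ?_
    exact_mod_cast (Finset.card_pos.2 ⟨h, Finset.mem_filter.2 ⟨Finset.mem_univ _, IsConj.refl h⟩⟩).ne'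
  simp only [Cfsg.blockPart, hinner] at h1
  rw [finsum_mem_eq_finite_toFinset_sum _ B.toFinite] at h1
  rw [finsum_mem_eq_finite_toFinset_sum _ B.toFinite]
  have h2 : ((Nat.card G : ℂ)⁻¹ * (Finset.univ.filter fun u => IsConj h u).card) *
      ∑ χ ∈ B.toFinite.toFinset, (χ : G → ℂ) g * (χ : G → ℂ) h⁻¹ = 0 := by
    rw [Finset.mul_sum, ← h1]
    exact Finset.sum_congr rfl fun χ _ => by ring
  exact (mul_eq_zero.1 h2).resolve_left hne

end Cfsg.Agent.S0925
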