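import Cfsg.Statements.S0926
import Cfsg.Agent.Blocks.Height
import Cfsg.Agent.Blocks.BlockInd

set_option autoImplicit false
set_option linter.all false
open Cfsg

namespace Cfsg.Agent.S0926

/-- Let B be a block of the finite group G with defect group D (relative to a maximal ideal M of the algebraic integers containing p), let χ ∈ B have height zero, and let x be a p-element. Then some conjugate of x lies in D if and only if χ does not vanish on the whole p-section of x (the elements whose p-part is conjugate to x). -/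
theorem result {G : Type*} [Group G] [Finite G] (p : ℕ) [Fact p.Prime] (M : Ideal Cfsg.AlgInt) (hM : Cfsg.IsPModular p M) (B : Set (Cfsg.IrrCharacter G)) (hB : Cfsg.IsPBlock M B) (D : Subgroup G) (hD : Cfsg.IsDefectGroup p M B D) (χ : Cfsg.IrrCharacter G) (hχ : χ ∈ B) (h0 : Cfsg.blockHeight p B (χ : G → ℂ) = 0) (x : G) (hx : ∃ k : ℕ, orderOf x = p ^ k) : (∃ g : G, g * x * g⁻¹ ∈ D) ↔ ∃ u : G, (∃ z : G, Cfsg.IsPPart p u z ∧ IsConj x z) ∧ (χ : G → ℂ) u ≠ 0 := by
  haveI := Fintype.ofFinite G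
  obtain ⟨w, hw, hwD⟩ := Cfsg.Agent.Blocks.isDefectGroup_iff.1 hD
  constructor
  · rintro ⟨g, hg⟩
    obtain ⟨k, hk⟩ := hx
    have hc : Commute (g * x * g⁻¹) w := Subgroup.mem_centralizer_singleton_iff.1 (hwD.1 hg)
    have hk' : orderOf (g * x * g⁻¹) = p ^ k := by
      rw [← hk, ← orderOf_injective (MulAut.conj g).toMonoidHom (MulAut.conj g).injective x]
      simp
    refine ⟨g * x * g⁻¹ * w, ⟨g * x * g⁻¹, ⟨w, rfl, hc, ⟨k, hk'⟩,
      Cfsg.Agent.Blocks.not_dvd_orderOf_of_blockCoeff hM hB hw.2.1⟩, isConj_iff.2 ⟨g, rfl⟩⟩, fun h => ?_⟩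
    refine Cfsg.Agent.Blocks.not_li_apply_mul_defectClass hM hB hw hk' hc hχ h0 ?_
    rw [h]; exact Cfsg.Agent.Blocks.li_zero hM
  · rintro ⟨u, ⟨z, hz, hxz⟩, hne⟩
    by_contra hcon
    push Not at hcon
    refine hne (Cfsg.Agent.Blocks.irr_eq_zero_of_pPart_not_mem hM hB hχ hz fun E hE hzE => ?_)
    obtain ⟨y, hy⟩ := Cfsg.Agent.Blocks.defectGroup_conj hM hB hE hD
    obtain ⟨a, ha⟩ := isConj_iff.1 hxz
    refine hcon (y * a) ?_
    rw [← hy, Cfsg.Agent.Blocks.mem_cj]
    rw [← ha] at hzE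
    simpa [mul_assoc] using hzE

end Cfsg.Agent.S0926
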