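import Cfsg.Statements.S0930
import Cfsg.Agent.Blocks.BlockInd

set_option autoImplicit false
set_option linter.all false
open Cfsg

namespace Cfsg.Agent.S0930

/-- Let H be a subgroup of the finite group G and fix a maximal ideal M of the algebraic integers containing the prime p. If the block b of H with defect group D induces the block B of G with defect group P, then every element of the centre of P is conjugate in G to an element of the centre of D. -/
theorem result {G : Type*} [Group G] [Finite G] (p : ℕ) [Fact p.Prime] (M : Ideal Cfsg.AlgInt) (hM : Cfsg.IsPModular p M) (H : Subgroup G) (b : Set (Cfsg.IrrCharacter H)) (B : Set (Cfsg.IrrCharacter G)) (hind : Cfsg.IsInducedBlock M H b B) (D : Subgroup H) (hD : Cfsg.IsDefectGroup p M b D) (P : Subgroup G) (hP : Cfsg.IsDefectGroup p M B P) (x : G) (hx : x ∈ P) (hxc : ∀ w ∈ P, x * w = w * x) : ∃ g : G, g * x * g⁻¹ ∈ D.map H.subtype ∧ ∀ w ∈ D.map H.subtype, (g * x * g⁻¹)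 * w = w * (g * x * g⁻¹) := by
  classical
  haveI := Fintype.ofFinite G
  haveI := Fintype.ofFinite H
  haveI := Fintype.ofFinite (ConjClasses H)
  obtain ⟨w, hw, hwP⟩ := Cfsg.Agent.Blocks.isDefectGroup_iff.1 hP
  obtain ⟨ξ, hξ⟩ := Cfsg.Agent.Blocks.block_nonempty hM hind.1
  obtain ⟨χ, hχ⟩ := Cfsg.Agent.Blocks.block_nonempty hM hind.2.1
  have hω := Cfsg.Agent.Blocks.not_li_centralChar_mul_defectClass hM hind.2.1 hw hwP hx hxc hχ
  have hind' := hind.2.2 ξ hξ χ hχ (x * w)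
  rw [Cfsg.Agent.Blocks.inducedCentralChar_eq] at hind'
  obtain ⟨u, hu, hu'⟩ : ∃ u : H, IsConj (x * w) (u : G) ∧
      ¬ Cfsg.MemLocalIdeal M (Cfsg.centralChar (ξ : H → ℂ) u) := by
    by_contra hcon
    push Not at hcon
    have hc := Cfsg.Agent.Blocks.isCentral_trunc_univ H (Cfsg.Agent.Blocks.isCentral_classSum (x * w))
    have h1 : Cfsg.MemLocalIdeal M (Cfsg.Agent.Blocks.omega (ξ : H → ℂ)
        (Cfsg.Agent.Blocks.trunc H Set.univ (Cfsg.Agent.Blocks.classSum (x * w)))) := by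
      rw [Cfsg.Agent.Blocks.omega, Cfsg.Agent.Blocks.ev, hc.sum_mul_eq, Finset.sum_div]
      refine Cfsg.Agent.Blocks.li_sum hM _ fun C _ => ?_
      have hcc : (∑ g, (Cfsg.Agent.Blocks.classSum C.out).coeff g * (ξ : H → ℂ) g) / (ξ : H → ℂ) 1
          = Cfsg.centralChar (ξ : H → ℂ) C.out :=
        Cfsg.Agent.Blocks.omega_classSum (Cfsg.Agent.Char.irr_isClassFunction ξ) C.out
      rw [mul_div_assoc, hcc, Cfsg.Agent.Blocks.trunc_coeff, if_pos (Set.mem_univ _),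
        Cfsg.Agent.Blocks.classSum_apply]
      split_ifs with h
      · rw [one_mul]; exact hcon _ h
      · rw [zero_mul]; exact Cfsg.Agent.Blocks.li_zero hM
    have h2 := Cfsg.Agent.Blocks.li_sub hM h1 hind'
    rw [sub_sub_cancel] at h2
    exact hω h2
  obtain ⟨y, hy, hyD, hz⟩ := Cfsg.Agent.Blocks.exists_conj_center_defect hM hind.1 hD hξ hu'
  obtain ⟨a, ha⟩ := isConj_iff.1 hy
  obtain ⟨c, hc⟩ := isConj_iff.1 hu
  obtain ⟨k, hk⟩ := IsPGroup.iff_orderOf.1 hwP.2.1 ⟨x, hx⟩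
  rw [Subgroup.orderOf_mk] at hk
  have hp1 : Cfsg.IsPPart p (x * w) x := ⟨w, rfl,
    Subgroup.mem_centralizer_singleton_iff.1 (hwP.1 hx), ⟨k, hk⟩,
    Cfsg.Agent.Blocks.not_dvd_orderOf_of_blockCoeff hM hind.2.1 hw.2.1⟩
  have hp2 := Cfsg.Agent.Blocks.isPPart_conj hp1 ((a : G) * c)
  obtain ⟨s, hs⟩ := Cfsg.Agent.Blocks.exists_isPPart hM.1 y
  have hsG : Cfsg.IsPPart p (y : G) (s : G) := by
    obtain ⟨y', e1, e2, ⟨k, e3⟩, e4⟩ := hs
    exact ⟨y', congrArg Subtype.val e1, congrArg Subtype.val e2,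
      ⟨k, by rwa [Subgroup.orderOf_coe]⟩, by rwa [Subgroup.orderOf_coe]⟩
  have he : (a : G) * c * (x * w) * ((a : G) * c)⁻¹ = y := by
    rw [← ha]; push_cast; rw [← hc]; group
  rw [he] at hp2
  obtain ⟨hsD, hsc⟩ := hz s hs
  refine ⟨(a : G) * c, ?_, ?_⟩
  · rw [Cfsg.Agent.Blocks.eq_of_isPPart hM.1 hp2 hsG]
    exact Subgroup.mem_map_of_mem _ hsD
  · rintro _ ⟨d, hd, rfl⟩
    rw [Cfsg.Agent.Blocks.eq_of_isPPart hM.1 hp2 hsG]
    exact congrArg Subtype.val (hsc d hd)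

end Cfsg.Agent.S0930
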