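import Cfsg.Statements.S0931
import Cfsg.Agent.Blocks.BlockInd
import Cfsg.Agent.S0930

set_option autoImplicit false
set_option linter.all false
open Cfsg

namespace Cfsg.Agent.S0931

/-- Let H be a subgroup of the finite group G and fix a maximal ideal M of the algebraic integers containing the prime p. If the block b of H induces the block B of G, then b has defect 0 if and only if B has defect 0. -/
theorem result {G : Type*} [Group G] [Finite G] (p : ℕ) [Fact p.Prime] (M : Ideal Cfsg.AlgInt) (hM : Cfsg.IsPModular p M) (H : Subgroup G) (b : Set (Cfsg.IrrCharacter H)) (B : Set (Cfsg.IrrCharacter G)) (hind : Cfsg.IsInducedBlock M H b B) : Cfsg.blockDefect p b = 0 ↔ Cfsg.blockDefect p B = 0 := by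
  haveI := Fintype.ofFinite G
  haveI := Fintype.ofFinite H
  obtain ⟨D, hD⟩ := Cfsg.Agent.Blocks.exists_defectGroup hM hind.1
  obtain ⟨E, hE, hDE⟩ := Cfsg.Agent.Blocks.exists_defect_ge hM hind hD
  rw [Cfsg.Agent.Blocks.blockDefect_eq_zero_iff hM hind.1 hD,
    Cfsg.Agent.Blocks.blockDefect_eq_zero_iff hM hind.2.1 hE]
  constructor
  · intro hD0
    by_contra hne
    haveI : Nontrivial E := (Subgroup.nontrivial_iff_ne_bot E).2 hne
    haveI := (Cfsg.Agent.Blocks.defectGroup_isPGroup hE).center_nontrivial
    obtain ⟨x, hx⟩ := exists_ne (1 : Subgroup.center E)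
    obtain ⟨g, hg, -⟩ := Cfsg.Agent.S0930.result p M hM H b B hind D hD E hE ((x : E) : G)
      (x : E).2 (fun w hw => (congrArg Subtype.val (Subgroup.mem_center_iff.1 x.2 ⟨w, hw⟩)).symm)
    rw [hD0, Subgroup.map_bot, Subgroup.mem_bot] at hg
    refine hx (Subtype.ext (Subtype.ext ?_))
    simpa using hg
  · intro hE0
    rw [hE0, le_bot_iff, Subgroup.map_eq_bot_iff_of_injective _ (Subgroup.subtype_injective _)] at hDE
    exact hDE

end Cfsg.Agent.S0931
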