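import Cfsg.Statements.S0932
import Cfsg.Agent.Char.Induced
import Cfsg.Agent.CharLead.Basic

set_option autoImplicit false
open Cfsg

namespace Cfsg.Agent.S0932

/-- Let H be a subgroup of the finite group G and ξ a character of H. For every g ∈ G, the sum of ξ h / ξ 1 over the elements h ∈ H that are conjugate in G to g equals the central character at g of the character of G induced from ξ (class size times value divided by degree). -/
theorem result {G : Type*} [Group G] [Fintype G] (H : Subgroup G) (ξ : H → ℂ) (hξ : Cfsg.IsCharacter H ξ) (g : G) : Cfsg.inducedCentralChar H ξ g = Cfsg.centralChar (Cfsg.indFun H ξ) g := by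
  classical
  have hone : Cfsg.indFun H ξ 1 = (Nat.card H : ℂ)⁻¹ * ((Nat.card G : ℂ) * ξ 1) := by
    simp only [Cfsg.indFun, mul_one, inv_mul_cancel]
    rw [Finset.sum_congr rfl (fun x _ => Char.extendByZero_of_mem H ξ H.one_mem), Finset.sum_const,
      Finset.card_univ, nsmul_eq_mul, Nat.card_eq_fintype_card (α := G)]
    rfl
  have hval : Cfsg.indFun H ξ g = (Nat.card H : ℂ)⁻¹
      * ((Nat.card (Subgroup.centralizer ({g} : Set G)) : ℂ)
        * ∑ h ∈ Finset.univ.filter (fun h : H => IsConj g (h : G)), ξ h) := by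
    simp only [Cfsg.indFun]
    congr 1
    have e1 : ∑ x : G, Cfsg.extendByZero H ξ (x⁻¹ * g * x)
        = ∑ x ∈ Finset.univ.filter (fun x : G => x⁻¹ * g * x ∈ H),
            Cfsg.extendByZero H ξ (x⁻¹ * g * x) := by
      rw [Finset.sum_filter]
      refine Finset.sum_congr rfl fun x _ => ?_
      split_ifs with h
      · rfl
      · exact Char.extendByZero_of_not_mem H ξ h
    rw [e1, ← Finset.sum_fiberwise_of_maps_to (g := fun x : G => x⁻¹ * g * x)
      (t := (Finset.univ.filter (fun h : H => IsConj g (h : G))).image Subtype.val) ?_,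
      Finset.sum_image (fun a _ b _ e => Subtype.ext e), Finset.mul_sum]
    · refine Finset.sum_congr rfl fun h hh => ?_
      rw [Finset.mem_filter_univ] at hh
      obtain ⟨y, hy⟩ := isConj_iff.1 hh
      rw [Finset.sum_congr rfl (fun x hx => by
        rw [(Finset.mem_filter.1 hx).2, Char.extendByZero_of_mem H ξ h.2]), Finset.sum_const,
        nsmul_eq_mul]
      congr 1
      norm_cast
      rw [Finset.filter_filter, ← Fintype.card_subtype, ← Nat.card_eq_fintype_card]
      refine Nat.card_congr
        { toFun := fun x => ⟨x.1 * y, Subgroup.mem_centralizer_singleton_iff.2 ?_⟩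
          invFun := fun c => ⟨c.1 * y⁻¹, ?_⟩
          left_inv := fun x => Subtype.ext (mul_inv_cancel_right _ _)
          right_inv := fun c => Subtype.ext (inv_mul_cancel_right _ _) }
      · have hx := x.2.2
        calc x.1 * y * g = x.1 * (y * g * y⁻¹) * y := by group
          _ = x.1 * (x.1⁻¹ * g * x.1) * y := by rw [hy, hx]
          _ = _ := by group
      · have hc := Subgroup.mem_centralizer_singleton_iff.1 c.2
        have e : (c.1 * y⁻¹)⁻¹ * g * (c.1 * y⁻¹) = (h : G) := by
          calc (c.1 * y⁻¹)⁻¹ * g * (c.1 * y⁻¹) = y * c.1⁻¹ * (g * c.1) * y⁻¹ := by group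
            _ = y * c.1⁻¹ * (c.1 * g) * y⁻¹ := by rw [hc]
            _ = y * g * y⁻¹ := by group
            _ = _ := hy
        exact ⟨e ▸ h.2, e⟩
    · intro x hx
      rw [Finset.mem_filter_univ] at hx
      exact Finset.mem_image.2 ⟨⟨_, hx⟩, (Finset.mem_filter_univ _).2
        (isConj_iff.2 ⟨x⁻¹, by simp⟩), rfl⟩
  have hidx : ((Subgroup.centralizer ({g} : Set G)).index : ℂ)
      * (Nat.card (Subgroup.centralizer ({g} : Set G)) : ℂ) = Nat.card G := by
    exact_mod_cast Subgroup.index_mul_card _
  have hH : (Nat.card H : ℂ) ≠ 0 := by exact_mod_cast Nat.card_pos.ne'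
  have hG : (Nat.card G : ℂ) ≠ 0 := by exact_mod_cast Nat.card_pos.ne'
  rw [Cfsg.inducedCentralChar, Cfsg.centralChar, hone, hval]
  have : (∑ᶠ h ∈ {h : H | IsConj g (h : G)}, ξ h / ξ 1)
      = (∑ h ∈ Finset.univ.filter (fun h : H => IsConj g (h : G)), ξ h) / ξ 1 := by
    rw [Finset.sum_div]
    exact finsum_mem_eq_finite_toFinset_sum _ (Set.toFinite _) |>.trans
      (Finset.sum_congr (by ext; simp) fun _ _ => rfl)
  rw [this]
  generalize (∑ h ∈ Finset.univ.filter (fun h : H => IsConj g (h : G)), ξ h) = S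
  rw [← hidx] at hG ⊢
  generalize (Nat.card (Subgroup.centralizer ({g} : Set G)) : ℂ) = c at hG ⊢
  generalize ((Subgroup.centralizer ({g} : Set G)).index : ℂ) = i at hG ⊢
  calc S / ξ 1 = (i * c) * (Nat.card H : ℂ)⁻¹ * S / ((i * c) * (Nat.card H : ℂ)⁻¹ * ξ 1) := by
        rw [mul_div_mul_left _ _ (mul_ne_zero hG (inv_ne_zero hH))]
    _ = _ := by ring

end Cfsg.Agent.S0932
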