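import Cfsg.Statements.S0933
import Cfsg.Agent.Blocks.SecondMain

set_option autoImplicit false
set_option linter.all false
open Cfsg

namespace Cfsg.Agent.S0933

/-- Let H be a subgroup of the finite group G and ξ an irreducible character of H such that the induced function ξ^G is an irreducible character of G. Then, relative to any maximal ideal M of the algebraic integers containing the prime p, the block of ξ induces the block of ξ^G. -/
theorem result {G : Type*} [Group G] [Fintype G] (p : ℕ) [Fact p.Prime] (M : Ideal Cfsg.AlgInt) (hM : Cfsg.IsPModular p M) (H : Subgroup G) (ξ : Cfsg.IrrCharacter H) (hind : Cfsg.IsIrrCharacter G (Cfsg.indFun H (ξ : H → ℂ))) : Cfsg.IsInducedBlock M H (Cfsg.blockOf M (ξ : H → ℂ)) (Cfsg.blockOf M (Cfsg.indFun H (ξ : H → ℂ))) := by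
  classical
  haveI := Fintype.ofFinite H
  let χ : Cfsg.IrrCharacter G := ⟨_, hind⟩
  refine ⟨⟨ξ, rfl⟩, ⟨χ, rfl⟩, fun ξ' hξ' χ' hχ' g => ?_⟩
  have key : Cfsg.inducedCentralChar H (ξ : H → ℂ) g = Cfsg.centralChar (χ : G → ℂ) g := by
    rw [Blocks.inducedCentralChar_eq, ← Blocks.omega_classSum (Cfsg.Agent.Char.irr_isClassFunction χ),
      Blocks.omega, Blocks.omega]
    show _ = Blocks.ev (Cfsg.indFun H (ξ : H → ℂ)) _ / Cfsg.indFun H (ξ : H → ℂ) 1
    have h1 : Blocks.ev (Cfsg.indFun H (ξ : H → ℂ)) (Blocks.classSum g)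
        = (H.index : ℂ) * Blocks.ev (ξ : H → ℂ) (Blocks.trunc H Set.univ (Blocks.classSum g)) := by
      simp only [Blocks.ev, Cfsg.indFun, Finset.mul_sum]
      rw [Finset.sum_comm]
      have hinner : ∀ x : G, ∑ y : G, (Blocks.classSum g).coeff y *
          ((Nat.card H : ℂ)⁻¹ * Cfsg.extendByZero H (ξ : H → ℂ) (x⁻¹ * y * x))
          = (Nat.card H : ℂ)⁻¹ * ∑ h : H, (Blocks.classSum g).coeff (h : G) * (ξ : H → ℂ) h := by
        intro x
        calc ∑ y : G, (Blocks.classSum g).coeff y *
            ((Nat.card H : ℂ)⁻¹ * Cfsg.extendByZero H (ξ : H → ℂ) (x⁻¹ * y * x))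
            = (Nat.card H : ℂ)⁻¹ * ∑ y : G, Cfsg.extendByZero H (ξ : H → ℂ) y
              * (Blocks.classSum g).coeff y := by
              rw [Finset.mul_sum]
              refine Fintype.sum_equiv (MulAut.conj x⁻¹).toEquiv _ _ fun y => ?_
              show _ = (Nat.card H : ℂ)⁻¹ * (Cfsg.extendByZero H (ξ : H → ℂ) (x⁻¹ * y * x⁻¹⁻¹)
                * (Blocks.classSum g).coeff (x⁻¹ * y * x⁻¹⁻¹))
              rw [Blocks.isCentral_classSum g y x⁻¹, inv_inv]
              ring
          _ = _ := by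
              rw [Cfsg.Agent.Char.sum_extendByZero_mul]
              congr 1
              exact Finset.sum_congr rfl fun h _ => mul_comm _ _
      have hG : (Nat.card G : ℂ) * (Nat.card H : ℂ)⁻¹ = (H.index : ℂ) := by
        rw [← Subgroup.index_mul_card H, Nat.cast_mul, mul_assoc,
          mul_inv_cancel₀ (by exact_mod_cast Nat.card_pos.ne'), mul_one]
      rw [Finset.sum_congr rfl fun x _ => hinner x, Finset.sum_const, Finset.card_univ, nsmul_eq_mul,
        ← Nat.card_eq_fintype_card (α := G), ← mul_assoc, hG, Finset.mul_sum]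
      exact Finset.sum_congr rfl fun h _ => by rw [Blocks.trunc_coeff, if_pos (Set.mem_univ _)]
    rw [h1, Cfsg.Agent.Char.indFun_apply_one, mul_div_mul_left _ _ (by
      exact_mod_cast H.index_ne_zero_of_finite)]
  have h2 := Blocks.li_omega_sub hM (Blocks.sameBlock_symm (show Cfsg.SameBlock M (ξ : H → ℂ) (ξ' : H → ℂ) from hξ'))
    (Blocks.isCentral_trunc_univ H (Blocks.isCentral_classSum g))
    (Blocks.trunc_mem hM H _ (Blocks.classSum_mem hM g))
  rw [← Blocks.inducedCentralChar_eq, ← Blocks.inducedCentralChar_eq, key] at h2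
  simpa using Blocks.li_add hM h2 ((show Cfsg.SameBlock M (χ : G → ℂ) (χ' : G → ℂ) from hχ') g)

end Cfsg.Agent.S0933
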