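import Cfsg.Statements.S0934
import Cfsg.Agent.Blocks.Covering

set_option autoImplicit false
set_option linter.all false
open Cfsg

namespace Cfsg.Agent.S0934

/-- Let H be a subgroup of the finite group G and fix a maximal ideal M of the algebraic integers containing the prime p. If the block b of H induces the block B of G and ξ ∈ b, then there is χ ∈ B whose restriction to H has nonzero inner product with ξ. -/
theorem result {G : Type*} [Group G] [Fintype G] (p : ℕ) [Fact p.Prime] (M : Ideal Cfsg.AlgInt) (hM : Cfsg.IsPModular p M) (H : Subgroup G) [Fintype H] (b : Set (Cfsg.IrrCharacter H)) (B : Set (Cfsg.IrrCharacter G)) (hind : Cfsg.IsInducedBlock M H b B) (ξ : Cfsg.IrrCharacter H) (hξ : ξ ∈ b) : ∃ χ ∈ B, Cfsg.classInner (fun h : H => (χ : G → ℂ) h) (ξ : H → ℂ) ≠ 0 := by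
  classical
  obtain ⟨χ₀, hχ₀⟩ := Blocks.block_nonempty hM hind.2.1
  have h1 := Blocks.li_trunc_sub_omega hM hind hξ hχ₀ (Blocks.isCentral_idem B)
    (Blocks.idem_block_mem hM hind.2.1)
  rw [Blocks.omega_idem, if_pos hχ₀] at h1
  by_contra hcon
  push Not at hcon
  refine Blocks.not_li_one hM ?_
  have h2 : Blocks.omega (ξ : H → ℂ) (Blocks.trunc H Set.univ (Blocks.idem B)) = 0 := by
    have h3 : ∀ h : H, (Blocks.trunc H Set.univ (Blocks.idem B)).coeff h = (Nat.card G : ℂ)⁻¹ *
        ∑ η ∈ B.toFinite.toFinset, (η : G → ℂ) 1 * starRingEnd ℂ ((η : G → ℂ) h) := fun h => by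
      rw [Blocks.trunc_coeff, if_pos (Set.mem_univ _)]
      show Cfsg.blockCoeff B (h : G) = _
      rw [Cfsg.blockCoeff, finsum_mem_eq_finite_toFinset_sum _ B.toFinite]
    rw [Blocks.omega, Blocks.ev]
    simp only [h3, Finset.mul_sum, Finset.sum_mul]
    rw [Finset.sum_comm, Finset.sum_eq_zero, zero_div]
    intro η hη
    have h4 := hcon η (B.toFinite.mem_toFinset.1 hη)
    rw [← Char.classInner_conj_symm, map_eq_zero, Cfsg.classInner, mul_eq_zero] at h4
    have h5 := h4.resolve_left (inv_ne_zero (by exact_mod_cast Nat.card_pos.ne'))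
    calc ∑ h : H, (Nat.card G : ℂ)⁻¹ * ((η : G → ℂ) 1 * starRingEnd ℂ ((η : G → ℂ) h)) * (ξ : H → ℂ) h
        = (Nat.card G : ℂ)⁻¹ * (η : G → ℂ) 1 * ∑ h : H, (ξ : H → ℂ) h * starRingEnd ℂ ((η : G → ℂ) h) := by
          rw [Finset.mul_sum]
          exact Finset.sum_congr rfl fun h _ => by ring
      _ = 0 := by rw [h5, mul_zero]
  rw [h2, zero_sub] at h1
  simpa using Blocks.li_neg h1

end Cfsg.Agent.S0934
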