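import Cfsg.Statements.S0936
import Cfsg.Agent.Blocks.HeightZero

set_option autoImplicit false
set_option linter.all false
open Cfsg

namespace Cfsg.Agent.S0936

/-- Brauer's Third Main Theorem. Let H be a subgroup of the finite group G and b a block of H (relative to a maximal ideal M of the algebraic integers containing the prime p) whose induced block in G is defined. Then b induces the principal block of G if and only if b is the principal block of H. -/
theorem result {G : Type*} [Group G] [Finite G] (p : ℕ) [Fact p.Prime] (M : Ideal Cfsg.AlgInt) (hM : Cfsg.IsPModular p M) (H : Subgroup G) (b : Set (Cfsg.IrrCharacter H)) (hdef : Cfsg.InducedBlockDefined M H b) : Cfsg.IsInducedBlock M H b (Cfsg.principalBlock M G) ↔ b = Cfsg.principalBlock M H := by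
  haveI := Fintype.ofFinite G
  haveI := Fintype.ofFinite H
  have key : ∀ (K : Type _) [Group K] [Fintype K], ¬ Cfsg.MemLocalIdeal M
      (Blocks.omega (Char.oneIrr K : K → ℂ) (Blocks.regElt p (Char.oneIrr K : K → ℂ))) := by
    intro K _ _
    refine Blocks.not_li_omega_regElt hM ⟨Char.oneIrr K, rfl⟩ (Blocks.self_mem_blockOf hM _) ?_
      (Blocks.self_mem_blockOf hM _)
    simp [Cfsg.blockHeight, Cfsg.charDegree]
  have h1 : (Char.oneIrr G : G → ℂ) = fun _ => (1 : ℂ) := funext fun g => Char.oneIrr_apply g
  have h2 : (Char.oneIrr H : H → ℂ) = fun _ => (1 : ℂ) := funext fun g => Char.oneIrr_apply g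
  have h3 := Blocks.okuyama hM (ψ := Char.oneIrr H) (χ := Char.oneIrr G)
    (by rw [h2]; funext h; simp) (key G) (key H) hdef
  rw [h1, h2] at h3
  exact h3

end Cfsg.Agent.S0936
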