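import Cfsg.Statements.S0937
import Cfsg.Agent.Blocks.HeightZero

set_option autoImplicit false
set_option linter.all false
open Cfsg

namespace Cfsg.Agent.S0937

/-- Let H be a subgroup of the finite group G and fix a maximal ideal M of the algebraic integers containing the prime p. If the block b of H induces the block B of G and χ ∈ B has height zero, then there is ξ ∈ b of height zero whose multiplicity in the restriction of χ to H is a natural number not divisible by p. -/
theorem result {G : Type*} [Group G] [Fintype G] (p : ℕ) [Fact p.Prime] (M : Ideal Cfsg.AlgInt) (hM : Cfsg.IsPModular p M) (H : Subgroup G) [Fintype H] (b : Set (Cfsg.IrrCharacter H)) (B : Set (Cfsg.IrrCharacter G)) (hind : Cfsg.IsInducedBlock M H b B) (χ : Cfsg.IrrCharacter G) (hχ : χ ∈ B) (h0 : Cfsg.blockHeight p B (χ : G → ℂ) = 0) : ∃ ξ ∈ b, Cfsg.blockHeight p b (ξ : H → ℂ) = 0 ∧ ∃ n : ℕ, Cfsg.classInner (fun h : H => (χ : G → ℂ) h) (ξ : H → ℂ) = (n : ℂ) ∧ ¬ p ∣ n := by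
  classical
  obtain ⟨ξ, hξ⟩ := Blocks.block_nonempty hM hind.1
  have hc := Blocks.isCentral_regElt p (Char.irr_isClassFunction χ)
  have hi := Blocks.regElt_mem hM (p := p) (Char.isCharacter_of_isIrrCharacter χ.2)
  have h1 := Blocks.li_induced_sub hM hind hξ hχ hc hi
  rw [Blocks.trunc_regElt] at h1
  have hres := Char.isCharacter_comp (Char.isCharacter_of_isIrrCharacter χ.2) H.subtype
  have hexp := Char.classFunction_expand (Char.isClassFunction_of_isCharacter hres)
  have h2 : Blocks.omega (ξ : H → ℂ) (Blocks.regElt p fun h : H => (χ : G → ℂ) h)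
      = ∑ η : Cfsg.IrrCharacter H, Cfsg.classInner (fun h : H => (χ : G → ℂ) h) (η : H → ℂ)
          * Blocks.omega (ξ : H → ℂ) (Blocks.regElt p (η : H → ℂ)) := by
    have hexp' : (fun h : H => (χ : G → ℂ) h) = ∑ η : Cfsg.IrrCharacter H,
        Cfsg.classInner (fun h : H => (χ : G → ℂ) h) (η : H → ℂ) • (η : H → ℂ) := hexp
    simp only [Blocks.omega, Blocks.ev, Blocks.regElt, Blocks.coeff_ga, Finset.sum_div, Finset.mul_sum]
    rw [Finset.sum_comm]
    refine Finset.sum_congr rfl fun h _ => ?_
    split_ifs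
    · simp
    · have h3 := congrFun hexp' h⁻¹
      simp only [Finset.sum_apply, Pi.smul_apply, smul_eq_mul] at h3
      rw [h3, Finset.sum_mul, Finset.sum_div]
      exact Finset.sum_congr rfl fun η _ => by ring
  by_contra hcon
  push Not at hcon
  refine Blocks.not_li_omega_regElt hM hind.2.1 hχ h0 hχ ?_
  have h4 : Cfsg.MemLocalIdeal M (Blocks.omega (ξ : H → ℂ) (Blocks.regElt p fun h : H => (χ : G → ℂ) h)) := by
    rw [h2]
    refine Blocks.li_sum hM _ fun η _ => ?_
    obtain ⟨n, hn⟩ : ∃ n : ℕ, Cfsg.classInner (fun h : H => (χ : G → ℂ) h) (η : H → ℂ) = n :=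
      Char.exists_nat_classInner hres η
    rw [hn]
    have hlr := Blocks.omega_lr hM ξ (Blocks.isCentral_regElt p (Char.irr_isClassFunction η))
      (Blocks.regElt_mem hM (p := p) (Char.isCharacter_of_isIrrCharacter η.2))
    by_cases hb : η ∈ b
    · by_cases hh : Cfsg.blockHeight p b (η : H → ℂ) = 0
      · exact Blocks.li_mul hM ((Blocks.li_natCast_iff hM n).2 (hcon η hb hh n hn)) hlr
      · exact Blocks.li_mul_left hM ((Blocks.mem_locRing hM).1 (natCast_mem _ n))
          (Blocks.li_omega_regElt_of_height hM hind.1 hb hh hξ)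
    · rw [Blocks.omega_regElt_eq_zero hM fun h => hb (by
        rw [Blocks.block_eq_blockOf hM hind.1 hξ]; exact Blocks.sameBlock_symm h), mul_zero]
      exact Blocks.li_zero hM
  have h5 := Blocks.li_sub hM h4 h1
  rwa [sub_sub_cancel] at h5

end Cfsg.Agent.S0937
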