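import Cfsg.Statements.S0942
import Cfsg.Agent.Blocks.SectionApp
import Cfsg.Agent.Solv.Cores

set_option autoImplicit false
set_option linter.all false
open Cfsg

namespace Cfsg.Agent.S0942

/-- Let u be a p-element of the finite group G, let v lie in the largest normal subgroup of C_G(u) of order prime to p, and let χ belong to the principal block (relative to a maximal ideal M of the algebraic integers containing p). Then χ (u * v) = χ u. -/
theorem result {G : Type*} [Group G] [Finite G] (p : ℕ) [Fact p.Prime] (M : Ideal Cfsg.AlgInt) (hM : Cfsg.IsPModular p M) (u : G) (hu : ∃ k : ℕ, orderOf u = p ^ k) (v : G) (hv : v ∈ Cfsg.centralizerPPrimeCore p u) (χ : Cfsg.IrrCharacter G) (hχ : χ ∈ Cfsg.principalBlock M G) : (χ : G → ℂ) (u * v) = (χ : G → ℂ) u := by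
  classical
  haveI := Fintype.ofFinite G
  haveI := Fintype.ofFinite ↥(Subgroup.centralizer ({u} : Set G))
  obtain ⟨⟨v, hvC⟩, hvN, rfl⟩ := hv
  obtain ⟨k, hk⟩ := hu
  haveI := (Solv.pPrimeCore_mem (G := Subgroup.centralizer ({u} : Set G)) p).1
  have hN : ¬ p ∣ Nat.card (Cfsg.pPrimeCore p (Subgroup.centralizer ({u} : Set G))) :=
    (Nat.Prime.coprime_iff_not_dvd hM.1).1 (Solv.pPrimeCore_mem (G := Subgroup.centralizer ({u} : Set G)) p).2.symm
  have hvr : ¬ p ∣ orderOf v := fun h => hN (h.trans (by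
    have h1 := Subgroup.orderOf_dvd_natCard _ hvN
    rwa [Subgroup.orderOf_mk] at h1))
  have huv : Commute u v := (Subgroup.mem_centralizer_singleton_iff.1 hvC).symm
  have hcl := Char.irr_isClassFunction χ
  have key : ∀ s : G, ¬ p ∣ orderOf s → Commute u s → (χ : G → ℂ) (u * s)
      = ∑ c : Subgroup.centralizer ({u} : Set G),
          Cfsg.blockCoeff (Cfsg.principalBlock M ↥(Subgroup.centralizer ({u} : Set G))) c
            * (χ : G → ℂ) (u * s * c) := fun s hs hus => by
    rw [← Blocks.ev_principal_section hM hcl hk hs hus, Blocks.ev_idem_mul, if_pos hχ]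
  have h1 := key 1 (by rw [orderOf_one]; exact hM.1.not_dvd_one) (Commute.one_right u)
  rw [mul_one] at h1
  show (χ : G → ℂ) (u * v) = _
  rw [key v hvr huv, h1]
  refine Fintype.sum_equiv (Equiv.mulLeft (⟨v, hvC⟩ : Subgroup.centralizer ({u} : Set G))) _ _ fun c => ?_
  simp only [Equiv.coe_mulLeft, Subgroup.coe_mul]
  rw [← mul_assoc u v]
  congr 1
  rw [Cfsg.blockCoeff, Cfsg.blockCoeff]
  congr 1
  refine finsum_mem_congr rfl fun ψ hψ => ?_
  rw [Blocks.char_mul_of_apply_eq_one (Char.isCharacter_of_isIrrCharacter ψ.2)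
    (Blocks.principal_trivial_on hM _ hN hψ hvN)]

end Cfsg.Agent.S0942
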