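import Cfsg.Statements.S0943
import Cfsg.Agent.CharLead.Basic

set_option autoImplicit false
open Cfsg

namespace Cfsg.Agent.S0943

/-- Let χ be an irreducible character of the finite group G and u, v ∈ G. If χ (x * y) = χ (u * v) whenever x is conjugate to u and y is conjugate to v, then χ u * χ v = χ 1 * χ (u * v). (Multiply the class sums of u and v and apply the central character of χ.) -/
theorem result {G : Type*} [Group G] [Finite G] (χ : Cfsg.IrrCharacter G) (u v : G) (hc : ∀ x y : G, IsConj u x → IsConj v y → (χ : G → ℂ) (x * y) = (χ : G → ℂ) (u * v)) : (χ : G → ℂ) u * (χ : G → ℂ) v = (χ : G → ℂ) 1 * (χ : G → ℂ) (u * v) := by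
  classical
  haveI := Fintype.ofFinite G
  have h := CharLead.sum_class_mul χ u v
  have hconst : ∀ x ∈ Finset.univ.filter (IsConj u), ∀ y ∈ Finset.univ.filter (IsConj v),
      (χ : G → ℂ) (x * y) = (χ : G → ℂ) (u * v) := by
    intro x hx y hy
    rw [Finset.mem_filter_univ] at hx hy
    exact hc x y hx hy
  rw [Finset.sum_congr rfl (fun x hx => Finset.sum_congr rfl (fun y hy => hconst x hx y hy))] at h
  simp only [Finset.sum_const, nsmul_eq_mul, ← mul_assoc] at h
  have hA : (((Finset.univ.filter (IsConj u)).card : ℂ)) ≠ 0 := by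
    rw [Nat.cast_ne_zero]
    exact (Finset.card_pos.2 ⟨u, Finset.mem_filter_univ _ |>.2 (IsConj.refl u)⟩).ne'
  have hB : (((Finset.univ.filter (IsConj v)).card : ℂ)) ≠ 0 := by
    rw [Nat.cast_ne_zero]
    exact (Finset.card_pos.2 ⟨v, Finset.mem_filter_univ _ |>.2 (IsConj.refl v)⟩).ne'
  rw [eq_div_iff (Char.irr_one_ne_zero χ)] at h
  apply mul_left_cancel₀ (mul_ne_zero hA hB)
  linear_combination -h

end Cfsg.Agent.S0943
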