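import Cfsg.Statements.S0944
import Cfsg.Agent.Char.Irr

set_option autoImplicit false
set_option linter.all false
open Cfsg

namespace Cfsg.Agent.S0944

/-- Let χ be an irreducible character of the finite group G and u an involution. Then χ u is a rational integer n with n ≡ χ 1 (mod 2). -/
theorem result {G : Type*} [Group G] [Finite G] (χ : Cfsg.IrrCharacter G) (u : G) (hu : orderOf u = 2) : ∃ n : ℤ, (χ : G → ℂ) u = (n : ℂ) ∧ (2 : ℤ) ∣ (Cfsg.charDegree (χ : G → ℂ) : ℤ) - n := by
  classical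
  obtain ⟨d, ρ, hρ⟩ := Cfsg.Agent.Char.isCharacter_of_isIrrCharacter χ.2
  obtain ⟨b, ω, hb, hω⟩ := Cfsg.Agent.Char.exists_eigenbasis ρ u (isOfFinOrder_of_finite u)
  let s : Fin (Module.finrank ℂ (Fin d → ℂ)) → ℤ := fun i => if ω i = 1 then 1 else -1
  have hs : ∀ i, (s i : ℂ) = ω i := by
    intro i
    have h := hω i
    rw [hu, sq, mul_self_eq_one_iff] at h
    rcases h with h | h
    · simp [s, h]
    · have : ω i ≠ 1 := by rw [h]; norm_num
      rw [show s i = -1 from if_neg this, h]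
      norm_num
  refine ⟨∑ i, s i, ?_, ?_⟩
  · rw [← hρ, Representation.character, Cfsg.Agent.Char.trace_of_eigenbasis _ b ω hb]
    push_cast
    exact Finset.sum_congr rfl fun i _ => (hs i).symm
  · have hd : Cfsg.charDegree (χ : G → ℂ) = Module.finrank ℂ (Fin d → ℂ) := by
      rw [Cfsg.charDegree, ← hρ, ρ.char_one, Complex.natCast_re, Nat.floor_natCast]
    rw [hd, show ((Module.finrank ℂ (Fin d → ℂ) : ℕ) : ℤ) = ∑ _i : Fin (Module.finrank ℂ (Fin d → ℂ)), (1 : ℤ)
      by simp, ← Finset.sum_sub_distrib]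
    refine Finset.dvd_sum fun i _ => ?_
    simp only [s]
    split_ifs <;> norm_num

end Cfsg.Agent.S0944
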