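import Cfsg.Statements.S0947
import Cfsg.Agent.Blocks.SectionApp
import Cfsg.Agent.S0939
import Cfsg.Agent.Solv.Cores

set_option autoImplicit false
set_option linter.all false
open Cfsg

namespace Cfsg.Agent.S0947

/-- Let z ≠ 1 be a p-element of the finite group G with centralizer H, and fix a maximal ideal M of the algebraic integers containing p. (i) For every y ∈ H of order prime to p, the sum over ζ in the principal block of G of |ζ (z * y)|² equals the sum over χ in the principal block of H of |χ y|². (ii) If moreover H has a normal p-complement (its largest normal subgroup of order prime to p has p-power index), that common value is the largest power of p dividing the order of H. -/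
theorem result {G : Type*} [Group G] [Finite G] (p : ℕ) [Fact p.Prime] (M : Ideal Cfsg.AlgInt) (hM : Cfsg.IsPModular p M) (z : G) (hz : ∃ k : ℕ, orderOf z = p ^ k) (hz1 : z ≠ 1) (y : Subgroup.centralizer ({z} : Set G)) (hy : ¬ p ∣ orderOf y) : (∑ᶠ ζ ∈ Cfsg.principalBlock M G, ‖(ζ : G → ℂ) (z * (y : G))‖ ^ 2 = ∑ᶠ χ ∈ Cfsg.principalBlock M (Subgroup.centralizer ({z} : Set G)), ‖(χ : Subgroup.centralizer ({z} : Set G) → ℂ) y‖ ^ 2) ∧ ((∃ k : ℕ, (Cfsg.pPrimeCore p (Subgroup.centralizer ({z} : Set G))).index = p ^ k) → ∑ᶠ ζ ∈ Cfsg.principalBlock M G, ‖(ζ : G → ℂ) (z * (y : G))‖ ^ 2 = ((p ^ (Nat.card (Subgroup.centralizer ({z} : Set G))).factorization p : ℕ) : ℝ)) := by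
  classical
  haveI := Fintype.ofFinite G
  haveI := Fintype.ofFinite ↥(Subgroup.centralizer ({z} : Set G))
  obtain ⟨k, hk⟩ := hz
  have hzy : Commute z (y : G) := (Subgroup.mem_centralizer_singleton_iff.1 y.2).symm
  have hy' : ¬ p ∣ orderOf (y : G) := by rwa [Subgroup.orderOf_coe]
  set g := z * (y : G) with hg
  have hp1 : Cfsg.IsPPart p g z := ⟨(y : G), rfl, hzy, ⟨k, hk⟩, hy'⟩
  let κ : G → ℂ := fun u => if IsConj g u then 1 else 0
  have hκ : Cfsg.IsClassFunction G κ := fun u a =>
    if_congr ⟨fun h2 => h2.trans (isConj_iff.2 ⟨a, rfl⟩).symm, fun h2 => h2.trans (isConj_iff.2 ⟨a, rfl⟩)⟩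
      rfl rfl
  -- conjugacy in the section
  have hconj : ∀ w : ↥(Subgroup.centralizer ({z} : Set G)), ¬ p ∣ orderOf w → (IsConj g (z * (w : G)) ↔ IsConj y w) := by
    intro w hw
    constructor
    · intro h
      obtain ⟨a, ha⟩ := isConj_iff.1 h
      have h1 := Blocks.isPPart_conj hp1 a
      rw [ha] at h1
      have h2 : Cfsg.IsPPart p (z * (w : G)) z :=
        ⟨(w : G), rfl, (Subgroup.mem_centralizer_singleton_iff.1 w.2).symm, ⟨k, hk⟩, by rwa [Subgroup.orderOf_coe]⟩
      have h3 := Blocks.eq_of_isPPart hM.1 h1 h2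
      have haC : a ∈ (Subgroup.centralizer ({z} : Set G)) := Subgroup.mem_centralizer_singleton_iff.2 (by
        calc a * z = a * z * a⁻¹ * a := by group
          _ = z * a := by rw [h3])
      refine isConj_iff.2 ⟨⟨a, haC⟩, Subtype.ext ?_⟩
      have h5 : z * (a * (y : G) * a⁻¹) = z * (w : G) := by
        rw [← ha, hg]
        calc z * (a * (y : G) * a⁻¹) = (a * z * a⁻¹) * (a * (y : G) * a⁻¹) := by rw [h3]
          _ = a * (z * (y : G)) * a⁻¹ := by group
      simpa using mul_left_cancel h5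
    · intro h
      obtain ⟨a, ha⟩ := isConj_iff.1 h
      refine isConj_iff.2 ⟨(a : G), ?_⟩
      have haz : (a : G) * z = z * a := Subgroup.mem_centralizer_singleton_iff.1 a.2
      rw [← ha, hg]
      push_cast
      rw [← mul_assoc (a : G) z, haz]
      simp only [mul_assoc]
  -- evaluate both sides
  have hL := Blocks.ev_indicator_idem (Cfsg.principalBlock M G) g
  have hR := Blocks.ev_indicator_idem (Cfsg.principalBlock M ↥(Subgroup.centralizer ({z} : Set G))) y
  have hsec := Blocks.ev_principal_section hM hκ hk hy' hzy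
  rw [← hg] at hsec
  have hBC := Blocks.principal_isPBlock (G := ↥(Subgroup.centralizer ({z} : Set G))) M
  have hdiff : Blocks.ev (fun w : ↥(Subgroup.centralizer ({z} : Set G)) => κ (z * (w : G)) - if IsConj y w then (1 : ℂ) else 0)
      (Blocks.idem (Cfsg.principalBlock M ↥(Subgroup.centralizer ({z} : Set G))) * MonoidAlgebra.single y (1 : ℂ)) = 0 := by
    refine Blocks.ev_eq_zero_of_regular hM (Blocks.idem_block_mem hM hBC) ?_ (fun w hw => ?_) hy
    · intro w a
      have h1 : κ (z * ((a * w * a⁻¹ : ↥(Subgroup.centralizer ({z} : Set G))) : G)) = κ (z * (w : G)) := by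
        have haz : (a : G) * z = z * a := Subgroup.mem_centralizer_singleton_iff.1 a.2
        rw [← hκ (z * (w : G)) a]
        congr 1
        push_cast
        rw [← mul_assoc (a : G) z, haz]
        simp only [mul_assoc]
      have h2 : (IsConj y (a * w * a⁻¹) ↔ IsConj y w) :=
        ⟨fun h2 => h2.trans (isConj_iff.2 ⟨a, rfl⟩).symm, fun h2 => h2.trans (isConj_iff.2 ⟨a, rfl⟩)⟩
      simp only [h1, h2]
    · simp only [κ, hconj w hw, sub_self]
  have hRR : ∑ c : ↥(Subgroup.centralizer ({z} : Set G)), Cfsg.blockCoeff (Cfsg.principalBlock M ↥(Subgroup.centralizer ({z} : Set G))) c * κ (g * c)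
      = Blocks.ev (fun w : ↥(Subgroup.centralizer ({z} : Set G)) => if IsConj y w then (1 : ℂ) else 0)
        (Blocks.idem (Cfsg.principalBlock M ↥(Subgroup.centralizer ({z} : Set G))) * MonoidAlgebra.single y (1 : ℂ)) := by
    rw [Blocks.ev_mul_single] at hdiff
    rw [Blocks.ev_mul_single, ← sub_eq_zero, ← Finset.sum_sub_distrib]
    refine (Finset.sum_congr rfl fun c _ => ?_).trans hdiff
    show Cfsg.blockCoeff _ c * _ - _ = Cfsg.blockCoeff _ c * _
    rw [mul_sub]
    congr 2
    have h1 := hκ (z * ((c * y : ↥(Subgroup.centralizer ({z} : Set G))) : G)) (y : G)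
    rw [← h1]
    congr 1
    push_cast
    rw [hg, ← mul_assoc (y : G) z, ← hzy.eq]
    group
  have hcard : Nat.card (Subgroup.centralizer ({g} : Set G)) = Nat.card (Subgroup.centralizer ({y} : Set ↥(Subgroup.centralizer ({z} : Set G)))) := by
    have hmap : (Subgroup.centralizer ({y} : Set ↥(Subgroup.centralizer ({z} : Set G)))).map (Subgroup.centralizer ({z} : Set G)).subtype = Subgroup.centralizer ({g} : Set G) := by
      refine le_antisymm ?_ fun c hc => ?_
      · rintro _ ⟨c, hc, rfl⟩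
        refine Subgroup.mem_centralizer_singleton_iff.2 ?_
        have h1 : (c : G) * y = y * c := congrArg Subtype.val (Subgroup.mem_centralizer_singleton_iff.1 hc)
        have h2 : (c : G) * z = z * c := Subgroup.mem_centralizer_singleton_iff.1 c.2
        rw [hg]
        show (c : G) * (z * y) = z * y * c
        rw [← mul_assoc, h2, mul_assoc, h1, mul_assoc]
      · have hcy := Blocks.centralizer_mul_le hM.1 hk hy' hzy hc
        have h1 : c * (y : G) = y * c := Subgroup.mem_centralizer_singleton_iff.1 hcy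
        have h2 : c * g = g * c := Subgroup.mem_centralizer_singleton_iff.1 hc
        have hcC : c ∈ (Subgroup.centralizer ({z} : Set G)) := Subgroup.mem_centralizer_singleton_iff.2 (mul_right_cancel (b := (y : G)) (by
          rw [mul_assoc, ← hg, h2, hg, mul_assoc, ← h1, mul_assoc]))
        exact ⟨⟨c, hcC⟩, Subgroup.mem_centralizer_singleton_iff.2 (Subtype.ext h1), rfl⟩
    rw [← hmap, Subgroup.card_map_of_injective (Subgroup.subtype_injective _)]
  have main : ∑ᶠ ζ ∈ Cfsg.principalBlock M G, ‖(ζ : G → ℂ) g‖ ^ 2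
      = ∑ᶠ χ ∈ Cfsg.principalBlock M ↥(Subgroup.centralizer ({z} : Set G)), ‖(χ : ↥(Subgroup.centralizer ({z} : Set G)) → ℂ) y‖ ^ 2 := by
    have h1 : ((∑ᶠ ζ ∈ Cfsg.principalBlock M G, ‖(ζ : G → ℂ) g‖ ^ 2 : ℝ) : ℂ)
        = ((∑ᶠ χ ∈ Cfsg.principalBlock M ↥(Subgroup.centralizer ({z} : Set G)), ‖(χ : ↥(Subgroup.centralizer ({z} : Set G)) → ℂ) y‖ ^ 2 : ℝ) : ℂ) := by
      have h2 := hL.symm.trans (hsec.trans (hRR.trans hR))
      rw [hcard] at h2
      exact mul_left_cancel₀ (inv_ne_zero (by exact_mod_cast Nat.card_pos.ne')) h2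
    exact_mod_cast h1
  refine ⟨main, fun hnc => ?_⟩
  rw [main]
  haveI := (Solv.pPrimeCore_mem (G := ↥(Subgroup.centralizer ({z} : Set G))) p).1
  have hyN : y ∈ Cfsg.pPrimeCore p ↥(Subgroup.centralizer ({z} : Set G)) := by
    obtain ⟨i, hi⟩ := hnc
    have h1 : orderOf (QuotientGroup.mk y : ↥(Subgroup.centralizer ({z} : Set G)) ⧸ Cfsg.pPrimeCore p ↥(Subgroup.centralizer ({z} : Set G))) ∣ orderOf y :=
      orderOf_map_dvd (QuotientGroup.mk' _) y
    have h2 : orderOf (QuotientGroup.mk y : ↥(Subgroup.centralizer ({z} : Set G)) ⧸ Cfsg.pPrimeCore p ↥(Subgroup.centralizer ({z} : Set G))) ∣ p ^ i := by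
      rw [← hi, Subgroup.index_eq_card]; exact orderOf_dvd_natCard _
    obtain ⟨j, -, hj⟩ := (Nat.dvd_prime_pow hM.1).1 h2
    rcases j with _ | j
    · rwa [pow_zero, orderOf_eq_one_iff, QuotientGroup.eq_one_iff] at hj
    · exact absurd ((hj ▸ dvd_pow_self p j.succ_ne_zero).trans h1) hy
  have hB0 := Cfsg.Agent.S0939.result p M hM hnc (G := ↥(Subgroup.centralizer ({z} : Set G)))
  have hB1 : ∀ χ ∈ Cfsg.principalBlock M ↥(Subgroup.centralizer ({z} : Set G)), ‖(χ : ↥(Subgroup.centralizer ({z} : Set G)) → ℂ) y‖ ^ 2 = ‖(χ : ↥(Subgroup.centralizer ({z} : Set G)) → ℂ) 1‖ ^ 2 := by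
    intro χ hχ
    rw [hB0] at hχ
    rw [hχ y hyN]
  rw [finsum_mem_congr rfl hB1]
  -- the characters trivial on the normal complement
  haveI := Fintype.ofFinite (Cfsg.pPrimeCore p ↥(Subgroup.centralizer ({z} : Set G)))
  set N := Cfsg.pPrimeCore p ↥(Subgroup.centralizer ({z} : Set G)) with hN
  set e := Blocks.emb N (Blocks.ga fun _ : N => (Nat.card N : ℂ)⁻¹) with he
  have hidem : Blocks.idem (Cfsg.principalBlock M ↥(Subgroup.centralizer ({z} : Set G))) = e := by
    refine (Blocks.isCentral_idem _).eq_of_omega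
      (Blocks.isCentral_emb_of_invariant N (Blocks.normal_average_invariant N)) fun χ => ?_
    rw [Blocks.omega_idem]
    have hmem : χ ∈ Cfsg.principalBlock M ↥(Subgroup.centralizer ({z} : Set G)) ↔ ∀ n ∈ N, (χ : ↥(Subgroup.centralizer ({z} : Set G)) → ℂ) n = (χ : ↥(Subgroup.centralizer ({z} : Set G)) → ℂ) 1 := by
      rw [hB0]; rfl
    split_ifs with h
    · exact (Blocks.average_eq_one N χ (hmem.1 h)).symm
    · have h2 := Blocks.omega_mul χ (Blocks.isCentral_emb_of_invariant N (Blocks.normal_average_invariant N)) e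
      rw [Blocks.normal_average_sq] at h2
      rcases mul_eq_zero.1 (show Blocks.omega (χ : ↥(Subgroup.centralizer ({z} : Set G)) → ℂ) e * (Blocks.omega (χ : ↥(Subgroup.centralizer ({z} : Set G)) → ℂ) e - 1) = 0 by
        rw [mul_sub, ← h2, mul_one, sub_self]) with h3 | h3
      · exact h3.symm
      · exact absurd (hmem.2 fun n hn => Blocks.trivial_on_of_average N χ (sub_eq_zero.1 h3) hn) h
  have h1 := congrArg (fun a : MonoidAlgebra ℂ ↥(Subgroup.centralizer ({z} : Set G)) => a.coeff 1) hidem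
  have h2 : (Nat.card N : ℂ) * ((∑ᶠ χ ∈ Cfsg.principalBlock M ↥(Subgroup.centralizer ({z} : Set G)), ‖(χ : ↥(Subgroup.centralizer ({z} : Set G)) → ℂ) 1‖ ^ 2 : ℝ) : ℂ)
      = (Nat.card ↥(Subgroup.centralizer ({z} : Set G)) : ℂ) := by
    have h3 : Cfsg.blockCoeff (Cfsg.principalBlock M ↥(Subgroup.centralizer ({z} : Set G))) 1 = (Nat.card N : ℂ)⁻¹ := by
      have h4 : (Blocks.idem (Cfsg.principalBlock M ↥(Subgroup.centralizer ({z} : Set G)))).coeff 1 = e.coeff 1 := h1
      rw [he, Blocks.emb_of_mem N _ N.one_mem] at h4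
      exact h4
    rw [Cfsg.blockCoeff, finsum_mem_eq_finite_toFinset_sum _ (Set.toFinite _),
      inv_mul_eq_iff_eq_mul₀ (by exact_mod_cast Nat.card_pos.ne')] at h3
    rw [finsum_mem_eq_finite_toFinset_sum _ (Set.toFinite _), Complex.ofReal_sum]
    have h5 : ∀ χ : Cfsg.IrrCharacter ↥(Subgroup.centralizer ({z} : Set G)), ((‖(χ : ↥(Subgroup.centralizer ({z} : Set G)) → ℂ) 1‖ ^ 2 : ℝ) : ℂ)
        = (χ : ↥(Subgroup.centralizer ({z} : Set G)) → ℂ) 1 * starRingEnd ℂ ((χ : ↥(Subgroup.centralizer ({z} : Set G)) → ℂ) 1) := fun χ => by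
      rw [Complex.mul_conj']; push_cast; ring
    simp only [h5]
    rw [h3, mul_left_comm, mul_inv_cancel₀ (by exact_mod_cast Nat.card_pos.ne'), mul_one]
  have hfac : Nat.card ↥(Subgroup.centralizer ({z} : Set G)) = Nat.card N * p ^ (Nat.card ↥(Subgroup.centralizer ({z} : Set G))).factorization p := by
    obtain ⟨i, hi⟩ := hnc
    have hc := N.card_mul_index
    rw [hi] at hc
    have hNp : ¬ p ∣ Nat.card N := (Nat.Prime.coprime_iff_not_dvd hM.1).1 (Solv.pPrimeCore_mem (G := ↥(Subgroup.centralizer ({z} : Set G))) p).2.symm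
    have : (Nat.card ↥(Subgroup.centralizer ({z} : Set G))).factorization p = i := by
      rw [← hc, Nat.factorization_mul Nat.card_pos.ne' (pow_ne_zero _ hM.1.ne_zero), Finsupp.add_apply,
        Nat.factorization_eq_zero_of_not_dvd hNp, hM.1.factorization_pow, Finsupp.single_eq_same, zero_add]
    rw [this, hc]
  conv_rhs at h2 => rw [hfac, Nat.cast_mul]
  have h6 := mul_left_cancel₀ (by exact_mod_cast Nat.card_pos.ne' : (Nat.card N : ℂ) ≠ 0) h2
  exact_mod_cast h6

end Cfsg.Agent.S0947
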