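import Cfsg.Statements.S0952
import Cfsg.Agent.Blocks.SecondMain

set_option autoImplicit false
set_option linter.all false
open scoped ComplexConjugate
open Cfsg

namespace Cfsg.Agent.S0952

/-- Let χ and ψ be irreducible characters of the finite group G lying in different blocks relative to a maximal ideal M of the algebraic integers containing the prime p. Then the sum of χ x * conj (ψ x) over the elements x of order prime to p is zero. -/
theorem result {G : Type*} [Group G] [Finite G] (p : ℕ) [Fact p.Prime] (M : Ideal Cfsg.AlgInt) (hM : Cfsg.IsPModular p M) (χ ψ : Cfsg.IrrCharacter G) (h : ¬ Cfsg.SameBlock M (χ : G → ℂ) (ψ : G → ℂ)) : ∑ᶠ x ∈ {x : G | ¬ p ∣ orderOf x}, (χ : G → ℂ) x * conj ((ψ : G → ℂ) x) = 0 := by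
  classical
  haveI := Fintype.ofFinite G
  let B : Set (Cfsg.IrrCharacter G) := Cfsg.blockOf M (ψ : G → ℂ)
  have hχ : χ ∉ B := fun hh => h (Cfsg.Agent.Blocks.sameBlock_symm hh)
  have hψ : ψ ∈ B := Cfsg.Agent.Blocks.self_mem_blockOf hM ψ
  have hBi := Cfsg.Agent.Blocks.idem_block_mem hM (⟨ψ, rfl⟩ : Cfsg.IsPBlock M B)
  let R : Finset G := Finset.univ.filter fun x => ¬ p ∣ orderOf x
  let c : Cfsg.IrrCharacter G → ℂ := fun η => ∑ x ∈ R, (χ : G → ℂ) x * conj ((η : G → ℂ) x)
  have horth : ∀ η ∈ B, ∑ x, (η : G → ℂ) x * conj ((χ : G → ℂ) x) = 0 := by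
    intro η hη
    have h1 := Cfsg.Agent.Char.classInner_irr η χ
    rw [if_neg (fun e : η = χ => hχ (e ▸ hη)), Cfsg.classInner, mul_eq_zero] at h1
    exact h1.resolve_left (inv_ne_zero (by exact_mod_cast Nat.card_pos.ne'))
  have hzero : ∀ s ∈ R, ∑ η ∈ B.toFinite.toFinset, conj (c η) * conj ((η : G → ℂ) s) = 0 := by
    intro s hs
    have hsum : ∀ η : Cfsg.IrrCharacter G, conj (c η) * conj ((η : G → ℂ) s)
        = ∑ x ∈ R, conj ((χ : G → ℂ) x) * ((η : G → ℂ) x * conj ((η : G → ℂ) s)) := fun η => by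
      simp only [c, map_sum, map_mul, Complex.conj_conj, Finset.sum_mul, mul_assoc]
    simp only [hsum]
    rw [Finset.sum_comm]
    calc ∑ x ∈ R, ∑ η ∈ B.toFinite.toFinset,
          conj ((χ : G → ℂ) x) * ((η : G → ℂ) x * conj ((η : G → ℂ) s))
        = ∑ x, ∑ η ∈ B.toFinite.toFinset,
          conj ((χ : G → ℂ) x) * ((η : G → ℂ) x * conj ((η : G → ℂ) s)) := by
          refine Finset.sum_subset (Finset.subset_univ _) fun x _ hx => ?_
          rw [← Finset.mul_sum, Cfsg.Agent.Blocks.sum_eq_zero_of_singular hM hBi (by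
            simpa [R] using hx) (by simpa [R] using hs), mul_zero]
      _ = ∑ η ∈ B.toFinite.toFinset, conj ((η : G → ℂ) s) *
          ∑ x, (η : G → ℂ) x * conj ((χ : G → ℂ) x) := by
          rw [Finset.sum_comm]
          refine Finset.sum_congr rfl fun η _ => ?_
          rw [Finset.mul_sum]
          exact Finset.sum_congr rfl fun x _ => by ring
      _ = 0 := Finset.sum_eq_zero fun η hη => by
          rw [horth η (B.toFinite.mem_toFinset.1 hη), mul_zero]
  have hsq : ∑ η ∈ B.toFinite.toFinset, conj (c η) * c η = 0 := by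
    calc ∑ η ∈ B.toFinite.toFinset, conj (c η) * c η
        = ∑ s ∈ R, (χ : G → ℂ) s *
            ∑ η ∈ B.toFinite.toFinset, conj (c η) * conj ((η : G → ℂ) s) := by
          simp only [Finset.mul_sum]
          rw [Finset.sum_comm]
          refine Finset.sum_congr rfl fun η _ => ?_
          rw [show c η = ∑ s ∈ R, (χ : G → ℂ) s * conj ((η : G → ℂ) s) from rfl, Finset.mul_sum]
          exact Finset.sum_congr rfl fun x _ => by ring
      _ = 0 := Finset.sum_eq_zero fun s hs => by rw [hzero s hs, mul_zero]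
  have hreal : ∑ η ∈ B.toFinite.toFinset, Complex.normSq (c η) = 0 := by
    have h1 : ((∑ η ∈ B.toFinite.toFinset, Complex.normSq (c η) : ℝ) : ℂ) = 0 := by
      push_cast [Complex.normSq_eq_conj_mul_self]
      exact hsq
    exact_mod_cast h1
  have hcψ : c ψ = 0 := Complex.normSq_eq_zero.1
    ((Finset.sum_eq_zero_iff_of_nonneg fun η _ => Complex.normSq_nonneg _).1 hreal ψ
      (B.toFinite.mem_toFinset.2 hψ))
  rw [finsum_mem_eq_finite_toFinset_sum _ (Set.toFinite _), ← hcψ]
  exact Finset.sum_congr (by ext x; simp [R]) fun _ _ => rfl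

end Cfsg.Agent.S0952
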