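import Cfsg.Statements.S0955
import Cfsg.Agent.Blocks.BlockInd
import Cfsg.Agent.Solv.Cores

set_option autoImplicit false
set_option linter.all false
open Cfsg

namespace Cfsg.Agent.S0955

/-- Let D be a defect group of a block of the finite group G relative to a maximal ideal M of the algebraic integers containing the prime p. Then D is the largest normal p-subgroup of its own normalizer: O_p(N_G(D)) = D. -/
theorem result {G : Type*} [Group G] [Finite G] (p : ℕ) [Fact p.Prime] (M : Ideal Cfsg.AlgInt) (hM : Cfsg.IsPModular p M) (B : Set (Cfsg.IrrCharacter G)) (hB : Cfsg.IsPBlock M B) (D : Subgroup G) (hD : Cfsg.IsDefectGroup p M B D) : (Cfsg.pCore p (Subgroup.normalizer (D : Set G))).map (Subgroup.normalizer (D : Set G)).subtype = D := by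
  haveI := Fintype.ofFinite G
  have hDp := Blocks.defectGroup_isPGroup hD
  obtain ⟨b, ⟨hb, hbD, -⟩, -⟩ := Blocks.first_main_two hM hDp hB hD
  haveI := (Solv.pCore_mem (G := Subgroup.normalizer (D : Set G)) p).1
  haveI := Blocks.subgroupOf_normal_of_le_normalizer (P := D) (H := Subgroup.normalizer (D : Set G)) le_rfl
  have h1 := Blocks.normal_le_defect hM hb hbD
    (Solv.pCore_mem (G := Subgroup.normalizer (D : Set G)) p).2
  have h2 : D.subgroupOf (Subgroup.normalizer (D : Set G)) ≤ Cfsg.pCore p (Subgroup.normalizer (D : Set G)) :=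
    le_sSup ⟨inferInstance, hDp.comap_of_injective _ (Subgroup.subtype_injective _)⟩
  rw [le_antisymm h1 h2, Subgroup.subgroupOf_map_subtype, inf_eq_left.2 Subgroup.le_normalizer]

end Cfsg.Agent.S0955
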