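import Cfsg.Statements.S0957
import Mathlib.GroupTheory.Sylow
import Mathlib.GroupTheory.GroupAction.Quotient
import Mathlib.Tactic.Group

set_option autoImplicit false
set_option linter.all false
open Cfsg

namespace Cfsg.Agent.S0957

/-- Let P be a Sylow p-subgroup of the finite group G, let g, h ∈ G and let p ^ d be the order of a Sylow p-subgroup of the centralizer of g. Then the number of pairs (y, z) with y conjugate to g, z conjugate to h and z * y⁻¹ ∈ P is divisible by the order of P divided by p ^ d. -/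
theorem result {G : Type*} [Group G] [Finite G] (p : ℕ) [Fact p.Prime] (P : Sylow p G) (g h : G) (S : Sylow p (Subgroup.centralizer ({g} : Set G))) : Nat.card P / Nat.card S ∣ Nat.card {yz : G × G // IsConj g yz.1 ∧ IsConj h yz.2 ∧ yz.2 * yz.1⁻¹ ∈ (P : Subgroup G)} := by
  classical
  let X := {yz : G × G // IsConj g yz.1 ∧ IsConj h yz.2 ∧ yz.2 * yz.1⁻¹ ∈ (P : Subgroup G)}
  letI act : MulAction (P : Subgroup G) X :=
    { smul := fun a x => ⟨((a : G) * x.1.1 * (a : G)⁻¹, (a : G) * x.1.2 * (a : G)⁻¹),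
        x.2.1.trans (isConj_iff.2 ⟨a, rfl⟩), x.2.2.1.trans (isConj_iff.2 ⟨a, rfl⟩), by
          have hmem := (P : Subgroup G).mul_mem ((P : Subgroup G).mul_mem a.2 x.2.2.2) ((P : Subgroup G).inv_mem a.2)
          have e : (a : G) * x.1.2 * (a : G)⁻¹ * ((a : G) * x.1.1 * (a : G)⁻¹)⁻¹
              = (a : G) * (x.1.2 * x.1.1⁻¹) * (a : G)⁻¹ := by group
          show (a : G) * x.1.2 * (a : G)⁻¹ * ((a : G) * x.1.1 * (a : G)⁻¹)⁻¹ ∈ (P : Subgroup G)
          rw [e]; exact hmem⟩
      one_smul := fun x => Subtype.ext (Prod.ext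
        (show ((1 : (P : Subgroup G)) : G) * x.1.1 * ((1 : (P : Subgroup G)) : G)⁻¹ = x.1.1 by simp)
        (show ((1 : (P : Subgroup G)) : G) * x.1.2 * ((1 : (P : Subgroup G)) : G)⁻¹ = x.1.2 by simp))
      mul_smul := fun a b x => Subtype.ext (Prod.ext
        (show ((a * b : (P : Subgroup G)) : G) * x.1.1 * ((a * b : (P : Subgroup G)) : G)⁻¹
            = (a : G) * ((b : G) * x.1.1 * (b : G)⁻¹) * (a : G)⁻¹ by simp [mul_assoc])
        (show ((a * b : (P : Subgroup G)) : G) * x.1.2 * ((a * b : (P : Subgroup G)) : G)⁻¹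
            = (a : G) * ((b : G) * x.1.2 * (b : G)⁻¹) * (a : G)⁻¹ by simp [mul_assoc])) }
  haveI := Fintype.ofFinite (Quotient (MulAction.orbitRel (P : Subgroup G) X))
  show Nat.card P / Nat.card S ∣ Nat.card X
  rw [Nat.card_congr (MulAction.selfEquivSigmaOrbits (P : Subgroup G) X), Nat.card_sigma]
  refine Finset.dvd_sum fun q _ => ?_
  set x : X := Quotient.out q
  rw [Nat.card_congr (MulAction.orbitEquivQuotientStabilizer (P : Subgroup G) x)]
  obtain ⟨a, ha⟩ := isConj_iff.1 x.2.1
  let f : MulAction.stabilizer (P : Subgroup G) x →* Subgroup.centralizer ({g} : Set G) :=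
    { toFun := fun s => ⟨a⁻¹ * ((s : (P : Subgroup G)) : G) * a, by
        have hs : ((s : (P : Subgroup G)) : G) * x.1.1 * ((s : (P : Subgroup G)) : G)⁻¹ = x.1.1 :=
          congrArg (fun y : X => y.1.1) s.2
        rw [← ha, mul_inv_eq_iff_eq_mul] at hs
        refine Subgroup.mem_centralizer_singleton_iff.2 ?_
        calc a⁻¹ * ((s : (P : Subgroup G)) : G) * a * g
            = a⁻¹ * (((s : (P : Subgroup G)) : G) * (a * g * a⁻¹)) * a := by group
          _ = a⁻¹ * (a * g * a⁻¹ * ((s : (P : Subgroup G)) : G)) * a := by rw [hs]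
          _ = g * (a⁻¹ * ((s : (P : Subgroup G)) : G) * a) := by group⟩
      map_one' := Subtype.ext (by simp)
      map_mul' := fun s t => Subtype.ext (by simp [mul_assoc]) }
  have hf : Function.Injective f := fun s t hst => by
    have h1 := congrArg Subtype.val hst
    exact Subtype.ext (Subtype.ext (mul_left_cancel (mul_right_cancel h1)))
  have hp : IsPGroup p f.range :=
    (P.2.to_subgroup (MulAction.stabilizer (P : Subgroup G) x)).of_equiv (MonoidHom.ofInjective hf)
  obtain ⟨T, hT⟩ := hp.exists_le_sylow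
  have h1 : Nat.card (MulAction.stabilizer (P : Subgroup G) x) ∣ Nat.card S := by
    rw [Nat.card_congr (MonoidHom.ofInjective hf).toEquiv, Nat.card_congr (S.equiv T).toEquiv]
    exact Subgroup.card_dvd_of_le hT
  obtain ⟨n, hn⟩ := h1
  have h2 := Subgroup.card_eq_card_quotient_mul_card_subgroup (MulAction.stabilizer (P : Subgroup G) x)
  show _ ∣ Nat.card ((P : Subgroup G) ⧸ MulAction.stabilizer (P : Subgroup G) x)
  rw [hn, h2, ← Nat.div_div_eq_div_mul, Nat.mul_div_cancel _ Nat.card_pos]
  refine Nat.div_dvd_of_dvd ?_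
  obtain ⟨U, hU⟩ := (S.2.map (Subgroup.centralizer ({g} : Set G)).subtype).exists_le_sylow
  have hSP : Nat.card S ∣ Nat.card P := by
    rw [Nat.card_congr ((S : Subgroup (Subgroup.centralizer ({g} : Set G))).equivMapOfInjective _ (Subgroup.subtype_injective _)).toEquiv,
      Nat.card_congr (P.equiv U).toEquiv]
    exact Subgroup.card_dvd_of_le hU
  rw [hn, h2, mul_comm (Nat.card (_ ⧸ _)) _] at hSP
  exact Nat.dvd_of_mul_dvd_mul_left Nat.card_pos hSP

end Cfsg.Agent.S0957
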