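import Cfsg.Statements.S0958
import Cfsg.Agent.Blocks.BlockInd

set_option autoImplicit false
set_option linter.all false
open Cfsg

namespace Cfsg.Agent.S0958

/-- Let P be a p-subgroup of the finite group G and H a subgroup with P ⊔ C_G(P) ≤ H ≤ N_G(P); fix a maximal ideal M of the algebraic integers containing p. Then a block B of G is induced by some block of H if and only if some conjugate of P is contained in a defect group of B. -/
theorem result {G : Type*} [Group G] [Finite G] (p : ℕ) [Fact p.Prime] (M : Ideal Cfsg.AlgInt) (hM : Cfsg.IsPModular p M) (P H : Subgroup G) (hP : IsPGroup p P) (hPH : P ⊔ Subgroup.centralizer (P : Set G) ≤ H) (hHN : H ≤ Subgroup.normalizer (P : Set G)) (B : Set (Cfsg.IrrCharacter G)) (hB : Cfsg.IsPBlock M B) : (∃ b : Set (Cfsg.IrrCharacter H), Cfsg.IsInducedBlock M H b B) ↔ ∃ D : Subgroup G, Cfsg.IsDefectGroup p M B D ∧ ∃ x : G, P.map (MulAut.conj x).toMonoidHom ≤ D := by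
  haveI := Fintype.ofFinite G
  haveI := Fintype.ofFinite H
  have hP1 : P ≤ H := le_sup_left.trans hPH
  have hP2 : Subgroup.centralizer (P : Set G) ≤ H := le_sup_right.trans hPH
  constructor
  · rintro ⟨b, hb⟩
    obtain ⟨Db, hDb⟩ := Cfsg.Agent.Blocks.exists_defectGroup hM hb.1
    obtain ⟨E, hE, hDE⟩ := Cfsg.Agent.Blocks.exists_defect_ge hM hb hDb
    haveI := Cfsg.Agent.Blocks.subgroupOf_normal_of_le_normalizer hHN
    have h1 := Cfsg.Agent.Blocks.normal_le_defect hM hb.1 hDb (P := P.subgroupOf H)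
      (hP.comap_of_injective _ (Subgroup.subtype_injective _))
    refine ⟨E, hE, 1, ?_⟩
    show Cfsg.Agent.Blocks.cj 1 P ≤ E
    rw [Cfsg.Agent.Blocks.cj_one]
    exact fun q hq => hDE ⟨⟨q, hP1 hq⟩, h1 hq, rfl⟩
  · rintro ⟨D, hD, x, hx⟩
    have hD' := Cfsg.Agent.Blocks.isDefectGroup_cj hD x⁻¹
    have hPD : P ≤ Cfsg.Agent.Blocks.cj x⁻¹ D := by
      have h1 := Cfsg.Agent.Blocks.cj_mono x⁻¹ (show Cfsg.Agent.Blocks.cj x P ≤ D from hx)
      rwa [Cfsg.Agent.Blocks.cj_inv_self] at h1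
    obtain ⟨w, hw, hwD⟩ := Cfsg.Agent.Blocks.isDefectGroup_iff.1 hD'
    exact Cfsg.Agent.Blocks.exists_inducing hM hP hP1 hP2 hHN hB hw.2.1
      (Cfsg.Agent.Blocks.mem_centralizer_iff_le.2 (hPD.trans hwD.1))

end Cfsg.Agent.S0958
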