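import Cfsg.Statements.S0959
import Cfsg.Agent.Blocks.Defect

set_option autoImplicit false
set_option linter.all false
open Cfsg

namespace Cfsg.Agent.S0959

/-- Let B be a block of the finite group G with defect group D (relative to a maximal ideal M of the algebraic integers containing the prime p), and let P be a p-subgroup. Then there is an element g whose idempotent coefficient for B is a local integer outside the local ideal at M and which has a conjugate centralizing P, if and only if some conjugate of P is contained in D. -/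
theorem result {G : Type*} [Group G] [Finite G] (p : ℕ) [Fact p.Prime] (M : Ideal Cfsg.AlgInt) (hM : Cfsg.IsPModular p M) (B : Set (Cfsg.IrrCharacter G)) (hB : Cfsg.IsPBlock M B) (D : Subgroup G) (hD : Cfsg.IsDefectGroup p M B D) (P : Subgroup G) (hP : IsPGroup p P) : (∃ g : G, Cfsg.MemLocalRing M (Cfsg.blockCoeff B g) ∧ ¬ Cfsg.MemLocalIdeal M (Cfsg.blockCoeff B g) ∧ ∃ c : G, IsConj g c ∧ c ∈ Subgroup.centralizer (P : Set G)) ↔ ∃ x : G, P.map (MulAut.conj x).toMonoidHom ≤ D := by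
  constructor
  · rintro ⟨g, -, hg, c, hc, hcP⟩
    obtain ⟨a, ha⟩ := isConj_iff.1 hc.symm
    have h1 := Cfsg.Agent.Blocks.cj_le_centralizer (Cfsg.Agent.Blocks.mem_centralizer_iff_le.1 hcP) a
    rw [ha] at h1
    obtain ⟨y, hy⟩ := Cfsg.Agent.Blocks.cj_le_defect hM hB hD hg (Cfsg.Agent.Blocks.isPGroup_cj hP a) h1
    rw [Cfsg.Agent.Blocks.cj_cj] at hy
    exact ⟨y * a, hy⟩
  · rintro ⟨x, hx⟩
    obtain ⟨w, hw, hwD⟩ := Cfsg.Agent.Blocks.isDefectGroup_iff.1 hD
    refine ⟨w, hw.1, hw.2.1, x⁻¹ * w * x⁻¹⁻¹, isConj_iff.2 ⟨x⁻¹, rfl⟩,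
      Cfsg.Agent.Blocks.mem_centralizer_iff_le.2 ?_⟩
    have h2 := Cfsg.Agent.Blocks.cj_le_centralizer (show Cfsg.Agent.Blocks.cj x P ≤ _ from hx.trans hwD.1) x⁻¹
    rwa [Cfsg.Agent.Blocks.cj_inv_self] at h2

end Cfsg.Agent.S0959
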