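import Cfsg.Statements.S0963
import Cfsg.Agent.Blocks.Covering

set_option autoImplicit false
set_option linter.all false
open Cfsg

namespace Cfsg.Agent.S0963

/-- Let N be a normal subgroup of the finite group G, χ an irreducible character of G and θ an irreducible character of N. Then θ occurs in the restriction of χ to N if and only if, for every n ∈ N, the central character of χ at n (class size in G times χ n over χ 1) equals the sum of θ m / θ 1 over the elements m of N conjugate in G to n. -/
theorem result {G : Type*} [Group G] [Fintype G] (N : Subgroup G) [N.Normal] [Fintype N] (χ : Cfsg.IrrCharacter G) (θ : Cfsg.IrrCharacter N) : Cfsg.classInner (fun n : N => (χ : G → ℂ) n) (θ : N → ℂ) ≠ 0 ↔ ∀ n : N, Cfsg.centralChar (χ : G → ℂ) (n : G) = Cfsg.inducedCentralChar N (θ : N → ℂ) (n : G) := by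
  classical
  haveI := Fintype.ofFinite (ConjClasses G)
  refine ⟨fun h n => Blocks.centralChar_eq_induced N χ θ h n.2, fun h => ?_⟩
  obtain ⟨θ', hθ'⟩ := Blocks.exists_constituent N χ
  set A := Blocks.orbitSet N ({θ'} : Set (Cfsg.IrrCharacter N))
  have hA := Blocks.conjClosed_orbitSet N ({θ'} : Set (Cfsg.IrrCharacter N))
  have h1 := Blocks.omega_emb_sub N χ θ (Blocks.invariant_idem N hA)
  rw [Blocks.omega_emb_idem N χ θ' hθ' hA, if_pos (Blocks.subset_orbitSet N _ (Set.mem_singleton _)),
    Blocks.omega_idem, Finset.sum_eq_zero fun C _ => ?_, sub_eq_zero] at h1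
  swap
  · by_cases hC : C.out ∈ N
    · rw [h ⟨C.out, hC⟩, sub_self, mul_zero]
    · rw [Blocks.emb_of_not_mem N _ hC, zero_mul]
  split_ifs at h1 with hθA
  · obtain ⟨g, η, rfl, hg⟩ := hθA
    intro h0
    refine hθ' ?_
    rw [← h0, hg]
    conv_rhs => rw [← Cfsg.Agent.Char.conjFn_res N (Cfsg.Agent.Char.irr_isClassFunction χ) g]
    exact (Cfsg.Agent.Char.classInner_conjFn N _ _ g).symm
  · exact absurd h1 one_ne_zero

end Cfsg.Agent.S0963
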