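import Cfsg.Statements.S0965
import Cfsg.Agent.Blocks.Covering

set_option autoImplicit false
set_option linter.all false
open Cfsg

namespace Cfsg.Agent.S0965

/-- Let N be a normal subgroup of the finite group G and let B, b be blocks of G and of N relative to a maximal ideal M of the algebraic integers containing the prime p. Then some χ ∈ B has a constituent in b on restriction to N if and only if, for all χ ∈ B, θ ∈ b and n ∈ N, the central character of χ at n is congruent modulo the local ideal at M to the sum of θ m / θ 1 over the elements m ∈ N conjugate in G to n. -/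
theorem result {G : Type*} [Group G] [Fintype G] (p : ℕ) [Fact p.Prime] (M : Ideal Cfsg.AlgInt) (hM : Cfsg.IsPModular p M) (N : Subgroup G) [N.Normal] [Fintype N] (B : Set (Cfsg.IrrCharacter G)) (hB : Cfsg.IsPBlock M B) (b : Set (Cfsg.IrrCharacter N)) (hb : Cfsg.IsPBlock M b) : (∃ χ ∈ B, ∃ θ ∈ b, Cfsg.classInner (fun n : N => (χ : G → ℂ) n) (θ : N → ℂ) ≠ 0) ↔ ∀ χ ∈ B, ∀ θ ∈ b, ∀ n : N, Cfsg.MemLocalIdeal M (Cfsg.centralChar (χ : G → ℂ) (n : G) - Cfsg.inducedCentralChar N (θ : N → ℂ) (n : G)) := by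
  classical
  haveI := Fintype.ofFinite (ConjClasses G)
  constructor
  · rintro ⟨χ₀, hχ₀, θ₀, hθ₀, hcon⟩ χ hχ θ hθ n
    have h1 := Blocks.sameBlock_of_mem hM hB hχ hχ₀ (n : G)
    rw [Blocks.centralChar_eq_induced N χ₀ θ₀ hcon n.2] at h1
    have h2 := Blocks.li_omega_sub hM (Blocks.sameBlock_of_mem hM hb hθ₀ hθ)
      (Blocks.isCentral_trunc_univ N (Blocks.isCentral_classSum (n : G)))
      (Blocks.trunc_mem hM N _ (Blocks.classSum_mem hM (n : G)))
    rw [← Blocks.inducedCentralChar_eq, ← Blocks.inducedCentralChar_eq] at h2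
    simpa using Blocks.li_add hM h1 h2
  · intro h
    obtain ⟨χ, hχ⟩ := Blocks.block_nonempty hM hB
    obtain ⟨θ, hθ⟩ := Blocks.block_nonempty hM hb
    obtain ⟨ψ, hψ⟩ := Blocks.exists_constituent N χ
    have hA := Blocks.conjClosed_orbitSet N b
    have hAi : Blocks.idem (Blocks.orbitSet N b) ∈ Blocks.intAlg hM N :=
      Blocks.idem_union_mem hM (Blocks.isBlockUnion_orbitSet N hM (Blocks.isBlockUnion_block N hM hb))
    have h1 : Cfsg.MemLocalIdeal M (Blocks.omega (χ : G → ℂ) (Blocks.emb N (Blocks.idem (Blocks.orbitSet N b)))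
        - Blocks.omega (θ : N → ℂ) (Blocks.idem (Blocks.orbitSet N b))) := by
      rw [Blocks.omega_emb_sub N χ θ (Blocks.invariant_idem N hA)]
      refine Blocks.li_sum hM _ fun C _ => ?_
      by_cases hC : C.out ∈ N
      · exact Blocks.li_mul_left hM (Blocks.emb_mem hM N hAi _) (h χ hχ θ hθ ⟨C.out, hC⟩)
      · rw [Blocks.emb_of_not_mem N _ hC, zero_mul]; exact Blocks.li_zero hM
    rw [Blocks.omega_emb_idem N χ ψ hψ hA, Blocks.omega_idem,
      if_pos (Blocks.subset_orbitSet N b hθ)] at h1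
    split_ifs at h1 with hψA
    · obtain ⟨g, θ', hθ', rfl⟩ := hψA
      refine ⟨χ, hχ, θ', hθ', fun h0 => hψ ?_⟩
      rw [← h0]
      conv_lhs => rw [← Cfsg.Agent.Char.conjFn_res N (Cfsg.Agent.Char.irr_isClassFunction χ) g]
      exact Cfsg.Agent.Char.classInner_conjFn N _ _ g
    · exact absurd (by simpa using Blocks.li_neg h1) (Blocks.not_li_one hM)

end Cfsg.Agent.S0965
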