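import Cfsg.Statements.S0966
import Cfsg.Agent.Blocks.Covering
import Cfsg.Agent.Blocks.DefectNumber
import Cfsg.Agent.S0965

set_option autoImplicit false
set_option linter.all false
open Cfsg

namespace Cfsg.Agent.S0966

/-- Let N be a normal subgroup of p-power index in the finite group G and b a block of N relative to a maximal ideal M of the algebraic integers containing p. Then there is exactly one block B of G containing a character whose restriction to N has a constituent in b. -/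
theorem result {G : Type*} [Group G] [Fintype G] (p : ℕ) [Fact p.Prime] (M : Ideal Cfsg.AlgInt) (hM : Cfsg.IsPModular p M) (N : Subgroup G) [N.Normal] [Fintype N] (hidx : ∃ k : ℕ, N.index = p ^ k) (b : Set (Cfsg.IrrCharacter N)) (hb : Cfsg.IsPBlock M b) : ∃! B : Set (Cfsg.IrrCharacter G), Cfsg.IsPBlock M B ∧ ∃ χ ∈ B, ∃ θ ∈ b, Cfsg.classInner (fun n : N => (χ : G → ℂ) n) (θ : N → ℂ) ≠ 0 := by
  classical
  haveI := Fintype.ofFinite (ConjClasses G)
  obtain ⟨θ₀, hθ₀⟩ := Blocks.block_nonempty hM hb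
  obtain ⟨χ₀, hχ₀⟩ := Blocks.exists_over N θ₀
  have hB₀ : Cfsg.IsPBlock M (Cfsg.blockOf M (χ₀ : G → ℂ)) := ⟨χ₀, rfl⟩
  refine ⟨Cfsg.blockOf M (χ₀ : G → ℂ),
    ⟨hB₀, χ₀, Blocks.self_mem_blockOf hM χ₀, θ₀, hθ₀, hχ₀⟩, ?_⟩
  rintro B ⟨hB, hcov⟩
  by_contra hne
  obtain ⟨χ, hχ⟩ := Blocks.block_nonempty hM hB
  have hagree : ∀ g : G, g ∈ N → Cfsg.MemLocalIdeal M
      (Cfsg.centralChar (χ : G → ℂ) g - Cfsg.centralChar (χ₀ : G → ℂ) g) := by
    intro g hg
    have h1 := (Cfsg.Agent.S0965.result p M hM N B hB b hb).1 hcov χ hχ θ₀ hθ₀ ⟨g, hg⟩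
    rwa [← Blocks.centralChar_eq_induced N χ₀ θ₀ hχ₀ hg] at h1
  refine Blocks.not_li_one hM ?_
  have e1 : Blocks.omega (χ : G → ℂ) (Blocks.idem B) - Blocks.omega (χ₀ : G → ℂ) (Blocks.idem B) = 1 := by
    rw [Blocks.omega_idem, Blocks.omega_idem, if_pos hχ,
      if_neg (fun h => Set.disjoint_left.1 (Blocks.disjoint_blocks hM hB₀ hB (Ne.symm hne))
        (Blocks.self_mem_blockOf hM χ₀) h), sub_zero]
  rw [← e1, Blocks.omega, Blocks.omega, Blocks.ev, Blocks.ev, (Blocks.isCentral_idem B).sum_mul_eq,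
    (Blocks.isCentral_idem B).sum_mul_eq, Finset.sum_div, Finset.sum_div, ← Finset.sum_sub_distrib]
  refine Blocks.li_sum hM _ fun C _ => ?_
  have hcc : ∀ η : Cfsg.IrrCharacter G,
      (∑ g, (Blocks.classSum C.out).coeff g * (η : G → ℂ) g) / (η : G → ℂ) 1
      = Cfsg.centralChar (η : G → ℂ) C.out :=
    fun η => Blocks.omega_classSum (Cfsg.Agent.Char.irr_isClassFunction η) C.out
  rw [mul_div_assoc, mul_div_assoc, hcc, hcc, ← mul_sub]
  by_cases hC : C.out ∈ N
  · exact Blocks.li_mul_left hM (Blocks.idem_block_mem hM hB _) (hagree _ hC)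
  · have hcoeff : Cfsg.MemLocalIdeal M ((Blocks.idem B).coeff C.out) := by
      by_contra hn
      obtain ⟨k, hk⟩ := hidx
      have hr := Blocks.not_dvd_orderOf_of_blockCoeff hM hB hn
      have h1 : orderOf (QuotientGroup.mk C.out : G ⧸ N) ∣ orderOf C.out :=
        orderOf_map_dvd (QuotientGroup.mk' N) C.out
      have h2 : orderOf (QuotientGroup.mk C.out : G ⧸ N) ∣ p ^ k := by
        rw [← hk, Subgroup.index_eq_card]; exact orderOf_dvd_natCard _
      obtain ⟨i, -, hi⟩ := (Nat.dvd_prime_pow hM.1).1 h2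
      rcases i with _ | i
      · rw [pow_zero, orderOf_eq_one_iff, QuotientGroup.eq_one_iff] at hi
        exact hC hi
      · exact hr ((hi ▸ dvd_pow_self p i.succ_ne_zero).trans h1)
    refine Blocks.li_mul hM hcoeff ?_
    rw [← hcc, ← hcc]
    exact (Blocks.mem_locRing hM).1 (sub_mem
      ((Blocks.mem_locRing hM).2 (Blocks.omega_lr hM χ (Blocks.isCentral_classSum _) (Blocks.classSum_mem hM _)))
      ((Blocks.mem_locRing hM).2 (Blocks.omega_lr hM χ₀ (Blocks.isCentral_classSum _) (Blocks.classSum_mem hM _))))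

end Cfsg.Agent.S0966
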