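import Cfsg.Statements.S0973
import Cfsg.Agent.Blocks.ExtFirstMain

set_option autoImplicit false
set_option linter.all false
open Cfsg

namespace Cfsg.Agent.S0973

/-- Let B be a block of the finite group G with defect group P (relative to a maximal ideal M of the algebraic integers containing p), and let L = P ⊔ C_G(P). Then (i) some block b of L with defect group P (viewed in L) induces B, and (ii) if b and b' are blocks of L both inducing B, there is n ∈ N_G(P) carrying b to b': for every θ ∈ b there is θ' ∈ b' with θ' x = θ (n x n⁻¹) for all x ∈ L. -/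
theorem result {G : Type*} [Group G] [Finite G] (p : ℕ) [Fact p.Prime] (M : Ideal Cfsg.AlgInt) (hM : Cfsg.IsPModular p M) (B : Set (Cfsg.IrrCharacter G)) (hB : Cfsg.IsPBlock M B) (P : Subgroup G) (hP : Cfsg.IsDefectGroup p M B P) : (∃ b : Set (Cfsg.IrrCharacter ↥(P ⊔ Subgroup.centralizer (P : Set G))), Cfsg.IsDefectGroup p M b (P.subgroupOf (P ⊔ Subgroup.centralizer (P : Set G))) ∧ Cfsg.IsInducedBlock M (P ⊔ Subgroup.centralizer (P : Set G)) b B) ∧ ∀ b b' : Set (Cfsg.IrrCharacter ↥(P ⊔ Subgroup.centralizer (P : Set G))), Cfsg.IsInducedBlock M (P ⊔ Subgroup.centralizer (P : Set G)) b B → Cfsg.IsInducedBlock M (P ⊔ Subgroup.centralizer (P : Set G)) b' B → ∃ n ∈ Subgroup.normalizer (P : Set G), ∀ θ ∈ b, ∃ θ' ∈ b', ∀ x : ↥(P ⊔ Subgroup.centralizer (P : Set G)), ∀ hx : n * (x : G) * n⁻¹ ∈ P ⊔ Subgroup.centralizer (P : Set G), (θ' : ↥(P ⊔ Subgroup.centralizer (P : Set G)) → ℂ) x = (θ : ↥(P ⊔ Subgroup.centralizer (P : Set G)) → ℂ) ⟨n * (x : G) * n⁻¹, hx⟩ := by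
  classical
  haveI := Fintype.ofFinite G
  haveI := Fintype.ofFinite ↥(P ⊔ Subgroup.centralizer (P : Set G))
  obtain ⟨w, hw, hwP⟩ := Cfsg.Agent.Blocks.isDefectGroup_iff.1 hP
  have hPg : IsPGroup p P := hwP.2.1
  have hCN : Subgroup.centralizer (P : Set G) ≤ Subgroup.normalizer (P : Set G) := by
    intro c hc
    refine Subgroup.mem_normalizer_iff.2 fun g => ⟨fun hg => ?_, fun hg => ?_⟩
    · rw [← Subgroup.mem_centralizer_iff.1 hc g hg, mul_inv_cancel_right]; exact hg
    · have h := Subgroup.mem_centralizer_iff.1 ((Subgroup.centralizer (P : Set G)).inv_mem hc) _ hg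
      have : g = c * g * c⁻¹ := by
        calc g = c⁻¹ * (c * g * c⁻¹) * c := by group
          _ = (c * g * c⁻¹) * c⁻¹ * c := by rw [h]
          _ = _ := by group
      rw [this]; exact hg
  have hLN : P ⊔ Subgroup.centralizer (P : Set G) ≤ Subgroup.normalizer (P : Set G) :=
    sup_le Subgroup.le_normalizer hCN
  refine ⟨?_, fun b b' hb hb' => ?_⟩
  · obtain ⟨b, hb⟩ := Cfsg.Agent.Blocks.exists_inducing hM hPg le_sup_left le_sup_right hLN hB
      hw.2.1 (Cfsg.Agent.Blocks.mem_centralizer_iff_le.2 hwP.1)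
    exact ⟨b, Cfsg.Agent.Blocks.defect_of_inducing hM hPg le_sup_left hLN hP hb, hb⟩
  · refine Cfsg.Agent.Blocks.exists_conj_of_inducing hM hPg hP le_sup_left le_sup_right hLN ?_ hb hb'
    intro n hn x hx
    have h1 : (P ⊔ Subgroup.centralizer (P : Set G)).map (MulAut.conj n).toMonoidHom
        ≤ P ⊔ Subgroup.centralizer (P : Set G) := by
      rw [Subgroup.map_sup]
      refine sup_le_sup ?_ ?_
      · exact le_of_eq (Cfsg.Agent.Blocks.cj_eq_self_of_mem_normalizer hn)
      · intro g hg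
        obtain ⟨c, hc, rfl⟩ := Subgroup.mem_map.1 hg
        have := Cfsg.Agent.Blocks.mem_centralizer_cj' (x := n) hc
        rwa [Cfsg.Agent.Blocks.cj_eq_self_of_mem_normalizer hn] at this
    exact h1 ⟨x, hx, rfl⟩

end Cfsg.Agent.S0973
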