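import Cfsg.Statements.S0987
import Mathlib

set_option autoImplicit false
open Cfsg

namespace Cfsg.Agent.S0987

/-- If a finite group has order pqr for primes p < q < r, then its Sylow r-subgroups are normal. -/
theorem result {G : Type*} [Group G] [Finite G] (p q r : ℕ) (hp : p.Prime) (hq : q.Prime) [Fact r.Prime] (hpq : p < q) (hqr : q < r) (hG : Nat.card G = p * q * r) (R : Sylow r G) : (R : Subgroup G).Normal := by
  classical
  have hr : r.Prime := Fact.out
  haveI : Fact p.Prime := ⟨hp⟩
  have hmin : (Nat.card G).minFac = p := by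
    refine le_antisymm (Nat.minFac_le_of_dvd hp.two_le (hG ▸ (dvd_mul_right p q).trans (dvd_mul_right _ r))) ?_
    have h1 := Nat.minFac_prime (n := Nat.card G) (by rw [hG]; intro h; exact hp.one_lt.ne' (Nat.eq_one_of_dvd_one (h ▸ (dvd_mul_right p q).trans (dvd_mul_right _ r))))
    have h2 := Nat.minFac_dvd (Nat.card G)
    generalize (Nat.card G).minFac = m at h1 h2 ⊢
    rw [hG] at h2
    rcases h1.dvd_mul.mp h2 with h | h
    · rcases h1.dvd_mul.mp h with h | h
      · exact ((Nat.prime_dvd_prime_iff_eq h1 hp).mp h).ge
      · rw [(Nat.prime_dvd_prime_iff_eq h1 hq).mp h]; omega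
    · rw [(Nat.prime_dvd_prime_iff_eq h1 hr).mp h]; omega
  obtain ⟨P⟩ : Nonempty (Sylow p G) := inferInstance
  have hPc : Nat.card (P : Subgroup G) = p := by
    rw [P.card_eq_multiplicity, hG, Nat.factorization_mul (mul_ne_zero hp.ne_zero hq.ne_zero) hr.ne_zero,
      Nat.factorization_mul hp.ne_zero hq.ne_zero, Finsupp.add_apply, Finsupp.add_apply, hp.factorization_self,
      hq.factorization, hr.factorization, Finsupp.single_eq_of_ne (by omega), Finsupp.single_eq_of_ne (by omega)]
    simp
  haveI : IsCyclic (P : Subgroup G) := isCyclic_of_prime_card hPc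
  have hle := IsCyclic.normalizer_le_centralizer hmin (P := P) inferInstance
  have hc := MonoidHom.ker_transferSylow_isComplement' P hle
  set K := (MonoidHom.transferSylow P hle).ker
  have hK : Nat.card K = q * r := by
    have := hc.card_mul
    rw [hPc, hG] at this
    exact Nat.eq_of_mul_eq_mul_right hp.pos (by rw [this]; ring)
  obtain ⟨S⟩ : Nonempty (Sylow r K) := inferInstance
  have hSc : Nat.card (S : Subgroup K) = r := by
    rw [S.card_eq_multiplicity, hK, Nat.factorization_mul hq.ne_zero hr.ne_zero, Finsupp.add_apply, hr.factorization_self,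
      hq.factorization, Finsupp.single_eq_of_ne (by omega)]
    simp
  have hSi : (S : Subgroup K).index = q := by
    have := (S : Subgroup K).card_mul_index
    rw [hSc, hK] at this
    exact Nat.eq_of_mul_eq_mul_left hr.pos (by rw [this]; ring)
  haveI : Subsingleton (Sylow r K) := by
    refine (Nat.card_eq_one_iff_unique.mp ?_).1
    have h1 := hSi ▸ S.card_dvd_index
    have h2 := card_sylow_modEq_one r K
    rcases (Nat.dvd_prime hq).mp h1 with h | h
    · exact h
    · rw [h, Nat.ModEq, Nat.mod_eq_of_lt hqr, Nat.mod_eq_of_lt hr.one_lt] at h2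
      exact absurd h2 hq.one_lt.ne'
  haveI : (S : Subgroup K).Characteristic := Sylow.characteristic_of_subsingleton S
  haveI hn : ((S : Subgroup K).map K.subtype).Normal := inferInstance
  have hRc : Nat.card (R : Subgroup G) = r := by
    rw [R.card_eq_multiplicity, hG, Nat.factorization_mul (mul_ne_zero hp.ne_zero hq.ne_zero) hr.ne_zero,
      Nat.factorization_mul hp.ne_zero hq.ne_zero, Finsupp.add_apply, Finsupp.add_apply, hr.factorization_self,
      hp.factorization, hq.factorization, Finsupp.single_eq_of_ne (by omega), Finsupp.single_eq_of_ne (by omega)]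
    simp
  have hle2 : (S : Subgroup K).map K.subtype ≤ R := (S.isPGroup'.map K.subtype).le_sylow_of_normal R
  rw [← Subgroup.eq_of_le_of_card_ge hle2 (by rw [hRc, Subgroup.card_map_of_injective K.subtype_injective, hSc])]
  exact hn

end Cfsg.Agent.S0987
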