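import Cfsg.Statements.S0991
import Mathlib

set_option autoImplicit false
open Cfsg

namespace Cfsg.Agent.S0991

/-- Embedding Theorem: if a non-abelian finite simple group has a proper subgroup of index n, then it is isomorphic to a subgroup of the alternating group of degree n. -/
theorem result {G : Type*} [Group G] [Finite G] [IsSimpleGroup G] (hG : ¬ IsMulCommutative G) (H : Subgroup G) (hH : H ≠ ⊤) : ∃ f : G →* ↥(alternatingGroup (Fin H.index)), Function.Injective f := by
  classical
  let e : G ⧸ H ≃ Fin H.index := Finite.equivFinOfCardEq rfl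
  let φ : G →* Equiv.Perm (Fin H.index) := e.permCongrHom.toMonoidHom.comp (MulAction.toPermHom G (G ⧸ H))
  have hinj : Function.Injective φ := by
    refine e.permCongrHom.injective.comp ?_
    rw [← MonoidHom.ker_eq_bot_iff, ← Subgroup.normalCore_eq_ker]
    rcases (inferInstance : H.normalCore.Normal).eq_bot_or_eq_top with h | h
    · exact h
    · exact absurd (top_le_iff.mp (h ▸ H.normalCore_le)) hH
  have hev : ∀ g, φ g ∈ alternatingGroup (Fin H.index) := by
    intro g
    rw [Equiv.Perm.mem_alternatingGroup]
    rcases ((Equiv.Perm.sign.comp φ).normal_ker).eq_bot_or_eq_top with hk | hk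
    · exfalso
      have hi := (MonoidHom.ker_eq_bot_iff _).mp hk
      exact hG ⟨⟨fun a b => hi (by simp [mul_comm])⟩⟩
    · exact MonoidHom.mem_ker.mp (hk ▸ Subgroup.mem_top g : g ∈ (Equiv.Perm.sign.comp φ).ker)
  exact ⟨φ.codRestrict _ hev, fun a b h => hinj (congrArg Subtype.val h)⟩

end Cfsg.Agent.S0991
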