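import Cfsg.Statements.S1010
import Mathlib.GroupTheory.Sylow
import Mathlib.GroupTheory.IndexNormal
import Mathlib.Tactic.NormNum.Prime
import Mathlib.GroupTheory.Transfer
import Mathlib.GroupTheory.Perm.Cycle.Type
import Mathlib.GroupTheory.SpecificGroups.Cyclic
import Mathlib.Tactic.Group
import Mathlib.Combinatorics.Enumerative.DoubleCounting
import Mathlib.Tactic.IntervalCases

set_option autoImplicit false
open Cfsg

namespace Cfsg.Agent.S1010
open Subgroup MulAction

universe u
variable {G : Type u} [Group G] [Finite G]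

/-- Sylow subgroups of a subgroup containing one Sylow subgroup. -/
theorem card_sylow_overgroup {p : ℕ} [Fact p.Prime] (H : Subgroup G) (a : Sylow p G)
    (ha : (a : Subgroup G) ≤ H) :
    Nat.card {b : Sylow p G // (b : Subgroup G) ≤ H} = Nat.card (Sylow p H) := by
  refine Nat.card_eq_of_bijective (fun b => b.1.subtype b.2) ⟨fun b c h => Subtype.ext (Sylow.subtype_injective h), fun Q => ?_⟩
  obtain ⟨b, hb⟩ := (Q.isPGroup'.map H.subtype).exists_le_sylow
  have h1 : Nat.card ((Q : Subgroup H).map H.subtype) = Nat.card (Q : Subgroup H) :=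
    Subgroup.card_map_of_injective H.subtype_injective
  have h2 : Nat.card (a : Subgroup G) = Nat.card (Q : Subgroup H) := by
    have h := (a.subtype ha).card_eq_multiplicity
    rw [← Q.card_eq_multiplicity, Sylow.coe_subtype, Nat.card_congr (Subgroup.subgroupOfEquivOfLe ha).toEquiv] at h
    exact h
  have h3 : (Q : Subgroup H).map H.subtype = b := Subgroup.eq_of_le_of_card_ge hb (by
    rw [h1, ← h2, a.card_eq_multiplicity, b.card_eq_multiplicity])
  refine ⟨⟨b, h3 ▸ Subgroup.map_subtype_le _⟩, ?_⟩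
  refine Sylow.ext ?_
  rw [Sylow.coe_subtype]
  show (b : Subgroup G).subgroupOf H = _
  rw [← h3]
  exact Subgroup.comap_map_eq_self_of_injective H.subtype_injective _

/-- Transfer of a fusion invariant character of a Sylow subgroup. -/
theorem exists_hom_ne_one {p : ℕ} [hp : Fact p.Prime] {A : Type*} [CommGroup A] (T : Sylow p G)
    (χ : (T : Subgroup G) →* A)
    (hinv : ∀ x y : (T : Subgroup G), (∃ g : G, g * x * g⁻¹ = y) → χ x = χ y)
    (hne : ∃ s, χ s ≠ 1) : ∃ ψ : G →* A, ∃ g, ψ g ≠ 1 := by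
  classical
  obtain ⟨s, hs⟩ := hne
  refine ⟨MonoidHom.transfer χ, s, fun h => hs ?_⟩
  haveI := (T : Subgroup G).fintypeQuotientOfFiniteIndex
  rw [MonoidHom.transfer_eq_prod_quotient_orbitRel_zpowers_quot] at h
  rw [Finset.prod_congr rfl (fun q _ => (hinv (s ^ Function.minimalPeriod ((s : G) • ·) q.out) _
    ⟨q.out.out⁻¹, by simp only [SubgroupClass.coe_pow, inv_inv]⟩).symm)] at h
  simp only [map_pow] at h
  rw [Finset.prod_pow_eq_pow_sum, ← Subgroup.index_eq_sum_minimalPeriod] at h
  rw [← orderOf_eq_one_iff]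
  refine Nat.eq_one_of_dvd_coprimes ?_ ((orderOf_map_dvd χ s)) (orderOf_dvd_of_pow_eq_one h)
  obtain ⟨k, hk⟩ := IsPGroup.iff_orderOf.1 T.isPGroup' s
  rw [hk]
  exact Nat.Coprime.pow_left _ (hp.out.coprime_iff_not_dvd.2 T.not_dvd_index)

instance : Fact (Nat.Prime 5) := ⟨Nat.prime_five⟩

/-- The conjugation action on the Sylow subgroups is faithful. -/
def Faith (G : Type u) [Group G] : Prop := ∀ g : G, (∀ b : Sylow 5 G, g • b = b) → g = 1

omit [Finite G] in
theorem fix_iff (g : G) (b : Sylow 5 G) : g • b = b ↔ g ∈ normalizer ((b : Subgroup G) : Set G) :=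
  Sylow.smul_eq_iff_mem_normalizer

theorem mem_of_fix {x : G} (hx : ∃ k, orderOf x = 5 ^ k) {b : Sylow 5 G} (h : x • b = b) :
    x ∈ (b : Subgroup G) := by
  obtain ⟨k, hk⟩ := hx
  have hz : IsPGroup 5 (zpowers x) := IsPGroup.of_card (by rw [Nat.card_zpowers, hk])
  have h2 : x ∈ zpowers x ⊓ normalizer ((b : Subgroup G) : Set G) := ⟨mem_zpowers x, (fix_iff x b).1 h⟩
  exact ((hz.inf_normalizer_sylow b).le h2).2

omit [Finite G] in
theorem fix_of_mem {x : G} {b : Sylow 5 G} (h : x ∈ (b : Subgroup G)) : x • b = b :=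
  (fix_iff x b).2 (le_normalizer h)

omit [Finite G] in
theorem orderOf_mem {x : G} {b : Sylow 5 G} (h : x ∈ (b : Subgroup G)) : ∃ k, orderOf x = 5 ^ k := by
  obtain ⟨k, hk⟩ := IsPGroup.iff_orderOf.1 b.isPGroup' ⟨x, h⟩
  exact ⟨k, by rw [← hk, ← Subgroup.orderOf_coe]⟩

omit [Finite G] in
theorem fix_pow {g : G} {b : Sylow 5 G} (h : g • b = b) (n : ℕ) : g ^ n • b = b :=
  (fix_iff _ b).2 (Subgroup.pow_mem _ ((fix_iff g b).1 h) n)

section
variable (hn : Nat.card (Sylow 5 G) = 21)
include hn

theorem orbit_card (a b : Sylow 5 G) (hab : b ≠ a) :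
    Nat.card (orbit (a : Subgroup G) b) = 5 := by
  obtain ⟨k, hk⟩ := a.isPGroup'.card_orbit b
  have hsub : orbit (a : Subgroup G) b ⊆ {a}ᶜ := by
    rintro c ⟨y, rfl⟩ (h : (y : G) • b = a)
    apply hab
    exact MulAction.injective (y : G) (h.trans (fix_of_mem y.2).symm)
  have h20 : Nat.card (orbit (a : Subgroup G) b) ≤ 20 := by
    refine le_trans (Nat.card_mono (Set.toFinite _) hsub) ?_
    have := Set.ncard_add_ncard_compl ({a} : Set (Sylow 5 G))
    rw [Set.ncard_singleton, hn] at this
    rw [Nat.card_coe_set_eq]; omega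
  rcases k with _ | _ | k
  · exfalso
    have h1 : ∀ y ∈ (a : Subgroup G), y • b = b := by
      intro y hy
      have hs : Subsingleton (orbit (a : Subgroup G) b) :=
        (Nat.card_eq_one_iff_unique.1 (by simpa using hk)).1
      exact congrArg Subtype.val (hs.elim ⟨y • b, ⟨y, hy⟩, rfl⟩ ⟨b, mem_orbit_self b⟩)
    have hle : (a : Subgroup G) ≤ b := fun y hy => mem_of_fix (orderOf_mem hy) (h1 y hy)
    exact hab (Sylow.ext (a.is_maximal' b.isPGroup' hle))
  · simpa using hk
  · have : 25 ≤ 5 ^ (k + 1 + 1) := le_trans (by norm_num) (Nat.pow_le_pow_right (by norm_num) (Nat.le_add_left 2 k))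
    omega

theorem stab_index (a b : Sylow 5 G) (hab : b ≠ a) :
    (stabilizer (a : Subgroup G) b).index = 5 := by
  rw [index_stabilizer, ← Nat.card_coe_set_eq, orbit_card hn a b hab]

theorem stab_normal (a b : Sylow 5 G) (hab : b ≠ a) : (stabilizer (a : Subgroup G) b).Normal := by
  have h5 := stab_index hn a b hab
  obtain ⟨n, hn'⟩ := a.isPGroup'.exists_card_eq
  have hd := (stabilizer (a : Subgroup G) b).index_dvd_card
  rw [h5, hn'] at hd
  refine Subgroup.normal_of_index_eq_minFac_card ?_
  rcases n with _ | n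
  · simp at hd
  · rw [h5, hn', Nat.pow_minFac (Nat.succ_ne_zero n), Nat.Prime.minFac_eq Nat.prime_five]

variable (hf : Faith G)
include hf

omit hn in
theorem eq_one_of_fix_all {g : G} (h : ∀ b : Sylow 5 G, g • b = b) : g = 1 := hf g h

theorem exponent_five {a : Sylow 5 G} {x : G} (hx : x ∈ (a : Subgroup G)) : x ^ 5 = 1 := by
  refine hf _ fun b => ?_
  by_cases hab : b = a
  · rw [hab]; exact fix_of_mem (Subgroup.pow_mem _ hx 5)
  let S := stabilizer (a : Subgroup G) b
  haveI : S.Normal := stab_normal hn a b hab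
  have h := S.pow_index_mem (⟨x, hx⟩ : (a : Subgroup G))
  rw [stab_index hn a b hab] at h
  exact h

theorem sylow_comm (a : Sylow 5 G) {x y : G} (hx : x ∈ (a : Subgroup G)) (hy : y ∈ (a : Subgroup G)) :
    x * y = y * x := by
  suffices h : x * y * (y * x)⁻¹ = 1 from mul_inv_eq_one.1 h
  refine hf _ fun b => ?_
  by_cases hab : b = a
  · rw [hab]; exact fix_of_mem (Subgroup.mul_mem _ (Subgroup.mul_mem _ hx hy) (Subgroup.inv_mem _ (Subgroup.mul_mem _ hy hx)))
  let S := stabilizer (a : Subgroup G) b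
  haveI : S.Normal := stab_normal hn a b hab
  haveI : IsCyclic ((a : Subgroup G) ⧸ S) := isCyclic_of_prime_card (p := 5) (by rw [← Subgroup.index_eq_card, stab_index hn a b hab])
  letI := IsCyclic.commGroup (α := (a : Subgroup G) ⧸ S)
  have h : (⟨x, hx⟩ * ⟨y, hy⟩ * (⟨y, hy⟩ * ⟨x, hx⟩)⁻¹ : (a : Subgroup G)) ∈ S := by
    rw [← QuotientGroup.eq_one_iff, QuotientGroup.mk_mul, QuotientGroup.mk_mul, QuotientGroup.mk_inv,
      QuotientGroup.mk_mul, mul_inv_eq_one]
    exact mul_comm _ _
  exact h

/-- An element of prime order above five fixes no point. -/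
theorem eq_one_of_prime {a : Sylow 5 G} {g : G} {q : ℕ} (hq : q.Prime) (h5 : 5 < q) (hg : g ^ q = 1)
    (ha : g • a = a) : g = 1 := by
  classical
  refine hf _ fun b => ?_
  by_cases hab : b = a
  · rw [hab, ha]
  by_contra hb
  haveI := Fact.mk hq
  have hgN := (fix_iff g a).1 ha
  -- `g ^ i` permutes the orbits of `a`
  have horb : ∀ (h : G), h • a = a → ∀ c d : Sylow 5 G, d ∈ orbit (a : Subgroup G) c →
      h • d ∈ orbit (a : Subgroup G) (h • c) := by
    intro h hh c d ⟨y, hy⟩
    refine ⟨⟨h * y * h⁻¹, (Subgroup.mem_normalizer_iff.1 ((fix_iff h a).1 hh) y).1 y.2⟩, ?_⟩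
    show (h * y * h⁻¹) • h • c = h • d
    rw [← hy, smul_smul]
    show _ = h • ((y : G) • c)
    rw [smul_smul, inv_mul_cancel_right]
  have hgi : ∀ i : ℕ, g ^ i • a = a := fix_pow ha
  have hne : ∀ i : ℕ, g ^ i • b ≠ a := fun i h => hab (MulAction.injective (g ^ i) (h.trans (hgi i).symm))
  -- among five translates two lie in one orbit
  let F : Fin 5 → Finset (Sylow 5 G) := fun i => (Set.toFinite (orbit (a : Subgroup G) (g ^ (i : ℕ) • b))).toFinset
  have hF : ∀ i, (F i).card = 5 := fun i => by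
    refine Eq.trans ?_ (orbit_card hn a _ (hne i))
    rw [Nat.card_coe_set_eq, Set.ncard_eq_toFinset_card]
  have hpig : ∃ i j : Fin 5, i < j ∧ orbit (a : Subgroup G) (g ^ (i : ℕ) • b) = orbit (a : Subgroup G) (g ^ (j : ℕ) • b) := by
    by_contra! h
    haveI := Fintype.ofFinite (Sylow 5 G)
    have hd : (Set.univ : Set (Fin 5)).PairwiseDisjoint F := by
      intro i _ j _ hij
      rw [Function.onFun, Finset.disjoint_left]
      intro c hc hc'
      simp only [F, Set.Finite.mem_toFinset] at hc hc'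
      have e := (orbit_eq_iff.2 hc).symm.trans (orbit_eq_iff.2 hc')
      rcases lt_or_gt_of_ne hij with l | l
      exacts [h _ _ l e, h _ _ l e.symm]
    have hcard := Finset.card_biUnion (s := Finset.univ) (t := F) (fun i _ j _ hij => hd trivial trivial hij)
    rw [Finset.sum_congr rfl (fun i _ => hF i)] at hcard
    have hle : (Finset.univ.biUnion F).card ≤ (Finset.univ.erase a).card := by
      refine Finset.card_le_card fun c hc => ?_
      simp only [Finset.mem_biUnion, F, Set.Finite.mem_toFinset] at hc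
      obtain ⟨i, -, y, rfl⟩ := hc
      refine Finset.mem_erase.2 ⟨fun e => hne i ?_, Finset.mem_univ _⟩
      exact MulAction.injective (y : G) (e.trans (fix_of_mem y.2).symm)
    rw [Finset.card_erase_of_mem (Finset.mem_univ a), Finset.card_univ, ← Nat.card_eq_fintype_card, hn] at hle
    simp at hcard
    omega
  obtain ⟨i, j, hij, he⟩ := hpig
  set d := (j : ℕ) - i
  have hd : 0 < d ∧ d < q ∧ (i : ℕ) + d = j := by
    have := j.2; have : (i : ℕ) < j := hij; omega
  set c := g ^ (i : ℕ) • b
  have hc : g ^ d • c ∈ orbit (a : Subgroup G) c := by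
    rw [smul_smul, ← pow_add, Nat.add_comm, hd.2.2]
    exact orbit_eq_iff.1 he.symm
  -- so `g` stabilizes the orbit of `c`, which has five points
  set h := g ^ d
  have hh : h • a = a := hgi d
  have hstab : ∀ n : ℕ, h ^ n • c ∈ orbit (a : Subgroup G) c := by
    intro n
    induction n with
    | zero => simp
    | succ n ih =>
      rw [pow_succ', mul_smul]
      have := horb h hh _ _ ih
      rwa [orbit_eq_iff.2 hc] at this
  have hhq : orderOf h = q := by
    refine orderOf_eq_prime (by rw [← pow_mul, mul_comm, pow_mul, hg, one_pow]) fun e => hb ?_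
    have hgq : orderOf g = q := orderOf_eq_prime hg (fun e' => hb (by rw [e', one_smul]))
    have := orderOf_dvd_of_pow_eq_one e
    rw [hgq] at this
    exact absurd (Nat.le_of_dvd hd.1 this) (by omega)
  have hz : Nat.card (orbit (zpowers h) c) ≤ 5 := by
    refine le_trans (Nat.card_mono (Set.toFinite _) ?_) (orbit_card hn a c (hne i)).le
    rintro _ ⟨⟨w, hw⟩, rfl⟩
    obtain ⟨n, rfl⟩ := (Submonoid.mem_powers_iff _ _).1 (mem_powers_iff_mem_zpowers.2 hw)
    exact hstab n
  have hz1 : Nat.card (orbit (zpowers h) c) = 1 := by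
    obtain ⟨k, hk⟩ := (IsPGroup.of_card (p := q) (n := 1) (G := zpowers h) (by rw [Nat.card_zpowers, hhq, pow_one])).card_orbit c
    rcases k with _ | k
    · simpa using hk
    · have : q ≤ q ^ (k + 1) := Nat.le_self_pow (by omega) q
      omega
  have hfix : h • c = c := by
    have hs := (Nat.card_eq_one_iff_unique.1 hz1).1
    exact congrArg Subtype.val (hs.elim ⟨h • c, ⟨h, mem_zpowers h⟩, rfl⟩ ⟨c, mem_orbit_self c⟩)
  apply hb
  have hgc : g • c = c := by
    obtain ⟨m, hm⟩ : ∃ m : ℕ, h ^ m = g := by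
      have hco : Nat.Coprime d (orderOf g) := by
        rw [orderOf_eq_prime hg (fun e' => hb (by rw [e', one_smul]))]
        exact Nat.Coprime.symm (hq.coprime_iff_not_dvd.2 fun e => absurd (Nat.le_of_dvd hd.1 e) (by omega))
      exact ⟨_, (exists_pow_eq_self_of_coprime hco).choose_spec⟩
    rw [← hm]; exact fix_pow hfix m
  have := hgc
  simp only [c, smul_smul, ← pow_succ'] at this
  rw [pow_succ, mul_smul] at this
  exact MulAction.injective _ this


/-- A five-element moving exactly five points does not occur. -/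
theorem fixed_ne_sixteen {x : G} (hx : ∃ k, orderOf x = 5 ^ k) :
    Nat.card {b : Sylow 5 G // x ∈ (b : Subgroup G)} ≠ 16 := by
  classical
  intro h16
  haveI := Fintype.ofFinite (Sylow 5 G)
  haveI := Fintype.ofFinite G
  let supp : G → Finset (Sylow 5 G) := fun g => Finset.univ.filter fun b => g ∉ (b : Subgroup G)
  let M : Finset (Finset (Sylow 5 G)) :=
    ((Finset.univ.filter fun g : G => (∃ k, orderOf g = 5 ^ k)).image supp).filter fun S => S.card = 5
  have hcard21 : Fintype.card (Sylow 5 G) = 21 := by rw [← Nat.card_eq_fintype_card]; exact hn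
  have hxM : supp x ∈ M := by
    refine Finset.mem_filter.2 ⟨Finset.mem_image.2 ⟨x, Finset.mem_filter.2 ⟨Finset.mem_univ _, hx⟩, rfl⟩, ?_⟩
    have h := Finset.card_filter_add_card_filter_not (s := (Finset.univ : Finset (Sylow 5 G))) (fun b : Sylow 5 G => x ∈ (b : Subgroup G))
    rw [Nat.card_eq_fintype_card, Fintype.card_subtype] at h16
    rw [Finset.card_univ, hcard21, h16] at h
    show (Finset.univ.filter fun b : Sylow 5 G => x ∉ (b : Subgroup G)).card = 5
    omega
  -- each member avoiding `a` is an orbit of `a`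
  have horb : ∀ a : Sylow 5 G, ∀ S ∈ M, a ∉ S → ∀ c ∈ S, ∀ d ∈ orbit (a : Subgroup G) c, d ∈ S := by
    intro a S hS ha c hc d hd
    simp only [M, Finset.mem_filter, Finset.mem_image] at hS
    obtain ⟨⟨g, ⟨-, hg⟩, rfl⟩, hS5⟩ := hS
    simp only [supp, Finset.mem_filter, Finset.mem_univ, true_and, not_not] at ha
    simp only [supp, Finset.mem_filter, Finset.mem_univ, true_and] at hc ⊢
    obtain ⟨y, rfl⟩ := hd
    intro h
    apply hc
    have h1 : g • (y : G) • c = (y : G) • c := fix_of_mem h
    refine mem_of_fix hg ?_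
    rw [smul_smul, sylow_comm hn hf a ha y.2, ← smul_smul] at h1
    exact MulAction.injective _ h1
  have heq : ∀ a : Sylow 5 G, ∀ S ∈ M, a ∉ S → ∀ c ∈ S, (Set.toFinite (orbit (a : Subgroup G) c)).toFinset = S := by
    intro a S hS ha c hc
    refine Finset.eq_of_subset_of_card_le (fun d hd => horb a S hS ha c hc d (by simpa using hd)) ?_
    rw [(Finset.mem_filter.1 hS).2, ← Set.ncard_eq_toFinset_card, ← Nat.card_coe_set_eq]
    exact (orbit_card hn a c (fun e => ha (e ▸ hc))).ge
  let r : Sylow 5 G → ℕ := fun a => (M.filter fun S => a ∉ S).card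
  have hr4 : ∀ a, r a ≤ 4 := by
    intro a
    have hd : ((M.filter fun S => a ∉ S) : Set (Finset (Sylow 5 G))).PairwiseDisjoint id := by
      intro S hS S' hS' hne
      simp only [Finset.coe_filter, Set.mem_setOf_eq] at hS hS'
      rw [Function.onFun, Finset.disjoint_left]
      intro c hc hc'
      exact hne ((heq a S hS.1 hS.2 c hc).symm.trans (heq a S' hS'.1 hS'.2 c hc'))
    have h1 := Finset.card_biUnion hd
    have h2 : ((M.filter fun S => a ∉ S).biUnion id).card ≤ (Finset.univ.erase a).card := by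
      refine Finset.card_le_card fun c hc => ?_
      simp only [Finset.mem_biUnion, Finset.mem_filter, id] at hc
      obtain ⟨S, ⟨-, ha⟩, hcS⟩ := hc
      exact Finset.mem_erase.2 ⟨fun e => ha (e ▸ hcS), Finset.mem_univ _⟩
    have h5 : ∀ S ∈ M.filter (fun S => a ∉ S), (id S).card = 5 := fun S hS => (Finset.mem_filter.1 (Finset.mem_filter.1 hS).1).2
    rw [h1, Finset.sum_congr rfl h5, Finset.sum_const, smul_eq_mul,
      Finset.card_erase_of_mem (Finset.mem_univ a), Finset.card_univ, hcard21] at h2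
    simp only [r]; omega
  have hinv : ∀ (g : G) (a : Sylow 5 G), r a ≤ r (g • a) := by
    intro g a
    refine Finset.card_le_card_of_injOn (fun S => S.image (g • ·)) ?_ ?_
    · intro S hS
      simp only [Finset.coe_filter, Set.mem_setOf_eq] at hS ⊢
      obtain ⟨hSM, ha⟩ := hS
      simp only [M, Finset.mem_filter, Finset.mem_image] at hSM ⊢
      obtain ⟨⟨w, ⟨-, hw⟩, rfl⟩, hS5⟩ := hSM
      have hoe : orderOf (g * w * g⁻¹) = orderOf w := (MulAut.conj g).orderOf_eq w
      refine ⟨⟨⟨g * w * g⁻¹, ⟨Finset.mem_univ _, by rw [hoe]; exact hw⟩, ?_⟩, ?_⟩, ?_⟩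
      · ext c
        simp only [supp, Finset.mem_filter, Finset.mem_univ, true_and, Finset.mem_image]
        have key : ∀ b : Sylow 5 G, (g * w * g⁻¹ ∈ ((g • b : Sylow 5 G) : Subgroup G)) ↔ w ∈ (b : Subgroup G) := by
          intro b
          rw [Sylow.smul_def, Sylow.pointwise_smul_def]
          exact Subgroup.smul_mem_pointwise_smul_iff (a := MulAut.conj g) (x := w)
        constructor
        · intro h
          refine ⟨g⁻¹ • c, fun h' => h ?_, smul_inv_smul g c⟩
          have := (key (g⁻¹ • c)).2 h'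
          rwa [smul_inv_smul] at this
        · rintro ⟨b, hb, rfl⟩ h
          exact hb ((key b).1 h)
      · rw [Finset.card_image_of_injective _ (MulAction.injective g), hS5]
      · rintro ⟨b, hb, hb'⟩
        exact ha (MulAction.injective g hb' ▸ hb)
    · intro S _ S' _ h
      exact Finset.image_injective (MulAction.injective g) h
  obtain ⟨a₀⟩ := (inferInstance : Nonempty (Sylow 5 G))
  have hconst : ∀ a, r a = r a₀ := fun a => by
    obtain ⟨g, hg⟩ := MulAction.exists_smul_eq G a a₀
    have h1 := hinv g a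
    have h2 := hinv g⁻¹ a₀
    rw [hg] at h1
    rw [← hg, inv_smul_smul, hg] at h2
    omega
  have hsum := Finset.sum_card_bipartiteAbove_eq_sum_card_bipartiteBelow (fun a (S : Finset (Sylow 5 G)) => a ∉ S)
    (s := (Finset.univ : Finset (Sylow 5 G))) (t := M)
  have hL : ∀ a, (Finset.bipartiteAbove (fun a (S : Finset (Sylow 5 G)) => a ∉ S) M a).card = r a₀ := fun a => by
    rw [← hconst a]; rfl
  rw [Finset.sum_const_nat (fun a _ => hL a), Finset.sum_const_nat (m := 16) (fun S hS => ?_), Finset.card_univ, hcard21] at hsum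
  · have hM : 0 < M.card := Finset.card_pos.2 ⟨_, hxM⟩
    have := hr4 a₀
    omega
  · have := Finset.card_filter_add_card_filter_not (s := (Finset.univ : Finset (Sylow 5 G))) (fun b => b ∈ S)
    rw [Finset.filter_univ_mem, (Finset.mem_filter.1 hS).2, Finset.card_univ, hcard21] at this
    simp only [Finset.bipartiteBelow]
    omega

/-- A nontrivial five-element lies in a single Sylow five-subgroup. -/
theorem eq_of_mem_two {x : G} {a b : Sylow 5 G} (hx : x ≠ 1) (ha : x ∈ (a : Subgroup G))
    (hb : x ∈ (b : Subgroup G)) : a = b := by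
  classical
  by_contra hab
  have hx5 := orderOf_mem ha
  set C := Subgroup.centralizer ({x} : Set G) with hC
  have hle : ∀ c : Sylow 5 G, x ∈ (c : Subgroup G) ↔ (c : Subgroup G) ≤ C := by
    intro c
    refine ⟨fun h y hy => Subgroup.mem_centralizer_singleton_iff.2 (sylow_comm hn hf c hy h), fun h => ?_⟩
    have hN : (Subgroup.zpowers x).subgroupOf C ≤ (Subgroup.center C) := by
      intro y hy
      obtain ⟨i, hi⟩ := Subgroup.mem_zpowers_iff.1 hy
      rw [Subgroup.mem_center_iff]; intro z
      refine Subtype.ext ?_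
      show (z : G) * y = y * z
      rw [← show x ^ i = (y : G) from hi]
      exact (Commute.zpow_right (Subgroup.mem_centralizer_singleton_iff.1 z.2) i).eq
    haveI : ((Subgroup.zpowers x).subgroupOf C).Normal := ⟨fun y hy z => by
      rw [Subgroup.mem_center_iff.1 (hN hy) z, mul_inv_cancel_right]; exact hy⟩
    have hp : IsPGroup 5 ((Subgroup.zpowers x).subgroupOf C) := by
      obtain ⟨k, hk⟩ := hx5
      exact (IsPGroup.of_card (n := k) (by rw [Nat.card_zpowers, hk]) : IsPGroup 5 (Subgroup.zpowers x)).comap_subtype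
    have := hp.le_sylow_of_normal (c.subtype h) (show (⟨x, Subgroup.mem_centralizer_singleton_iff.2 rfl⟩ : C) ∈ _ from Subgroup.mem_zpowers x)
    exact this
  have hF : Nat.card {c : Sylow 5 G // x ∈ (c : Subgroup G)} = Nat.card (Sylow 5 C) := by
    rw [← card_sylow_overgroup C a ((hle a).1 ha)]
    exact Nat.card_congr (Equiv.subtypeEquivRight hle)
  set f := Nat.card {c : Sylow 5 G // x ∈ (c : Subgroup G)} with hfdef
  have hf1 : f % 5 = 1 := by
    rw [hF]; exact card_sylow_modEq_one 5 C
  have hf2 : 2 ≤ f := by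
    haveI : Nontrivial {c : Sylow 5 G // x ∈ (c : Subgroup G)} := ⟨⟨a, ha⟩, ⟨b, hb⟩, fun e => hab (congrArg Subtype.val e)⟩
    exact Finite.one_lt_card
  have hf21 : f < 21 := by
    rw [hfdef, ← hn]
    obtain ⟨c, hc⟩ : ∃ c : Sylow 5 G, x ∉ (c : Subgroup G) := by
      by_contra! h
      exact hx (hf x fun c => fix_of_mem (h c))
    haveI := Fintype.ofFinite (Sylow 5 G)
    rw [Nat.card_eq_fintype_card, Nat.card_eq_fintype_card]
    exact Fintype.card_subtype_lt (x := c) hc
  have hfd : f ∣ Nat.card C := by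
    obtain ⟨Q⟩ := (inferInstance : Nonempty (Sylow 5 C))
    rw [hF, Q.card_eq_index_normalizer]
    exact Subgroup.index_dvd_card _
  have hf16 := fixed_ne_sixteen hn hf hx5
  have hmove : ∀ (g : G), g ∈ C → ∀ c : Sylow 5 G, x ∈ ((g • c : Sylow 5 G) : Subgroup G) ↔ x ∈ (c : Subgroup G) := by
    intro g hg c
    have hgx : g * x = x * g := Subgroup.mem_centralizer_singleton_iff.1 hg
    constructor <;> intro h <;> refine mem_of_fix hx5 ?_
    · have := fix_of_mem h
      rw [smul_smul, ← hgx, ← smul_smul] at this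
      exact MulAction.injective _ this
    · rw [smul_smul, ← hgx, ← smul_smul, fix_of_mem h]
  have hf6 : f = 6 := by
    have h11 : f ≠ 11 := by
      intro h11
      obtain ⟨g, hg⟩ := exists_prime_orderOf_dvd_card' (G := C) 11 (hp := ⟨by norm_num⟩) (h11 ▸ hfd)
      rw [← Subgroup.orderOf_coe] at hg
      have hg11 : (g : G) ^ 11 = 1 := by rw [← hg]; exact pow_orderOf_eq_one _
      obtain ⟨c, hc⟩ : ∃ c : Sylow 5 G, x ∉ (c : Subgroup G) := by
        by_contra! h
        exact hx (hf x fun c => fix_of_mem (h c))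
      have hgc : (g : G) • c = c := by
        haveI : Fact (Nat.Prime 11) := ⟨by norm_num⟩
        obtain ⟨k, hk⟩ := (IsPGroup.of_card (p := 11) (n := 1) (G := Subgroup.zpowers (g : G)) (by rw [Nat.card_zpowers, hg, pow_one])).card_orbit c
        have hle10 : Nat.card (orbit (Subgroup.zpowers (g : G)) c) ≤ 21 - f := by
          rw [hfdef, ← hn]
          haveI := Fintype.ofFinite (Sylow 5 G)
          have h1 : Nat.card {d : Sylow 5 G // x ∈ (d : Subgroup G)} + Nat.card {d : Sylow 5 G // ¬ x ∈ (d : Subgroup G)} = Nat.card (Sylow 5 G) := by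
            rw [← Nat.card_sum]; exact Nat.card_congr (Equiv.sumCompl _)
          have h2 : Nat.card (orbit (Subgroup.zpowers (g : G)) c) ≤ Nat.card {d : Sylow 5 G // ¬ x ∈ (d : Subgroup G)} := by
            refine Nat.card_mono (Set.toFinite {d : Sylow 5 G | ¬ x ∈ (d : Subgroup G)}) ?_
            rintro _ ⟨⟨w, hw⟩, rfl⟩ h
            exact hc ((hmove w (Subgroup.zpowers_le.2 g.2 hw) c).1 h)
          omega
        rw [hk, h11] at hle10
        rcases k with _ | k
        · have hs := (Nat.card_eq_one_iff_unique.1 (show Nat.card (orbit (Subgroup.zpowers (g : G)) c) = 1 by simpa using hk)).1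
          exact congrArg Subtype.val (hs.elim ⟨(g : G) • c, ⟨(g : G), Subgroup.mem_zpowers _⟩, rfl⟩ ⟨c, mem_orbit_self c⟩)
        · have : 11 ≤ 11 ^ (k + 1) := Nat.le_self_pow (by omega) 11
          omega
      have := eq_one_of_prime hn hf (q := 11) (by norm_num) (by norm_num) hg11 hgc
      rw [this, orderOf_one] at hg
      norm_num at hg
    omega
  -- the subgroup preserving each cycle of `x`
  let K1 : Subgroup G :=
    { carrier := {g | g ∈ C ∧ ∀ c : Sylow 5 G, x ∉ (c : Subgroup G) → ∃ i : ℤ, g • c = x ^ i • c}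
      one_mem' := ⟨one_mem _, fun c _ => ⟨0, by simp⟩⟩
      mul_mem' := by
        rintro g g' ⟨hg, h⟩ ⟨hg', h'⟩
        refine ⟨mul_mem hg hg', fun c hc => ?_⟩
        obtain ⟨i, hi⟩ := h c hc
        obtain ⟨j, hj⟩ := h' c hc
        refine ⟨j + i, ?_⟩
        have hgx : Commute g x := Subgroup.mem_centralizer_singleton_iff.1 hg
        rw [mul_smul, hj, smul_smul, (hgx.zpow_right j).eq, ← smul_smul, hi, smul_smul, ← zpow_add]
      inv_mem' := by
        rintro g ⟨hg, h⟩
        refine ⟨inv_mem hg, fun c hc => ?_⟩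
        obtain ⟨i, hi⟩ := h c hc
        refine ⟨-i, ?_⟩
        have hgx : Commute g x := Subgroup.mem_centralizer_singleton_iff.1 hg
        rw [inv_smul_eq_iff, smul_smul, (hgx.zpow_right (-i)).eq, ← smul_smul, hi, smul_smul, ← zpow_add,
          neg_add_cancel, zpow_zero, one_smul] }
  have hx_five : x ^ 5 = 1 := exponent_five hn hf ha
  have hxord : orderOf x = 5 := orderOf_eq_prime hx_five hx
  have hK1 : ∀ c : Sylow 5 G, x ∈ (c : Subgroup G) → (c : Subgroup G) ≤ K1 := by
    intro c hc y hy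
    refine ⟨(hle c).1 hc hy, fun d hd => ?_⟩
    have hdc : d ≠ c := fun e => hd (e ▸ hc)
    have hsub : orbit (Subgroup.zpowers x) d ⊆ orbit (c : Subgroup G) d := by
      rintro _ ⟨⟨w, hw⟩, rfl⟩
      exact ⟨⟨w, Subgroup.zpowers_le.2 hc hw⟩, rfl⟩
    have h5 : Nat.card (orbit (Subgroup.zpowers x) d) = 5 := by
      obtain ⟨k, hk⟩ := (IsPGroup.of_card (p := 5) (n := 1) (G := Subgroup.zpowers x) (by rw [Nat.card_zpowers, hxord, pow_one])).card_orbit d
      have hle5 := Nat.card_mono (Set.toFinite _) hsub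
      rw [orbit_card hn c d hdc, hk] at hle5
      rcases k with _ | _ | k
      · exfalso
        have hs := (Nat.card_eq_one_iff_unique.1 (show Nat.card (orbit (Subgroup.zpowers x) d) = 1 by simpa using hk)).1
        exact hd (mem_of_fix hx5 (congrArg Subtype.val (hs.elim ⟨x • d, ⟨x, Subgroup.mem_zpowers _⟩, rfl⟩ ⟨d, mem_orbit_self d⟩)))
      · simpa using hk
      · have : 25 ≤ 5 ^ (k + 1 + 1) := le_trans (by norm_num) (Nat.pow_le_pow_right (by norm_num) (Nat.le_add_left 2 k))
        omega
    have heq := Set.eq_of_subset_of_ncard_le hsub (by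
      rw [← Nat.card_coe_set_eq, ← Nat.card_coe_set_eq, orbit_card hn c d hdc, h5]) (Set.toFinite _)
    have hmem : (⟨y, hy⟩ : (c : Subgroup G)) • d ∈ orbit (Subgroup.zpowers x) d := heq ▸ mem_orbit _ _
    obtain ⟨⟨w, hw⟩, hwd⟩ := hmem
    obtain ⟨i, rfl⟩ := Subgroup.mem_zpowers_iff.1 hw
    exact ⟨i, hwd.symm⟩
  have hfix5 : ∀ g ∈ K1, ∀ c : Sylow 5 G, x ∉ (c : Subgroup G) → g ^ 5 • c = c := by
    rintro g ⟨hg, h⟩ c hc
    obtain ⟨i, hi⟩ := h c hc
    have hgx : Commute g x := Subgroup.mem_centralizer_singleton_iff.1 hg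
    have hn' : ∀ n : ℕ, g ^ n • c = (x ^ i) ^ n • c := by
      intro n
      induction n with
      | zero => simp
      | succ n ih =>
        rw [pow_succ', mul_smul, ih, smul_smul, ((hgx.zpow_right i).pow_right n).eq, ← smul_smul, hi, smul_smul, ← pow_succ]
    rw [hn' 5, ← zpow_natCast, ← zpow_mul, mul_comm, zpow_mul, zpow_natCast, hx_five, one_zpow, one_smul]
  -- the pointwise stabilizer `K` of the moved points has trivial stabilizers
  let K : Subgroup G :=
    { carrier := {g | g ∈ C ∧ ∀ c : Sylow 5 G, x ∉ (c : Subgroup G) → g • c = c}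
      one_mem' := ⟨one_mem _, fun c _ => one_smul _ c⟩
      mul_mem' := fun {g g'} hg hg' => ⟨mul_mem hg.1 hg'.1, fun c hc => by rw [mul_smul, hg'.2 c hc, hg.2 c hc]⟩
      inv_mem' := fun {g} hg => ⟨inv_mem hg.1, fun c hc => by rw [inv_smul_eq_iff, hg.2 c hc]⟩ }
  have hK5 : ∀ g ∈ K, (∃ k, orderOf g = 5 ^ k) → g = 1 := by
    intro g hg hg5
    by_contra hg1
    have hall : ∀ c : Sylow 5 G, x ∉ (c : Subgroup G) → g ∈ (c : Subgroup G) := fun c hc => mem_of_fix hg5 (hg.2 c hc)
    have hz : IsPGroup 5 (Subgroup.zpowers g) := by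
      obtain ⟨k, hk⟩ := hg5
      exact IsPGroup.of_card (n := k) (by rw [Nat.card_zpowers, hk])
    have hmod := hz.card_modEq_card_fixedPoints (Sylow 5 G)
    rw [hn] at hmod
    have hT : {c : Sylow 5 G | x ∉ (c : Subgroup G)} ⊆ fixedPoints (Subgroup.zpowers g) (Sylow 5 G) := by
      intro c hc w
      exact fix_of_mem (Subgroup.zpowers_le.2 (hall c hc) w.2)
    have hlt : (fixedPoints (Subgroup.zpowers g) (Sylow 5 G)).ncard < 21 := by
      rw [← hn, ← Nat.card_coe_set_eq]
      refine lt_of_le_of_ne (Nat.card_le_card_of_injective Subtype.val Subtype.val_injective) fun e => hg1 (hf g fun c => ?_)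
      have hbij := ((Nat.bijective_iff_injective_and_card _).2 ⟨Subtype.val_injective, e⟩ : Function.Bijective (Subtype.val : fixedPoints (Subgroup.zpowers g) (Sylow 5 G) → Sylow 5 G))
      obtain ⟨⟨c', hc'⟩, rfl⟩ := hbij.2 c
      exact hc' ⟨g, Subgroup.mem_zpowers g⟩
    have h15 : 15 ≤ (fixedPoints (Subgroup.zpowers g) (Sylow 5 G)).ncard := by
      refine le_trans ?_ (Set.ncard_le_ncard hT (Set.toFinite _))
      have := Set.ncard_add_ncard_compl {c : Sylow 5 G | x ∈ (c : Subgroup G)}
      rw [hn, ← Nat.card_coe_set_eq] at this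
      have e : Nat.card ({c : Sylow 5 G | x ∈ (c : Subgroup G)} : Set _) = 6 := hf6
      rw [e] at this
      show 15 ≤ ({c : Sylow 5 G | x ∈ (c : Subgroup G)}ᶜ).ncard
      omega
    have h16 : (fixedPoints (Subgroup.zpowers g) (Sylow 5 G)).ncard = 16 := by
      rw [← Nat.card_coe_set_eq] at hlt h15 ⊢
      have : Nat.card (fixedPoints (Subgroup.zpowers g) (Sylow 5 G)) % 5 = 1 := by
        rw [← hmod]
      omega
    refine fixed_ne_sixteen hn hf hg5 (Eq.trans ?_ ((Nat.card_coe_set_eq _).trans h16))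
    refine Nat.card_congr (Equiv.subtypeEquivRight fun c => ⟨fun h w => fix_of_mem (Subgroup.zpowers_le.2 h w.2), fun h => mem_of_fix hg5 (h ⟨g, Subgroup.mem_zpowers g⟩)⟩)
  have hFa : ∀ c : Sylow 5 G, x ∈ (c : Subgroup G) → c ≠ a → c ∈ orbit (a : Subgroup G) b := by
    intro c hc hca
    have hsub : orbit (a : Subgroup G) b ⊆ {d : Sylow 5 G | x ∈ (d : Subgroup G)} \ {a} := by
      rintro _ ⟨y, rfl⟩
      refine ⟨(hmove y ((hle a).1 ha y.2) b).2 hb, fun e => ?_⟩
      exact hab (MulAction.injective (y : G) (e.trans (fix_of_mem y.2).symm)).symm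
    have he := Set.eq_of_subset_of_ncard_le hsub (by
      rw [Set.ncard_sdiff_singleton_of_mem (show a ∈ {d : Sylow 5 G | x ∈ (d : Subgroup G)} from ha), ← Nat.card_coe_set_eq, ← Nat.card_coe_set_eq, orbit_card hn a b (Ne.symm hab)]
      have : Nat.card ({c : Sylow 5 G | x ∈ (c : Subgroup G)} : Set _) = 6 := hf6
      omega) (Set.toFinite _)
    rw [he]; exact ⟨hc, hca⟩
  -- an element of `K` fixing `a` is trivial
  have hKfree : ∀ g ∈ K, g • a = a → g = 1 := by
    intro g hg hga
    have hgN := (fix_iff g a).1 hga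
    have hcen : ∀ y ∈ (a : Subgroup G), g * y = y * g := by
      intro y hy
      have h1 : g * y * g⁻¹ * y⁻¹ ∈ (a : Subgroup G) := mul_mem ((Subgroup.mem_normalizer_iff.1 hgN y).1 hy) (inv_mem hy)
      have h2 : g * y * g⁻¹ * y⁻¹ ∈ K := by
        refine ⟨(hle a).1 ha h1, fun c hc => ?_⟩
        have hy' : x ∉ (((y⁻¹ • c) : Sylow 5 G) : Subgroup G) := fun h => hc ((hmove y⁻¹ (inv_mem ((hle a).1 ha hy)) c).1 h)
        rw [mul_smul, mul_smul, mul_smul, (inv_mem hg : g⁻¹ ∈ K).2 _ hy', smul_inv_smul, hg.2 c hc]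
      have := hK5 _ h2 (orderOf_mem h1)
      exact mul_inv_eq_iff_eq_mul.1 (mul_inv_eq_one.1 this)
    have hgb : (g • b : Sylow 5 G) ∈ orbit (a : Subgroup G) b :=
      hFa _ ((hmove g hg.1 b).2 hb) fun e => hab ((MulAction.injective g (e.trans hga.symm)).symm)
    obtain ⟨⟨y, hy⟩, hyb⟩ := hgb
    have hy' : y • b = g • b := hyb
    have hgy : ∀ c ∈ orbit (a : Subgroup G) b, g • c = y • c := by
      rintro _ ⟨⟨w, hw⟩, rfl⟩
      show g • w • b = y • w • b
      rw [smul_smul, hcen w hw, ← smul_smul, ← hy', smul_smul, sylow_comm hn hf a hw hy, ← smul_smul]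
    have hpow : ∀ n : ℕ, ∀ c ∈ orbit (a : Subgroup G) b, g ^ n • c = y ^ n • c := by
      intro n
      induction n with
      | zero => simp
      | succ n ih =>
        intro c hc
        rw [pow_succ', mul_smul, ih c hc, pow_succ', mul_smul, hgy]
        rw [← orbit_eq_iff.2 hc]
        exact mem_orbit c (⟨y ^ n, pow_mem hy n⟩ : (a : Subgroup G))
    have hg5 : g ^ 5 = 1 := by
      refine hf _ fun c => ?_
      by_cases hc : x ∈ (c : Subgroup G)
      · by_cases hca : c = a
        · rw [hca]; exact fix_pow hga 5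
        · rw [hpow 5 c (hFa c hc hca), exponent_five hn hf hy, one_smul]
      · exact (pow_mem hg 5 : g ^ 5 ∈ K).2 c hc
    obtain ⟨k, -, hk⟩ := (Nat.dvd_prime_pow Nat.prime_five (m := 1)).1 (by simpa using orderOf_dvd_of_pow_eq_one hg5)
    exact hK5 g hg ⟨k, hk⟩
  -- so `K` is trivial
  have hKbot : ∀ g ∈ K, g = 1 := by
    intro g hg
    have hinj : Function.Injective (fun w : K => (⟨(w : G) • a, (hmove _ w.2.1 a).2 ha⟩ : {c : Sylow 5 G // x ∈ (c : Subgroup G)})) := by
      intro w w' h
      have h' : (w : G) • a = (w' : G) • a := congrArg Subtype.val h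
      have := hKfree ((w' : G)⁻¹ * w) (mul_mem (inv_mem w'.2) w.2) (by rw [mul_smul, h', inv_smul_smul])
      exact Subtype.ext (inv_mul_eq_one.1 this).symm
    have hK6 : Nat.card K ≤ 6 := hf6 ▸ Nat.card_le_card_of_injective _ hinj
    by_contra hg1
    obtain ⟨y, hy, hyg⟩ : ∃ y ∈ (a : Subgroup G), y * g * y⁻¹ ≠ g := by
      by_contra! h
      refine hg1 (hKfree g hg ((fix_iff g a).2 ?_))
      refine Subgroup.centralizer_le_normalizer _ (Subgroup.mem_centralizer_iff.2 fun y hy => ?_)
      exact mul_inv_eq_iff_eq_mul.1 (h y hy)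
    have hconjK : ∀ y ∈ (a : Subgroup G), ∀ w ∈ K, y * w * y⁻¹ ∈ K := by
      intro y hy w hw
      refine ⟨mul_mem (mul_mem ((hle a).1 ha hy) hw.1) (inv_mem ((hle a).1 ha hy)), fun c hc => ?_⟩
      have hy' : x ∉ (((y⁻¹ • c) : Sylow 5 G) : Subgroup G) := fun h => hc ((hmove y⁻¹ (inv_mem ((hle a).1 ha hy)) c).1 h)
      rw [mul_smul, mul_smul, hw.2 _ hy', smul_inv_smul]
    have hinj5 : Function.Injective (fun i : Fin 5 => y ^ (i : ℕ) * g * (y ^ (i : ℕ))⁻¹) := by
      have key : ∀ i j : Fin 5, i < j → y ^ (i : ℕ) * g * (y ^ (i : ℕ))⁻¹ ≠ y ^ (j : ℕ) * g * (y ^ (j : ℕ))⁻¹ := by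
        intro i j hij h
        set d := (j : ℕ) - i with hd
        have hj : (j : ℕ) = i + d := by have : (i : ℕ) < j := hij; omega
        have hdc : Commute (y ^ d) g := by
          rw [hj, pow_add] at h
          have : g = y ^ d * g * (y ^ d)⁻¹ := by
            apply mul_left_cancel (a := y ^ (i : ℕ)); apply mul_right_cancel (b := (y ^ (i : ℕ))⁻¹)
            rw [h]; group
          exact (eq_mul_inv_iff_mul_eq.1 this).symm
        apply hyg
        have hco : Nat.Coprime d (orderOf y) := by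
          refine Nat.Coprime.coprime_dvd_right (orderOf_dvd_of_pow_eq_one (exponent_five hn hf hy)) ?_
          refine Nat.Coprime.symm (Nat.prime_five.coprime_iff_not_dvd.2 fun e => ?_)
          have h0 : 0 < d := by have : (i : ℕ) < j := hij; omega
          have := Nat.le_of_dvd h0 e; have := j.2; omega
        obtain ⟨m, hm⟩ := exists_pow_eq_self_of_coprime hco
        have : Commute y g := hm ▸ hdc.pow_left m
        exact mul_inv_eq_iff_eq_mul.2 this.eq
      intro i j h
      rcases lt_trichotomy i j with l | l | l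
      exacts [absurd h (key i j l), l, absurd h.symm (key j i l)]
    let S : Finset K := Finset.univ.image fun i : Fin 5 => (⟨_, hconjK _ (pow_mem hy i) g hg⟩ : K)
    haveI := Fintype.ofFinite K
    have hS5 : S.card = 5 := by
      rw [Finset.card_image_of_injective _ (fun i j h => hinj5 (congrArg Subtype.val h)), Finset.card_univ, Fintype.card_fin]
    have hS1 : (1 : K) ∉ S := by
      intro h
      obtain ⟨i, -, hi⟩ := Finset.mem_image.1 h
      have h' : y ^ (i : ℕ) * g * (y ^ (i : ℕ))⁻¹ = 1 := congrArg Subtype.val hi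
      exact hg1 (conj_eq_one_iff.1 h')
    have hins : insert 1 S = (Finset.univ : Finset K) := by
      refine Finset.eq_univ_of_card _ (le_antisymm (Finset.card_le_univ _) ?_)
      rw [Finset.card_insert_of_notMem hS1, hS5, ← Nat.card_eq_fintype_card]
      exact hK6
    have hord : ∀ w : K, w ≠ 1 → orderOf w = orderOf g := by
      intro w hw
      have : w ∈ insert 1 S := hins ▸ Finset.mem_univ w
      obtain ⟨i, -, rfl⟩ := Finset.mem_image.1 ((Finset.mem_insert.1 this).resolve_left hw)
      rw [← Subgroup.orderOf_coe]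
      exact (MulAut.conj (y ^ (i : ℕ))).orderOf_eq g
    have hK : Nat.card K = 6 := by
      rw [Nat.card_eq_fintype_card, ← Finset.card_univ, ← hins, Finset.card_insert_of_notMem hS1, hS5]
    obtain ⟨u, hu⟩ := exists_prime_orderOf_dvd_card' (G := K) 2 (by rw [hK]; norm_num)
    obtain ⟨v, hv⟩ := exists_prime_orderOf_dvd_card' (G := K) 3 (hp := ⟨Nat.prime_three⟩) (by rw [hK]; norm_num)
    have h1 := hord u (fun e => by rw [e, orderOf_one] at hu; omega)
    have h2 := hord v (fun e => by rw [e, orderOf_one] at hv; omega)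
    omega
  have hpK1 : IsPGroup 5 K1 := fun g => ⟨1, by
    refine Subtype.ext ?_
    simpa using hKbot _ ⟨pow_mem g.2.1 5, fun c hc => hfix5 _ g.2 c hc⟩⟩
  exact hab (Sylow.ext ((a.is_maximal' hpK1 (hK1 a ha)).symm.trans (b.is_maximal' hpK1 (hK1 b hb))))


theorem card_eq_five (a : Sylow 5 G) : Nat.card (a : Subgroup G) = 5 := by
  haveI : Nontrivial (Sylow 5 G) := Finite.one_lt_card_iff_nontrivial.1 (by omega)
  obtain ⟨b, hab⟩ := exists_ne a
  have hbot : stabilizer (a : Subgroup G) b = ⊥ := by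
    refine (Subgroup.eq_bot_iff_forall _).2 fun y hy => ?_
    by_contra h
    have h1 : (y : G) ∈ (b : Subgroup G) := mem_of_fix (orderOf_mem y.2) hy
    exact hab (eq_of_mem_two hn hf (fun e => h (Subtype.ext e)) h1 y.2)
  have h := stab_index hn a b hab
  rwa [hbot, Subgroup.index_bot] at h

/-- The case of Sylow subgroups of order five. -/
theorem no_case_five (hdesc : ∀ M : Subgroup G, M.Normal → ¬ 5 ∣ M.index → M = ⊤) : False := by
  classical
  haveI := Fact.mk Nat.prime_two
  haveI := Fintype.ofFinite (Sylow 5 G)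
  obtain ⟨T⟩ := (inferInstance : Nonempty (Sylow 2 G))
  obtain ⟨a, ha⟩ := T.isPGroup'.nonempty_fixed_point_of_prime_not_dvd_card (Sylow 5 G) (by rw [hn]; norm_num)
  set N := Subgroup.normalizer ((a : Subgroup G) : Set G) with hN
  have hTN : (T : Subgroup G) ≤ N := fun t ht => (fix_iff t a).1 (ha ⟨t, ht⟩)
  have ha5 := card_eq_five hn hf a
  haveI : IsCyclic (a : Subgroup G) := isCyclic_of_prime_card ha5
  let φ : N →* (ZMod 5)ˣ :=
    ((Units.mapEquiv (ZMod.ringEquivCongr ha5).toMulEquiv).toMonoidHom.comp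
      (IsCyclic.mulAutMulEquiv (a : Subgroup G)).toMonoidHom).comp (a : Subgroup G).normalizerMonoidHom
  have hφ : ∀ g : N, φ g = 1 ↔ ∀ y ∈ (a : Subgroup G), y * g = g * y := by
    intro g
    have h1 : φ g = 1 ↔ g ∈ (a : Subgroup G).normalizerMonoidHom.ker := by
      rw [MonoidHom.mem_ker]
      refine ⟨fun h => ?_, fun h => by simp [φ, h]⟩
      refine (IsCyclic.mulAutMulEquiv (a : Subgroup G)).injective ?_
      refine (Units.mapEquiv (ZMod.ringEquivCongr ha5).toMulEquiv).injective ?_
      rw [map_one, map_one]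
      exact h
    rw [h1, Subgroup.normalizerMonoidHom_ker]
    exact Subgroup.mem_centralizer_iff
  have hG : Nat.card G = 21 * Nat.card N := by
    rw [← hn, a.card_eq_index_normalizer]
    exact ((Subgroup.normalizer ((a : Subgroup G) : Set G)).index_mul_card).symm
  have hA : Nat.card (ZMod 5)ˣ = 4 := by rw [Nat.card_eq_fintype_card]; rfl
  by_cases hcase : ∀ t : N, (t : G) ∈ (T : Subgroup G) → φ t = 1
  · -- `a` is central in its normalizer
    have hC : N ≤ Subgroup.centralizer ((a : Subgroup G) : Set G) := by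
      intro g hg
      have hker : φ.ker = ⊤ := by
        rw [← Subgroup.index_eq_one]
        have h4 : φ.ker.index ∣ 4 := by
          rw [Subgroup.index_ker, ← hA]
          exact Subgroup.card_subgroup_dvd_card _
        have hT : φ.ker.index ∣ (T.subtype hTN : Subgroup N).index :=
          Subgroup.index_dvd_of_le fun t ht => hcase t ht
        have h2 : ¬ 2 ∣ φ.ker.index := fun h => (T.subtype hTN).not_dvd_index (h.trans hT)
        have hle := Nat.le_of_dvd (by norm_num) h4
        interval_cases h : φ.ker.index <;> omega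
      exact Subgroup.mem_centralizer_iff.2 fun y hy => (hφ ⟨g, hg⟩).1 (by rw [← MonoidHom.mem_ker, hker]; trivial) y hy
    set K := (MonoidHom.transferSylow a hC).ker with hK
    have hcompl := MonoidHom.ker_transferSylow_isComplement' a hC
    have hKi : K.index = 5 := by exact hcompl.symm.index_eq_card.trans ha5
    have hK5 : ¬ 5 ∣ Nat.card K := MonoidHom.not_dvd_card_ker_transferSylow a hC
    haveI : Fact (Nat.Prime 7) := ⟨by norm_num⟩
    have h7N : ¬ 7 ∣ Nat.card N := by
      intro h
      obtain ⟨g, hg⟩ := exists_prime_orderOf_dvd_card' 7 h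
      rw [← Subgroup.orderOf_coe] at hg
      have := eq_one_of_prime hn hf (q := 7) (by norm_num) (by norm_num) (by rw [← hg]; exact pow_orderOf_eq_one _) ((fix_iff _ a).2 g.2)
      rw [this, orderOf_one] at hg
      norm_num at hg
    have hQK : ∀ Q : Sylow 7 G, (Q : Subgroup G) ≤ K := by
      intro Q x hx
      obtain ⟨k, hk⟩ := IsPGroup.iff_orderOf.1 Q.isPGroup' ⟨x, hx⟩
      rw [← Subgroup.orderOf_coe] at hk
      have h5 : x ^ 5 ∈ K := hKi ▸ Subgroup.pow_index_mem K x
      have hco : Nat.Coprime 5 (orderOf x) := hk ▸ Nat.Coprime.pow_right _ (by norm_num)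
      obtain ⟨m, hm⟩ := exists_pow_eq_self_of_coprime hco
      exact hm ▸ Subgroup.pow_mem _ h5 m
    obtain ⟨Q0⟩ := (inferInstance : Nonempty (Sylow 7 G))
    have hcard7 : ¬ 5 ∣ Nat.card (Sylow 7 G) := by
      intro h
      apply hK5
      refine h.trans ?_
      have e := card_sylow_overgroup K Q0 (hQK Q0)
      rw [Nat.card_congr (Equiv.subtypeUnivEquiv hQK)] at e
      obtain ⟨Q1⟩ := (inferInstance : Nonempty (Sylow 7 K))
      rw [e, Q1.card_eq_index_normalizer]
      exact Subgroup.index_dvd_card _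
    obtain ⟨Q, hQ⟩ := a.isPGroup'.nonempty_fixed_point_of_prime_not_dvd_card (Sylow 7 G) hcard7
    have hQ7 : Nat.card (Q : Subgroup G) = 7 := by
      obtain ⟨n, hn7⟩ := Q.isPGroup'.exists_card_eq
      have hdiv := (Q : Subgroup G).card_subgroup_dvd_card
      rw [hn7, hG, mul_comm] at hdiv
      have h21 : 7 ^ n ∣ 21 := ((Nat.Prime.coprime_iff_not_dvd (by norm_num)).2 h7N).pow_left n |>.dvd_of_dvd_mul_left hdiv
      have h7 : 7 ∣ Nat.card G := hG ▸ Dvd.dvd.mul_right (by norm_num) _
      rw [hn7]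
      rcases n with _ | _ | n
      · exfalso
        rw [← (Q : Subgroup G).index_mul_card, hn7, pow_zero, mul_one] at h7
        exact Q.not_dvd_index h7
      · rfl
      · have := Nat.le_of_dvd (by norm_num) h21
        have : 49 ≤ 7 ^ (n + 1 + 1) := le_trans (by norm_num) (Nat.pow_le_pow_right (by norm_num) (Nat.le_add_left 2 n))
        omega
    haveI : IsCyclic (Q : Subgroup G) := isCyclic_of_prime_card hQ7
    refine h7N (Dvd.dvd.trans ?_ (Subgroup.card_dvd_of_le (show (Q : Subgroup G) ≤ N from ?_)))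
    · rw [hQ7]
    intro q hq
    refine Subgroup.centralizer_le_normalizer _ (Subgroup.mem_centralizer_iff.2 fun y hy => ?_)
    have hyN : y ∈ Subgroup.normalizer ((Q : Subgroup G) : Set G) := Sylow.smul_eq_iff_mem_normalizer.1 (hQ ⟨y, hy⟩)
    have hψ : (Q : Subgroup G).normalizerMonoidHom ⟨y, hyN⟩ = 1 := by
      rw [← orderOf_eq_one_iff]
      have h1 : orderOf ((Q : Subgroup G).normalizerMonoidHom ⟨y, hyN⟩) ∣ 5 :=
        orderOf_dvd_of_pow_eq_one (by
          rw [← map_pow, show (⟨y, hyN⟩ : Subgroup.normalizer ((Q : Subgroup G) : Set G)) ^ 5 = 1 from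
            Subtype.ext (exponent_five hn hf hy), map_one])
      have h2 : orderOf ((Q : Subgroup G).normalizerMonoidHom ⟨y, hyN⟩) ∣ 6 := by
        refine (_root_.orderOf_dvd_natCard _).trans (dvd_of_eq ?_)
        rw [IsCyclic.card_mulAut, hQ7, Nat.totient_prime (by norm_num)]
      exact Nat.dvd_one.1 (Nat.dvd_gcd h1 h2)
    have : (⟨y, hyN⟩ : Subgroup.normalizer ((Q : Subgroup G) : Set G)) ∈ (Q : Subgroup G).normalizerMonoidHom.ker := hψ
    rw [Subgroup.normalizerMonoidHom_ker] at this
    exact (Subgroup.mem_centralizer_iff.1 this q hq).symm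
  · -- a quotient of order prime to five
    push_neg at hcase
    obtain ⟨s, hsT, hs⟩ := hcase
    have hfree : ∀ h : G, h ∈ (T : Subgroup G) → (∀ y ∈ (a : Subgroup G), y * h = h * y) →
        ∀ b, b ≠ a → h • b = b → h = 1 := by
      intro h hh hc b hab hb
      by_contra h1
      obtain ⟨k, hk⟩ := IsPGroup.iff_orderOf.1 T.isPGroup' ⟨h, hh⟩
      rw [← Subgroup.orderOf_coe] at hk
      rcases k with _ | k
      · exact h1 (orderOf_eq_one_iff.1 (by simpa using hk))
      set w := h ^ 2 ^ k with hw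
      have hwo : orderOf w = 2 := by
        have h0 : 2 ^ (k + 1) / 2 ^ k = 2 := by rw [pow_succ, Nat.mul_div_cancel_left _ (by positivity)]
        rw [hw, orderOf_pow_of_dvd (by positivity) (by rw [show orderOf h = _ from hk]; exact Nat.pow_dvd_pow 2 (Nat.le_succ k)), show orderOf h = _ from hk, h0]
      have hwa : w • a = a := fix_pow (ha ⟨h, hh⟩) _
      have hwb : w • b = b := fix_pow hb _
      have hwc : ∀ y ∈ (a : Subgroup G), y * w = w * y := fun y hy => (Commute.pow_right (hc y hy) _).eq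
      set σ : Equiv.Perm (Sylow 5 G) := MulAction.toPermHom G (Sylow 5 G) w with hσ
      have hσinj : Function.Injective (MulAction.toPermHom G (Sylow 5 G)) := by
        refine (injective_iff_map_eq_one _).2 fun g hg => hf g fun c => ?_
        exact congrArg (fun e : Equiv.Perm (Sylow 5 G) => e c) hg
      have hσ2 : orderOf σ = 2 := by rw [hσ, orderOf_injective _ hσinj, hwo]
      obtain ⟨m, hm⟩ := Equiv.Perm.cycleType_prime_order (σ := σ) (hσ2 ▸ Nat.prime_two)
      rw [hσ2] at hm
      have hmov : σ.support.card = 2 * (m + 1) := by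
        rw [← Equiv.Perm.sum_cycleType, hm, Multiset.sum_replicate, smul_eq_mul, mul_comm]
      let X : SubMulAction (a : Subgroup G) (Sylow 5 G) :=
        { carrier := {c | w • c ≠ c}
          smul_mem' := by
            intro y c hc e
            apply hc
            change w • (y : G) • c = (y : G) • c at e
            rw [smul_smul, ← hwc y y.2, ← smul_smul] at e
            exact MulAction.injective _ e }
      have hmod := a.isPGroup'.card_modEq_card_fixedPoints X
      have hempty : IsEmpty (fixedPoints (a : Subgroup G) X) := by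
        refine ⟨fun ⟨⟨c, hc⟩, hfix⟩ => ?_⟩
        have hle : (a : Subgroup G) ≤ c := fun y hy =>
          mem_of_fix (orderOf_mem hy) (congrArg Subtype.val (hfix ⟨y, hy⟩))
        exact hc ((Sylow.ext (a.is_maximal' c.isPGroup' hle) : c = a) ▸ hwa)
      have hX : Nat.card X = σ.support.card := by
        have e : σ.support = Finset.univ.filter fun c : Sylow 5 G => w • c ≠ c := by
          ext c; simp [Equiv.Perm.mem_support, σ]
        rw [e, ← Fintype.card_subtype, ← Nat.card_eq_fintype_card]
        rfl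
      rw [hX, Nat.card_of_isEmpty, hmov] at hmod
      have hle15 : σ.support.card ≤ 15 := by
        have hsub : σ.support ⊆ Finset.univ \ insert a (Set.toFinite (orbit (a : Subgroup G) b)).toFinset := by
          intro c hc
          simp only [Equiv.Perm.mem_support, σ] at hc
          refine Finset.mem_sdiff.2 ⟨Finset.mem_univ _, fun h' => hc ?_⟩
          rcases Finset.mem_insert.1 h' with rfl | h'
          · exact hwa
          · obtain ⟨y, rfl⟩ := (Set.Finite.mem_toFinset _).1 h'
            show w • (y : G) • b = (y : G) • b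
            rw [smul_smul, ← hwc y y.2, ← smul_smul, hwb]
        refine le_trans (Finset.card_le_card hsub) ?_
        rw [Finset.card_sdiff_of_subset (Finset.subset_univ _), Finset.card_univ, ← Nat.card_eq_fintype_card, hn,
          Finset.card_insert_of_notMem, ← Set.ncard_eq_toFinset_card, ← Nat.card_coe_set_eq, orbit_card hn a b hab]
        rw [Set.Finite.mem_toFinset]
        rintro ⟨y, hy⟩
        exact hab (MulAction.injective (y : G) (hy.trans (fix_of_mem y.2).symm))
      have hmm : 2 * (m + 1) % 5 = 0 := hmod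
      have hm4 : m = 4 := by omega
      have hsign : Equiv.Perm.sign σ = -1 := by
        rw [Equiv.Perm.sign_of_cycleType, hm, hm4]
        rfl
      let sg : G →* ℤˣ := Equiv.Perm.sign.comp (MulAction.toPermHom G (Sylow 5 G))
      have hker : ¬ 5 ∣ sg.ker.index := by
        intro h5
        have : sg.ker.index ∣ 2 := by
          rw [Subgroup.index_ker]
          exact (Subgroup.card_subgroup_dvd_card _).trans (dvd_of_eq (by rw [Nat.card_eq_fintype_card]; rfl))
        have := h5.trans this
        norm_num at this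
      have := hdesc _ inferInstance hker
      have hwker : w ∈ sg.ker := this ▸ Subgroup.mem_top w
      rw [MonoidHom.mem_ker] at hwker
      have : (-1 : ℤˣ) = 1 := hsign ▸ hwker
      exact absurd this (by decide)
    have hord : ∀ t : N, (t : G) ∈ (T : Subgroup G) → ∀ b, b ≠ a → (t : G) • b = b → orderOf t = orderOf (φ t) := by
      intro t ht b hab hb
      refine orderOf_eq_orderOf_iff.2 fun n => ⟨fun h => by rw [← map_pow, h, map_one], fun h => ?_⟩
      rw [← map_pow, hφ] at h
      exact Subtype.ext (hfree _ (pow_mem ht n) h b hab (fix_pow hb n))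
    -- the fusion invariant character
    have key : ∀ x y : N, (x : G) ∈ (T : Subgroup G) → (y : G) ∈ (T : Subgroup G) → (∃ g : G, g * x * g⁻¹ = y) →
        φ x = φ y ∨ ((φ x) ^ 2 = (φ y) ^ 2 ∧ ((φ x) ^ 2 = 1 → φ x = φ y)) := by
      intro x y hx hy ⟨g, hg⟩
      by_cases hga : g • a = a
      · left
        have e : y = ⟨g, (fix_iff g a).1 hga⟩ * x * ⟨g, (fix_iff g a).1 hga⟩⁻¹ := Subtype.ext (by simpa using hg.symm)
        rw [e, map_mul, map_mul, map_inv, mul_comm, inv_mul_cancel_left]
      · right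
        have hxa : (x : G) • a = a := (fix_iff _ a).2 x.2
        have hya : (y : G) • a = a := (fix_iff _ a).2 y.2
        have hy' : (y : G) • (g • a) = g • a := by rw [← hg, smul_smul, inv_mul_cancel_right, ← smul_smul, hxa]
        have hx' : (x : G) • (g⁻¹ • a) = g⁻¹ • a := by
          rw [show (x : G) = g⁻¹ * y * g by rw [← hg]; group, smul_smul, mul_inv_cancel_right, ← smul_smul, hya]
        have ho : orderOf (φ x) = orderOf (φ y) := by
          rw [← hord x hx _ (fun e => hga (by rw [inv_smul_eq_iff] at e; exact e.symm)) hx', ← hord y hy _ hga hy',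
            ← Subgroup.orderOf_coe, ← Subgroup.orderOf_coe y, ← hg]
          exact ((MulAut.conj g).orderOf_eq (x : G)).symm
        have hall : ∀ u v : (ZMod 5)ˣ, (u ^ 1 = 1 ↔ v ^ 1 = 1) → (u ^ 2 = 1 ↔ v ^ 2 = 1) → u ^ 2 = v ^ 2 ∧ (u ^ 2 = 1 → u = v) := by
          decide
        exact hall _ _ (orderOf_eq_orderOf_iff.1 ho 1) (orderOf_eq_orderOf_iff.1 ho 2)
    obtain ⟨j, hj, hjne⟩ : ∃ j : ℕ, (∀ x y : N, (x : G) ∈ (T : Subgroup G) → (y : G) ∈ (T : Subgroup G) →
        (∃ g : G, g * x * g⁻¹ = y) → φ x ^ j = φ y ^ j) ∧ ∃ t : N, (t : G) ∈ (T : Subgroup G) ∧ φ t ^ j ≠ 1 := by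
      by_cases hsq : ∀ t : N, (t : G) ∈ (T : Subgroup G) → φ t ^ 2 = 1
      · refine ⟨1, fun x y hx hy hg => ?_, s, hsT, by rwa [pow_one]⟩
        rcases key x y hx hy hg with h | ⟨-, h⟩
        · rw [h]
        · rw [h (hsq x hx)]
      · push_neg at hsq
        refine ⟨2, fun x y hx hy hg => ?_, hsq⟩
        rcases key x y hx hy hg with h | ⟨h, -⟩
        · rw [h]
        · exact h
    let χ : (T : Subgroup G) →* (ZMod 5)ˣ := (powMonoidHom j).comp (φ.comp (Subgroup.inclusion hTN))
    obtain ⟨t, htT, ht⟩ := hjne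
    obtain ⟨ψ, g, hψ⟩ := exists_hom_ne_one T χ (fun x y h => hj _ _ x.2 y.2 h) ⟨⟨t, htT⟩, ht⟩
    have hker : ¬ 5 ∣ ψ.ker.index := by
      intro h5
      have : ψ.ker.index ∣ 4 := by
        rw [Subgroup.index_ker, ← hA]
        exact Subgroup.card_subgroup_dvd_card _
      have := h5.trans this
      norm_num at this
    exact hψ (MonoidHom.mem_ker.1 ((hdesc _ inferInstance hker) ▸ Subgroup.mem_top g : g ∈ ψ.ker))

end

theorem sylow_five_not_twentyone : ∀ n : ℕ, ∀ (G : Type u) [Group G] [Finite G],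
    Nat.card G = n → Faith G → Nat.card (Sylow 5 G) ≠ 21 := by
  intro n
  induction n using Nat.strong_induction_on with
  | _ n ih =>
    intro G _ _ hcard hf hn
    refine no_case_five hn hf fun M hM h5 => ?_
    by_contra htop
    have hall : ∀ b : Sylow 5 G, (b : Subgroup G) ≤ M := by
      intro b x hx
      have h : x ^ M.index ∈ M := Subgroup.pow_index_mem M x
      obtain ⟨k, hk⟩ := orderOf_mem hx
      have hco : Nat.Coprime M.index (orderOf x) :=
        hk ▸ Nat.Coprime.pow_right _ ((Nat.Prime.coprime_iff_not_dvd Nat.prime_five).2 h5).symm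
      obtain ⟨m, hm⟩ := exists_pow_eq_self_of_coprime hco
      exact hm ▸ Subgroup.pow_mem _ h m
    obtain ⟨b0⟩ := (inferInstance : Nonempty (Sylow 5 G))
    have hlt : Nat.card M < n := by
      rw [← hcard]
      have := M.index_mul_card
      have h1 : M.index ≠ 1 := fun e => htop (Subgroup.index_eq_one.1 e)
      have h0 : M.index ≠ 0 := Subgroup.index_ne_zero_of_finite
      have : 0 < Nat.card M := Nat.card_pos
      nlinarith [Nat.two_le_iff M.index |>.2 ⟨h0, h1⟩]
    refine ih _ hlt M rfl ?_ ?_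
    · intro g hg
      refine Subtype.ext (hf (g : G) fun b => (fix_iff _ b).2 ?_)
      have hgb := (fix_iff g (b.subtype (hall b))).1 (hg _)
      rw [Subgroup.mem_normalizer_iff]
      intro h
      constructor
      · intro hh
        exact (Subgroup.mem_normalizer_iff.1 hgb ⟨h, hall b hh⟩).1 hh
      · intro hh
        have hM' : h ∈ M := by
          have := M.mul_mem (M.mul_mem (M.inv_mem g.2) (hall b hh)) g.2
          simpa [mul_assoc] using this
        exact (Subgroup.mem_normalizer_iff.1 hgb ⟨h, hM'⟩).2 hh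
    · rw [← hn, ← card_sylow_overgroup M b0 (hall b0)]
      exact Nat.card_congr (Equiv.subtypeUnivEquiv hall)

/-- No finite group has exactly twenty-one Sylow 5-subgroups. -/
theorem result {G : Type*} [Group G] [Finite G] : Nat.card (Sylow 5 G) ≠ 21 := by
  intro hn
  let f := MulAction.toPermHom G (Sylow 5 G)
  have hs := f.rangeRestrict_surjective
  have hbij : Function.Bijective (Sylow.mapSurjective hs : Sylow 5 G → Sylow 5 f.range) := by
    refine ⟨fun a b h => ?_, Sylow.mapSurjective_surjective hs 5⟩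
    have h' := congrArg (fun P : Sylow 5 f.range => (P : Subgroup f.range)) h
    simp only [Sylow.coe_mapSurjective] at h'
    refine (Sylow.ext ((a.is_maximal' b.isPGroup' fun x hx => ?_))).symm
    refine mem_of_fix (orderOf_mem hx) ?_
    have hm : f.rangeRestrict x ∈ (b : Subgroup G).map f.rangeRestrict := h' ▸ Subgroup.mem_map_of_mem _ hx
    obtain ⟨y, hy, hyx⟩ := hm
    have e : f y = f x := congrArg Subtype.val hyx
    have e' : y • b = x • b := congrArg (fun σ : Equiv.Perm (Sylow 5 G) => σ b) e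
    rw [← e']; exact fix_of_mem hy
  refine sylow_five_not_twentyone _ f.range rfl (fun r hr => ?_) (by rw [← Nat.card_eq_of_bijective _ hbij, hn])
  obtain ⟨g, rfl⟩ := hs r
  refine Subtype.ext (Equiv.ext fun b => ?_)
  show g • b = b
  refine hbij.1 (Sylow.ext ?_)
  have h := congrArg (fun P : Sylow 5 f.range => (P : Subgroup f.range)) (hr (Sylow.mapSurjective hs b))
  simp only [Sylow.smul_def, Sylow.pointwise_smul_def, Sylow.coe_mapSurjective] at h
  simp only [Sylow.smul_def, Sylow.pointwise_smul_def, Sylow.coe_mapSurjective]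
  rw [← h]
  ext z
  simp only [Subgroup.mem_map, Subgroup.mem_pointwise_smul_iff_inv_smul_mem]
  constructor
  · rintro ⟨u, hu, rfl⟩
    exact ⟨_, hu, by simp [mul_assoc]⟩
  · rintro ⟨u, hu, hz⟩
    refine ⟨g * u * g⁻¹, by simpa [mul_assoc] using hu, ?_⟩
    simp only [map_mul, map_inv, hz]
    simp [mul_assoc]

end Cfsg.Agent.S1010
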