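import Cfsg.Statements.S1013
import Mathlib
import Cfsg.Agent.Transfer.Basic

set_option autoImplicit false
open Cfsg

namespace Cfsg.Agent.S1013

/-- Let G be a transitive permutation group of prime degree p having more than one Sylow p-subgroup, and suppose a Sylow p-subgroup P has prime index in its normalizer. Then G is simple. -/
theorem result {α : Type*} [Fintype α] [DecidableEq α] {p : ℕ} [Fact p.Prime] (hα : Fintype.card α = p) (G : Subgroup (Equiv.Perm α)) [MulAction.IsPretransitive ↥G α] (P : Sylow p ↥G) (hn : 1 < Nat.card (Sylow p ↥G)) (ht : (((P : Subgroup ↥G).subgroupOf (Subgroup.normalizer ((P : Subgroup ↥G) : Set ↥G))).index).Prime) : IsSimpleGroup ↥G := by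
  classical
  have hpp : p.Prime := Fact.out
  have hα' : Nat.card α = p := by rw [Nat.card_eq_fintype_card, hα]
  haveI hprim : MulAction.IsPreprimitive G α := MulAction.IsPreprimitive.of_prime_card (hα'.symm ▸ hpp)
  haveI : Nontrivial α := Fintype.one_lt_card_iff_nontrivial.mp (hα ▸ hpp.one_lt)
  obtain ⟨a⟩ : Nonempty α := inferInstance
  have htr : ∀ N : Subgroup G, N.Normal → N ≠ ⊥ → p ∣ Nat.card N := by
    intro N hN hne
    have hfix : MulAction.fixedPoints N α ≠ Set.univ := by
      intro h
      apply hne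
      rw [eq_bot_iff]
      intro x hx
      refine Subgroup.mem_bot.mpr (Subtype.ext (Equiv.ext fun y => ?_))
      exact (Set.eq_univ_iff_forall.mp h y) ⟨x, hx⟩
    haveI := hN
    haveI : MulAction.IsPretransitive N α := MulAction.IsQuasiPreprimitive.isPretransitive_of_normal hfix
    rw [← hα', ← MulAction.index_stabilizer_of_transitive N a]
    exact Subgroup.index_dvd_card _
  have hGdvd : Nat.card G ∣ p.factorial := by
    have := Subgroup.card_subgroup_dvd_card G
    rwa [Nat.card_perm, hα'] at this
  have hsq : ¬ p ^ 2 ∣ Nat.card G := by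
    intro h
    have h1 := h.trans hGdvd
    rw [← Nat.mul_factorial_pred hpp.ne_zero, pow_two] at h1
    have h2 : p ∣ (p - 1).factorial := (Nat.mul_dvd_mul_iff_left hpp.pos).mp h1
    have := hpp.dvd_factorial.mp h2
    have := hpp.one_lt
    omega
  have hPc : ∀ Q : Sylow p G, Nat.card (Q : Subgroup G) = p := by
    intro Q
    obtain ⟨k, hk⟩ := Q.isPGroup'.exists_card_eq
    have hd : p ∣ Nat.card G := by
      rw [← hα', ← MulAction.index_stabilizer_of_transitive G a]; exact Subgroup.index_dvd_card _
    have h1 : p ∣ Nat.card (Q : Subgroup G) := by simpa using Q.pow_dvd_card_of_pow_dvd_card (by simpa using hd : p ^ 1 ∣ Nat.card G)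
    rcases Nat.lt_or_ge k 2 with h2 | h2
    · interval_cases k
      · rw [hk, pow_zero] at h1; exact absurd h1 hpp.not_dvd_one
      · simpa using hk
    · exact absurd ((Nat.pow_dvd_pow p h2).trans (hk ▸ Subgroup.card_subgroup_dvd_card _)) hsq
  have hPN : ∀ N : Subgroup G, N.Normal → N ≠ ⊥ → ∀ Q : Sylow p G, (Q : Subgroup G) ≤ N := by
    intro N hN hne Q
    obtain ⟨x, hx⟩ := exists_prime_orderOf_dvd_card' (G := N) p (htr N hN hne)
    have hxG : orderOf (x : G) = p := by rw [Subgroup.orderOf_coe, hx]
    obtain ⟨R, hR⟩ := (IsPGroup.of_card (n := 1) (by rw [Nat.card_zpowers, hxG, pow_one]) :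
      IsPGroup p (Subgroup.zpowers (x : G))).exists_le_sylow
    have hRN : (R : Subgroup G) ≤ N := by
      have h1 : Subgroup.zpowers (x : G) = R := Subgroup.eq_of_le_of_card_ge hR (by rw [hPc R, Nat.card_zpowers, hxG])
      exact h1 ▸ Subgroup.zpowers_le.mpr x.2
    obtain ⟨g, hg⟩ := MulAction.exists_smul_eq G R Q
    rw [← hg]
    rintro _ ⟨y, hy, rfl⟩
    exact hN.conj_mem y (hRN hy) g
  haveI : Nontrivial G := by
    by_contra h
    rw [not_nontrivial_iff_subsingleton] at h
    have := hPc P
    rw [Nat.card_of_subsingleton (1 : (P : Subgroup G))] at this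
    exact hpp.one_lt.ne this
  refine ⟨fun N hN => ?_⟩
  by_contra hcon
  push Not at hcon
  obtain ⟨hne, htop⟩ := hcon
  haveI := hN
  set NG := Subgroup.normalizer ((P : Subgroup G) : Set G)
  have hPle : (P : Subgroup G) ≤ N := hPN N hN hne P
  have hsup : NG ⊔ N = ⊤ := by
    have h := Sylow.normalizer_sup_eq_top (P.subtype hPle)
    rwa [show ((P.subtype hPle : Sylow p N) : Subgroup N).map N.subtype = P from by
      rw [Sylow.coe_subtype, Subgroup.map_subgroupOf_eq_of_le hPle]] at h
  have hPM : (P : Subgroup G) ≤ NG ⊓ N := le_inf Subgroup.le_normalizer hPle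
  have hmul := Subgroup.relIndex_mul_relIndex (P : Subgroup G) (NG ⊓ N) NG hPM inf_le_left
  have ht' : Nat.Prime ((P : Subgroup G).relIndex NG) := ht
  rcases ht'.eq_one_or_self_of_dvd _ ⟨_, hmul.symm⟩ with h1 | h1
  · rw [Subgroup.relIndex_eq_one] at h1
    have hM : NG ⊓ N = (P : Subgroup G) := le_antisymm h1 hPM
    let P' : Sylow p N := P.subtype hPle
    have hnn : Subgroup.normalizer ((P' : Subgroup N) : Set N) ≤ Subgroup.centralizer ((P' : Subgroup N) : Set N) := by
      intro x hx
      have hxP : (x : G) ∈ (P : Subgroup G) := by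
        rw [← hM]
        refine ⟨?_, x.2⟩
        show (x : G) ∈ NG
        rw [Subgroup.mem_normalizer_iff]
        intro y
        constructor
        · intro hy
          have := (Subgroup.mem_normalizer_iff.mp hx ⟨y, hPle hy⟩).mp (show (⟨y, hPle hy⟩ : N) ∈ (P' : Subgroup N) from hy)
          exact this
        · intro hy
          have hyN : y ∈ N := by
            have := hN.conj_mem _ (hPle hy) (x : G)⁻¹
            simpa [mul_assoc] using this
          exact (Subgroup.mem_normalizer_iff.mp hx ⟨y, hyN⟩).mpr (show x * ⟨y, hyN⟩ * x⁻¹ ∈ (P' : Subgroup N) from hy)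
      rw [Subgroup.mem_centralizer_iff]
      intro y hy
      haveI : IsCyclic (P : Subgroup G) := isCyclic_of_prime_card (hPc P)
      letI : CommGroup (P : Subgroup G) := IsCyclic.commGroup
      have e := congrArg Subtype.val (mul_comm (⟨(y : G), hy⟩ : (P : Subgroup G)) ⟨(x : G), hxP⟩)
      refine Subtype.ext ?_
      rw [Subgroup.coe_mul N y x, Subgroup.coe_mul N x y]
      exact e
    obtain ⟨K, hK1, hK2, hK3⟩ := Cfsg.Agent.Transfer.hasNPC_iff.mp (Cfsg.Agent.Transfer.hasNPC_of_burnside P' hnn)
    haveI : K.Characteristic := Cfsg.Agent.Transfer.complement_characteristic hK1 hK2 hK3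
    have hKn : (K.map N.subtype).Normal := inferInstance
    have hKb : K = ⊥ := by
      by_contra hKne
      have h := htr _ hKn (fun e => hKne ((Subgroup.map_eq_bot_iff_of_injective _ N.subtype_injective).mp e))
      rw [Subgroup.card_map_of_injective N.subtype_injective] at h
      exact hK2 h
    obtain ⟨e, he⟩ := hK3
    rw [hKb, Subgroup.index_bot] at he
    have hNP : (P : Subgroup G) = N := (P.is_maximal' (IsPGroup.of_card he) hPle).symm
    have hall : ∀ Q : Sylow p G, Q = P := fun Q => Sylow.ext ((Subgroup.eq_of_le_of_card_ge (hNP ▸ hPN N hN hne Q) (by rw [hPc Q, hPc P])))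
    haveI : Subsingleton (Sylow p G) := ⟨fun Q R => (hall Q).trans (hall R).symm⟩
    rw [Nat.card_of_subsingleton P] at hn
    omega
  · apply htop
    rw [h1] at hmul
    have h2 : (NG ⊓ N).relIndex NG = 1 :=
      mul_left_cancel₀ ht'.ne_zero (hmul.trans (mul_one _).symm)
    rw [Subgroup.relIndex_eq_one] at h2
    rw [← hsup]
    exact (sup_eq_right.mpr (h2.trans inf_le_right)).symm

end Cfsg.Agent.S1013
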