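import Cfsg.Statements.S1019
import Mathlib.Tactic.Group

set_option autoImplicit false
open Cfsg

namespace Cfsg.Agent.S1019

/-- Let H be a subgroup of a finite group G and x an element of H. In the action of G on the left cosets of H, the number of cosets fixed by x, multiplied by the size of the conjugacy class of x, equals the index of H multiplied by the number of conjugates of x that lie in H. -/
theorem result {G : Type*} [Group G] [Finite G] (H : Subgroup G) (x : G) (hx : x ∈ H) : Nat.card (MulAction.fixedBy (G ⧸ H) x) * Nat.card {g : G // IsConj x g} = H.index * Nat.card {g : G // IsConj x g ∧ g ∈ H} := by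
  classical
  let C := {g : G // IsConj x g}
  let e : (Σ y : C, MulAction.fixedBy (G ⧸ H) (y : G)) ≃ (Σ c : G ⧸ H, {y : C // (y : G) • c = c}) :=
    { toFun := fun p => ⟨p.2.1, p.1, p.2.2⟩
      invFun := fun q => ⟨q.2.1, q.1, q.2.2⟩
      left_inv := fun _ => rfl
      right_inv := fun _ => rfl }
  have h1 : ∀ y : C, Nat.card (MulAction.fixedBy (G ⧸ H) (y : G)) = Nat.card (MulAction.fixedBy (G ⧸ H) x) := by
    rintro ⟨y, hy⟩
    obtain ⟨g, rfl⟩ := isConj_iff.1 hy
    apply Nat.card_congr
    refine (MulAction.toPerm g⁻¹).subtypeEquiv fun c => ?_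
    simp only [MulAction.toPerm_apply, MulAction.mem_fixedBy]
    rw [mul_smul, mul_smul, smul_eq_iff_eq_inv_smul g]
  have h2 : ∀ c : G ⧸ H, Nat.card {y : C // (y : G) • c = c} = Nat.card {g : G // IsConj x g ∧ g ∈ H} := by
    intro c
    induction c using Quotient.inductionOn with
    | _ k =>
    apply Nat.card_congr
    refine (Equiv.subtypeSubtypeEquivSubtypeInter (fun g : G => IsConj x g) (fun g => g • (QuotientGroup.mk k : G ⧸ H) = QuotientGroup.mk k)).trans ?_
    refine (MulAut.conj k⁻¹).toEquiv.subtypeEquiv fun g => ?_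
    show _ ∧ _ ↔ IsConj x (k⁻¹ * g * k⁻¹⁻¹) ∧ k⁻¹ * g * k⁻¹⁻¹ ∈ H
    rw [inv_inv]
    refine and_congr ⟨fun h => IsConj.trans h (isConj_iff.2 ⟨k⁻¹, by simp⟩), fun h => IsConj.trans h (isConj_iff.2 ⟨k, by group⟩)⟩ ?_
    show QuotientGroup.mk (g * k) = QuotientGroup.mk k ↔ _
    rw [eq_comm, QuotientGroup.eq, mul_assoc]
  haveI : Fintype C := Fintype.ofFinite C
  haveI : Fintype (G ⧸ H) := Fintype.ofFinite _
  have := Nat.card_congr e
  rw [Nat.card_sigma, Nat.card_sigma, Finset.sum_congr rfl (fun y _ => h1 y), Finset.sum_congr rfl (fun c _ => h2 c)] at this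
  simp only [Finset.sum_const, Finset.card_univ, smul_eq_mul, ← Nat.card_eq_fintype_card] at this
  rw [Nat.mul_comm, Subgroup.index]
  exact this

end Cfsg.Agent.S1019
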