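import Cfsg.Statements.S1026
import Mathlib
import Cfsg.Agent.Chev.Order
import Cfsg.Agent.Chev.TitsAll

set_option autoImplicit false
open Cfsg

namespace Cfsg.Agent.S1026
open Cfsg.Agent.Chev Cfsg.Agent.Chev.Tits Cfsg.Lie

/-- Every element of `U` has a unique expression `∏_{r ∈ Φ⁺} x_r(t_r)`, the product over the positive roots in increasing index order (the coefficient family `t`, supported on the positive roots, exists and is unique); and conversely every such ordered product is the matrix of an element of `U`. -/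
theorem result {F : Type*} [Field F] (D : Cfsg.Lie.ChevalleyDatum) (hD : D ∈ [Cfsg.Lie.chevG2, Cfsg.Lie.chevB2, Cfsg.Lie.chevD4, Cfsg.Lie.chevF4, Cfsg.Lie.chevE6, Cfsg.Lie.chevE7, Cfsg.Lie.chevE8]) :
    (∀ g : GL D.Idx F, g ∈ D.posUnipotent F →
      ∃! t : ℕ → F, (∀ r, ¬ D.IsPosRoot r → t r = 0) ∧
        (g : Matrix D.Idx D.Idx F) = D.wordMat F (D.posRoots.map fun r => (r, t r))) ∧
    (∀ t : ℕ → F, ∃ g : GL D.Idx F, g ∈ D.posUnipotent F ∧
      (g : Matrix D.Idx D.Idx F) = D.wordMat F (D.posRoots.map fun r => (r, t r))) := by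
  obtain ⟨k, G⟩ := tgood_of_mem hD
  have hrev := rev_of_mem hD
  have hN := nroots_eq G.good.datum
  have hsum : k.half + (D.nroots - k.half) = D.nroots := by omega
  refine ⟨fun g hg => ?_, fun t => ⟨pr G.good t k.half (D.nroots - k.half), ?_, ?_⟩⟩
  · rw [U_eq_V G] at hg
    obtain ⟨t, ht⟩ := exists_pr G _ _ hsum le_rfl g hg
    classical
    let t' : ℕ → F := fun r => if D.IsPosRoot r then t r else 0
    have e : pr G.good t' k.half (D.nroots - k.half) = pr G.good t k.half (D.nroots - k.half) := by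
      unfold pr
      congr 1
      apply List.map_congr_left
      intro r hr
      rw [List.mem_range'] at hr
      obtain ⟨i, hi, rfl⟩ := hr
      have : D.IsPosRoot (k.half + 1 * i) := (pos_iff G.good).2 ⟨by omega, by omega⟩
      simp only [t', if_pos this]
    refine ⟨t', ⟨fun r hr => if_neg hr, ?_⟩, fun u hu => ?_⟩
    · rw [posRoots_eq G, ← pr_val G, e, ht]
    · obtain ⟨hu0, hu1⟩ := hu
      funext r
      by_cases hr : D.IsPosRoot r
      · obtain ⟨hr1, hr2⟩ := (pos_iff G.good).1 hr
        refine pr_inj G hrev _ _ hsum le_rfl u t' (Units.ext ?_) r hr2 hr1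
        rw [pr_val G, ← posRoots_eq G, ← hu1, e, ht]
      · rw [hu0 r hr]; simp [t', hr]
  · rw [U_eq_V G]; exact pr_mem G t
  · rw [posRoots_eq G, pr_val G]

end Cfsg.Agent.S1026
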