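import Cfsg.Statements.S1027
import Mathlib
import Cfsg.Agent.Chev.Order
import Cfsg.Agent.Chev.TitsAll

set_option autoImplicit false
open Cfsg

namespace Cfsg.Agent.S1027
open Cfsg.Agent.Chev Cfsg.Agent.Chev.Tits Cfsg.Lie

/-- For the subgroup `U` generated by the root elements `x_r(t)` of the positive roots `r`: `|U| = q^N` over a field with `q` elements, where `N` is the number of positive roots (half the number of roots). -/
theorem result {F : Type*} [Field F] [Fintype F] (D : Cfsg.Lie.ChevalleyDatum) (hD : D ∈ [Cfsg.Lie.chevG2, Cfsg.Lie.chevB2, Cfsg.Lie.chevD4, Cfsg.Lie.chevF4, Cfsg.Lie.chevE6, Cfsg.Lie.chevE7, Cfsg.Lie.chevE8]) :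
    Nat.card (D.posUnipotent F) = Fintype.card F ^ (D.nroots / 2) := by
  obtain ⟨k, G⟩ := tgood_of_mem hD
  have hrev := rev_of_mem hD
  have hN := nroots_eq G.good.datum
  have hsum : k.half + (D.nroots - k.half) = D.nroots := by omega
  let ext : (Fin k.half → F) → ℕ → F := fun a r => if h : r - k.half < k.half then a ⟨r - k.half, h⟩ else 0
  let φ : (Fin k.half → F) → ↥(D.posUnipotent F) := fun a =>
    ⟨pr G.good (ext a) k.half (D.nroots - k.half), by rw [U_eq_V G]; exact pr_mem G _⟩
  have hb : Function.Bijective φ := by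
    constructor
    · intro a b h
      funext i
      have := pr_inj G hrev _ _ hsum le_rfl (ext a) (ext b) (congrArg Subtype.val h) (k.half + i) (by omega) (by omega)
      simpa [ext] using this
    · rintro ⟨g, hg⟩
      rw [U_eq_V G] at hg
      obtain ⟨t, ht⟩ := exists_pr G _ _ hsum le_rfl g hg
      refine ⟨fun i => t (k.half + i), Subtype.ext ?_⟩
      show pr G.good _ _ _ = g
      rw [ht]
      unfold pr
      congr 1
      apply List.map_congr_left
      intro r hr
      rw [List.mem_range'] at hr
      obtain ⟨i, hi, rfl⟩ := hr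
      congr 1
      simp only [ext]
      rw [dif_pos (by omega)]
      congr 1
      simp
  rw [← Nat.card_eq_of_bijective φ hb, Nat.card_eq_fintype_card, Fintype.card_fun, Fintype.card_fin]
  congr 1
  omega

end Cfsg.Agent.S1027
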