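import Cfsg.Statements.S1029
import Mathlib
import Cfsg.Agent.Chev.Unip

set_option autoImplicit false
open Cfsg

namespace Cfsg.Agent.S1029
open Cfsg.Agent.Chev

/-- `U` is a nilpotent group (the subgroups generated by root subgroups of height at least `m` form a central series). -/
theorem result {F : Type*} [Field F] (D : Cfsg.Lie.ChevalleyDatum) (hD : D ∈ [Cfsg.Lie.chevG2, Cfsg.Lie.chevB2, Cfsg.Lie.chevD4, Cfsg.Lie.chevF4, Cfsg.Lie.chevE6, Cfsg.Lie.chevE7, Cfsg.Lie.chevE8]) : Group.IsNilpotent (D.posUnipotent F) := by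
  obtain ⟨p, hp⟩ := ok hD
  have hN := nroots_eq hp
  rw [Subgroup.isNilpotent_iff_lowerCentralSeries]
  have key : ∀ k, (D.posUnipotent F).lowerCentralSeries k ≤ Fil D F p hN k := by
    intro k
    induction k with
    | zero => exact U_le hp
    | succ k ih =>
      rw [Subgroup.lowerCentralSeries_succ, Subgroup.commutator_le]
      intro a ha b hb
      exact fil_comm hN (ih ha) (U_le hp hb)
  refine ⟨2 * p + 1, eq_bot_iff.2 fun x hx => ?_⟩
  have h1 := (key _ hx : Raise D F p (2 * p + 1 + 1) _).eq_zero hN (by omega)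
  exact Subgroup.mem_bot.2 (Units.ext (sub_eq_zero.1 h1))

end Cfsg.Agent.S1029
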