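import Cfsg.Statements.S1030
import Mathlib
import Cfsg.Agent.Chev.All
import Cfsg.Agent.Chev.Struct
import Cfsg.Agent.Chev.RankOneHom

set_option autoImplicit false
open Cfsg

namespace Cfsg.Agent.S1030

open Cfsg.Agent.Chev Cfsg.Lie

theorem cartan_two {D : ChevalleyDatum} (hD : D ∈ [chevG2, chevB2, chevD4, chevF4, chevE6, chevE7, chevE8]) :
    ∀ i < D.rank, D.cartan i (D.simple i) = 2 := by
  simp only [List.mem_cons, List.not_mem_nil, or_false] at hD
  rcases hD with rfl | rfl | rfl | rfl | rfl | rfl | rfl <;> decide +kernel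

theorem core {F : Type*} [Field F] {D : ChevalleyDatum} {c : Cert} (g : Good D c)
    (h2 : ∀ i < D.rank, D.cartan i (D.simple i) = 2) {r : ℕ} (hr : r < D.nroots) :
    ∃ φ : Matrix.SpecialLinearGroup (Fin 2) F →* GL D.Idx F,
      φ.range = Subgroup.closure (Set.range (xG g r hr) ∪ Set.range (xG g (D.neg r) (g.neg_lt hr))) ∧
      ∀ (m : Matrix.SpecialLinearGroup (Fin 2) F) (t : F),
        ((m : Matrix (Fin 2) (Fin 2) F) = !![1, t; 0, 1] → φ m = xG g r hr t) ∧
        ((m : Matrix (Fin 2) (Fin 2) F) = !![1, 0; t, 1] → φ m = xG g (D.neg r) (g.neg_lt hr) t) := by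
  obtain ⟨w, -, i, hi, ε, hε, w1, w2⟩ := reach (F := F) g hr
  have hε0 : ε ≠ 0 := fun h => by simp [h] at hε
  have hp := (g.simple hi).lt
  have hn := g.neg_lt hp
  have e1 : c.im i (D.simple i) = D.neg (D.simple i) := (g.simple hi).im_self
  have e2 : c.im i (D.neg (D.simple i)) = D.simple i := by rw [← e1, (g.refl hi hp).invol]
  have a1 : ∀ u : F, xG g r hr u = w * xG g (D.simple i) hp (ε * u) * w⁻¹ := fun u => by
    rw [w1, ← mul_assoc, hε, one_mul]
  have hT : ∀ a u : F, a ≠ 0 → hG g (D.simple i) hp a * xG g (D.simple i) hp u =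
      xG g (D.simple i) hp (a ^ 2 * u) * hG g (D.simple i) hp a := fun a u ha => by
    apply Units.ext
    rw [Units.val_mul, Units.val_mul, hp_eq g hi a ha]
    show _ * D.x F _ u = D.x F _ _ * _
    rw [h_conj g hi hp a ha u, h2 i hi]
    norm_cast
  refine Cfsg.Agent.Chev.RankOne.exists_hom (xG g r hr) (xG g (D.neg r) (g.neg_lt hr)) (nG g r hr)
    (xG_mul g hr) (fun t _ => rfl) (fun t _ => nG_inv g hr t) (fun s t hs ht => hG_mul g hr s t hs ht)
    (fun a u ha => ?_) (fun u => ?_)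
  · have hh : nG g r hr a * nG g r hr (-1) = w * hG g (D.simple i) hp a * w⁻¹ := by
      have b : hG g (D.simple i) hp (ε * a) * hG g (D.simple i) hp ε = hG g (D.simple i) hp a := by
        rw [hp_mul g hi _ _ (mul_ne_zero hε0 ha) hε0]; congr 1; linear_combination a * hε
      have o : hG g (D.simple i) hp (1 : F) = 1 := by rw [hG, ← nG_inv g hp, mul_inv_cancel]
      have i' : (hG g (D.simple i) hp ε)⁻¹ = hG g (D.simple i) hp ε := inv_eq_of_mul_eq_one_right (by rw [hp_mul g hi _ _ hε0 hε0, hε, o])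
      have q : nG g r hr a = w * nG g (D.simple i) hp (ε * a) * w⁻¹ := by
        rw [conj_nG g _ hr hε w1 w2, ← mul_assoc, hε, one_mul]
      have q' : nG g r hr (-1) = w * nG g (D.simple i) hp (-ε) * w⁻¹ := by rw [conj_nG g _ hr hε w1 w2, mul_neg, hε]
      rw [q, q', ← b]
      rw [← i']
      rw [hG, hG, ← nG_inv g hp ε]
      group
    rw [hh, a1 u, a1 (a ^ 2 * u), show ε * (a ^ 2 * u) = a ^ 2 * (ε * u) by ring]
    calc _ = w * (hG g (D.simple i) hp a * xG g (D.simple i) hp (ε * u)) * w⁻¹ := by group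
      _ = _ := by rw [hT _ _ ha]; group
  · have k1 : ∀ v : F, nG g (D.simple i) hp 1 * xG g (D.simple i) hp v * (nG g (D.simple i) hp 1)⁻¹ =
        xG g (D.neg (D.simple i)) hn (-v) := fun v => by
      rw [n1_conj g hi hp, xG_congr g e1 _ hn, (g.simple hi).sgn_self]
      simp
    have k2 : ∀ v : F, nG g (D.simple i) hp 1 * xG g (D.neg (D.simple i)) hn v * (nG g (D.simple i) hp 1)⁻¹ =
        xG g (D.simple i) hp (-v) := fun v => by
      rw [n1_conj g hi hn, xG_congr g e2 _ hp, (g.refl hi hp).sgn_neg, (g.simple hi).sgn_self]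
      simp
    have k : nG g (D.simple i) hp ε * xG g (D.simple i) hp (ε * u) * (nG g (D.simple i) hp ε)⁻¹ =
        xG g (D.neg (D.simple i)) hn (-(ε * u)) := by
      rcases mul_self_eq_one_iff.1 hε with rfl | rfl
      · exact k1 _
      · rw [← nG_inv g hp, inv_inv]
        have := k2 (-(-1 * u))
        rw [neg_neg] at this
        rw [← this]; group
    have q : nG g r hr 1 = w * nG g (D.simple i) hp ε * w⁻¹ := by rw [conj_nG g _ hr hε w1 w2, hε]
    calc _ = w * (nG g (D.simple i) hp ε * xG g (D.simple i) hp (ε * u) * (nG g (D.simple i) hp ε)⁻¹) * w⁻¹ := by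
          rw [q, a1 u]; group
      _ = _ := by rw [k, w2, mul_neg, ← mul_assoc, hε, one_mul]

/-- There is a homomorphism `SL₂(F) → GL` with image `⟨X_r, X_{-r}⟩` sending `[[1,t],[0,1]]` to `x_r(t)` and `[[1,0],[t,1]]` to `x_{-r}(t)`. -/
theorem result {F : Type*} [Field F] (D : Cfsg.Lie.ChevalleyDatum) (hD : D ∈ [Cfsg.Lie.chevG2, Cfsg.Lie.chevB2, Cfsg.Lie.chevD4, Cfsg.Lie.chevF4, Cfsg.Lie.chevE6, Cfsg.Lie.chevE7, Cfsg.Lie.chevE8]) (r : ℕ) (hr : r < D.nroots) :
    ∃ φ : Matrix.SpecialLinearGroup (Fin 2) F →* GL D.Idx F,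
      φ.range = D.rootSubgroup F r ⊔ D.rootSubgroup F (D.neg r) ∧
      ∀ (g : Matrix.SpecialLinearGroup (Fin 2) F) (t : F),
        ((g : Matrix (Fin 2) (Fin 2) F) = !![1, t; 0, 1] → ((φ g : GL D.Idx F) : Matrix D.Idx D.Idx F) = D.x F r t) ∧
        ((g : Matrix (Fin 2) (Fin 2) F) = !![1, 0; t, 1] → ((φ g : GL D.Idx F) : Matrix D.Idx D.Idx F) = D.x F (D.neg r) t) := by
  obtain ⟨c, g⟩ := good_of_mem hD
  obtain ⟨φ, h1, h2⟩ := core (F := F) g (cartan_two hD) hr
  have hs : ∀ (s : ℕ) (hs : s < D.nroots), D.rootSubgroup F s = Subgroup.closure (Set.range (xG g s hs)) := fun s hs => by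
    rw [ChevalleyDatum.rootSubgroup]
    congr 1
    ext x
    exact ⟨fun ⟨t, e⟩ => ⟨t, Units.ext e.symm⟩, fun ⟨t, e⟩ => ⟨t, e ▸ rfl⟩⟩
  refine ⟨φ, ?_, fun m t => ⟨fun e => ?_, fun e => ?_⟩⟩
  · rw [h1, hs r hr, hs _ (g.neg_lt hr), ← Subgroup.closure_union]
  · rw [(h2 m t).1 e]; rfl
  · rw [(h2 m t).2 e]; rfl

end Cfsg.Agent.S1030
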