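import Cfsg.Statements.S1034
import Mathlib
import Cfsg.Agent.Chev.Borel
import Cfsg.Agent.Chev.All

set_option autoImplicit false
open Cfsg

namespace Cfsg.Agent.S1034
open Cfsg.Agent.Chev Cfsg.Lie Matrix

/-- Every element of `H` is a product `h_{p_1}(c_1) ⋯ h_{p_l}(c_l)` over the fundamental roots, with non-zero `c_i`. -/
theorem result {F : Type*} [Field F] (D : Cfsg.Lie.ChevalleyDatum) (hD : D ∈ [Cfsg.Lie.chevG2, Cfsg.Lie.chevB2, Cfsg.Lie.chevD4, Cfsg.Lie.chevF4, Cfsg.Lie.chevE6, Cfsg.Lie.chevE7, Cfsg.Lie.chevE8]) (g : GL D.Idx F) (hg : g ∈ D.diagonalSubgroup F) :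
    ∃ c : ℕ → F, (∀ i < D.rank, c i ≠ 0) ∧
      (g : Matrix D.Idx D.Idx F) = D.wordMat F ((List.range D.rank).flatMap fun i => D.hWord (D.simple i) (c i)) := by
  rename' g => g₁
  obtain ⟨k, g⟩ := good_of_mem hD
  let hp : ℕ → F → GL D.Idx F := fun i t => if hi : i < D.rank then hG g (D.simple i) (g.simple hi).lt t else 1
  have hcomm : ∀ a ∈ D.diagonalSubgroup F, ∀ b ∈ D.diagonalSubgroup F, Commute a b := by
    intro h hh h' hh'
    obtain ⟨χ, e, -⟩ := H_char g hh
    obtain ⟨ψ, e', -⟩ := H_char g hh'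
    apply Units.ext
    rw [Units.val_mul, Units.val_mul, e, e', dg, dg, diagonal_mul_diagonal, diagonal_mul_diagonal]
    congr 1; funext i; exact mul_comm _ _
  have hpmem : ∀ i t, t ≠ 0 → hp i t ∈ D.diagonalSubgroup F := by
    intro i t ht
    simp only [hp]
    split
    · next hi => rw [H_eq g]; exact Subgroup.subset_closure ⟨i, hi, t, ht, rfl⟩
    · exact one_mem _
  have hpmul : ∀ i a b, a ≠ 0 → b ≠ 0 → hp i a * hp i b = hp i (a * b) := by
    intro i a b ha hb
    simp only [hp]
    split
    · next hi => exact hp_mul g hi a b ha hb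
    · exact one_mul _
  let P : (ℕ → F) → List ℕ → GL D.Idx F := fun a L => (L.map fun i => hp i (a i)).prod
  have Pmem : ∀ (a : ℕ → F), (∀ i, a i ≠ 0) → ∀ L, P a L ∈ D.diagonalSubgroup F := by
    intro a ha L
    refine Subgroup.list_prod_mem _ fun x hx => ?_
    obtain ⟨i, -, rfl⟩ := List.mem_map.1 hx
    exact hpmem i _ (ha i)
  have Pmul : ∀ (a b : ℕ → F), (∀ i, a i ≠ 0) → (∀ i, b i ≠ 0) → ∀ L, P a L * P b L = P (fun i => a i * b i) L := by
    intro a b ha hb L
    induction L with
    | nil => simp [P]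
    | cons i L ih =>
      simp only [P, List.map_cons, List.prod_cons] at ih ⊢
      rw [← hpmul i _ _ (ha i) (hb i), ← ih, mul_assoc, mul_assoc]
      congr 1
      rw [← mul_assoc, (hcomm _ (Pmem a ha L) _ (hpmem i _ (hb i))).eq, mul_assoc]
  have Pone : ∀ L, P (fun _ => 1) L = 1 := by
    intro L
    have h1 := Pmul (fun _ => 1) (fun _ => 1) (fun _ => one_ne_zero) (fun _ => one_ne_zero) L
    simpa using h1
  have key : ∃ a : ℕ → F, (∀ i, a i ≠ 0) ∧ g₁ = P a (List.range D.rank) := by
    rw [H_eq g] at hg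
    induction hg using Subgroup.closure_induction with
    | mem x hx =>
      obtain ⟨i, hi, t, ht, rfl⟩ := hx
      refine ⟨fun j => if j = i then t else 1, fun j => by dsimp only; split <;> simp [ht], ?_⟩
      have : ∀ L : List ℕ, L.Nodup → P (fun j => if j = i then t else 1) L = if i ∈ L then hp i t else 1 := by
        intro L
        induction L with
        | nil => simp [P]
        | cons j L ih =>
          intro hnd
          obtain ⟨hj, hnd⟩ := List.nodup_cons.1 hnd
          have h1 : ∀ l, hp l (1 : F) = 1 := fun l => by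
            have := hpmul l 1 1 one_ne_zero one_ne_zero
            simpa using this
          simp only [P, List.map_cons, List.prod_cons] at ih ⊢
          rw [ih hnd]
          by_cases e : j = i
          · subst e; simp [hj]
          · simp [e, h1, Ne.symm e]
      rw [this _ List.nodup_range, if_pos (List.mem_range.2 hi)]
      simp [hp, hi]
    | one => exact ⟨fun _ => 1, fun _ => one_ne_zero, (Pone _).symm⟩
    | mul a b _ _ ha hb =>
      obtain ⟨u, hu, rfl⟩ := ha
      obtain ⟨v, hv, rfl⟩ := hb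
      exact ⟨_, fun i => mul_ne_zero (hu i) (hv i), Pmul u v hu hv _⟩
    | inv a _ ha =>
      obtain ⟨u, hu, rfl⟩ := ha
      refine ⟨fun i => (u i)⁻¹, fun i => inv_ne_zero (hu i), inv_eq_of_mul_eq_one_right ?_⟩
      rw [Pmul u _ hu (fun i => inv_ne_zero (hu i))]
      simp [hu, Pone]
  obtain ⟨a, ha, rfl⟩ := key
  refine ⟨a, fun i _ => ha i, ?_⟩
  have : ∀ L : List ℕ, (∀ i ∈ L, i < D.rank) →
      ((P a L : GL D.Idx F) : Matrix D.Idx D.Idx F) = D.wordMat F (L.flatMap fun i => D.hWord (D.simple i) (a i)) := by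
    intro L
    induction L with
    | nil => simp [P, ChevalleyDatum.wordMat]
    | cons i L ih =>
      intro hL
      simp only [P, List.map_cons, List.prod_cons, Units.val_mul] at ih ⊢
      rw [ih (fun j hj => hL j (List.mem_cons_of_mem _ hj))]
      simp [hp, hL i (by simp), hG_val, ChevalleyDatum.hMat, ChevalleyDatum.wordMat, List.flatMap_cons]
  exact this _ (fun i hi => List.mem_range.1 hi)

end Cfsg.Agent.S1034
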