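import Cfsg.Statements.S1035
import Mathlib
import Cfsg.Agent.Chev.Torus

set_option autoImplicit false
open Cfsg

namespace Cfsg.Agent.S1035
open Cfsg.Agent.Chev Cfsg.Agent.Chev.Tits Cfsg.Lie

/-- `d · |H| = (q - 1)^rank` over a field with `q` elements, with `d = 1` (G₂, F₄, E₈), `gcd(3, q-1)` (E₆), `gcd(2, q-1)` (E₇, B₂), `gcd(2, q-1)²` (D₄). -/
theorem result {F : Type*} [Field F] [Fintype F] {q : ℕ} (hq : Fintype.card F = q)
    (p : Cfsg.Lie.ChevalleyDatum × ℕ)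
    (hp : p ∈ [(Cfsg.Lie.chevG2, 1), (Cfsg.Lie.chevF4, 1), (Cfsg.Lie.chevE8, 1), (Cfsg.Lie.chevE6, Nat.gcd 3 (q - 1)),
      (Cfsg.Lie.chevE7, Nat.gcd 2 (q - 1)), (Cfsg.Lie.chevB2, Nat.gcd 2 (q - 1)), (Cfsg.Lie.chevD4, Nat.gcd 2 (q - 1) ^ 2)]) :
    p.2 * Nat.card (p.1.diagonalSubgroup F) = (q - 1) ^ p.1.rank := by
  simp only [List.mem_cons, List.not_mem_nil, or_false] at hp
  have hm : Nat.card Fˣ = q - 1 := by rw [Nat.card_units, Nat.card_eq_fintype_card, hq]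
  rcases hp with rfl | rfl | rfl | rfl | rfl | rfl | rfl
  · obtain ⟨k, G⟩ := tgood_of_mem (D := Cfsg.Lie.chevG2) (by simp)
    have h := card_H (F := F) G snfG2 snfOKG2
    rw [hm] at h
    have e : (∏ i : Fin Cfsg.Lie.chevG2.rank, Nat.gcd (q - 1) (snfG2.d.getD i 0)) = 1 := by
      rw [Fin.prod_univ_eq_prod_range (fun i => Nat.gcd (q - 1) (snfG2.d.getD i 0)), show Cfsg.Lie.chevG2.rank = 2 from rfl]
      simp [snfG2, Finset.prod_range_succ, Nat.gcd_comm]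
    rw [e] at h
    exact h
  · obtain ⟨k, G⟩ := tgood_of_mem (D := Cfsg.Lie.chevF4) (by simp)
    have h := card_H (F := F) G snfF4 snfOKF4
    rw [hm] at h
    have e : (∏ i : Fin Cfsg.Lie.chevF4.rank, Nat.gcd (q - 1) (snfF4.d.getD i 0)) = 1 := by
      rw [Fin.prod_univ_eq_prod_range (fun i => Nat.gcd (q - 1) (snfF4.d.getD i 0)), show Cfsg.Lie.chevF4.rank = 4 from rfl]
      simp [snfF4, Finset.prod_range_succ, Nat.gcd_comm]
    rw [e] at h
    exact h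
  · obtain ⟨k, G⟩ := tgood_of_mem (D := Cfsg.Lie.chevE8) (by simp)
    have h := card_H (F := F) G snfE8 snfOKE8
    rw [hm] at h
    have e : (∏ i : Fin Cfsg.Lie.chevE8.rank, Nat.gcd (q - 1) (snfE8.d.getD i 0)) = 1 := by
      rw [Fin.prod_univ_eq_prod_range (fun i => Nat.gcd (q - 1) (snfE8.d.getD i 0)), show Cfsg.Lie.chevE8.rank = 8 from rfl]
      simp [snfE8, Finset.prod_range_succ, Nat.gcd_comm]
    rw [e] at h
    exact h
  · obtain ⟨k, G⟩ := tgood_of_mem (D := Cfsg.Lie.chevE6) (by simp)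
    have h := card_H (F := F) G snfE6 snfOKE6
    rw [hm] at h
    have e : (∏ i : Fin Cfsg.Lie.chevE6.rank, Nat.gcd (q - 1) (snfE6.d.getD i 0)) = Nat.gcd 3 (q - 1) := by
      rw [Fin.prod_univ_eq_prod_range (fun i => Nat.gcd (q - 1) (snfE6.d.getD i 0)), show Cfsg.Lie.chevE6.rank = 6 from rfl]
      simp [snfE6, Finset.prod_range_succ, Nat.gcd_comm]
    rw [e] at h
    exact h
  · obtain ⟨k, G⟩ := tgood_of_mem (D := Cfsg.Lie.chevE7) (by simp)
    have h := card_H (F := F) G snfE7 snfOKE7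
    rw [hm] at h
    have e : (∏ i : Fin Cfsg.Lie.chevE7.rank, Nat.gcd (q - 1) (snfE7.d.getD i 0)) = Nat.gcd 2 (q - 1) := by
      rw [Fin.prod_univ_eq_prod_range (fun i => Nat.gcd (q - 1) (snfE7.d.getD i 0)), show Cfsg.Lie.chevE7.rank = 7 from rfl]
      simp [snfE7, Finset.prod_range_succ, Nat.gcd_comm]
    rw [e] at h
    exact h
  · obtain ⟨k, G⟩ := tgood_of_mem (D := Cfsg.Lie.chevB2) (by simp)
    have h := card_H (F := F) G snfB2 snfOKB2
    rw [hm] at h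
    have e : (∏ i : Fin Cfsg.Lie.chevB2.rank, Nat.gcd (q - 1) (snfB2.d.getD i 0)) = Nat.gcd 2 (q - 1) := by
      rw [Fin.prod_univ_eq_prod_range (fun i => Nat.gcd (q - 1) (snfB2.d.getD i 0)), show Cfsg.Lie.chevB2.rank = 2 from rfl]
      simp [snfB2, Finset.prod_range_succ, Nat.gcd_comm]
    rw [e] at h
    exact h
  · obtain ⟨k, G⟩ := tgood_of_mem (D := Cfsg.Lie.chevD4) (by simp)
    have h := card_H (F := F) G snfD4 snfOKD4
    rw [hm] at h
    have e : (∏ i : Fin Cfsg.Lie.chevD4.rank, Nat.gcd (q - 1) (snfD4.d.getD i 0)) = Nat.gcd 2 (q - 1) ^ 2 := by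
      rw [Fin.prod_univ_eq_prod_range (fun i => Nat.gcd (q - 1) (snfD4.d.getD i 0)), show Cfsg.Lie.chevD4.rank = 4 from rfl]
      simp [snfD4, Finset.prod_range_succ, Nat.gcd_comm, pow_two]
    rw [e] at h
    exact h

end Cfsg.Agent.S1035
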