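import Cfsg.Statements.S1037
import Mathlib
import Cfsg.Agent.Chev.Borel
import Cfsg.Agent.Chev.All

set_option autoImplicit false
open Cfsg

namespace Cfsg.Agent.S1037
open scoped Pointwise
open Cfsg.Agent.Chev Cfsg.Lie Matrix

/-- `UH ∩ V = 1` and `UH ∩ VH = H`. -/
theorem result {F : Type*} [Field F] (D : Cfsg.Lie.ChevalleyDatum) (hD : D ∈ [Cfsg.Lie.chevG2, Cfsg.Lie.chevB2, Cfsg.Lie.chevD4, Cfsg.Lie.chevF4, Cfsg.Lie.chevE6, Cfsg.Lie.chevE7, Cfsg.Lie.chevE8]) :
    D.borelSubgroup F ⊓ D.negUnipotent F = ⊥ ∧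
      D.borelSubgroup F ⊓ (D.negUnipotent F ⊔ D.diagonalSubgroup F) = D.diagonalSubgroup F := by
  obtain ⟨k, g⟩ := good_of_mem hD
  have hHB : D.diagonalSubgroup F ≤ D.borelSubgroup F := le_sup_right
  have h1 : D.borelSubgroup F ⊓ D.negUnipotent F = ⊥ := by
    rw [eq_bot_iff]
    rintro v ⟨hb, hv⟩
    exact B_V g hb hv
  refine ⟨h1, le_antisymm ?_ (le_inf hHB le_sup_right)⟩
  have hnorm : D.diagonalSubgroup F ≤ Subgroup.normalizer (D.negUnipotent F : Set (GL D.Idx F)) := by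
    have key : ∀ h ∈ D.diagonalSubgroup F, ∀ u ∈ D.negUnipotent F, h * u * h⁻¹ ∈ D.negUnipotent F := by
      intro h hh u hu
      obtain ⟨χ, -, hc⟩ := H_char g hh
      induction hu using Subgroup.closure_induction with
      | mem x hx =>
        obtain ⟨r, t, hr, hx⟩ := hx
        rw [show x = xG g r hr.1 t from Units.ext hx, (hc r hr.1).2]
        exact Subgroup.subset_closure ⟨r, χ r * t, hr, rfl⟩
      | one => simp
      | mul a b _ _ ha hb => have := mul_mem ha hb; simpa [mul_assoc] using this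
      | inv a _ ha => have := inv_mem ha; simpa [mul_assoc] using this
    intro h hh
    rw [Subgroup.mem_normalizer_iff]
    intro u
    refine ⟨key h hh u, fun hu => ?_⟩
    simpa [mul_assoc] using key h⁻¹ (inv_mem hh) _ hu
  rintro x ⟨hxB, hxV⟩
  have hxV' : x ∈ ((D.negUnipotent F : Set (GL D.Idx F)) * (D.diagonalSubgroup F : Set (GL D.Idx F))) := by
    rw [← Subgroup.coe_mul_of_right_le_normalizer_left _ _ hnorm]; exact hxV
  obtain ⟨v, hv, h, hh, rfl⟩ := hxV'
  have : v * h * h⁻¹ ∈ D.borelSubgroup F := mul_mem hxB (inv_mem (hHB hh))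
  rw [mul_inv_cancel_right] at this
  change v * h ∈ D.diagonalSubgroup F
  rw [B_V g this hv, one_mul]
  exact hh

end Cfsg.Agent.S1037
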