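import Cfsg.Statements.S1041
import Mathlib
import Cfsg.Agent.Chev.Unip

set_option autoImplicit false
open Cfsg

namespace Cfsg.Agent.S1041
open Cfsg.Agent.Chev

/-- `U` and `V` generate the whole Chevalley group. -/
theorem result {F : Type*} [Field F] (D : Cfsg.Lie.ChevalleyDatum) (hD : D ∈ [Cfsg.Lie.chevG2, Cfsg.Lie.chevB2, Cfsg.Lie.chevD4, Cfsg.Lie.chevF4, Cfsg.Lie.chevE6, Cfsg.Lie.chevE7, Cfsg.Lie.chevE8]) : D.posUnipotent F ⊔ D.negUnipotent F = D.group F := by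
  obtain ⟨p, hp⟩ := ok hD
  refine le_antisymm (sup_le ?_ ?_) ?_
  · rw [Cfsg.Lie.ChevalleyDatum.posUnipotent, Subgroup.closure_le]
    rintro g ⟨r, t, hr, hg⟩
    exact Subgroup.subset_closure ⟨⟨r, hr.1⟩, t, by rw [hg, x_eq hr.1]⟩
  · rw [Cfsg.Lie.ChevalleyDatum.negUnipotent, Subgroup.closure_le]
    rintro g ⟨r, t, hr, hg⟩
    exact Subgroup.subset_closure ⟨⟨r, hr.1⟩, t, by rw [hg, x_eq hr.1]⟩
  · rw [Cfsg.Lie.ChevalleyDatum.group, Subgroup.closure_le]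
    rintro g ⟨⟨r, hr⟩, t, hg⟩
    have h := (facts hp hr).sign
    rw [← x_eq hr] at hg
    split_ifs at h
    · exact Subgroup.mem_sup_right (Subgroup.subset_closure ⟨r, t, h, hg⟩)
    · exact Subgroup.mem_sup_left (Subgroup.subset_closure ⟨r, t, h, hg⟩)

end Cfsg.Agent.S1041
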