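import Cfsg.Statements.S1044
import Mathlib
import Cfsg.Agent.Chev.Pair
import Cfsg.Agent.Chev.TitsAll

set_option autoImplicit false
open Cfsg

namespace Cfsg.Agent.S1044
open Cfsg.Agent.Chev Cfsg.Agent.Chev.Tits Cfsg.Lie

/-- For a fundamental root `p` the set `B ∪ B n_p B` is (the carrier of) a subgroup of the general linear group. -/
theorem result {F : Type*} [Field F] (D : Cfsg.Lie.ChevalleyDatum) (hD : D ∈ [Cfsg.Lie.chevG2, Cfsg.Lie.chevB2, Cfsg.Lie.chevD4, Cfsg.Lie.chevF4, Cfsg.Lie.chevE6, Cfsg.Lie.chevE7, Cfsg.Lie.chevE8]) (i : ℕ) (hi : i < D.rank) (n : GL D.Idx F)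
    (hn : (n : Matrix D.Idx D.Idx F) = D.nMat F (D.simple i) 1) :
    ∃ P : Subgroup (GL D.Idx F), (P : Set (GL D.Idx F)) =
      (D.borelSubgroup F : Set (GL D.Idx F)) ∪ DoubleCoset.doubleCoset n (D.borelSubgroup F : Set (GL D.Idx F)) (D.borelSubgroup F) := by
  obtain ⟨k, G⟩ := tgood_of_mem hD
  obtain rfl : n = nn G.good F i := by
    rw [nn_eq G hi]; exact Units.ext (by rw [hn, nG_val])
  set n := nn G.good F i with hn_def
  have memS : ∀ x, x ∈ DoubleCoset.doubleCoset n (D.borelSubgroup F : Set (GL D.Idx F)) (D.borelSubgroup F) ↔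
      ∃ a ∈ D.borelSubgroup F, ∃ b ∈ D.borelSubgroup F, x = a * n * b := fun x => DoubleCoset.mem_doubleCoset
  obtain ⟨h0, hh0, e0⟩ := nn_inv (F := F) G hi
  have hsq : n * n ∈ D.borelSubgroup F := H_mem_B G (nn_sq G hi)
  have nbn : ∀ b ∈ D.borelSubgroup F, n * b * n ∈ D.borelSubgroup F ∨
      ∃ a ∈ D.borelSubgroup F, ∃ a' ∈ D.borelSubgroup F, n * b * n = a * n * a' := by
    intro b hb
    have e : n * b * n = n * b * n⁻¹ * (n * n) := by group
    rcases conj_B G hi hb with h | ⟨a, ha, a', ha', h⟩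
    · exact Or.inl (e ▸ mul_mem h hsq)
    · exact Or.inr ⟨a, ha, a' * (n * n), mul_mem ha' hsq, by rw [e, h]; simp only [mul_assoc]; rfl⟩
  refine ⟨{ carrier := (D.borelSubgroup F : Set (GL D.Idx F)) ∪ DoubleCoset.doubleCoset n (D.borelSubgroup F : Set (GL D.Idx F)) (D.borelSubgroup F), one_mem' := Or.inl (one_mem _), mul_mem' := ?_, inv_mem' := ?_ }, rfl⟩
  · rintro x y hx hy
    simp only [Set.mem_union, SetLike.mem_coe, memS] at hx hy ⊢
    rcases hx with hx | ⟨a, ha, b, hb, rfl⟩ <;> rcases hy with hy | ⟨a', ha', b', hb', rfl⟩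
    · exact Or.inl (mul_mem hx hy)
    · exact Or.inr ⟨x * a', mul_mem hx ha', b', hb', by simp only [mul_assoc]⟩
    · exact Or.inr ⟨a, ha, b * y, mul_mem hb hy, by simp only [mul_assoc]⟩
    · have e : a * n * b * (a' * n * b') = a * (n * (b * a') * n) * b' := by simp only [mul_assoc]
      rcases nbn _ (mul_mem hb ha') with h | ⟨p, hp, q, hq, h⟩
      · exact Or.inl (e ▸ mul_mem (mul_mem ha h) hb')
      · exact Or.inr ⟨a * p, mul_mem ha hp, q * b', mul_mem hq hb', by rw [e, h]; simp only [mul_assoc]⟩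
  · intro x hx
    simp only [Set.mem_union, SetLike.mem_coe, memS] at hx ⊢
    rcases hx with hx | ⟨a, ha, b, hb, rfl⟩
    · exact Or.inl (inv_mem hx)
    · exact Or.inr ⟨b⁻¹ * h0, mul_mem (inv_mem hb) (H_mem_B G hh0), a⁻¹, inv_mem ha, by
        rw [_root_.mul_inv_rev, _root_.mul_inv_rev, e0]; simp only [mul_assoc]; rfl⟩

end Cfsg.Agent.S1044
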