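import Cfsg.Statements.S1050
import Mathlib
import Cfsg.Agent.Chev.Borel
import Cfsg.Agent.Chev.All

set_option autoImplicit false
open Cfsg

namespace Cfsg.Agent.S1050
open Cfsg.Agent.Chev Cfsg.Lie Matrix
open scoped commutatorElement

/-- `B = UH` is solvable (U nilpotent, H abelian, U ⊴ B). -/
theorem result {F : Type*} [Field F] (D : Cfsg.Lie.ChevalleyDatum) (hD : D ∈ [Cfsg.Lie.chevG2, Cfsg.Lie.chevB2, Cfsg.Lie.chevD4, Cfsg.Lie.chevF4, Cfsg.Lie.chevE6, Cfsg.Lie.chevE7, Cfsg.Lie.chevE8]) : Group.IsSolvable ↥(D.borelSubgroup F) := by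
  obtain ⟨k, g⟩ := good_of_mem hD
  have hab : ∀ h ∈ D.diagonalSubgroup F, ∀ h' ∈ D.diagonalSubgroup F, h * h' = h' * h := by
    intro h hh h' hh'
    obtain ⟨χ, e, -⟩ := H_char g hh
    obtain ⟨ψ, e', -⟩ := H_char g hh'
    apply Units.ext
    rw [Units.val_mul, Units.val_mul, e, e', dg, dg, diagonal_mul_diagonal, diagonal_mul_diagonal]
    congr 1; funext i; exact mul_comm _ _
  have hN := nroots_eq g.datum
  have step : ∀ n, (derivedSeries ↥(D.borelSubgroup F) (n + 1)).map (D.borelSubgroup F).subtype ≤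
      D.posUnipotent F ⊓ Fil D F k.half hN n := by
    intro n
    induction n with
    | zero =>
      rw [derivedSeries_succ, derivedSeries_zero, Subgroup.map_commutator, Subgroup.commutator_le]
      intro a ha b hb
      obtain ⟨a, -, rfl⟩ := Subgroup.mem_map.1 ha
      obtain ⟨b, -, rfl⟩ := Subgroup.mem_map.1 hb
      obtain ⟨u, hu, h, hh, ea⟩ := (mem_B g).1 a.2
      obtain ⟨v, hv, h', hh', eb⟩ := (mem_B g).1 b.2
      simp only [Subgroup.coe_subtype, ← ea, ← eb, commutatorElement_def]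
      have hm : u * h * (v * h') * (u * h)⁻¹ * (v * h')⁻¹ = u * (h * v * h⁻¹) * (h' * u⁻¹ * h'⁻¹) * v⁻¹ := by
        calc _ = u * (h * v * h⁻¹) * ((h * h') * h⁻¹ * u⁻¹ * h'⁻¹) * v⁻¹ := by group
          _ = _ := by rw [hab h hh h' hh']; group
      have hmem : u * (h * v * h⁻¹) * (h' * u⁻¹ * h'⁻¹) * v⁻¹ ∈ D.posUnipotent F :=
        mul_mem (mul_mem (mul_mem hu ((Subgroup.mem_normalizer_iff.1 (H_norm_U g hh) v).1 hv))
          ((Subgroup.mem_normalizer_iff.1 (H_norm_U g hh') _).1 (inv_mem hu))) (inv_mem hv)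
      rw [hm]
      exact ⟨hmem, U_le g.datum hmem⟩
    | succ n ih =>
      rw [derivedSeries_succ, Subgroup.map_commutator, Subgroup.commutator_le]
      intro a ha b hb
      obtain ⟨a1, a2⟩ := ih ha
      obtain ⟨b1, -⟩ := ih hb
      exact ⟨(D.posUnipotent F).mul_mem ((D.posUnipotent F).mul_mem ((D.posUnipotent F).mul_mem a1 b1) ((D.posUnipotent F).inv_mem a1)) ((D.posUnipotent F).inv_mem b1), fil_comm hN a2 (U_le g.datum b1)⟩
  refine ⟨⟨2 * k.half + 1 + 1, eq_bot_iff.2 fun x hx => ?_⟩⟩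
  have h1 : ((x : GL D.Idx F)) ∈ Fil D F k.half hN (2 * k.half + 1) := (step _ ⟨x, hx, rfl⟩).2
  have h2 := (h1 : Raise D F k.half (2 * k.half + 1 + 1) _).eq_zero hN (by omega)
  exact Subgroup.mem_bot.2 (Subtype.ext (Units.ext (sub_eq_zero.1 h2)))

end Cfsg.Agent.S1050
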