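import Cfsg.Statements.S1051
import Mathlib
import Cfsg.Agent.Chev.Borel
import Cfsg.Agent.Chev.All

set_option autoImplicit false
open Cfsg

namespace Cfsg.Agent.S1051
open Cfsg.Agent.Chev Cfsg.Lie Matrix

/-- `⋂_g g B g⁻¹ = 1`: the normal core of `B` in the Chevalley group is trivial. -/
theorem result {F : Type*} [Field F] (D : Cfsg.Lie.ChevalleyDatum) (hD : D ∈ [Cfsg.Lie.chevG2, Cfsg.Lie.chevB2, Cfsg.Lie.chevD4, Cfsg.Lie.chevF4, Cfsg.Lie.chevE6, Cfsg.Lie.chevE7, Cfsg.Lie.chevE8]) : ((D.borelSubgroup F).subgroupOf (D.group F)).normalCore = ⊥ := by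
  obtain ⟨k, g⟩ := good_of_mem hD
  obtain ⟨n, hn, h1, h2⟩ := longest_conj (F := F) g
  have hnG : n ∈ D.group F := W0_le g hn
  set K := ((D.borelSubgroup F).subgroupOf (D.group F)).normalCore with hK
  have hmem : ∀ x ∈ K, ∀ y ∈ D.group F, y * (x : GL D.Idx F) * y⁻¹ ∈ D.borelSubgroup F := by
    intro x hx y hy
    have := Subgroup.normalCore_le _ ((Subgroup.normalCore_normal _).conj_mem x hx ⟨y, hy⟩)
    simpa [Subgroup.mem_subgroupOf] using this
  have hnN : n ∈ Subgroup.normalizer (D.diagonalSubgroup F : Set (GL D.Idx F)) :=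
    H_norm g (by rw [N_eq g]; exact Subgroup.mem_sup_right hn)
  have hdiag : ∀ x ∈ K, (x : GL D.Idx F) ∈ D.diagonalSubgroup F := by
    intro x hx
    obtain ⟨u, hu, h, hh, e⟩ := (mem_B g).1 (by simpa using hmem x hx 1 (one_mem _))
    have hnh : n * h * n⁻¹ ∈ D.diagonalSubgroup F := (Subgroup.mem_normalizer_iff.1 hnN h).1 hh
    have hb := hmem x hx n hnG
    rw [← e, show n * (u * h) * n⁻¹ = n * u * n⁻¹ * (n * h * n⁻¹) by group] at hb
    have hb' : n * u * n⁻¹ ∈ D.borelSubgroup F := by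
      have := mul_mem hb (inv_mem (Subgroup.mem_sup_right hnh : n * h * n⁻¹ ∈ D.borelSubgroup F))
      rwa [mul_inv_cancel_right] at this
    have hu1 : n * u * n⁻¹ = 1 := B_V g hb' (h1 ▸ Subgroup.mem_map.2 ⟨u, hu, rfl⟩)
    have hu2 : u = 1 := by
      calc u = n⁻¹ * (n * u * n⁻¹) * n := by group
        _ = 1 := by rw [hu1]; group
    rw [← e, hu2, one_mul]; exact hh
  have hcommU : ∀ x ∈ K, ∀ s, ∀ hs : s < D.nroots, k.half ≤ s → (x : GL D.Idx F) * xG g s hs 1 * (x : GL D.Idx F)⁻¹ = xG g s hs 1 := by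
    intro x hx s hs hps
    have hg : xG g s hs (1 : F) ∈ D.group F := Subgroup.subset_closure ⟨⟨s, hs⟩, 1, x_eq hs 1⟩
    have hU : xG g s hs (1 : F) ∈ D.posUnipotent F := Subgroup.subset_closure ⟨s, 1, (pos_iff g).2 ⟨hs, hps⟩, rfl⟩
    have hh := hdiag x hx
    have hh' : xG g s hs 1 * (x : GL D.Idx F) * (xG g s hs (1 : F))⁻¹ ∈ D.diagonalSubgroup F := by
      have := hdiag _ ((Subgroup.normalCore_normal _).conj_mem x hx ⟨_, hg⟩)
      simpa using this
    have h3 : (x : GL D.Idx F) * xG g s hs 1 * (x : GL D.Idx F)⁻¹ * (xG g s hs (1 : F))⁻¹ = 1 :=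
      U_H g (mul_mem ((Subgroup.mem_normalizer_iff.1 (H_norm_U g hh) _).1 hU) (inv_mem hU))
        (by
          have := mul_mem hh (inv_mem hh')
          have := mul_mem hh (mul_mem (inv_mem hh') (one_mem _))
          have e : (x : GL D.Idx F) * xG g s hs 1 * (x : GL D.Idx F)⁻¹ * (xG g s hs (1 : F))⁻¹
              = (x : GL D.Idx F) * (xG g s hs 1 * (x : GL D.Idx F) * (xG g s hs (1 : F))⁻¹)⁻¹ := by group
          rw [e]; exact mul_mem hh (inv_mem hh'))
    exact mul_inv_eq_one.1 h3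
  rw [eq_bot_iff]
  intro x hx
  rw [Subgroup.mem_bot]
  obtain ⟨χ, hχ, hc⟩ := H_char g (hdiag x hx)
  have one_of : ∀ s, ∀ hs : s < D.nroots, (x : GL D.Idx F) * xG g s hs 1 * (x : GL D.Idx F)⁻¹ = xG g s hs 1 → χ s = 1 := by
    intro s hs e
    rw [(hc s hs).2, mul_one] at e
    have e1 : xG g s hs (χ s + -1) = 1 := by rw [← xG_mul g hs, e, xG_mul g hs, add_neg_cancel]; exact Units.ext (x_zero g.datum hs)
    have hne := (facts g.datum hs).neg_ne
    have e2 := congrArg (fun M : GL D.Idx F => ((M : Matrix D.Idx D.Idx F) *ᵥ rv D F (D.neg s)) (Sum.inr ⟨s, hs⟩)) e1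
    simp [xG, x_neg g.datum hs, rv_apply, hv, Ne.symm hne] at e2
    linear_combination e2
  have hall : ∀ s, s < D.nroots → χ s = 1 := by
    intro s hs
    by_cases hps : k.half ≤ s
    · exact one_of s hs (hcommU x hx s hs hps)
    apply one_of s hs
    have hV : xG g s hs (1 : F) ∈ D.negUnipotent F := Subgroup.subset_closure ⟨s, 1, (neg_iff g).2 ⟨hs, by omega⟩, rfl⟩
    obtain ⟨y, hy, hye⟩ := Subgroup.mem_map.1 (h1 ▸ hV)
    change n * y * n⁻¹ = xG g s hs 1 at hye
    have hx' := (Subgroup.normalCore_normal _).conj_mem x hx (⟨n, hnG⟩⁻¹)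
    have hcy : ∀ z ∈ D.posUnipotent F, Commute ((n⁻¹ * (x : GL D.Idx F) * n)) z := by
      intro z hz
      induction hz using Subgroup.closure_induction with
      | mem z hz =>
        obtain ⟨r, t, hr, hz⟩ := hz
        obtain ⟨hr1, hr2⟩ := (pos_iff g).1 hr
        have hh := hdiag _ hx'
        obtain ⟨ψ, -, hψ⟩ := H_char g hh
        have e := hcommU _ hx' r hr1 hr2
        rw [(hψ r hr1).2, mul_one] at e
        have e1 : xG g r hr1 (ψ r + -1) = 1 := by rw [← xG_mul g hr1, e, xG_mul g hr1, add_neg_cancel]; exact Units.ext (x_zero g.datum hr1)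
        have hne := (facts g.datum hr1).neg_ne
        have e2 := congrArg (fun M : GL D.Idx F => ((M : Matrix D.Idx D.Idx F) *ᵥ rv D F (D.neg r)) (Sum.inr ⟨r, hr1⟩)) e1
        simp [xG, x_neg g.datum hr1, rv_apply, hv, Ne.symm hne] at e2
        have e3 : ψ r = 1 := by linear_combination e2
        rw [show z = xG g r hr1 t from Units.ext hz]
        have e4 := (hψ r hr1).2 t
        rw [e3, one_mul, mul_inv_eq_iff_eq_mul] at e4
        simpa [Commute, SemiconjBy] using e4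
      | one => exact Commute.one_right _
      | mul a b _ _ ha hb => exact ha.mul_right hb
      | inv a _ ha => exact ha.inv_right
    rw [← hye, mul_inv_eq_iff_eq_mul]
    calc (x : GL D.Idx F) * (n * y * n⁻¹) = n * ((n⁻¹ * (x : GL D.Idx F) * n) * y) * n⁻¹ := by group
      _ = n * (y * (n⁻¹ * (x : GL D.Idx F) * n)) * n⁻¹ := by rw [(hcy y hy).eq]
      _ = _ := by group
  apply Subtype.ext
  apply Units.ext
  rw [hχ]
  change dg D χ = 1
  rw [dg, ← diagonal_one]
  congr 1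
  funext i
  rcases i with i | i
  · rfl
  · exact hall i i.2

end Cfsg.Agent.S1051
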