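import Cfsg.Statements.S1053
import Mathlib
import Cfsg.Agent.Chev.Borel
import Cfsg.Agent.Chev.All

set_option autoImplicit false
open Cfsg

namespace Cfsg.Agent.S1053
open Cfsg.Agent.Chev Cfsg.Lie Matrix

/-- There is `n₀ ∈ N` with `n₀ U n₀⁻¹ = V` (a representative of the longest element of the Weyl group). -/
theorem result {F : Type*} [Field F] (D : Cfsg.Lie.ChevalleyDatum) (hD : D ∈ [Cfsg.Lie.chevG2, Cfsg.Lie.chevB2, Cfsg.Lie.chevD4, Cfsg.Lie.chevF4, Cfsg.Lie.chevE6, Cfsg.Lie.chevE7, Cfsg.Lie.chevE8]) :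
    ∃ n ∈ D.monomialSubgroup F, (D.posUnipotent F).map (MulAut.conj n).toMonoidHom = D.negUnipotent F := by
  obtain ⟨k, g⟩ := good_of_mem hD
  obtain ⟨n, hn, h1, -⟩ := longest_conj (F := F) g
  exact ⟨n, by rw [N_eq g]; exact Subgroup.mem_sup_right hn, h1⟩

end Cfsg.Agent.S1053
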