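import Cfsg.Statements.S1054
import Mathlib
import Cfsg.Agent.Chev.Perfect
import Cfsg.Agent.Chev.TitsAll
import Cfsg.Agent.S1043
import Cfsg.Agent.S1050
import Cfsg.Agent.S1051
import Cfsg.Agent.S1052

set_option autoImplicit false
open Cfsg

namespace Cfsg.Agent.S1054
open Cfsg.Agent.Chev Cfsg.Agent.Chev.Tits Cfsg.Lie

/-- The Chevalley groups of types D₄, F₄, E₆, E₇, E₈ are simple over every field. -/
theorem result {F : Type*} [Field F] (D : Cfsg.Lie.ChevalleyDatum)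
    (hD : D ∈ [Cfsg.Lie.chevD4, Cfsg.Lie.chevF4, Cfsg.Lie.chevE6, Cfsg.Lie.chevE7, Cfsg.Lie.chevE8]) :
    IsSimpleGroup ↥(D.group F) ∧ ¬ IsMulCommutative ↥(D.group F) := by
  have hD' : D ∈ [Cfsg.Lie.chevG2, Cfsg.Lie.chevB2, Cfsg.Lie.chevD4, Cfsg.Lie.chevF4, Cfsg.Lie.chevE6, Cfsg.Lie.chevE7, Cfsg.Lie.chevE8] := List.mem_cons_of_mem _ (List.mem_cons_of_mem _ hD)
  have hr : 2 < D.rank := by
    simp only [List.mem_cons, List.not_mem_nil, or_false] at hD
    rcases hD with rfl | rfl | rfl | rfl | rfl <;> decide +kernel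
  have hno : ¬ (D = Cfsg.Lie.chevG2 ∨ D = Cfsg.Lie.chevB2) := by
    have eG : Cfsg.Lie.chevG2.rank = 2 := by decide +kernel
    have eB : Cfsg.Lie.chevB2.rank = 2 := by decide +kernel
    rintro (rfl | rfl) <;> omega
  obtain ⟨k, G⟩ := tgood_of_mem hD'
  obtain ⟨h1, h2, h3⟩ := Cfsg.Agent.S1043.result (F := F) D hD'
  obtain ⟨P, hB, -, hS⟩ := exists_pair G h1 h2 h3
  exact simple G P hB hS h1 (Cfsg.Agent.S1050.result D hD') (Cfsg.Agent.S1051.result D hD')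
    (Cfsg.Agent.S1052.result D hD' (fun h => absurd h hno)) (by omega)

end Cfsg.Agent.S1054
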