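import Cfsg.Statements.S1056
import Mathlib
import Cfsg.Agent.Chev.Perfect
import Cfsg.Agent.Chev.TitsAll
import Cfsg.Agent.S1043
import Cfsg.Agent.S1050
import Cfsg.Agent.S1051
import Cfsg.Agent.S1052

set_option autoImplicit false
open Cfsg

namespace Cfsg.Agent.S1056
open Cfsg.Agent.Chev Cfsg.Agent.Chev.Tits Cfsg.Lie

/-- B₂(F) is simple for every field `F` other than the field with two elements. -/
theorem result {F : Type*} [Field F] (hF : ∃ a : F, a ≠ 0 ∧ a ≠ 1) : IsSimpleGroup ↥(Cfsg.Lie.chevB2.group F) ∧ ¬ IsMulCommutative ↥(Cfsg.Lie.chevB2.group F) := by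
  obtain ⟨k, G⟩ := tgood_of_mem (D := Cfsg.Lie.chevB2) (by simp)
  obtain ⟨h1, h2, h3⟩ := Cfsg.Agent.S1043.result (F := F) Cfsg.Lie.chevB2 (by simp)
  obtain ⟨P, hB, -, hS⟩ := exists_pair G h1 h2 h3
  exact simple G P hB hS h1 (Cfsg.Agent.S1050.result Cfsg.Lie.chevB2 (by simp)) (Cfsg.Agent.S1051.result Cfsg.Lie.chevB2 (by simp))
    (Cfsg.Agent.S1052.result Cfsg.Lie.chevB2 (by simp) (fun _ => hF)) (by decide +kernel)

end Cfsg.Agent.S1056
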