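import Cfsg.Statements.S1061
import Mathlib
import Cfsg.Agent.Chev.RepD4
import Cfsg.Agent.Chev.Count
import Cfsg.Agent.Chev.Poly
import Cfsg.Agent.Chev.TitsAll
import Cfsg.Agent.S1043
import Cfsg.Agent.S1027
import Cfsg.Agent.S1035

set_option autoImplicit false
open Cfsg

namespace Cfsg.Agent.S1061
open Cfsg.Agent.Chev Cfsg.Agent.Chev.Comm Cfsg.Agent.Chev.Tits Cfsg.Lie

/-- `gcd(2, q-1)² · |D₄(q)| = q¹² (q² - 1)(q⁴ - 1)(q⁴ - 1)(q⁶ - 1)`. -/
theorem result {F : Type*} [Field F] [Fintype F] {q : ℕ} (hq : Fintype.card F = q) : Nat.gcd 2 (q - 1) ^ 2 * Nat.card ↥(Cfsg.Lie.chevD4.group F) = q ^ 12 * (q ^ 2 - 1) * (q ^ 4 - 1) * (q ^ 4 - 1) * (q ^ 6 - 1) := by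
  obtain ⟨c₀, G⟩ : ∃ c₀, c₀ = certD4 ∧ TGood Cfsg.Lie.chevD4 c₀ :=
    ⟨_, rfl, ⟨goodD4, repD4, closedD4⟩, posD4, connD4, selfD4⟩
  obtain ⟨rfl, G⟩ := G
  obtain ⟨h1, h2, h3⟩ := Cfsg.Agent.S1043.result (F := F) Cfsg.Lie.chevD4 (by simp)
  have hU := Cfsg.Agent.S1027.result (F := F) Cfsg.Lie.chevD4 (by simp)
  have hH := Cfsg.Agent.S1035.result (F := F) hq (Cfsg.Lie.chevD4, Nat.gcd 2 (q - 1) ^ 2) (by simp)
  have hG := card_group (F := F) G (rev_of_mem (by simp)) corSimpleD4 levsD4 levsOKD4 h1 h2 h3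
  rw [card_borel G, hU] at hG
  simp only at hH
  have hq1 : 1 ≤ q := by rw [← hq]; exact Fintype.card_pos
  have key := poly_identity (Rs := [levD4_0.reps, levD4_1.reps, levD4_2.reps, levD4_3.reps]) (ds := [2, 4, 4, 6]) (by decide +kernel) hq1
  simp only [List.map_cons, List.map_nil, List.prod_cons, List.prod_nil, List.length_cons, List.length_nil, mul_one] at key
  norm_num only at key
  have hprod : ∀ f : ℕ → ℕ, ∏ m ∈ Finset.range Cfsg.Lie.chevD4.rank, f m = ∏ m ∈ Finset.range 4, f m := fun f => rfl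
  rw [show Cfsg.Lie.chevD4.nroots / 2 = 12 from rfl, hprod, hq] at hG
  replace hH : (Nat.gcd 2 (q - 1) ^ 2) * Nat.card ↥(Cfsg.Lie.chevD4.diagonalSubgroup F) = (q - 1) ^ 4 := hH
  simp only [Finset.prod_range_succ, Finset.prod_range_zero, one_mul] at hG
  simp only [levsD4, List.getD_cons_succ, List.getD_cons_zero] at hG
  calc _ = (Nat.gcd 2 (q - 1) ^ 2) * Nat.card ↥(Cfsg.Lie.chevD4.group F) := rfl
    _ = q ^ 12 * (((Nat.gcd 2 (q - 1) ^ 2) * Nat.card ↥(Cfsg.Lie.chevD4.diagonalSubgroup F)) * ((levD4_0.reps.map fun r => q ^ r.length).sum * (levD4_1.reps.map fun r => q ^ r.length).sum * (levD4_2.reps.map fun r => q ^ r.length).sum * (levD4_3.reps.map fun r => q ^ r.length).sum)) := by rw [hG]; ring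
    _ = q ^ 12 * ((q ^ 2 - 1) * (q ^ 4 - 1) * (q ^ 4 - 1) * (q ^ 6 - 1)) := by rw [hH]; refine congrArg (q ^ 12 * ·) ?_; simpa only [mul_assoc] using key
    _ = _ := by ring

end Cfsg.Agent.S1061
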