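import Cfsg.Statements.S1065
import Mathlib
import Cfsg.Agent.Chev.RepE8
import Cfsg.Agent.Chev.Count
import Cfsg.Agent.Chev.Poly
import Cfsg.Agent.Chev.TitsAll
import Cfsg.Agent.S1043
import Cfsg.Agent.S1027
import Cfsg.Agent.S1035

set_option autoImplicit false
open Cfsg

namespace Cfsg.Agent.S1065
open Cfsg.Agent.Chev Cfsg.Agent.Chev.Comm Cfsg.Agent.Chev.Tits Cfsg.Lie

/-- `|E₈(q)| = q¹²⁰ ∏_{d ∈ {2,8,12,14,18,20,24,30}} (q^d - 1)`. -/
theorem result {F : Type*} [Field F] [Fintype F] {q : ℕ} (hq : Fintype.card F = q) : Nat.card ↥(Cfsg.Lie.chevE8.group F) = q ^ 120 * (q ^ 2 - 1) * (q ^ 8 - 1) * (q ^ 12 - 1) * (q ^ 14 - 1) * (q ^ 18 - 1) * (q ^ 20 - 1) * (q ^ 24 - 1) * (q ^ 30 - 1) := by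
  obtain ⟨c₀, G⟩ : ∃ c₀, c₀ = certE8 ∧ TGood Cfsg.Lie.chevE8 c₀ :=
    ⟨_, rfl, ⟨goodE8, repE8, closedE8⟩, posE8, connE8, selfE8⟩
  obtain ⟨rfl, G⟩ := G
  obtain ⟨h1, h2, h3⟩ := Cfsg.Agent.S1043.result (F := F) Cfsg.Lie.chevE8 (by simp)
  have hU := Cfsg.Agent.S1027.result (F := F) Cfsg.Lie.chevE8 (by simp)
  have hH := Cfsg.Agent.S1035.result (F := F) hq (Cfsg.Lie.chevE8, 1) (by simp)
  have hG := card_group (F := F) G (rev_of_mem (by simp)) corSimpleE8 levsE8 levsOKE8 h1 h2 h3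
  rw [card_borel G, hU] at hG
  simp only at hH
  have hq1 : 1 ≤ q := by rw [← hq]; exact Fintype.card_pos
  have key := poly_identity (Rs := [levE8_0.reps, levE8_1.reps, levE8_2.reps, levE8_3.reps, levE8_4.reps, levE8_5.reps, levE8_6.reps, levE8_7.reps]) (ds := [2, 8, 12, 14, 18, 20, 24, 30]) (by decide +kernel) hq1
  simp only [List.map_cons, List.map_nil, List.prod_cons, List.prod_nil, List.length_cons, List.length_nil, mul_one] at key
  norm_num only at key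
  have hprod : ∀ f : ℕ → ℕ, ∏ m ∈ Finset.range Cfsg.Lie.chevE8.rank, f m = ∏ m ∈ Finset.range 8, f m := fun f => rfl
  rw [show Cfsg.Lie.chevE8.nroots / 2 = 120 from rfl, hprod, hq] at hG
  replace hH : (1) * Nat.card ↥(Cfsg.Lie.chevE8.diagonalSubgroup F) = (q - 1) ^ 8 := hH
  simp only [Finset.prod_range_succ, Finset.prod_range_zero, one_mul] at hG
  simp only [levsE8, List.getD_cons_succ, List.getD_cons_zero] at hG
  calc _ = 1 * Nat.card ↥(Cfsg.Lie.chevE8.group F) := (one_mul _).symm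
    _ = q ^ 120 * (((1) * Nat.card ↥(Cfsg.Lie.chevE8.diagonalSubgroup F)) * ((levE8_0.reps.map fun r => q ^ r.length).sum * (levE8_1.reps.map fun r => q ^ r.length).sum * (levE8_2.reps.map fun r => q ^ r.length).sum * (levE8_3.reps.map fun r => q ^ r.length).sum * (levE8_4.reps.map fun r => q ^ r.length).sum * (levE8_5.reps.map fun r => q ^ r.length).sum * (levE8_6.reps.map fun r => q ^ r.length).sum * (levE8_7.reps.map fun r => q ^ r.length).sum)) := by rw [hG]; ring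
    _ = q ^ 120 * ((q ^ 2 - 1) * (q ^ 8 - 1) * (q ^ 12 - 1) * (q ^ 14 - 1) * (q ^ 18 - 1) * (q ^ 20 - 1) * (q ^ 24 - 1) * (q ^ 30 - 1)) := by rw [hH]; refine congrArg (q ^ 120 * ·) ?_; simpa only [mul_assoc] using key
    _ = _ := by ring

end Cfsg.Agent.S1065
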