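import Cfsg.Statements.S1080
import Mathlib
import Cfsg.Agent.Chev.Unip

set_option autoImplicit false
open Cfsg

namespace Cfsg.Agent.S1080
open Cfsg.Agent.Chev

/-- Field automorphisms: for every field automorphism `f` there is a group automorphism sending each `x_r(t)` to `x_r(f t)`. -/
theorem result {F : Type*} [Field F] (D : Cfsg.Lie.ChevalleyDatum) (hD : D ∈ [Cfsg.Lie.chevG2, Cfsg.Lie.chevB2, Cfsg.Lie.chevD4, Cfsg.Lie.chevF4, Cfsg.Lie.chevE6, Cfsg.Lie.chevE7, Cfsg.Lie.chevE8]) (f : F ≃+* F) :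
    ∃ α : ↥(D.group F) ≃* ↥(D.group F), ∀ (g : ↥(D.group F)) (r : ℕ) (t : F), r < D.nroots →
      ((g : GL D.Idx F) : Matrix D.Idx D.Idx F) = D.x F r t → ((α g : GL D.Idx F) : Matrix D.Idx D.Idx F) = D.x F r (f t) := by
  obtain ⟨p, hp⟩ := ok hD
  let Φ : GL D.Idx F ≃* GL D.Idx F := Units.mapEquiv (RingEquiv.mapMatrix f : Matrix D.Idx D.Idx F ≃+* Matrix D.Idx D.Idx F).toMulEquiv
  have hx : ∀ (r : Fin D.nroots) (t : F), (D.xMat F r t).map f = D.xMat F r (f t) := by
    intro r t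
    ext i j
    rcases i with i | i <;> rcases j with j | j <;>
      simp [Cfsg.Lie.ChevalleyDatum.xMat, apply_ite f, map_list_sum, List.map_map, Function.comp_def]
  have hmap : (D.group F).map Φ.toMonoidHom = D.group F := by
    rw [Cfsg.Lie.ChevalleyDatum.group, MonoidHom.map_closure]
    congr 1
    ext g
    constructor
    · rintro ⟨g', ⟨r, t, hg⟩, rfl⟩
      exact ⟨r, f t, by rw [← hx, ← hg]; rfl⟩
    · rintro ⟨r, t, hg⟩
      refine ⟨Φ.symm g, ⟨r, f.symm t, ?_⟩, Φ.apply_symm_apply g⟩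
      change (g : Matrix D.Idx D.Idx F).map f.symm = _
      rw [hg, ← f.apply_symm_apply t, ← hx, Matrix.map_map, f.apply_symm_apply, show (⇑f.symm ∘ ⇑f) = id from funext f.symm_apply_apply, Matrix.map_id]
  refine ⟨(Φ.subgroupMap (D.group F)).trans (MulEquiv.subgroupCongr hmap), fun g r t hr hg => ?_⟩
  change ((g : GL D.Idx F) : Matrix D.Idx D.Idx F).map f = _
  rw [hg, x_eq hr, x_eq hr, hx]

end Cfsg.Agent.S1080
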