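import Cfsg.Statements.S1093
import Mathlib
import Cfsg.Agent.Chev.WeylAll

set_option autoImplicit false
open Cfsg

namespace Cfsg.Agent.S1093
open Cfsg.Agent.Chev Cfsg.Agent.Chev.Comm Cfsg.Agent.Chev.Tits Cfsg.Lie

/-- `|W(E₆)| = 51840`, `|W(E₇)| = 2903040`, `|W(E₈)| = 696729600` for Mathlib's presented Coxeter groups. -/
theorem result (p : (Σ n : ℕ, CoxeterMatrix (Fin n)) × ℕ)
    (hp : p ∈ [(⟨6, CoxeterMatrix.E₆⟩, 51840), (⟨7, CoxeterMatrix.E₇⟩, 2903040), (⟨8, CoxeterMatrix.E₈⟩, 696729600)]) :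
    Nat.card p.1.2.Group = p.2 := by
  simp only [List.mem_cons, List.not_mem_nil, or_false] at hp
  rcases hp with rfl | rfl | rfl
  · exact (card_of_mem (D := chevE6) (by simp) tgE6 corSimpleE6 _ coxE6 _ levsOKE6).trans cardE6
  · exact (card_of_mem (D := chevE7) (by simp) tgE7 corSimpleE7 _ coxE7 _ levsOKE7).trans cardE7
  · exact (card_of_mem (D := chevE8) (by simp) tgE8 corSimpleE8 _ coxE8 _ levsOKE8).trans cardE8

end Cfsg.Agent.S1093
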