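import Cfsg.Statements.S1095
import Mathlib
import Cfsg.Agent.Chev.Borel
import Cfsg.Agent.Chev.All

set_option autoImplicit false
open Cfsg

namespace Cfsg.Agent.S1095
open Cfsg.Agent.Chev Cfsg.Lie Matrix

/-- `n_p` (p = p_{i+1} fundamental) is the signed monomial matrix `h_{p_j} ↦ h_{p_j} - A_{p_j,p} h_p`, `e_s ↦ η_s e_{w_p(s)}`, with `η_s = ±1`, `η_p = η_{-p} = -1`, `η_s η_{w_p(s)} = (-1)^{A_{p,s}}`, `η_s η_{-s} = 1`. -/
theorem result {F : Type*} [Field F] (D : Cfsg.Lie.ChevalleyDatum) (hD : D ∈ [Cfsg.Lie.chevG2, Cfsg.Lie.chevB2, Cfsg.Lie.chevD4, Cfsg.Lie.chevF4, Cfsg.Lie.chevE6, Cfsg.Lie.chevE7, Cfsg.Lie.chevE8]) (i : ℕ) (hi : i < D.rank) :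
    ∃ η : ℕ → ℤ, (∀ s < D.nroots, η s = 1 ∨ η s = -1) ∧ η (D.simple i) = -1 ∧ η (D.neg (D.simple i)) = -1 ∧
      (∀ s < D.nroots, η s * η (D.reflectRoot i s) = (-1) ^ (D.cartan i s).natAbs ∧ η s * η (D.neg s) = 1) ∧
      D.nMat F (D.simple i) 1 = Matrix.of (fun (row col : D.Idx) =>
        Sum.elim
          (fun j' : Fin D.rank => Sum.elim
            (fun j : Fin D.rank => (if j' = j then (1 : F) else 0) - (if (j' : ℕ) = i then ((D.cartan j (D.simple i) : ℤ) : F) else 0))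
            (fun _ => (0 : F)) col)
          (fun s' : Fin D.nroots => Sum.elim
            (fun _ => (0 : F))
            (fun s : Fin D.nroots => if (s' : ℕ) = D.reflectRoot i s then ((η s : ℤ) : F) else 0) col)
          row) := by
  obtain ⟨k, g⟩ := good_of_mem hD
  have hp := (g.simple hi).lt
  refine ⟨k.sgn i, fun s _ => sgn_cases k i s, (g.simple hi).sgn_self, by rw [(g.refl hi hp).sgn_neg]; exact (g.simple hi).sgn_self,
    fun s hs => ⟨by rw [(g.refl hi hs).reflect]; exact (g.refl hi hs).sgn_prod, by rw [(g.refl hi hs).sgn_neg]; exact sgn_sq k i s⟩, ?_⟩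
  apply ext_cols
  · intro j hj
    rw [n_h g hi hj 1 one_ne_zero, eh, dif_pos hj, eh, dif_pos hi, ee, ee, mulVec_single_one]
    funext x
    rcases x with x | x <;> simp [Pi.single_apply, Fin.ext_iff]
  · intro s hs
    rw [n_root g hi hs 1 one_ne_zero, _root_.one_zpow, mul_one, (show (rv D F s : D.Idx → F) = ee (Sum.inr ⟨s, hs⟩) by rw [rv, dif_pos hs]), ee, mulVec_single_one]
    funext x
    rcases x with x | x
    · simp [rv_inl]
    · simp [rv_apply, (g.refl hi hs).reflect]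

end Cfsg.Agent.S1095
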