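import Cfsg.Statements.S1096
import Mathlib
import Cfsg.Agent.Chev.Borel
import Cfsg.Agent.Chev.All

set_option autoImplicit false
open Cfsg

namespace Cfsg.Agent.S1096
open Cfsg.Agent.Chev Cfsg.Lie Matrix

/-- `n_p h_{p_j}(t) n_p⁻¹ = h_{w_p(p_j)}(t)` for fundamental `p`, `p_j` and `t ≠ 0`, stated as `n_p h_{p_j}(t) = h_{w_p(p_j)}(t) n_p`. -/
theorem result {F : Type*} [Field F] (D : Cfsg.Lie.ChevalleyDatum) (hD : D ∈ [Cfsg.Lie.chevG2, Cfsg.Lie.chevB2, Cfsg.Lie.chevD4, Cfsg.Lie.chevF4, Cfsg.Lie.chevE6, Cfsg.Lie.chevE7, Cfsg.Lie.chevE8]) (i j : ℕ) (hi : i < D.rank) (hj : j < D.rank) (t : F) (ht : t ≠ 0) :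
    D.nMat F (D.simple i) 1 * D.hMat F (D.simple j) t = D.hMat F (D.reflectRoot i (D.simple j)) t * D.nMat F (D.simple i) 1 := by
  obtain ⟨k, g⟩ := good_of_mem hD
  have hp := (g.simple hj).lt
  have hr := g.refl hi hp
  rw [hr.reflect, ← hG_val g hp, ← hG_val g hr.lt, ← nG_val g (g.simple hi).lt, ← Units.val_mul, ← Units.val_mul]
  congr 1
  rw [← mul_inv_eq_iff_eq_mul]
  have hε := sgn_sqF F k i (D.simple j)
  have hc := conj_nG g hp hr.lt hε (fun u => n1_conj g hi hp u) (fun u => by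
    rw [n1_conj g hi (g.neg_lt hp), xG_congr g hr.im_neg _ (g.neg_lt hr.lt), hr.sgn_neg])
  have h0 : (k.sgn i (D.simple j) : F) ≠ 0 := fun h => by simp [h] at hε
  have split : ∀ u : F, nG g _ hr.lt u = hG g _ hr.lt u * (nG g _ hr.lt (-1))⁻¹ := by
    intro u; rw [hG, mul_inv_cancel_right]
  calc _ = (nG g (D.simple i) (g.simple hi).lt 1 * nG g (D.simple j) hp t * (nG g (D.simple i) (g.simple hi).lt (1 : F))⁻¹)
        * (nG g (D.simple i) (g.simple hi).lt 1 * nG g (D.simple j) hp (-1) * (nG g (D.simple i) (g.simple hi).lt (1 : F))⁻¹) := by rw [hG]; group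
    _ = hG g _ hr.lt t := by
      rw [hc, hc, mul_neg, mul_one, ← nG_inv g hr.lt, split, split (k.sgn i (D.simple j) : F), mul_comm (k.sgn i (D.simple j) : F) t,
        ← hG_mul g hr.lt t _ ht h0]
      group

end Cfsg.Agent.S1096
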