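import Cfsg.Statements.S1119
import Cfsg.Agent.RankOne.Count

set_option autoImplicit false
open Cfsg

namespace Cfsg.Agent.S1119
open Cfsg.Agent.RankOne

/-- In the rank-one set-up (`G` finite and doubly transitive on `Ω`, `t` an involution moving `a`, `Q` normal in `G_a` with `G_a = Q D`, `Q ⊓ D = 1` for the two-point stabiliser `D = G_a ⊓ G_{t • a}`, `|Q|` even, `|D|` odd): `Q` acts regularly on `Ω` minus `a`; hence `|Ω| = |Q| + 1`, `|G| = |Q| |D| (|Q| + 1)`, some Sylow 2-subgroup of `G` lies in `Q`, and each `g ∉ G_a` is uniquely `x t y` with `x ∈ G_a`, `y ∈ Q` (canonical form). -/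
theorem result {G Ω : Type*} [Group G] [Finite G] [MulAction G Ω] {a : Ω} {t : G} {Q : Subgroup G}
    (hS : Cfsg.IsRankOneSetup G Ω a t Q) :
    (∀ b c : Ω, b ≠ a → c ≠ a → ∃! x : Q, (x : G) • b = c) ∧
      Nat.card Ω = Nat.card Q + 1 ∧
      Nat.card G = Nat.card Q * Nat.card ↥(MulAction.stabilizer G a ⊓ MulAction.stabilizer G (t • a)) * (Nat.card Q + 1) ∧
      (∃ P : Sylow 2 G, (P : Subgroup G) ≤ Q) ∧
      ∀ g : G, g ∉ MulAction.stabilizer G a → ∃! p : G × G, p.1 ∈ MulAction.stabilizer G a ∧ p.2 ∈ Q ∧ g = p.1 * t * p.2 := by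
  refine ⟨?_, card_Ω hS, card_G hS, ?_, ?_⟩
  · intro b c hb hc
    obtain ⟨p, hp, rfl⟩ := exists_q hS hb
    obtain ⟨q, hq, rfl⟩ := exists_q hS hc
    refine ⟨⟨q * p⁻¹, mul_mem hq (inv_mem hp)⟩, by simp [mul_smul], ?_⟩
    rintro ⟨x, hx⟩ h
    apply Subtype.ext
    simp only at h ⊢
    rw [← mul_smul] at h
    rw [← q_inj hS (mul_mem hx hp) hq h, mul_inv_cancel_right]
  · haveI : Fact (Nat.Prime 2) := ⟨Nat.prime_two⟩
    obtain ⟨P⟩ : Nonempty (Sylow 2 Q) := inferInstance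
    refine ⟨Sylow.ofCard ((P : Subgroup Q).map Q.subtype) ?_, ?_⟩
    · rw [Nat.card_congr (((P : Subgroup Q).equivMapOfInjective Q.subtype (Subgroup.subtype_injective Q)).toEquiv.symm),
        Sylow.card_eq_multiplicity P, card_G hS, mul_assoc]
      congr 1
      have hodd : Odd (Nat.card ↥(MulAction.stabilizer G a ⊓ MulAction.stabilizer G (t • a)) * (Nat.card Q + 1)) :=
        hS.odd_card.mul (Even.add_one hS.even_card)
      rw [Nat.factorization_mul Nat.card_pos.ne' hodd.pos.ne', Finsupp.add_apply,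
        Nat.factorization_eq_zero_of_not_dvd hodd.not_two_dvd_nat, add_zero]
    · exact Subgroup.map_subtype_le _
  · intro g hg
    obtain ⟨p, hp, h, hh, f, hf, rfl⟩ := form_exists hS hg
    refine ⟨(p * h, f), ⟨mul_mem (hS.le hp) hh.1, hf, rfl⟩, ?_⟩
    rintro ⟨x, y⟩ ⟨hx, hy, e⟩
    obtain ⟨p', hp', d, hd, rfl⟩ := decompose hS hx
    obtain ⟨h1, h2, h3⟩ := form_inj hS hp hp' hh hd hf hy e
    rw [h1, h2, h3]

end Cfsg.Agent.S1119
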