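import Cfsg.Statements.S1124
import Cfsg.Agent.RankOne.Basic

set_option autoImplicit false
open scoped Pointwise
open Cfsg

namespace Cfsg.Agent.S1124
open Cfsg.Agent.RankOne

/-- Let `t` be an element of order 2 of a finite group normalising a subgroup `X` of odd order, `Y = C_X(t)` and `Z` the set of elements of `X` inverted by `t`. Then `(y, z) ↦ y z` is a bijection `Y × Z → X`, so `|X| = |Y| |Z|`, and the subgroup generated by `Z` is normal in `X`. -/
theorem result {M : Type*} [Group M] [Finite M]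
    (t : M) (ht : orderOf t = 2) (X : Subgroup M) (hodd : Odd (Nat.card X))
    (hnorm : ∀ x ∈ X, t * x * t⁻¹ ∈ X) :
    (∀ x ∈ X, ∃! p : M × M, p.1 ∈ X ⊓ Subgroup.centralizer {t} ∧ p.2 ∈ Cfsg.invertedBy X t ∧ x = p.1 * p.2) ∧
      Nat.card X = Nat.card ↥(X ⊓ Subgroup.centralizer {t}) * Nat.card (Cfsg.invertedBy X t) ∧
      ∀ x ∈ X, MulAut.conj x • Subgroup.closure (Cfsg.invertedBy X t) = Subgroup.closure (Cfsg.invertedBy X t) := by
  have htt : t * t = 1 := by rw [← pow_two, ← ht, pow_orderOf_eq_one]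
  have tinv : t⁻¹ = t := inv_eq_of_mul_eq_one_right htt
  have hdec : ∀ x ∈ X, ∃ y ∈ X ⊓ Subgroup.centralizer {t}, ∃ z ∈ Cfsg.invertedBy X t, x = y * z ∧
      ∀ y' z' : M, y' ∈ X ⊓ Subgroup.centralizer {t} → z' ∈ Cfsg.invertedBy X t → x = y' * z' → y' = y ∧ z' = z := by
    intro x hx
    set w := (t * x * t⁻¹)⁻¹ * x with hw
    set e := (Nat.card X + 1) / 2
    have hwX : w ∈ X := mul_mem (inv_mem (hnorm x hx)) hx
    have hz2 : w ^ e * w ^ e = w := by
      rw [← (Commute.refl w).mul_pow]; exact sq_pow_half hodd hwX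
    have hzinv : t * w ^ e * t⁻¹ = (w ^ e)⁻¹ := by
      rw [← conj_pow, ← inv_pow]
      congr 1
      simp only [hw, mul_inv_rev, inv_inv, tinv, mul_assoc, ← mul_assoc t t, htt, one_mul, mul_one]
    have hy : x * (w ^ e)⁻¹ ∈ X ⊓ Subgroup.centralizer {t} := by
      refine Subgroup.mem_inf.2 ⟨mul_mem hx (inv_mem (pow_mem hwX _)), Subgroup.mem_centralizer_singleton_iff.2 ?_⟩
      rw [eq_comm, ← mul_inv_eq_iff_eq_mul]
      calc t * (x * (w ^ e)⁻¹) * t⁻¹ = t * x * t⁻¹ * (t * w ^ e * t⁻¹)⁻¹ := by group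
        _ = t * x * t⁻¹ * (w ^ e * w ^ e) * (w ^ e)⁻¹ := by rw [hzinv]; group
        _ = x * (w ^ e)⁻¹ := by rw [hz2, hw]; group
    refine ⟨_, hy, w ^ e, ⟨pow_mem hwX _, hzinv⟩, by group, ?_⟩
    intro y z hy hz exy
    have hyt : t * y * t⁻¹ = y := by
      rw [mul_inv_eq_iff_eq_mul, Subgroup.mem_centralizer_singleton_iff.1 (Subgroup.mem_inf.1 hy).2]
    have hw2 : w = z * z := by
      have : t * x * t⁻¹ = y * z⁻¹ := by
        rw [exy, show t * (y * z) * t⁻¹ = t * y * t⁻¹ * (t * z * t⁻¹) by group, hyt, hz.2]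
      rw [hw, this, exy]; group
    have hzz : z = w ^ e := by rw [hw2]; exact (sq_pow_half hodd hz.1).symm
    exact ⟨by rw [← hzz, exy, mul_inv_cancel_right], hzz⟩
  refine ⟨?_, ?_, ?_⟩
  · intro x hx
    obtain ⟨y, hy, z, hz, e, hu⟩ := hdec x hx
    refine ⟨(y, z), ⟨hy, hz, e⟩, ?_⟩
    rintro ⟨y', z'⟩ ⟨hy', hz', e'⟩
    obtain ⟨h1, h2⟩ := hu y' z' hy' hz' e'
    rw [h1, h2]
  · rw [← Nat.card_prod]
    refine (Nat.card_eq_of_bijective
      (fun p : ↥(X ⊓ Subgroup.centralizer {t}) × Cfsg.invertedBy X t =>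
        (⟨(p.1 : M) * p.2, mul_mem (Subgroup.mem_inf.1 p.1.2).1 p.2.2.1⟩ : X)) ⟨?_, ?_⟩).symm
    · rintro ⟨⟨y, hy⟩, ⟨z, hz⟩⟩ ⟨⟨y', hy'⟩, ⟨z', hz'⟩⟩ h
      have h' : y * z = y' * z' := congrArg Subtype.val h
      obtain ⟨_, _, _, _, -, hu⟩ := hdec _ (mul_mem (Subgroup.mem_inf.1 hy).1 hz.1)
      obtain ⟨h1, h2⟩ := hu y z hy hz rfl
      obtain ⟨h3, h4⟩ := hu y' z' hy' hz' h'
      obtain rfl := h1.trans h3.symm
      obtain rfl := h2.trans h4.symm
      rfl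
    · rintro ⟨x, hx⟩
      obtain ⟨y, hy, z, hz, e, -⟩ := hdec x hx
      exact ⟨⟨⟨y, hy⟩, ⟨z, hz⟩⟩, Subtype.ext e.symm⟩
  · intro x hx
    have key : X ≤ Subgroup.normalizer (Subgroup.closure (Cfsg.invertedBy X t) : Set M) := by
      intro x hx
      obtain ⟨y, hy, z, hz, e, -⟩ := hdec x hx
      rw [e]
      refine mul_mem ?_ ((Subgroup.le_normalizer : Subgroup.closure (Cfsg.invertedBy X t) ≤ _) (Subgroup.subset_closure hz))
      refine Subgroup.normalizer_le_normalizer_closure _ ?_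
      obtain ⟨hyX, hyc⟩ := Subgroup.mem_inf.1 hy
      have hyc' := Subgroup.mem_centralizer_singleton_iff.1 hyc
      have : ∀ y : M, y ∈ X → y * t = t * y → ∀ z ∈ Cfsg.invertedBy X t, y * z * y⁻¹ ∈ Cfsg.invertedBy X t := by
        intro y hy hyc z hz
        refine ⟨mul_mem (mul_mem hy hz.1) (inv_mem hy), ?_⟩
        calc t * (y * z * y⁻¹) * t⁻¹ = (t * y) * z * (t * y)⁻¹ := by group
          _ = (y * t) * z * (y * t)⁻¹ := by rw [hyc]
          _ = y * (t * z * t⁻¹) * y⁻¹ := by group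
          _ = (y * z * y⁻¹)⁻¹ := by rw [hz.2]; group
      rw [Subgroup.mem_set_normalizer_iff]
      intro w
      refine ⟨this y hyX hyc' w, fun h => ?_⟩
      have h2 := this y⁻¹ (inv_mem hyX) (Commute.inv_left hyc') _ h
      simpa [mul_assoc] using h2
    have h2 := key hx
    refine le_antisymm (fun w hw => ?_) (fun w hw => ?_)
    · obtain ⟨v, hv, rfl⟩ := Subgroup.mem_map.1 hw
      exact (Subgroup.mem_normalizer_iff.1 h2 v).1 hv
    · refine Subgroup.mem_map.2 ⟨x⁻¹ * w * x, (Subgroup.mem_normalizer_iff.1 h2 _).2 (by simpa [mul_assoc] using hw), ?_⟩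
      simp [mul_assoc]

end Cfsg.Agent.S1124
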