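import Cfsg.Statements.S1127
import Cfsg.Agent.RankOne.Count

set_option autoImplicit false
open Cfsg

namespace Cfsg.Agent.S1127
open Cfsg.Agent.RankOne

/-- In the rank-one set-up (`G` finite and doubly transitive on `Ω`, `t` an involution moving `a`, `Q` normal in `G_a` with `G_a = Q D`, `Q ⊓ D = 1` for the two-point stabiliser `D = G_a ⊓ G_{t • a}`, `|Q|` even, `|D|` odd): if `s` is an involution of `G_a` and `r ∈ Q` satisfy `t s t = r⁻¹ t r`, then `C_D(t) = C_D(s)`; moreover `C_D(t) ⊓ C_D(K) = C_D(I ∩ G_a)`, where `K` is the set of elements of `D` inverted by `t` and `I ∩ G_a` the set of involutions of `G_a`. -/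
theorem result {G Ω : Type*} [Group G] [Finite G] [MulAction G Ω] {a : Ω} {t : G} {Q : Subgroup G}
    (hS : Cfsg.IsRankOneSetup G Ω a t Q) :
    (∀ s r : G, s ∈ Cfsg.involutionsIn (MulAction.stabilizer G a : Set G) → r ∈ Q → t * s * t = r⁻¹ * t * r →
        (MulAction.stabilizer G a ⊓ MulAction.stabilizer G (t • a)) ⊓ Subgroup.centralizer {t} = (MulAction.stabilizer G a ⊓ MulAction.stabilizer G (t • a)) ⊓ Subgroup.centralizer {s}) ∧
      (MulAction.stabilizer G a ⊓ MulAction.stabilizer G (t • a)) ⊓ Subgroup.centralizer {t} ⊓ Subgroup.centralizer (Cfsg.invertedBy (MulAction.stabilizer G a ⊓ MulAction.stabilizer G (t • a)) t) =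
        (MulAction.stabilizer G a ⊓ MulAction.stabilizer G (t • a)) ⊓ Subgroup.centralizer (Cfsg.involutionsIn (MulAction.stabilizer G a : Set G)) := by
  have part1 : ∀ s r : G, s ∈ Cfsg.involutionsIn (MulAction.stabilizer G a : Set G) → r ∈ Q → t * s * t = r⁻¹ * t * r →
      (MulAction.stabilizer G a ⊓ MulAction.stabilizer G (t • a)) ⊓ Subgroup.centralizer {t} = (MulAction.stabilizer G a ⊓ MulAction.stabilizer G (t • a)) ⊓ Subgroup.centralizer {s} := by
    intro s r hs hr e
    ext d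
    simp only [Subgroup.mem_inf, Subgroup.mem_centralizer_singleton_iff]
    refine and_congr_right fun hd => ⟨fun h => ?_, fun h => ?_⟩
    · have h1 : t * (d⁻¹ * s * d) * t = (d⁻¹ * r * d)⁻¹ * t * (d⁻¹ * r * d) := by
        calc t * (d⁻¹ * s * d) * t = (d * t⁻¹)⁻¹ * s * (d * t) := by group
          _ = (t * d)⁻¹ * s * (t * d) := by
            rw [t_inv hS, h]
          _ = d⁻¹ * (t * s * t) * d := by rw [mul_inv_rev, t_inv hS]; group
          _ = d⁻¹ * r⁻¹ * t * (r * d) := by rw [e]; group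
          _ = d⁻¹ * r⁻¹ * (d * t * d⁻¹) * (r * d) := by rw [h, mul_inv_cancel_right]
          _ = _ := by group
      have := (pair_unique hS hs hr e (conj_K_mem hS hs hd) (conj_mem_D' hS hr hd) h1).1
      calc d * s = d * (d⁻¹ * s * d) := by rw [← this]
        _ = s * d := by group
    · have h1 : t * (d⁻¹ * s * d) * t = r⁻¹ * 1 * t * r := by
        rw [mul_one, show d⁻¹ * s * d = s by rw [mul_assoc, ← h, inv_mul_cancel_left]]
        exact e
      have e0 : t * s * t = r⁻¹ * 1 * t * r := by rw [mul_one]; exact e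
      have h2 := (form_conj hS (inv_mem hr) (one_mem _) hr hd e0 (inv_mem hr) (one_mem _) hr h1).2.1
      have h3 : d = t * d * t := by
        rw [mul_one] at h2
        exact inv_mul_eq_one.1 h2.symm |>.symm
      calc d * t = t * d * t * t := by rw [← h3]
        _ = t * d := by rw [mul_assoc, hS.mul_self, mul_one]
  refine ⟨part1, ?_⟩
  obtain ⟨s, hs, r, hr, e⟩ := pair_exists hS
  ext d
  constructor
  · intro hd
    obtain ⟨hdt, hdK⟩ := Subgroup.mem_inf.1 hd
    have hds : d ∈ (MulAction.stabilizer G a ⊓ MulAction.stabilizer G (t • a)) ⊓ Subgroup.centralizer {s} := by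
      rw [← part1 s r hs hr e]; exact hdt
    refine Subgroup.mem_inf.2 ⟨(Subgroup.mem_inf.1 hdt).1, Subgroup.mem_centralizer_iff.2 fun x hx => ?_⟩
    obtain ⟨k, hk, rfl⟩ := K_trans hS hs hx
    have c1 : Commute k d := Subgroup.mem_centralizer_iff.1 hdK k hk
    have c2 : Commute s d := (Subgroup.mem_centralizer_singleton_iff.1 (Subgroup.mem_inf.1 hds).2).symm
    exact ((c1.inv_left.mul_left c2).mul_left c1).eq
  · intro hd
    obtain ⟨hdD, hdI⟩ := Subgroup.mem_inf.1 hd
    have cs : Commute s d := Subgroup.mem_centralizer_iff.1 hdI s hs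
    have hdt : d ∈ (MulAction.stabilizer G a ⊓ MulAction.stabilizer G (t • a)) ⊓ Subgroup.centralizer {t} := by
      rw [part1 s r hs hr e]
      exact Subgroup.mem_inf.2 ⟨hdD, Subgroup.mem_centralizer_singleton_iff.2 cs.symm.eq⟩
    refine Subgroup.mem_inf.2 ⟨hdt, Subgroup.mem_centralizer_iff.2 fun k hk => ?_⟩
    have ct : d * t = t * d := Subgroup.mem_centralizer_singleton_iff.1 (Subgroup.mem_inf.1 hdt).2
    have hk' : d⁻¹ * k * d ∈ Cfsg.invertedBy (MulAction.stabilizer G a ⊓ MulAction.stabilizer G (t • a)) t := by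
      refine ⟨mul_mem (mul_mem (inv_mem hdD) hk.1) hdD, ?_⟩
      have ct' : t * d⁻¹ = d⁻¹ * t := (Commute.inv_right (Commute.symm ct)).eq
      calc t * (d⁻¹ * k * d) * t⁻¹ = (t * d⁻¹) * k * (t * d⁻¹)⁻¹ := by group
        _ = d⁻¹ * (t * k * t⁻¹) * d := by rw [ct']; group
        _ = (d⁻¹ * k * d)⁻¹ := by rw [hk.2]; group
    have ek : (d⁻¹ * k * d)⁻¹ * s * (d⁻¹ * k * d) = k⁻¹ * s * k := by
      have h1 : d * s * d⁻¹ = s := by rw [← cs.eq, mul_inv_cancel_right]
      have h2 : (k⁻¹ * s * k) * d = d * (k⁻¹ * s * k) := Subgroup.mem_centralizer_iff.1 hdI _ (conj_K_mem hS hs hk.1)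
      calc (d⁻¹ * k * d)⁻¹ * s * (d⁻¹ * k * d) = d⁻¹ * k⁻¹ * (d * s * d⁻¹) * k * d := by group
        _ = d⁻¹ * ((k⁻¹ * s * k) * d) := by rw [h1]; group
        _ = k⁻¹ * s * k := by rw [h2, inv_mul_cancel_left]
    have := K_inj hS hs hk' hk ek
    rw [mul_assoc, inv_mul_eq_iff_eq_mul] at this
    exact this

end Cfsg.Agent.S1127
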