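import Cfsg.Statements.S1176

set_option autoImplicit false
open Cfsg
open scoped commutatorElement

namespace Cfsg.Agent.S1176

/-- Let x₀ be an involution of the finite group G and D its conjugacy class. Assume (a) for each x ∈ D the subgroup W(x) generated by the members of D commuting with x is a 2-group of nilpotency class at most 2, and (b) the product of two distinct commuting members of D again lies in D. Then for all x, y ∈ D, if xy has even order greater than 2, its order is 4. -/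
theorem result {G : Type*} [Group G] [Finite G] (x₀ : G) (hx₀ : orderOf x₀ = 2) (ha : ∀ x : G, IsConj x₀ x → IsPGroup 2 ↥(Subgroup.closure {y : G | IsConj x₀ y ∧ Commute y x}) ∧ ⁅⁅Subgroup.closure {y : G | IsConj x₀ y ∧ Commute y x}, Subgroup.closure {y : G | IsConj x₀ y ∧ Commute y x}⁆, Subgroup.closure {y : G | IsConj x₀ y ∧ Commute y x}⁆ = ⊥) (hb : ∀ x y : G, IsConj x₀ x → IsConj x₀ y → x ≠ y → Commute x y → IsConj x₀ (x * y)) (x y : G) (hx : IsConj x₀ x) (hy : IsConj x₀ y) (heven : Even (orderOf (x * y))) (hgt : 2 < orderOf (x * y)) : orderOf (x * y) = 4 := by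
  have sqr : ∀ w : G, IsConj x₀ w → w * w = 1 := fun w hw => by
    obtain ⟨g, rfl⟩ := isConj_iff.1 hw
    have h : x₀ * x₀ = 1 := by rw [← sq, ← hx₀, pow_orderOf_eq_one]
    calc g * x₀ * g⁻¹ * (g * x₀ * g⁻¹) = g * (x₀ * x₀) * g⁻¹ := by group
      _ = 1 := by rw [h, mul_one, mul_inv_cancel]
  have hxx := sqr x hx
  have hyy := sqr y hy
  have hxi : x⁻¹ = x := inv_eq_of_mul_eq_one_right hxx
  have hyi : y⁻¹ = y := inv_eq_of_mul_eq_one_right hyy
  set r := x * y with hr
  have hrx : x * r * x⁻¹ = r⁻¹ := by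
    rw [hr, mul_inv_rev, hxi, hyi, ← mul_assoc, hxx, one_mul]
  obtain ⟨m, hm⟩ := heven
  have hm0 : 0 < m := by omega
  set z := r ^ m with hz
  have hz1 : z ≠ 1 := pow_ne_one_of_lt_orderOf (by omega) (by omega)
  have hzz : z * z = 1 := by rw [hz, ← pow_add, ← hm, pow_orderOf_eq_one]
  have hzi : z⁻¹ = z := inv_eq_of_mul_eq_one_right hzz
  have hzx : Commute z x := by
    have h : x * z * x⁻¹ = z := by rw [hz, ← conj_pow, hrx, inv_pow, ← hz, hzi]
    exact (mul_inv_eq_iff_eq_mul.1 h).symm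
  have hzy : Commute z y := by
    have h1 : Commute z r := (Commute.refl r).pow_left m
    have h2 : y = x * r := by rw [hr, ← mul_assoc, hxx, one_mul]
    rw [h2]; exact hzx.mul_right h1
  have hrpow : ∀ j : ℕ, r ^ j * x * (r ^ j)⁻¹ = r ^ (2 * j) * x := fun j => by
    have h : x * (r ^ j)⁻¹ * x⁻¹ = r ^ j := by
      rw [show x * (r ^ j)⁻¹ * x⁻¹ = (x * r ^ j * x⁻¹)⁻¹ by group, ← conj_pow, hrx, inv_pow, inv_inv]
    rw [mul_assoc, show x * (r ^ j)⁻¹ = r ^ j * x from mul_inv_eq_iff_eq_mul.1 h, ← mul_assoc, ← pow_add, two_mul]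
  have hxz : IsConj x₀ (z * x) := by
    rcases Nat.even_or_odd' m with ⟨j, hj | hj⟩
    · refine hx.trans (isConj_iff.2 ⟨r ^ j, ?_⟩)
      rw [hrpow, hz, hj]
    · refine hy.trans (isConj_iff.2 ⟨r ^ j * x, ?_⟩)
      rw [hz, hj, pow_succ, show r ^ j * x * y * (r ^ j * x)⁻¹ = (r ^ j * x * (r ^ j)⁻¹) * (r ^ j * (x⁻¹ * (x * y) * x⁻¹) * (r ^ j)⁻¹) by group,
        hrpow, ← hr, hxi]
      have h : x * r * x = r⁻¹ := by nth_rewrite 2 [← hxi]; exact hrx
      rw [h, show r ^ j * r⁻¹ * (r ^ j)⁻¹ = r⁻¹ by group, mul_assoc, mul_assoc, mul_assoc]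
      congr 1
      rw [← h, ← mul_assoc, ← mul_assoc, hxx, one_mul, hr, mul_assoc]
  have hzD : IsConj x₀ z := by
    have h := hb (z * x) x hxz hx (fun e => hz1 (mul_eq_right.1 e)) (hzx.mul_left (Commute.refl x))
    rwa [mul_assoc, hxx, mul_one] at h
  obtain ⟨hp, hcl⟩ := ha z hzD
  set W := Subgroup.closure {v : G | IsConj x₀ v ∧ Commute v z}
  have hxW : x ∈ W := Subgroup.subset_closure ⟨hx, hzx.symm⟩
  have hyW : y ∈ W := Subgroup.subset_closure ⟨hy, hzy.symm⟩
  have hc : Commute (r * r) x := by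
    have hmem : r * r ∈ ⁅W, W⁆ := by
      have h := Subgroup.commutator_mem_commutator hxW hyW
      rw [commutatorElement_def, hxi, hyi] at h
      rwa [mul_assoc, ← hr] at h
    have h := Subgroup.commutator_mem_commutator hmem hxW
    rw [hcl, Subgroup.mem_bot, commutatorElement_eq_one_iff_commute] at h
    exact h
  have h4 : r ^ 4 = 1 := by
    have h1 : x * (r * r) * x⁻¹ = r * r := by rw [← hc.eq, mul_inv_cancel_right]
    rw [show x * (r * r) * x⁻¹ = (x * r * x⁻¹) * (x * r * x⁻¹) by group, hrx] at h1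
    calc r ^ 4 = r * r * (r * r) := by simp only [pow_succ, pow_zero, one_mul, mul_assoc]
      _ = r * r * (r⁻¹ * r⁻¹) := by rw [h1]
      _ = 1 := by group
  have hle := Nat.le_of_dvd (by norm_num) (orderOf_dvd_of_pow_eq_one h4)
  omega

end Cfsg.Agent.S1176
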