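import Cfsg.Statements.S1177
import Cfsg.Agent.TwoFus.Basic

set_option autoImplicit false
open Cfsg

namespace Cfsg.Agent.S1177

/-- Let A be a nontrivial elementary abelian 2-subgroup of a finite group G which is a T.I. set (each conjugate of A meets A trivially or equals A) and which does not commute elementwise with any conjugate of A other than A itself. Then for every a ∈ A, a ≠ 1, every conjugate of A contained in C_G(a) is equal to A (A is weakly closed in C_G(a)). -/
theorem result {G : Type*} [Group G] [Finite G] (A : Subgroup G) (hA : Cfsg.IsElementaryAbelian 2 A) (hA1 : A ≠ ⊥) (hTI : ∀ g : G, A.map (MulAut.conj g).toMonoidHom ⊓ A = ⊥ ∨ A.map (MulAut.conj g).toMonoidHom = A) (hb : ∀ g : G, (∀ a ∈ A, ∀ b ∈ A.map (MulAut.conj g).toMonoidHom, a * b = b * a) → A.map (MulAut.conj g).toMonoidHom = A) (a : G) (ha : a ∈ A) (ha1 : a ≠ 1) (g : G) (hg : A.map (MulAut.conj g).toMonoidHom ≤ Subgroup.centralizer ({a} : Set G)) : A.map (MulAut.conj g).toMonoidHom = A := by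
  set B := A.map (MulAut.conj g).toMonoidHom with hB
  by_contra hne
  have hAB : A ⊓ B = ⊥ := by
    rw [inf_comm]; exact (hTI g).resolve_right hne
  have hA2 : IsPGroup 2 ↥A := fun x => ⟨1, Subtype.ext (by simpa using hA.2 x.1 x.2)⟩
  have hN : B ≤ Subgroup.normalizer (A : Set G) := by
    intro b hb
    refine TwoFus.mem_normalizer_of_conjMap_eq ((hTI b).resolve_left fun e => ha1 ?_)
    rw [← Subgroup.mem_bot, ← e]
    refine ⟨TwoFus.mem_conjMap.2 ?_, ha⟩
    have := Subgroup.mem_centralizer_iff.1 (hg hb) a rfl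
    rwa [mul_assoc, this, inv_mul_cancel_left]
  have hBti : ∀ h : G, B.map (MulAut.conj h).toMonoidHom = B ∨
      B.map (MulAut.conj h).toMonoidHom ⊓ B = ⊥ := by
    intro h
    have e : B.map (MulAut.conj h).toMonoidHom =
        (A.map (MulAut.conj (g⁻¹ * h * g)).toMonoidHom).map (MulAut.conj g).toMonoidHom := by
      rw [hB, ← TwoFus.conjMap_mul, ← TwoFus.conjMap_mul]
      congr 3; group
    rcases hTI (g⁻¹ * h * g) with h' | h'
    · right
      rw [e, hB, ← Subgroup.map_inf_eq _ _ _ (MulAut.conj g).injective, h', Subgroup.map_bot]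
    · left
      rw [e, h']
  exact hne (hb g (TwoFus.ti_commute hA2 (hA2.map _) hBti (TwoFus.card_conjMap g A).ge hAB hN))

end Cfsg.Agent.S1177
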