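import Cfsg.Statements.S1178
import Cfsg.Agent.TwoFus.Basic

set_option autoImplicit false
open Cfsg

namespace Cfsg.Agent.S1178

/-- Let A be a subgroup of a Sylow 2-subgroup S of the finite group G which is weakly closed in S. If a conjugate g A g⁻¹ commutes elementwise with A, then g A g⁻¹ = A. -/
theorem result {G : Type*} [Group G] [Finite G] (S : Sylow 2 G) (A : Subgroup G) (hW : Cfsg.IsWeaklyClosed A (S : Subgroup G)) (g : G) (hc : ∀ a ∈ A, ∀ b ∈ A.map (MulAut.conj g).toMonoidHom, a * b = b * a) : A.map (MulAut.conj g).toMonoidHom = A := by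
  have hcard : ∀ g : G, Nat.card ↥(A.map (MulAut.conj g).toMonoidHom) = Nat.card ↥A :=
    fun g => TwoFus.card_conjMap g A
  obtain ⟨hAS, hcl⟩ := hW
  set B := A.map (MulAut.conj g).toMonoidHom with hB
  have hA : IsPGroup 2 ↥A := S.isPGroup'.to_le hAS
  have hU : IsPGroup 2 ↥(A ⊔ B) := hA.to_sup_of_normal_right' (hA.map _) (by
    intro a ha
    rw [Subgroup.mem_normalizer_iff]
    intro b
    constructor
    · intro hb
      rw [hc a ha b hb, mul_inv_cancel_right]; exact hb
    · intro hb
      have h : a * (a * b * a⁻¹) = a * b := by rw [hc a ha _ hb]; group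
      rwa [mul_left_cancel h] at hb)
  obtain ⟨h, hh⟩ := TwoFus.exists_conjMap_le S hU
  have key : ∀ C : Subgroup G, C ≤ A ⊔ B → C.map (MulAut.conj h⁻¹).toMonoidHom ≤ (S : Subgroup G) := by
    intro C hC x hx
    have := TwoFus.mem_conjMap.1 (hh (hC (TwoFus.mem_conjMap.1 hx)))
    simpa [mul_assoc] using this
  have e1 : A.map (MulAut.conj h⁻¹).toMonoidHom = A := hcl _ (key A le_sup_left)
  have e2 : A.map (MulAut.conj (h⁻¹ * g)).toMonoidHom = A :=
    hcl _ (by rw [TwoFus.conjMap_mul]; exact key B le_sup_right)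
  have e3 := TwoFus.conjMap_inv e1
  rw [inv_inv] at e3
  calc B = (A.map (MulAut.conj (h⁻¹ * g)).toMonoidHom).map (MulAut.conj h).toMonoidHom := by
        rw [← TwoFus.conjMap_mul, mul_inv_cancel_left]
    _ = A := by rw [e2, e3]

end Cfsg.Agent.S1178
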