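import Cfsg.Statements.S1181
import Cfsg.Agent.TwoFus.Isolated

set_option autoImplicit false
open Cfsg

namespace Cfsg.Agent.S1181

/-- Let z be an isolated involution of the finite group G and N a normal subgroup with z ∉ N. Then the centralizer of zN in G/N is the image of C_G(z), and zN is an isolated involution of G/N. -/
theorem result {G : Type*} [Group G] [Finite G] (z : G) (hz : Cfsg.IsIsolatedInvolution z) (N : Subgroup G) [N.Normal] (hzN : z ∉ N) : Subgroup.centralizer ({(QuotientGroup.mk z : G ⧸ N)} : Set (G ⧸ N)) = (Subgroup.centralizer ({z} : Set G)).map (QuotientGroup.mk' N) ∧ Cfsg.IsIsolatedInvolution (QuotientGroup.mk z : G ⧸ N) := by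
  have hiso : Cfsg.IsIsolatedInvolution (QuotientGroup.mk z : G ⧸ N) := by
    refine ⟨orderOf_eq_prime ?_ (fun h => hzN ((QuotientGroup.eq_one_iff z).1 h)), fun g hc => ?_⟩
    · rw [← QuotientGroup.mk_pow, sq, TwoFus.Iso.sq_one hz, QuotientGroup.mk_one]
    obtain ⟨g, rfl⟩ := QuotientGroup.mk_surjective g
    set t := g * z * g⁻¹ with ht
    rw [← QuotientGroup.mk_inv, ← QuotientGroup.mk_mul, ← QuotientGroup.mk_mul] at hc ⊢
    have hzz : (z : G ⧸ N) * z = 1 := by rw [← QuotientGroup.mk_mul, TwoFus.Iso.sq_one hz]; rfl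
    have htt : (t : G ⧸ N) * t = 1 := by
      rw [← QuotientGroup.mk_mul, TwoFus.Iso.sq_one (TwoFus.Iso.isolated_conj hz g)]; rfl
    have h2 : ((z * t : G) : G ⧸ N) ^ 2 = 1 := by
      rw [QuotientGroup.mk_mul, sq, mul_assoc, ← mul_assoc (t : G ⧸ N), ← hc.eq,
        mul_assoc (z : G ⧸ N) t t, htt, mul_one, hzz]
    have h1 : ((z * t : G) : G ⧸ N) = 1 := by
      refine orderOf_eq_one_iff.1 (Nat.eq_one_of_dvd_coprimes (a := 2) (b := orderOf (z * t)) ?_
        (orderOf_dvd_of_pow_eq_one h2) (orderOf_map_dvd (QuotientGroup.mk' N) _))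
      exact Nat.coprime_two_left.2 (TwoFus.Iso.odd_comm hz g)
    rw [QuotientGroup.mk_mul] at h1
    exact (mul_left_cancel (h1.trans hzz.symm))
  refine ⟨le_antisymm ?_ ?_, hiso⟩
  · intro q hq
    obtain ⟨g, rfl⟩ := QuotientGroup.mk_surjective q
    rw [TwoFus.Iso.mem_centralizer_iff'] at hq
    have hN : g * z * g⁻¹ * z ∈ N := by
      rw [← QuotientGroup.eq_one_iff]
      simp only [QuotientGroup.mk_mul, QuotientGroup.mk_inv]
      rw [← hq, mul_inv_cancel_right, ← QuotientGroup.mk_mul, TwoFus.Iso.sq_one hz]; rfl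
    obtain ⟨r, hr, hrz⟩ := TwoFus.Iso.fusion_subgroup hz g hN
    refine ⟨r⁻¹ * g, ?_, ?_⟩
    · rw [SetLike.mem_coe, TwoFus.Iso.mem_centralizer_iff']
      calc z * (r⁻¹ * g) = r⁻¹ * (r * z * r⁻¹) * g := by group
        _ = r⁻¹ * (g * z * g⁻¹) * g := by rw [hrz]
        _ = r⁻¹ * g * z := by group
    · simp [(QuotientGroup.eq_one_iff r).2 hr]
  · rintro _ ⟨c, hc, rfl⟩
    rw [SetLike.mem_coe, TwoFus.Iso.mem_centralizer_iff'] at hc
    rw [TwoFus.Iso.mem_centralizer_iff']
    exact congrArg (QuotientGroup.mk' N) hc |>.trans (map_mul _ _ _) |>.symm |>.trans (by simp) |>.symm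

end Cfsg.Agent.S1181
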