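import Cfsg.Statements.S1183
import Cfsg.Agent.TwoFus.Isolated

set_option autoImplicit false
open Cfsg

namespace Cfsg.Agent.S1183

/-- Let z be an isolated involution of the finite group G and C = C_G(z). Then the subgroup of G generated by its elements of odd order is all of G if and only if the subgroup of C generated by its elements of odd order is all of C. -/
theorem result {G : Type*} [Group G] [Finite G] (z : G) (hz : Cfsg.IsIsolatedInvolution z) : Cfsg.pResidual 2 G = ⊤ ↔ Cfsg.pResidual 2 ↥(Subgroup.centralizer ({z} : Set G)) = ⊤ := by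
  set C := Subgroup.centralizer ({z} : Set G) with hC
  constructor
  · intro hG
    by_contra hne
    set W := Cfsg.pResidual 2 ↥C with hW
    haveI : W.Normal := by
      refine ⟨fun x hx c => ?_⟩
      have hmap : W.map (MulAut.conj c).toMonoidHom ≤ W := by
        rw [hW, Cfsg.pResidual, MonoidHom.map_closure, Subgroup.closure_le]
        rintro _ ⟨y, hy, rfl⟩
        refine Subgroup.subset_closure ?_
        show Nat.Coprime (orderOf ((MulAut.conj c) y)) 2
        rw [MulEquiv.orderOf_eq]; exact hy
      exact hmap ⟨x, hx, rfl⟩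
    have hQ : IsPGroup 2 (↥C ⧸ W) := by
      intro q
      obtain ⟨x, rfl⟩ := QuotientGroup.mk_surjective q
      obtain ⟨a, m, hm, hx⟩ := Nat.exists_eq_two_pow_mul_odd (orderOf_pos x).ne'
      refine ⟨a, ?_⟩
      rw [← QuotientGroup.mk_pow, QuotientGroup.eq_one_iff]
      refine Subgroup.subset_closure ?_
      show Nat.Coprime (orderOf (x ^ 2 ^ a)) 2
      rw [orderOf_pow_of_dvd (by positivity) (hx ▸ dvd_mul_right _ _), hx,
        Nat.mul_div_cancel_left _ (by positivity)]
      exact Nat.coprime_two_right.2 hm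
    haveI : Nontrivial (↥C ⧸ W) := QuotientGroup.nontrivial_iff.2 hne
    haveI := hQ.isNilpotent
    let φ : ↥C →* Abelianization (↥C ⧸ W) := Abelianization.of.comp (QuotientGroup.mk' W)
    have hφs : Function.Surjective φ :=
      (Quotient.mk''_surjective).comp (QuotientGroup.mk'_surjective W)
    have hA : IsPGroup 2 (Abelianization (↥C ⧸ W)) := hQ.of_surjective (Abelianization.of (G := ↥C ⧸ W)) Quotient.mk''_surjective
    haveI : C.FiniteIndex := inferInstance
    let V : G →* Abelianization (↥C ⧸ W) := MonoidHom.transfer φ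
    have hV : ∀ g : G, V g = 1 := by
      have hle : Cfsg.pResidual 2 G ≤ V.ker := by
        rw [Cfsg.pResidual, Subgroup.closure_le]
        intro g hg
        obtain ⟨k, hk⟩ := hA (V g)
        refine orderOf_eq_one_iff.1 (Nat.eq_one_of_dvd_coprimes ?_
          (orderOf_map_dvd V g) (orderOf_dvd_of_pow_eq_one hk))
        exact Nat.Coprime.pow_right k hg
      intro g
      exact hle (hG ▸ Subgroup.mem_top g)
    have hzC : z ∈ C := TwoFus.Iso.mem_centralizer_iff'.2 rfl
    have hindex : Odd C.index := by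
      obtain ⟨T, hT⟩ := (IsPGroup.of_card (p := 2) (n := 1) (G := ↥(Subgroup.zpowers z))
        (by rw [Nat.card_zpowers, hz.1, pow_one])).exists_le_sylow
      have hle := TwoFus.Iso.two_group_le_centralizer hz T.isPGroup' (hT (Subgroup.mem_zpowers z))
      refine Nat.not_even_iff_odd.1 fun he => T.not_dvd_index ?_
      exact (even_iff_two_dvd.1 he).trans (Subgroup.index_dvd_of_le hle)
    have hφ1 : ∀ x : ↥C, φ x = 1 := by
      intro x
      classical
      letI := C.fintypeQuotientOfFiniteIndex
      have hpow : V (x : G) = φ x ^ C.index := by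
        rw [MonoidHom.transfer_eq_prod_quotient_orbitRel_zpowers_quot,
          Subgroup.index_eq_sum_minimalPeriod C (x : G), ← Finset.prod_pow_eq_pow_sum]
        refine Finset.prod_congr rfl fun q _ => ?_
        set n := Function.minimalPeriod ((x : G) • ·) q.out with hn
        set g₀ := (Quotient.out (Quotient.out q)) with hg₀
        have hmem : g₀⁻¹ * (x : G) ^ n * g₀ ∈ C :=
          QuotientGroup.out_conj_pow_minimalPeriod_mem C (x : G) q.out
        obtain ⟨c, -, hcz, hc⟩ := TwoFus.Iso.fusion_centralized hz (H := ⊤)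
          (Subgroup.mem_normalizer_iff.2 fun _ => by simp) (h := g₀⁻¹)
          (x := ((x ^ n : ↥C) : G)) (y := g₀⁻¹ * (x : G) ^ n * g₀)
          (Commute.symm (TwoFus.Iso.mem_centralizer_iff'.1 (x ^ n : ↥C).2))
          (Commute.symm (TwoFus.Iso.mem_centralizer_iff'.1 hmem)) trivial (by simp)
        let c' : ↥C := ⟨c, TwoFus.Iso.mem_centralizer_iff'.2 hcz.symm⟩
        show φ ⟨g₀⁻¹ * (x : G) ^ n * g₀, hmem⟩ = φ x ^ n
        rw [show (⟨g₀⁻¹ * (x : G) ^ n * g₀, hmem⟩ : ↥C) = c' * x ^ n * c'⁻¹ from
          Subtype.ext hc.symm, map_mul, map_mul, map_inv, map_pow, mul_comm (φ c'),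
          mul_inv_cancel_right]
      obtain ⟨k, hk⟩ := hA (φ x)
      refine orderOf_eq_one_iff.1 (Nat.eq_one_of_dvd_coprimes ?_
        (orderOf_dvd_of_pow_eq_one (hpow ▸ hV x)) (orderOf_dvd_of_pow_eq_one hk))
      exact (Nat.coprime_two_right.2 hindex).pow_right k
    have : Subsingleton (Abelianization (↥C ⧸ W)) := ⟨fun a b => by
      obtain ⟨x, rfl⟩ := hφs a
      obtain ⟨y, rfl⟩ := hφs b
      rw [hφ1, hφ1]⟩
    have hc : commutator (↥C ⧸ W) = ⊤ := by
      refine (Subgroup.eq_top_iff' _).2 fun q => ?_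
      rw [← Abelianization.ker_of, MonoidHom.mem_ker]
      exact Subsingleton.elim _ _
    exact (IsSolvable.commutator_lt_top_of_nontrivial (↥C ⧸ W)).ne hc
  · intro hCt
    refine (Subgroup.eq_top_iff' _).2 fun g => ?_
    obtain ⟨k, hk, hkc, -⟩ := TwoFus.Iso.exists_rep hz g
    have h1 : k ∈ Cfsg.pResidual 2 G := Subgroup.subset_closure (Nat.coprime_two_right.2 hk.1)
    have h2 : C ≤ Cfsg.pResidual 2 G := by
      intro c hc
      have : (⟨c, hc⟩ : ↥C) ∈ Cfsg.pResidual 2 ↥C := hCt ▸ Subgroup.mem_top _
      have hle : (Cfsg.pResidual 2 ↥C).map C.subtype ≤ Cfsg.pResidual 2 G := by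
        rw [Cfsg.pResidual, MonoidHom.map_closure, Subgroup.closure_le]
        rintro _ ⟨y, hy, rfl⟩
        refine Subgroup.subset_closure ?_
        show Nat.Coprime (orderOf (C.subtype y)) 2
        rw [orderOf_injective C.subtype C.subtype_injective]; exact hy
      exact hle ⟨_, this, rfl⟩
    have := Subgroup.mul_mem _ h1 (Subgroup.inv_mem _ (h2 hkc))
    simpa using this

end Cfsg.Agent.S1183
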