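import Cfsg.Statements.S1186
import Cfsg.Agent.TwoFus.IsolatedCount

set_option autoImplicit false
open Cfsg

namespace Cfsg.Agent.S1186

/-- Let z be an isolated involution of the finite group G, C = C_G(z), K the set of elements of odd order inverted by z, and s an involution of C. Then |G| = |C| · |C_K(sz)| · |C_K(s)|. -/
theorem result {G : Type*} [Group G] [Finite G] (z : G) (hz : Cfsg.IsIsolatedInvolution z) (s : G) (hs : orderOf s = 2) (hsz : Commute s z) : Nat.card G = Nat.card (Subgroup.centralizer ({z} : Set G)) * Nat.card {k : G // Odd (orderOf k) ∧ z * k * z⁻¹ = k⁻¹ ∧ Commute k (s * z)} * Nat.card {k : G // Odd (orderOf k) ∧ z * k * z⁻¹ = k⁻¹ ∧ Commute k s} := by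
  by_cases hne : s = z
  · subst hne
    rw [TwoFus.Iso.card_eq_split hz, mul_assoc]
    congr 1
    have e1 : Nat.card {k : G // Odd (orderOf k) ∧ s * k * s⁻¹ = k⁻¹ ∧ Commute k (s * s)} =
        Nat.card {k : G // TwoFus.Iso.InK s k} :=
      Nat.card_congr (Equiv.subtypeEquivRight fun k => by
        simp [TwoFus.Iso.InK, TwoFus.Iso.sq_one hz])
    have e2 : Nat.card {k : G // Odd (orderOf k) ∧ s * k * s⁻¹ = k⁻¹ ∧ Commute k s} = 1 := by
      rw [Nat.card_eq_one_iff_unique]
      refine ⟨⟨fun a b => ?_⟩, ⟨⟨1, by simp⟩⟩⟩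
      have key : ∀ k : G, Odd (orderOf k) → s * k * s⁻¹ = k⁻¹ → Commute k s → k = 1 := fun k h1 h2 h3 => by
        refine TwoFus.Iso.eq_one_of_inverted hz h1 h3 1 ?_
        simpa using h2
      exact Subtype.ext ((key _ a.2.1 a.2.2.1 a.2.2.2).trans (key _ b.2.1 b.2.2.1 b.2.2.2).symm)
    rw [e1, e2, mul_one]
  · exact TwoFus.Iso.thompson_formula hz hs hsz hne

end Cfsg.Agent.S1186
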