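import Cfsg.Statements.S1224
import Cfsg.Agent.TwoFus.StrongEmb

set_option autoImplicit false
open Cfsg

namespace Cfsg.Agent.S1224

/-- Let H be a strongly embedded subgroup of the finite group G and x ≠ y two cosets in G/H. Then the number of involutions i of G with i • x = y equals the number of involutions lying in H. -/
theorem result {G : Type*} [Group G] [Finite G] (H : Subgroup G) (hH : Cfsg.IsStronglyEmbedded H) (x y : G ⧸ H) (hxy : x ≠ y) : Nat.card {i : G // orderOf i = 2 ∧ i • x = y} = Nat.card {t : G // orderOf t = 2 ∧ t ∈ H} := by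
  obtain ⟨g, rfl⟩ := QuotientGroup.mk_surjective x
  rw [← TwoFus.SE.card_J hH (g⁻¹ • y)]
  refine Nat.card_congr
    { toFun := fun i => ⟨g⁻¹ * i.1 * g, ?_, ?_⟩
      invFun := fun j => ⟨g * j.1 * g⁻¹, ((MulAut.conj g).orderOf_eq j.1).trans j.2.1, ?_⟩
      left_inv := fun i => Subtype.ext (by group)
      right_inv := fun j => Subtype.ext (by group) }
  · simpa using ((MulAut.conj g⁻¹).orderOf_eq i.1).trans i.2.1
  · refine Eq.trans ?_ (congrArg (g⁻¹ • ·) i.2.2)
    show ((g⁻¹ * i.1 * g : G) : G ⧸ H) = g⁻¹ • (i.1 • (g : G ⧸ H))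
    simp [mul_assoc]
  · have h : (j.1 : G ⧸ H) = g⁻¹ • y := j.2.2
    calc (g * j.1 * g⁻¹) • (g : G ⧸ H) = g • (j.1 : G ⧸ H) := by simp [mul_assoc]
      _ = y := by rw [h, smul_inv_smul]

end Cfsg.Agent.S1224
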