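import Cfsg.Statements.S1226
import Cfsg.Agent.TwoFus.Basic

set_option autoImplicit false
open Cfsg

namespace Cfsg.Agent.S1226

/-- Let G be a finite group with a Sylow 2-subgroup T that is neither cyclic nor normal, such that the centralizer of every involution is an elementary abelian 2-group. Then N_G(T) is a strongly embedded subgroup of G. -/
theorem result {G : Type*} [Group G] [Finite G] (T : Sylow 2 G) (hnc : ¬ IsCyclic (T : Subgroup G)) (hnn : ¬ (T : Subgroup G).Normal) (hC : ∀ t : G, orderOf t = 2 → IsMulCommutative (Subgroup.centralizer ({t} : Set G)) ∧ ∀ c ∈ Subgroup.centralizer ({t} : Set G), c ^ 2 = 1) : Cfsg.IsStronglyEmbedded (Subgroup.normalizer ((T : Subgroup G) : Set G)) := by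
  have hcent : ∀ t ∈ (T : Subgroup G), orderOf t = 2 → (∀ x ∈ (T : Subgroup G), Commute x t) →
      Subgroup.centralizer ({t} : Set G) = (T : Subgroup G) := by
    intro t ht ht2 hab
    refine T.is_maximal' (fun c => ⟨1, Subtype.ext (by simpa using (hC t ht2).2 c c.2)⟩) fun x hx => ?_
    exact Subgroup.mem_centralizer_iff.2 fun y hy => by
      rw [Set.mem_singleton_iff.1 hy]; exact (hab x hx).symm.eq
  have hne : (T : Subgroup G) ≠ ⊥ := by
    intro e
    refine hnc ?_
    rw [e]; infer_instance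
  haveI : Nontrivial ↥(T : Subgroup G) := (T : Subgroup G).nontrivial_iff_ne_bot.2 hne
  have htwo : 2 ∣ Nat.card ↥(T : Subgroup G) := by
    obtain ⟨n, hn, hc⟩ := T.isPGroup'.nontrivial_iff_card.1 ‹_›
    exact hc ▸ dvd_pow_self 2 (by omega)
  have hab : ∀ x ∈ (T : Subgroup G), ∀ y ∈ (T : Subgroup G), Commute x y := by
    haveI := T.isPGroup'.center_nontrivial
    obtain ⟨k, hk, hk1⟩ := (T.isPGroup'.to_subgroup (Subgroup.center _)).nontrivial_iff_card.1 ‹_›
    obtain ⟨w, hw⟩ := exists_prime_orderOf_dvd_card' (G := ↥(Subgroup.center ↥(T : Subgroup G))) 2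
      (hk1 ▸ dvd_pow_self 2 (by omega))
    have hw' : orderOf ((w : ↥(T : Subgroup G)) : G) = 2 := by
      rw [Subgroup.orderOf_coe, Subgroup.orderOf_coe, hw]
    intro x hx y hy
    have hmem : ∀ x ∈ (T : Subgroup G), x ∈ Subgroup.centralizer ({((w : ↥(T : Subgroup G)) : G)} : Set G) :=
      fun x hx => Subgroup.mem_centralizer_iff.2 fun z hz => by
        rw [Set.mem_singleton_iff.1 hz]
        exact (congrArg Subtype.val (Subgroup.mem_center_iff.1 w.2 ⟨x, hx⟩)).symm
    haveI := (hC _ hw').1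
    exact congrArg Subtype.val (mul_comm' (⟨x, hmem x hx⟩ : ↥(Subgroup.centralizer _)) ⟨y, hmem y hy⟩)
  haveI hnorm : ((T : Subgroup G).subgroupOf (Subgroup.normalizer ((T : Subgroup G) : Set G))).Normal :=
    Subgroup.normal_in_normalizer
  have hin : ∀ t : G, orderOf t = 2 → t ∈ Subgroup.normalizer ((T : Subgroup G) : Set G) →
      t ∈ (T : Subgroup G) := by
    intro t ht htn
    have hsup : IsPGroup 2 ↥(Subgroup.zpowers t ⊔ (T : Subgroup G)) :=
      (IsPGroup.of_card (n := 1) (by rw [Nat.card_zpowers, ht, pow_one])).to_sup_of_normal_right'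
        T.isPGroup' (Subgroup.zpowers_le.2 htn)
    exact (T.is_maximal' hsup le_sup_right).le (le_sup_left (b := (T : Subgroup G)) (Subgroup.mem_zpowers t))
  refine ⟨fun h => hnn (Subgroup.normalizer_eq_top_iff.1 h),
    even_iff_two_dvd.2 (htwo.trans (Subgroup.card_dvd_of_le Subgroup.le_normalizer)), fun g hg => ?_⟩
  by_contra hodd
  rw [Nat.not_odd_iff_even] at hodd
  obtain ⟨t, ht⟩ := exists_prime_orderOf_dvd_card' 2 hodd.two_dvd
  rw [← Subgroup.orderOf_coe] at ht
  obtain ⟨t, htN, htg⟩ := t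
  have hco : orderOf (g⁻¹ * t * g) = 2 := by simpa using ((MulAut.conj g⁻¹).orderOf_eq t).trans ht
  have h1 := hin t ht htN
  have h2 := hin _ hco (TwoFus.mem_conjMap.1 htg)
  have e1 := hcent t h1 ht fun x hx => hab x hx t h1
  have e2 := hcent _ h2 hco fun x hx => hab x hx _ h2
  refine hg (TwoFus.mem_normalizer_of_conjMap_eq (Subgroup.eq_of_le_of_card_ge ?_
    (TwoFus.card_conjMap g _).ge))
  intro x hx
  have hx' := TwoFus.mem_conjMap.1 hx
  rw [← e1]
  refine Subgroup.mem_centralizer_iff.2 fun y hy => ?_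
  rw [Set.mem_singleton_iff.1 hy]
  have hcm := hab _ hx' _ h2
  calc t * x = g * ((g⁻¹ * t * g) * (g⁻¹ * x * g)) * g⁻¹ := by group
    _ = g * ((g⁻¹ * x * g) * (g⁻¹ * t * g)) * g⁻¹ := by rw [hcm.symm.eq]
    _ = x * t := by group

end Cfsg.Agent.S1226
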