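import Cfsg.Statements.S1227
import Cfsg.Agent.S1226
import Cfsg.Agent.TwoFus.StrongEmb

set_option autoImplicit false
open Cfsg

namespace Cfsg.Agent.S1227

/-- Let G be a finite group with a Sylow 2-subgroup T that is neither cyclic nor normal, such that the centralizer of every involution is an elementary abelian 2-group; put H = N_G(T), let u be an involution outside H and D = H ∩ uHu⁻¹. Then u inverts every element of D, |H| = |T|·(|T| − 1), and D is a complement to T in H. -/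
theorem result {G : Type*} [Group G] [Finite G] (T : Sylow 2 G) (hnc : ¬ IsCyclic (T : Subgroup G)) (hnn : ¬ (T : Subgroup G).Normal) (hC : ∀ t : G, orderOf t = 2 → IsMulCommutative (Subgroup.centralizer ({t} : Set G)) ∧ ∀ c ∈ Subgroup.centralizer ({t} : Set G), c ^ 2 = 1) (u : G) (hu : orderOf u = 2) (huH : u ∉ Subgroup.normalizer ((T : Subgroup G) : Set G)) : (∀ d ∈ Subgroup.normalizer ((T : Subgroup G) : Set G) ⊓ (Subgroup.normalizer ((T : Subgroup G) : Set G)).map (MulAut.conj u).toMonoidHom, u * d * u⁻¹ = d⁻¹) ∧ Nat.card (Subgroup.normalizer ((T : Subgroup G) : Set G)) = Nat.card T * (Nat.card T - 1) ∧ Subgroup.IsComplement' ((Subgroup.normalizer ((T : Subgroup G) : Set G) ⊓ (Subgroup.normalizer ((T : Subgroup G) : Set G)).map (MulAut.conj u).toMonoidHom).subgroupOf (Subgroup.normalizer ((T : Subgroup G) : Set G))) ((T : Subgroup G).subgroupOf (Subgroup.normalizer ((T : Subgroup G) : Set G))) := by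
  classical
  have hH : Cfsg.IsStronglyEmbedded (Subgroup.normalizer ((T : Subgroup G) : Set G)) := S1226.result T hnc hnn hC
  set H := Subgroup.normalizer ((T : Subgroup G) : Set G) with hHdef
  obtain ⟨s, hs, hsH⟩ := TwoFus.SE.exists_involution hH
  have hin : ∀ t : G, orderOf t = 2 → t ∈ H → t ∈ (T : Subgroup G) := by
    intro t ht htn
    haveI : Fact (Nat.Prime 2) := ⟨Nat.prime_two⟩
    have hsup : IsPGroup 2 ↥(Subgroup.zpowers t ⊔ (T : Subgroup G)) :=
      (IsPGroup.of_card (n := 1) (by rw [Nat.card_zpowers, ht, pow_one])).to_sup_of_normal_right'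
        T.isPGroup' (Subgroup.zpowers_le.2 htn)
    exact (T.is_maximal' hsup le_sup_right).le (le_sup_left (b := (T : Subgroup G)) (Subgroup.mem_zpowers t))
  have hsT := hin s hs hsH
  -- `T` is elementary abelian and equals the centralizer of `s`
  have hCs : Subgroup.centralizer ({s} : Set G) = (T : Subgroup G) ∧ ∀ t ∈ (T : Subgroup G), t ^ 2 = 1 := by
    haveI : Fact (Nat.Prime 2) := ⟨Nat.prime_two⟩
    haveI : Nontrivial ↥(T : Subgroup G) :=
      ⟨⟨⟨s, hsT⟩, 1, fun e => by rw [show s = 1 from congrArg Subtype.val e, orderOf_one] at hs; omega⟩⟩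
    haveI := T.isPGroup'.center_nontrivial
    obtain ⟨k, hk, hk1⟩ := (T.isPGroup'.to_subgroup (Subgroup.center _)).nontrivial_iff_card.1 ‹_›
    obtain ⟨w, hw⟩ := exists_prime_orderOf_dvd_card' (G := ↥(Subgroup.center ↥(T : Subgroup G))) 2
      (hk1 ▸ dvd_pow_self 2 (by omega))
    have hw' : orderOf ((w : ↥(T : Subgroup G)) : G) = 2 := by
      rw [Subgroup.orderOf_coe, Subgroup.orderOf_coe, hw]
    have hmem : ∀ x ∈ (T : Subgroup G), x ∈ Subgroup.centralizer ({((w : ↥(T : Subgroup G)) : G)} : Set G) :=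
      fun x hx => Subgroup.mem_centralizer_iff.2 fun z hz => by
        rw [Set.mem_singleton_iff.1 hz]
        exact (congrArg Subtype.val (Subgroup.mem_center_iff.1 w.2 ⟨x, hx⟩)).symm
    haveI := (hC _ hw').1
    have hab : ∀ x ∈ (T : Subgroup G), x * s = s * x := fun x hx =>
      congrArg Subtype.val (mul_comm' (⟨x, hmem x hx⟩ : ↥(Subgroup.centralizer _)) ⟨s, hmem s hsT⟩)
    refine ⟨T.is_maximal' (fun c => ⟨1, Subtype.ext (by simpa using (hC s hs).2 c c.2)⟩) fun x hx => ?_,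
      fun t ht => (hC _ hw').2 t (hmem t ht)⟩
    exact Subgroup.mem_centralizer_iff.2 fun y hy => by rw [Set.mem_singleton_iff.1 hy]; exact (hab x hx).symm
  obtain ⟨hCs, hT2⟩ := hCs
  set D := H ⊓ H.map (MulAut.conj u).toMonoidHom with hD
  have hodd : Odd (Nat.card ↥D) := hH.2.2 u huH
  have hDT : ∀ d ∈ D, d ∈ (T : Subgroup G) → d = 1 := by
    intro d hdD hdT
    by_contra hne
    have h2 : orderOf d = 2 := orderOf_eq_prime (hT2 d hdT) hne
    have hdvd := orderOf_dvd_natCard (⟨d, hdD⟩ : ↥D)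
    rw [← Subgroup.orderOf_coe, h2] at hdvd
    exact (Nat.not_even_iff_odd.2 hodd) (even_iff_two_dvd.2 hdvd)
  have hstab : ∀ a b : G, a * s * a⁻¹ = b * s * b⁻¹ → a⁻¹ * b ∈ (T : Subgroup G) := by
    intro a b e
    rw [← hCs]
    refine Subgroup.mem_centralizer_iff.2 fun y hy => ?_
    rw [Set.mem_singleton_iff.1 hy]
    calc s * (a⁻¹ * b) = a⁻¹ * (a * s * a⁻¹) * b := by group
      _ = a⁻¹ * (b * s * b⁻¹) * b := by rw [e]
      _ = a⁻¹ * b * s := by group
  have hdinj : ∀ d ∈ D, ∀ d' ∈ D, d * s * d⁻¹ = d' * s * d'⁻¹ → d = d' := fun d hd d' hd' e =>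
    inv_mul_eq_one.1 (hDT _ (mul_mem (inv_mem hd) hd') (hstab d d' e))
  have hui : u⁻¹ = u := inv_eq_of_mul_eq_one_right (TwoFus.SE.mul_self_eq_one hu)
  have hbij : Function.Bijective (TwoFus.SE.toH (H := H) hs hsH hu) :=
    (TwoFus.SE.toH_injective hH hs hsH hu huH).bijective_of_nat_card_le (TwoFus.SE.card_J hH _).ge
  -- every element of `D` is `u * i` for an involution `i`
  have hDi : ∀ d ∈ D, ∃ i : G, orderOf i = 2 ∧ d = u * i := by
    intro d hd
    obtain ⟨⟨i, hi, hiy⟩, e⟩ := hbij.2 ⟨d * s * d⁻¹, ((MulAut.conj d).orderOf_eq s).trans hs,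
      mul_mem (mul_mem hd.1 hsH) (inv_mem hd.1)⟩
    refine ⟨i, hi, (hdinj (u * i) ?_ d hd (congrArg Subtype.val e)).symm⟩
    have h0 : u⁻¹ * i ∈ H := QuotientGroup.eq.1 hiy.symm
    rw [hui] at h0
    refine ⟨h0, TwoFus.mem_conjMap.2 ?_⟩
    have h1 : i * u = (u * i)⁻¹ := by
      rw [mul_inv_rev, hui, inv_eq_of_mul_eq_one_right (TwoFus.SE.mul_self_eq_one hi)]
    rw [show u⁻¹ * (u * i) * u = i * u by group, h1]
    exact H.inv_mem h0
  have hTH : (T : Subgroup G) ≤ H := Subgroup.le_normalizer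
  have hcomp : Subgroup.IsComplement' (D.subgroupOf H) ((T : Subgroup G).subgroupOf H) := by
    refine Subgroup.isComplement'_of_disjoint_and_mul_eq_univ (Subgroup.disjoint_def.2 fun {n} h1 h2 =>
      Subtype.ext (hDT _ h1 h2)) (Set.eq_univ_of_forall fun n => ?_)
    obtain ⟨d, hd, e⟩ := TwoFus.SE.exists_conj_in_D hH hu huH hs hsH
      (((MulAut.conj (n : G)).orderOf_eq s).trans hs) (mul_mem (mul_mem n.2 hsH) (inv_mem n.2))
    exact ⟨⟨d, hd.1⟩, hd, ⟨d, hd.1⟩⁻¹ * n, hstab d n e, mul_inv_cancel_left _ _⟩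
  have hDcard : Nat.card ↥D = Nat.card ↥(T : Subgroup G) - 1 := by
    have e1 : Nat.card ↥D = Nat.card {t : G // t ∈ (T : Subgroup G) ∧ t ≠ 1} := by
      refine Nat.card_eq_of_bijective (fun d : ↥D => (⟨(d : G) * s * (d : G)⁻¹,
        hin _ (((MulAut.conj (d : G)).orderOf_eq s).trans hs) (mul_mem (mul_mem d.2.1 hsH) (inv_mem d.2.1)),
        fun e => by rw [conj_eq_one_iff] at e; rw [e, orderOf_one] at hs; omega⟩ :
          {t : G // t ∈ (T : Subgroup G) ∧ t ≠ 1})) ⟨?_, ?_⟩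
      · exact fun d d' e => Subtype.ext (hdinj d d.2 d' d'.2 (congrArg Subtype.val e))
      · rintro ⟨t, htT, ht1⟩
        obtain ⟨d, hd, e⟩ := TwoFus.SE.exists_conj_in_D hH hu huH hs hsH
          (orderOf_eq_prime (hT2 t htT) ht1) (hTH htT)
        exact ⟨⟨d, hd⟩, Subtype.ext e⟩
    have e2 : Nat.card {t : G // t ∈ (T : Subgroup G) ∧ t ≠ 1} =
        Nat.card {t : ↥(T : Subgroup G) // t ≠ 1} :=
      Nat.card_congr ⟨fun t => ⟨⟨t.1, t.2.1⟩, fun e => t.2.2 (congrArg Subtype.val e)⟩,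
        fun t => ⟨t.1.1, t.1.2, fun e => t.2 (Subtype.ext e)⟩, fun _ => rfl, fun _ => rfl⟩
    haveI : Fintype ↥(T : Subgroup G) := Fintype.ofFinite _
    rw [e1, e2, Nat.card_eq_fintype_card, Fintype.card_subtype_compl, Fintype.card_subtype_eq,
      Nat.card_eq_fintype_card]
  refine ⟨fun d hd => ?_, ?_, hcomp⟩
  · obtain ⟨i, hi, rfl⟩ := hDi d hd
    rw [mul_inv_rev, hui, inv_eq_of_mul_eq_one_right (TwoFus.SE.mul_self_eq_one hi), ← mul_assoc u u i,
      TwoFus.SE.mul_self_eq_one hu, one_mul]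
  · have h1 := hcomp.card_mul
    rw [Nat.card_congr (Subgroup.subgroupOfEquivOfLe (inf_le_left : D ≤ H)).toEquiv,
      Nat.card_congr (Subgroup.subgroupOfEquivOfLe hTH).toEquiv, hDcard] at h1
    rw [← h1, mul_comm]

end Cfsg.Agent.S1227
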