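import Cfsg.Statements.S1228
import Cfsg.Agent.S1226
import Cfsg.Agent.S1227
import Cfsg.Agent.TwoFus.StrongEmb

set_option autoImplicit false
open Cfsg

namespace Cfsg.Agent.S1228

/-- Let G be a finite group with a Sylow 2-subgroup T that is neither cyclic nor normal, such that the centralizer of every involution is an elementary abelian 2-group; put H = N_G(T), let u be an involution outside H and D = H ∩ uHu⁻¹. Then N_G(D) = D ⊔ ⟨u⟩, and a coset gH is fixed by every element of D exactly when gH = H or gH = uH. -/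
theorem result {G : Type*} [Group G] [Finite G] (T : Sylow 2 G) (hnc : ¬ IsCyclic (T : Subgroup G)) (hnn : ¬ (T : Subgroup G).Normal) (hC : ∀ t : G, orderOf t = 2 → IsMulCommutative (Subgroup.centralizer ({t} : Set G)) ∧ ∀ c ∈ Subgroup.centralizer ({t} : Set G), c ^ 2 = 1) (u : G) (hu : orderOf u = 2) (huH : u ∉ Subgroup.normalizer ((T : Subgroup G) : Set G)) : Subgroup.normalizer ((Subgroup.normalizer ((T : Subgroup G) : Set G) ⊓ (Subgroup.normalizer ((T : Subgroup G) : Set G)).map (MulAut.conj u).toMonoidHom : Subgroup G) : Set G) = (Subgroup.normalizer ((T : Subgroup G) : Set G) ⊓ (Subgroup.normalizer ((T : Subgroup G) : Set G)).map (MulAut.conj u).toMonoidHom) ⊔ Subgroup.zpowers u ∧ ∀ g : G, ((∀ d ∈ Subgroup.normalizer ((T : Subgroup G) : Set G) ⊓ (Subgroup.normalizer ((T : Subgroup G) : Set G)).map (MulAut.conj u).toMonoidHom, d • (QuotientGroup.mk g : G ⧸ Subgroup.normalizer ((T : Subgroup G) : Set G)) = QuotientGroup.mk g) ↔ (QuotientGroup.mk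 g : G ⧸ Subgroup.normalizer ((T : Subgroup G) : Set G)) = QuotientGroup.mk 1 ∨ (QuotientGroup.mk g : G ⧸ Subgroup.normalizer ((T : Subgroup G) : Set G)) = QuotientGroup.mk u) := by
  classical
  haveI : Fact (Nat.Prime 2) := ⟨Nat.prime_two⟩
  have hH : Cfsg.IsStronglyEmbedded (Subgroup.normalizer ((T : Subgroup G) : Set G)) := S1226.result T hnc hnn hC
  set H := Subgroup.normalizer ((T : Subgroup G) : Set G) with hHdef
  set D := H ⊓ H.map (MulAut.conj u).toMonoidHom with hD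
  obtain ⟨hinv, hHcard, hcomp⟩ := S1227.result T hnc hnn hC u hu huH
  rw [← hHdef, ← hD] at hinv hcomp
  have hodd : Odd (Nat.card ↥D) := hH.2.2 u huH
  have hTH : (T : Subgroup G) ≤ H := Subgroup.le_normalizer
  have hcard : ∀ {E : Subgroup G}, E ≤ H → Subgroup.IsComplement' (E.subgroupOf H) ((T : Subgroup G).subgroupOf H) →
      Nat.card ↥E = Nat.card ↥(T : Subgroup G) - 1 := by
    intro E hE hc
    have h1 := hc.card_mul
    rw [Nat.card_congr (Subgroup.subgroupOfEquivOfLe hE).toEquiv,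
      Nat.card_congr (Subgroup.subgroupOfEquivOfLe hTH).toEquiv, hHcard, mul_comm (Nat.card ↥(T : Subgroup G))] at h1
    exact Nat.eq_of_mul_eq_mul_right Nat.card_pos h1
  have hD2 : ∀ d ∈ D, d ^ 2 = 1 → d = 1 := by
    intro d hd h2
    by_contra hne
    have h3 : orderOf d = 2 := orderOf_eq_prime h2 hne
    have hdvd := orderOf_dvd_natCard (⟨d, hd⟩ : ↥D)
    rw [← Subgroup.orderOf_coe, h3] at hdvd
    exact (Nat.not_even_iff_odd.2 hodd) (even_iff_two_dvd.2 hdvd)
  have hT2 : ∀ t ∈ (T : Subgroup G), t ^ 2 = 1 := by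
    haveI : Nontrivial ↥(T : Subgroup G) := (T : Subgroup G).nontrivial_iff_ne_bot.2 fun e => hnc (by rw [e]; infer_instance)
    haveI := T.isPGroup'.center_nontrivial
    obtain ⟨k, hk, hk1⟩ := (T.isPGroup'.to_subgroup (Subgroup.center _)).nontrivial_iff_card.1 ‹_›
    obtain ⟨w, hw⟩ := exists_prime_orderOf_dvd_card' (G := ↥(Subgroup.center ↥(T : Subgroup G))) 2
      (hk1 ▸ dvd_pow_self 2 (by omega))
    have hw' : orderOf ((w : ↥(T : Subgroup G)) : G) = 2 := by
      rw [Subgroup.orderOf_coe, Subgroup.orderOf_coe, hw]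
    exact fun x hx => (hC _ hw').2 x (Subgroup.mem_centralizer_iff.2 fun z hz => by
      rw [Set.mem_singleton_iff.1 hz]
      exact (congrArg Subtype.val (Subgroup.mem_center_iff.1 w.2 ⟨x, hx⟩)).symm)
  -- `D` is nontrivial
  obtain ⟨d₀, hd₀, hd₀1⟩ : ∃ d ∈ D, d ≠ 1 := by
    refine (Subgroup.bot_or_exists_ne_one D).resolve_left fun e => hnc ?_
    have h1 := hcard (E := D) inf_le_left hcomp
    rw [e, Subgroup.card_bot] at h1
    exact isCyclic_of_prime_card (p := 2) (by have := Nat.card_pos (α := ↥(T : Subgroup G)); omega)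
  have hTnorm : ∀ t ∈ (T : Subgroup G), ∀ d ∈ D, t * d * t⁻¹ ∈ D → t * d * t⁻¹ = d := by
    intro t ht d hd h1
    have h2 : t * d * t⁻¹ * d⁻¹ ∈ (T : Subgroup G) := by
      rw [show t * d * t⁻¹ * d⁻¹ = t * (d * t⁻¹ * d⁻¹) by group]
      exact mul_mem ht ((Subgroup.mem_normalizer_iff.1 hd.1 t⁻¹).1 (inv_mem ht))
    have h3 : t * d * t⁻¹ * d⁻¹ ∈ D := mul_mem h1 (inv_mem hd)
    exact mul_inv_eq_one.1 (hD2 _ h3 (hT2 _ h2))
  have hTD : ∀ t ∈ (T : Subgroup G), t * d₀ * t⁻¹ = d₀ → t = 1 := by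
    intro t ht e
    by_contra hne
    exact hd₀1 (hD2 d₀ hd₀ ((hC t (orderOf_eq_prime (hT2 t ht) hne)).2 d₀
      (Subgroup.mem_centralizer_iff.2 fun y hy => by
        rw [Set.mem_singleton_iff.1 hy]; exact mul_inv_eq_iff_eq_mul.1 e)))
  have hsplit : ∀ n ∈ H, ∃ d ∈ D, ∃ t ∈ (T : Subgroup G), n = d * t := by
    intro n hn
    obtain ⟨⟨a, b⟩, hab, -⟩ := hcomp.existsUnique (⟨n, hn⟩ : ↥H)
    exact ⟨_, a.2, _, b.2, (congrArg Subtype.val hab).symm⟩
  -- normalizer of `D` inside `H`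
  have hNH : ∀ n ∈ H, (∀ d ∈ D, n * d * n⁻¹ ∈ D) → n ∈ D := by
    intro n hn hn'
    obtain ⟨d, hd, t, ht, rfl⟩ := hsplit n hn
    have h1 : t * d₀ * t⁻¹ ∈ D := by
      have := mul_mem (mul_mem (inv_mem hd) (hn' d₀ hd₀)) hd
      rwa [show d⁻¹ * (d * t * d₀ * (d * t)⁻¹) * d = t * d₀ * t⁻¹ by group] at this
    rw [hTD t ht (hTnorm t ht d₀ hd₀ h1), mul_one]
    exact hd
  have hui : u⁻¹ = u := inv_eq_of_mul_eq_one_right (TwoFus.SE.mul_self_eq_one hu)
  have huD : ∀ d ∈ D, u * d * u⁻¹ ∈ D := fun d hd => by rw [hinv d hd]; exact inv_mem hd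
  -- `d * (gH) = gH` in terms of membership
  have hfix : ∀ (d g : G), d • (QuotientGroup.mk g : G ⧸ H) = QuotientGroup.mk g ↔ g⁻¹ * d * g ∈ H := by
    intro d g
    rw [MulAction.Quotient.smul_mk, eq_comm, QuotientGroup.eq, smul_eq_mul, mul_assoc]
  set C := Subgroup.centralizer (D : Set G)
  have hCH : ∀ c ∈ C, c ∈ H → c ∈ D := fun c hc hcH => hNH c hcH fun d hd => by
    rw [← Subgroup.mem_centralizer_iff.1 hc d hd, mul_inv_cancel_right]; exact hd
  -- fixed cosets are `H` or come from `u * i` in the centralizer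
  have horb : ∀ g : G, (∀ d ∈ D, g⁻¹ * d * g ∈ H) → g ∈ H ∨ ∃ c ∈ C, ∃ k ∈ H, g = u * c * k := by
    intro g hg
    by_cases hgH : g ∈ H
    · exact Or.inl hgH
    right
    set y : G ⧸ H := QuotientGroup.mk g
    obtain ⟨s, hs, hsH⟩ := TwoFus.SE.exists_involution hH
    haveI : Nonempty {t : G // orderOf t = 2 ∧ t ∈ H} := ⟨⟨s, hs, hsH⟩⟩
    obtain ⟨⟨i, hi, hiy⟩⟩ : Nonempty (TwoFus.SE.J H y) :=
      (Nat.card_pos_iff.1 (by rw [TwoFus.SE.card_J hH y]; exact Nat.card_pos)).1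
    obtain ⟨k, hk, hki⟩ : ∃ k ∈ H, g = i * k := ⟨i⁻¹ * g, QuotientGroup.eq.1 hiy, by group⟩
    have hiH : i ∉ H := fun hh => hgH (hki ▸ mul_mem hh hk)
    obtain ⟨hinv', -, hcomp'⟩ := S1227.result T hnc hnn hC i hi hiH
    rw [← hHdef] at hinv' hcomp'
    have heq : D = H ⊓ H.map (MulAut.conj i).toMonoidHom := by
      refine Subgroup.eq_of_le_of_card_ge (fun d hd => ⟨hd.1, TwoFus.mem_conjMap.2 ?_⟩)
        (by rw [hcard (E := D) inf_le_left hcomp, hcard (E := H ⊓ H.map (MulAut.conj i).toMonoidHom) inf_le_left hcomp'])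
      have := mul_mem (mul_mem hk (hg d hd)) (inv_mem hk)
      rwa [hki, show k * ((i * k)⁻¹ * d * (i * k)) * k⁻¹ = i⁻¹ * d * i by group] at this
    refine ⟨u * i, Subgroup.mem_centralizer_iff.2 fun d hd => ?_, k, hk, ?_⟩
    · have h1 := hinv' d (heq ▸ hd)
      have h2 := hinv d⁻¹ (inv_mem hd)
      rw [inv_inv] at h2
      calc d * (u * i) = u * d⁻¹ * u⁻¹ * (u * i) := by rw [h2]
        _ = u * (i * d * i⁻¹) * u⁻¹ * (u * i) := by rw [h1]
        _ = u * i * d := by group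
    · rw [← mul_assoc u u i, TwoFus.SE.mul_self_eq_one hu, one_mul, hki]
  -- the centralizer of `D` is `D`
  have hCD : ∀ c ∈ C, c ∈ D := by
    intro c hc
    have hnot : ∀ c' ∈ C, u * c' ∉ H := by
      intro c' hc' hh
      have hi : ∀ d ∈ D, (u * c') * d * (u * c')⁻¹ = d⁻¹ := fun d hd => by
        rw [show u * c' * d * (u * c')⁻¹ = u * (c' * d * c'⁻¹) * u⁻¹ by group,
          ← Subgroup.mem_centralizer_iff.1 hc' d hd, mul_inv_cancel_right, hinv d hd]
      obtain ⟨d, hd, t, ht, e⟩ := hsplit _ hh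
      have h1 := hi d₀ hd₀
      rw [e] at h1
      have h2 : t * d₀ * t⁻¹ = d⁻¹ * d₀⁻¹ * d := by rw [← h1]; group
      have h3 := hTnorm t ht d₀ hd₀ (h2 ▸ mul_mem (mul_mem (inv_mem hd) (inv_mem hd₀)) hd)
      rw [hTD t ht h3, mul_one] at e
      have e5 : d * d₀ = d₀ * d := by
        have e4 : (d * d₀)⁻¹ = d⁻¹ * d₀⁻¹ := by
          rw [← hinv _ (mul_mem hd hd₀), ← hinv d hd, ← hinv d₀ hd₀]; group
        calc d * d₀ = ((d * d₀)⁻¹)⁻¹ := (inv_inv _).symm
          _ = d₀ * d := by rw [e4, mul_inv_rev, inv_inv, inv_inv]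
      have h6 := hi d₀ hd₀
      rw [e, e5, mul_inv_cancel_right] at h6
      exact hd₀1 (hD2 d₀ hd₀ (by rw [sq]; nth_rewrite 2 [h6]; exact mul_inv_cancel d₀))
    have huu := TwoFus.SE.mul_self_eq_one hu
    have hu' : ∀ v ∈ C, u * v * u ∈ C := fun v hv => Subgroup.mem_centralizer_iff.2 fun a ha => by
      have h3 := Subgroup.mem_centralizer_iff.1 hv _ (huD a ha)
      rw [hui] at h3
      calc a * (u * v * u) = u * u * a * (u * v * u) := by rw [huu, one_mul]
        _ = u * (u * a * u * v) * u := by group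
        _ = u * (v * (u * a * u)) * u := by rw [h3]
        _ = u * v * u * a * (u * u) := by group
        _ = u * v * u * a := by rw [huu, mul_one]
    rcases horb (u * c * u) (fun d hd => by
      rw [show (u * c * u)⁻¹ * d * (u * c * u) = (u * c * u)⁻¹ * (d * (u * c * u)) by group,
        Subgroup.mem_centralizer_iff.1 (hu' c hc) d hd, inv_mul_cancel_left]
      exact hd.1) with h1 | ⟨c', hc', k, hk, e⟩
    · have h2 := huD _ (hCH _ (hu' c hc) h1)
      rwa [hui, show u * (u * c * u) * u = (u * u) * c * (u * u) by group, huu, one_mul, mul_one] at h2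
    · exfalso
      have h3 : c'⁻¹ * (c * u) = k := by
        calc c'⁻¹ * (c * u) = c'⁻¹ * u⁻¹ * (u * c * u) := by group
          _ = c'⁻¹ * u⁻¹ * (u * c' * k) := by rw [e]
          _ = k := by group
      refine hnot _ (hu' _ (mul_mem (inv_mem hc') hc)) ?_
      rw [show u * (u * (c'⁻¹ * c) * u) = (u * u) * (c'⁻¹ * (c * u)) by group, huu, one_mul, h3]
      exact hk
  have hfixed : ∀ g : G, (∀ d ∈ D, g⁻¹ * d * g ∈ H) → g ∈ H ∨ u⁻¹ * g ∈ H := by
    intro g hg
    refine (horb g hg).imp_right ?_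
    rintro ⟨c, hc, k, hk, rfl⟩
    rw [show u⁻¹ * (u * c * k) = c * k by group]
    exact mul_mem (hCD c hc).1 hk
  refine ⟨le_antisymm (fun n hn => ?_) (sup_le Subgroup.le_normalizer (Subgroup.zpowers_le.2
    (TwoFus.mem_normalizer_of_conjMap_eq (Subgroup.eq_of_le_of_card_ge ?_ (TwoFus.card_conjMap u D).ge)))), fun g => ?_⟩
  · have hn' : ∀ d ∈ D, n⁻¹ * d * n ∈ D := fun d hd => by
      have := (Subgroup.mem_normalizer_iff.1 (inv_mem hn) d).1 hd
      rwa [inv_inv] at this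
    have hn'' : ∀ d ∈ D, n * d * n⁻¹ ∈ D := fun d hd => (Subgroup.mem_normalizer_iff.1 hn d).1 hd
    rcases hfixed n fun d hd => (hn' d hd).1 with h1 | h1
    · exact Subgroup.mem_sup_left (hNH n h1 hn'')
    · have h2 : u⁻¹ * n ∈ D := hNH _ h1 fun d hd => by
        have := huD _ (hn'' d hd)
        rw [hui] at this ⊢
        rwa [show u * n * d * (u * n)⁻¹ = u * (n * d * n⁻¹) * u⁻¹ by group, hui]
      rw [show n = u * (u⁻¹ * n) by group]
      exact mul_mem (Subgroup.mem_sup_right (Subgroup.mem_zpowers u)) (Subgroup.mem_sup_left h2)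
  · rintro _ ⟨d, hd, rfl⟩; exact huD d hd
  · constructor
    · intro hg
      rcases hfixed g fun d hd => (hfix d g).1 (hg d hd) with h1 | h1
      · exact Or.inl (QuotientGroup.eq.2 (by simpa using h1))
      · exact Or.inr (QuotientGroup.eq.2 (by
          have := inv_mem h1
          rwa [mul_inv_rev, inv_inv] at this))
    · rintro (e | e) d hd <;> rw [e, hfix]
      · simpa using hd.1
      · have := huD d hd
        rw [hui] at this ⊢
        exact this.1

end Cfsg.Agent.S1228
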