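import Cfsg.Statements.S1231
import Cfsg.Agent.TwoFus.Basic

set_option autoImplicit false
open Cfsg

namespace Cfsg.Agent.S1231

/-- Let H be a subgroup of the finite group G, p a prime, k ≥ 1, and P a Sylow p-subgroup of H whose p-rank is at least k. Then N_G(X) ≤ H for every subgroup X of P of p-rank at least k if and only if H ∩ gHg⁻¹ has p-rank less than k for every g ∉ H. -/
theorem result {G : Type*} [Group G] [Finite G] {p : ℕ} [Fact p.Prime] (k : ℕ) (hk : 1 ≤ k) (H : Subgroup G) (P : Sylow p ↥H) (hP : ¬ Cfsg.PRankLE p (k - 1) ↥(P : Subgroup ↥H)) : (∀ X : Subgroup G, X ≤ (P : Subgroup ↥H).map H.subtype → ¬ Cfsg.PRankLE p (k - 1) ↥X → Subgroup.normalizer (X : Set G) ≤ H) ↔ (∀ g : G, g ∉ H → Cfsg.PRankLE p (k - 1) ↥(H ⊓ H.map (MulAut.conj g).toMonoidHom)) := by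
  have hmono : ∀ A B : Subgroup G, A ≤ B → Cfsg.PRankLE p (k - 1) ↥B → Cfsg.PRankLE p (k - 1) ↥A := by
    intro A B hAB hB C hC hexp
    have h := hB (C.map (Subgroup.inclusion hAB)) (Subgroup.map_isMulCommutative C _) (by
      rintro _ ⟨a, ha, rfl⟩
      rw [← map_pow, hexp a ha, map_one])
    rwa [Subgroup.card_map_of_injective (Subgroup.inclusion_injective hAB)] at h
  have hrank : ∀ (g : G) (A : Subgroup G), ¬ Cfsg.PRankLE p (k - 1) ↥A →
      ¬ Cfsg.PRankLE p (k - 1) ↥(A.map (MulAut.conj g).toMonoidHom) := by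
    intro g A hA hB
    refine hA fun C hC hexp => ?_
    set e := A.equivMapOfInjective (MulAut.conj g).toMonoidHom (MulAut.conj g).injective with he
    have h := hB (C.map e.toMonoidHom) (Subgroup.map_isMulCommutative C _) (by
      rintro _ ⟨a, ha, rfl⟩
      rw [← map_pow, hexp a ha, map_one])
    rwa [Subgroup.card_map_of_injective e.injective] at h
  constructor
  · intro hN g hg
    -- normalizers of large-rank `p`-subgroups of `H` lie in `H`
    have hN' : ∀ X : Subgroup G, IsPGroup p ↥X → X ≤ H → ¬ Cfsg.PRankLE p (k - 1) ↥X →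
        Subgroup.normalizer (X : Set G) ≤ H := by
      intro X hX hXH hr n hn
      obtain ⟨h, hh⟩ := TwoFus.exists_conjMap_le P (hX.of_equiv (Subgroup.subgroupOfEquivOfLe hXH).symm)
      set X' := X.map (MulAut.conj (h : G)⁻¹).toMonoidHom with hX'
      have hle : X' ≤ (P : Subgroup ↥H).map H.subtype := by
        intro x hx
        rw [hX', TwoFus.mem_conjMap, inv_inv] at hx
        have hm : (⟨(h : G) * x * (h : G)⁻¹, hXH hx⟩ : ↥H) ∈ X.subgroupOf H := hx
        exact ⟨_, TwoFus.mem_conjMap.1 (hh hm), by simp [mul_assoc]⟩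
      have hmem : (h : G)⁻¹ * n * h ∈ H := by
        refine hN X' hle (hrank _ _ hr) (TwoFus.mem_normalizer_of_conjMap_eq ?_)
        rw [hX', ← TwoFus.conjMap_mul]
        conv_lhs => rw [show (h : G)⁻¹ * n * h * (h : G)⁻¹ = (h : G)⁻¹ * n by group]
        rw [TwoFus.conjMap_mul, TwoFus.conjMap_eq_of_mem_normalizer hn]
      simpa [mul_assoc] using H.mul_mem (H.mul_mem h.2 hmem) (H.inv_mem h.2)
    -- such subgroups have only `H`-conjugates in `H`
    have key : ∀ d, ∀ X : Subgroup G, Nat.card ↥H - Nat.card ↥X = d → IsPGroup p ↥X → X ≤ H →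
        ¬ Cfsg.PRankLE p (k - 1) ↥X → ∀ c : G, X.map (MulAut.conj c).toMonoidHom ≤ H → c ∈ H := by
      intro d
      induction d using Nat.strong_induction_on with
      | _ d ih =>
        intro X hd hX hXH hr c hc
        set Y := X.map (MulAut.conj c).toMonoidHom with hY
        have hY2 : IsPGroup p ↥Y := hX.map _
        obtain ⟨Q, hQ⟩ := (hX.of_equiv (Subgroup.subgroupOfEquivOfLe hXH).symm).exists_le_sylow
        by_cases hmax : X.subgroupOf H = (Q : Subgroup ↥H)
        · obtain ⟨h, hh⟩ := TwoFus.exists_conjMap_le Q (hY2.of_equiv (Subgroup.subgroupOfEquivOfLe hc).symm)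
          have hn : (h : G)⁻¹ * c ∈ Subgroup.normalizer (X : Set G) := by
            refine TwoFus.mem_normalizer_of_conjMap_eq
              (Subgroup.eq_of_le_of_card_ge ?_ (TwoFus.card_conjMap _ X).ge)
            rw [TwoFus.conjMap_mul, ← hY]
            intro x hx
            rw [TwoFus.mem_conjMap, inv_inv] at hx
            have hm : (⟨(h : G) * x * (h : G)⁻¹, hc hx⟩ : ↥H) ∈ Y.subgroupOf H := hx
            have hq := TwoFus.mem_conjMap.1 (hh hm)
            rw [← hmax, Subgroup.mem_subgroupOf] at hq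
            simpa [mul_assoc] using hq
          simpa using H.mul_mem h.2 (hN' X hX hXH hr hn)
        · set QG := (Q : Subgroup ↥H).map H.subtype with hQG
          have hQG2 : IsPGroup p ↥QG := Q.isPGroup'.map _
          have hXQ : X < QG := by
            refine lt_of_le_of_ne (fun x hx => ?_) fun e => hmax ?_
            · exact ⟨⟨x, hXH hx⟩, hQ hx, rfl⟩
            · rw [e, hQG, Subgroup.subgroupOf, Subgroup.comap_map_eq_self_of_injective H.subtype_injective]
          set X₁ := QG ⊓ Subgroup.normalizer (X : Set G) with hX₁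
          have hlt : X < X₁ := by
            refine lt_of_le_of_ne (le_inf hXQ.le Subgroup.le_normalizer) fun e => ?_
            haveI := hQG2.isNilpotent
            have htop : X.subgroupOf QG ≠ ⊤ := fun e' =>
              hXQ.not_ge (Subgroup.subgroupOf_eq_top.1 e')
            have := Group.normalizerCondition_of_isNilpotent (G := ↥QG) _ (lt_top_iff_ne_top.2 htop)
            refine (this.trans_le ?_).false
            rw [← Subgroup.subgroupOf_normalizer_eq hXQ.le]
            intro x hx
            exact Subgroup.mem_subgroupOf.2 (e ▸ (⟨x.2, hx⟩ : (x : G) ∈ QG ⊓ Subgroup.normalizer (X : Set G)))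
          have hX₁H : X₁ ≤ H := inf_le_left.trans (Subgroup.map_subtype_le _)
          have hcard : Nat.card ↥X < Nat.card ↥X₁ := by
            rcases (Subgroup.card_le_of_le hlt.le).lt_or_eq with h' | h'
            · exact h'
            · exact absurd (Subgroup.eq_of_le_of_card_ge hlt.le h'.ge) hlt.ne
          have hcardH : Nat.card ↥X₁ ≤ Nat.card ↥H := Subgroup.card_le_of_le hX₁H
          refine ih _ (by omega) X₁ rfl (hQG2.to_le inf_le_left) hX₁H
            (fun h => hr (hmono _ _ hlt.le h)) c (fun x hx => hN' Y hY2 hc (hrank _ _ hr) ?_)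
          have hx' := TwoFus.mem_conjMap.1 hx
          refine TwoFus.mem_normalizer_of_conjMap_eq ?_
          rw [hY, ← TwoFus.conjMap_mul]
          conv_lhs => rw [show x * c = c * (c⁻¹ * x * c) by group]
          rw [TwoFus.conjMap_mul, TwoFus.conjMap_eq_of_mem_normalizer hx'.2]
    by_contra hr
    simp only [Cfsg.PRankLE, not_forall] at hr
    obtain ⟨A, hA, hexp, hA'⟩ := hr
    set AG := A.map (H ⊓ H.map (MulAut.conj g).toMonoidHom).subtype with hAG
    have hAle : AG ≤ H ⊓ H.map (MulAut.conj g).toMonoidHom := Subgroup.map_subtype_le _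
    have hp : IsPGroup p ↥AG := IsPGroup.map (fun a => ⟨1, Subtype.ext (by rw [SubmonoidClass.coe_pow, pow_one]; exact hexp a a.2)⟩) _
    have hrk : ¬ Cfsg.PRankLE p (k - 1) ↥AG := by
      intro h
      apply hA'
      have h2 := h ((⊤ : Subgroup ↥AG)) (by
        haveI := Subgroup.map_isMulCommutative A (H ⊓ H.map (MulAut.conj g).toMonoidHom).subtype
        exact ⟨⟨fun a b => Subtype.ext (mul_comm' a.1 b.1)⟩⟩)
        (fun a _ => by
          obtain ⟨a₀, ha₀, e⟩ := a.2
          refine Subtype.ext ?_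
          rw [SubmonoidClass.coe_pow, ← e, ← map_pow, hexp a₀ ha₀, map_one]; rfl)
      rwa [Subgroup.card_top, hAG,
        Subgroup.card_map_of_injective (Subgroup.subtype_injective _)] at h2
    refine hg (inv_inv g ▸ H.inv_mem (key _ AG rfl hp (hAle.trans inf_le_left) hrk g⁻¹ ?_))
    intro x hx
    have := TwoFus.mem_conjMap.1 (hAle (TwoFus.mem_conjMap.1 hx)).2
    simpa [mul_assoc] using this
  · intro hI X hXP hr g hg
    by_contra hgH
    refine hr (hmono _ _ ?_ (hI g hgH))
    intro x hx
    refine ⟨Subgroup.map_subtype_le _ (hXP hx), TwoFus.mem_conjMap.2 (Subgroup.map_subtype_le _ (hXP ?_))⟩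
    have := (Subgroup.mem_normalizer_iff.1 (Subgroup.inv_mem _ hg) x).1 hx
    simpa using this

end Cfsg.Agent.S1231
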