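import Cfsg.Statements.S1241
import Cfsg.Agent.Transfer.Hall

set_option autoImplicit false
open Cfsg
open scoped IsMulCommutative
open Cfsg.Agent.Transfer

namespace Cfsg.Agent.S1241

/-- Let G be a finite group, p a prime, H a subgroup of index prime to p, K a subgroup of H normal in H with H/K commutative, and g ∈ H ∖ K an element of p-power order such that for all integers m and all a ∈ G with a g^m a⁻¹ ∈ H one has a g^m a⁻¹ ∈ g^m K. Then g ∉ G'. -/
theorem result {G : Type*} [Group G] [Finite G] {p : ℕ} [Fact p.Prime] (H K : Subgroup G) (hHK : K ≤ H) (hKn : (K.subgroupOf H).Normal) (hab : ∀ x ∈ H, ∀ y ∈ H, x * y * x⁻¹ * y⁻¹ ∈ K) (hidx : Nat.Coprime p H.index) (g : G) (hgH : g ∈ H) (hgK : g ∉ K) (hgp : ∃ k : ℕ, orderOf g = p ^ k) (hctrl : ∀ (m : ℤ) (a : G), a * g ^ m * a⁻¹ ∈ H → (a * g ^ m * a⁻¹) * (g ^ m)⁻¹ ∈ K) : g ∉ commutator G := by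
  intro hgG
  haveI := hKn
  haveI : IsMulCommutative (↥H ⧸ K.subgroupOf H) :=
    Subgroup.Normal.quotient_commutative_iff_commutator_le.mpr (by
      rw [commutator_def, Subgroup.commutator_le]
      rintro ⟨x, hx⟩ - ⟨y, hy⟩ -
      exact Subgroup.mem_subgroupOf.mpr (hab x hx y hy))
  have h1 := pow_index_mem H K g hgH (fun k a ha => by
    simpa [zpow_natCast] using hctrl k a (by simpa [zpow_natCast] using ha))
  have h2 : MonoidHom.transfer (QuotientGroup.mk' (K.subgroupOf H)) g = 1 :=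
    Abelianization.commutator_subset_ker _ hgG
  rw [h2] at h1
  obtain ⟨k, hk⟩ := hgp
  have h3 : orderOf (((⟨g, hgH⟩ : H) : ↥H ⧸ K.subgroupOf H)) ∣ p ^ k := by
    rw [← hk, ← Subgroup.orderOf_mk g hgH]
    exact orderOf_map_dvd (QuotientGroup.mk' (K.subgroupOf H)) ⟨g, hgH⟩
  have h4 := Nat.eq_one_of_dvd_coprimes (Nat.Coprime.pow_left k hidx) h3
    (orderOf_dvd_of_pow_eq_one h1.symm)
  exact hgK (Subgroup.mem_subgroupOf.mp ((QuotientGroup.eq_one_iff _).mp
    (orderOf_eq_one_iff.mp h4)))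

end Cfsg.Agent.S1241
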