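import Cfsg.Statements.S1242
import Cfsg.Agent.Transfer.Hall

set_option autoImplicit false
open Cfsg
open scoped IsMulCommutative commutatorElement
open Cfsg.Agent.Transfer

namespace Cfsg.Agent.S1242

/-- Let G be a finite group, p a prime and H a subgroup of index prime to p such that any two elements of H of p-power order that are conjugate in G are conjugate in H. Then (O^p(G)·G') ∩ H = O^p(H)·H', where O^p denotes the subgroup generated by the elements of order prime to p. -/
theorem result {G : Type*} [Group G] [Finite G] {p : ℕ} [Fact p.Prime] (H : Subgroup G) (hidx : Nat.Coprime p H.index) (hfus : ∀ g ∈ H, (∃ k : ℕ, orderOf g = p ^ k) → ∀ a : G, a * g * a⁻¹ ∈ H → ∃ h ∈ H, h * g * h⁻¹ = a * g * a⁻¹) : (Cfsg.pResidual p G ⊔ commutator G) ⊓ H = (Cfsg.pResidual p ↥H ⊔ commutator ↥H).map H.subtype := by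
  classical
  set K₀ := Cfsg.pResidual p ↥H ⊔ commutator ↥H with hK₀
  set K := K₀.map H.subtype with hK
  have e : K.subgroupOf H = K₀ := Subgroup.comap_map_eq_self_of_injective H.subtype_injective _
  haveI hn : (K.subgroupOf H).Normal := by
    rw [e]; exact Subgroup.Normal.of_commutator_le _ le_sup_right
  haveI : IsMulCommutative (↥H ⧸ K.subgroupOf H) :=
    Subgroup.Normal.quotient_commutative_iff_commutator_le.mpr (e ▸ le_sup_right)
  apply le_antisymm
  · rintro h ⟨hhG, hh⟩
    set V := MonoidHom.transfer (QuotientGroup.mk' (K.subgroupOf H)) with hV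
    have hM : IsPGroup p (↥H ⧸ K.subgroupOf H) := by
      refine IsPGroup.of_surjective (pResidual_quotient_isPGroup (p := p) (G := ↥H))
        (QuotientGroup.map _ _ (MonoidHom.id ↥H) (fun x hx => e.symm ▸ Subgroup.mem_sup_left hx)) ?_
      intro y
      obtain ⟨x, rfl⟩ := QuotientGroup.mk_surjective y
      exact ⟨(x : ↥H ⧸ Cfsg.pResidual p ↥H), rfl⟩
    have hone : ∀ w : ↥H ⧸ K.subgroupOf H, ∀ n : ℕ, Nat.Coprime n p → w ^ n = 1 → w = 1 := by
      intro w n hn hw
      obtain ⟨k, hk⟩ := hM w
      exact orderOf_eq_one_iff.mp (Nat.eq_one_of_dvd_coprimes (Nat.Coprime.pow_right k hn)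
        (orderOf_dvd_of_pow_eq_one hw) (orderOf_dvd_of_pow_eq_one hk))
    have hker : Cfsg.pResidual p G ⊔ commutator G ≤ V.ker := by
      refine sup_le ((Subgroup.closure_le _).mpr fun x hx => ?_)
        (Abelianization.commutator_subset_ker _)
      exact MonoidHom.mem_ker.mpr (hone _ _ hx (by rw [← map_pow, pow_orderOf_eq_one, map_one]))
    have hform : ∀ x : ↥H, V x = ((x : ↥H ⧸ K.subgroupOf H)) ^ H.index := by
      intro x
      let E : Subgroup ↥H := (V.comp H.subtype).eqLocus
        ((powMonoidHom H.index).comp (QuotientGroup.mk' (K.subgroupOf H)))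
      suffices x ∈ E from this
      refine mem_of_prime_parts E x fun y _ hpp => ?_
      obtain ⟨q, k, hq, -, hqk⟩ := hpp
      by_cases hqp : q = p
      · subst hqp
        refine pow_index_mem H K (y : G) y.2 fun m a ha => ?_
        obtain ⟨z, hz, hze⟩ := hfus ((y : G) ^ m) (H.pow_mem y.2 m) (by
          obtain ⟨i, -, hi⟩ := (Nat.dvd_prime_pow Fact.out).mp
            ((orderOf_pow_dvd (x := (y : G)) m).trans (by rw [Subgroup.orderOf_coe, hqk]))
          exact ⟨i, hi⟩) a ha
        rw [← hze]
        refine ⟨⁅(⟨z, hz⟩ : ↥H), (⟨(y : G) ^ m, H.pow_mem y.2 m⟩ : ↥H)⁆,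
          Subgroup.mem_sup_right (Subgroup.commutator_mem_commutator trivial trivial), ?_⟩
        simp [commutatorElement_def]
      · have hc : Nat.Coprime (orderOf y) p := by
          rw [← hqk]
          exact Nat.Coprime.pow_left k ((Nat.coprime_primes (Nat.prime_iff.mpr hq) Fact.out).mpr hqp)
        change V (y : G) = ((y : ↥H ⧸ K.subgroupOf H)) ^ H.index
        rw [hone (V (y : G)) _ hc
            (by rw [← map_pow, ← Subgroup.orderOf_coe, pow_orderOf_eq_one, map_one]),
          hone (((y : ↥H ⧸ K.subgroupOf H)) ^ H.index) _ hc (by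
            rw [← pow_mul, mul_comm, pow_mul, ← QuotientGroup.mk_pow,
              pow_orderOf_eq_one, QuotientGroup.mk_one, one_pow])]
    have h1 := hform ⟨h, hh⟩
    rw [MonoidHom.mem_ker.mp (hker hhG)] at h1
    have h2 := hone _ _ hidx.symm h1.symm
    exact Subgroup.mem_subgroupOf.mp ((QuotientGroup.eq_one_iff _).mp h2)
  · refine le_inf ?_ (Subgroup.map_subtype_le _)
    rw [hK, hK₀, Subgroup.map_sup]
    refine sup_le_sup ?_ ?_
    · rw [Cfsg.pResidual, MonoidHom.map_closure]
      refine Subgroup.closure_mono ?_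
      rintro _ ⟨x, hx, rfl⟩
      simpa [Subgroup.orderOf_coe] using hx
    · rw [Subgroup.map_subtype_commutator]
      exact Subgroup.commutator_mono le_top le_top

end Cfsg.Agent.S1242
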