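import Cfsg.Statements.S1243
import Cfsg.Agent.TwoFus.Basic

set_option autoImplicit false
open Cfsg

namespace Cfsg.Agent.S1243

/-- Let T be a Sylow p-subgroup of the finite group G and W ≤ T a subgroup weakly closed in T. If d and g d g⁻¹ both centralize W, then g d g⁻¹ = h d h⁻¹ for some h ∈ N_G(W). -/
theorem result {G : Type*} [Group G] [Finite G] {p : ℕ} [Fact p.Prime] (T : Sylow p G) (W : Subgroup G) (hW : Cfsg.IsWeaklyClosed W (T : Subgroup G)) (d g : G) (hd : d ∈ Subgroup.centralizer (W : Set G)) (hgd : g * d * g⁻¹ ∈ Subgroup.centralizer (W : Set G)) : ∃ h ∈ Subgroup.normalizer (W : Set G), h * d * h⁻¹ = g * d * g⁻¹ := by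
  obtain ⟨hWT, hcl⟩ := hW
  set R := Subgroup.centralizer ({d} : Set G) with hR
  have hWR : W ≤ R := fun w hw => Subgroup.mem_centralizer_iff.2 fun x hx => by
    rw [Set.mem_singleton_iff.1 hx]; exact (Subgroup.mem_centralizer_iff.1 hd w hw).symm
  set V := W.map (MulAut.conj g⁻¹).toMonoidHom with hV
  have hVR : V ≤ R := fun v hv => Subgroup.mem_centralizer_iff.2 fun x hx => by
    rw [Set.mem_singleton_iff.1 hx]
    rw [hV, TwoFus.mem_conjMap, inv_inv] at hv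
    have := Subgroup.mem_centralizer_iff.1 hgd _ hv
    calc d * v = g⁻¹ * ((g * d * g⁻¹) * (g * v * g⁻¹)) * g := by group
      _ = g⁻¹ * ((g * v * g⁻¹) * (g * d * g⁻¹)) * g := by rw [this]
      _ = v * d := by group
  have hWp : IsPGroup p ↥W := T.isPGroup'.to_le hWT
  obtain ⟨R₁, hR₁⟩ :=
    (hWp.of_equiv (Subgroup.subgroupOfEquivOfLe hWR).symm).exists_le_sylow
  obtain ⟨r, hr⟩ := TwoFus.exists_conjMap_le R₁
    ((hWp.map (MulAut.conj g⁻¹).toMonoidHom).of_equiv (Subgroup.subgroupOfEquivOfLe hVR).symm)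
  obtain ⟨h, hh⟩ := TwoFus.exists_conjMap_le T (R₁.isPGroup'.map R.subtype)
  have e1 : W.map (MulAut.conj h⁻¹).toMonoidHom = W := hcl _ (by
    intro x hx
    rw [TwoFus.mem_conjMap, inv_inv] at hx
    have := TwoFus.mem_conjMap.1 (hh ⟨⟨_, hWR hx⟩, hR₁ hx, rfl⟩)
    simpa [mul_assoc] using this)
  have e2 : W.map (MulAut.conj (h⁻¹ * ((r : G)⁻¹ * g⁻¹))).toMonoidHom = W := hcl _ (by
    intro x hx
    rw [TwoFus.mem_conjMap] at hx
    have h2 : (r : G) * (h * x * h⁻¹) * (r : G)⁻¹ ∈ V := by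
      rw [hV, TwoFus.mem_conjMap]
      simpa [mul_assoc] using hx
    have hm : (⟨_, hVR h2⟩ : ↥R) ∈ V.subgroupOf R := h2
    have h3 := TwoFus.mem_conjMap.1 (hr hm)
    have := TwoFus.mem_conjMap.1 (hh ⟨_, h3, rfl⟩)
    simpa [mul_assoc] using this)
  have e3 : W.map (MulAut.conj ((r : G)⁻¹ * g⁻¹)).toMonoidHom = W := by
    simpa using TwoFus.conjMap_cancel (e2.trans e1.symm)
  have e4 := TwoFus.conjMap_inv e3
  refine ⟨g * r, TwoFus.mem_normalizer_of_conjMap_eq (by simpa using e4), ?_⟩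
  have := Subgroup.mem_centralizer_iff.1 r.2 d rfl
  calc g * r * d * (g * r)⁻¹ = g * ((r : G) * d) * (r : G)⁻¹ * g⁻¹ := by group
    _ = g * (d * r) * (r : G)⁻¹ * g⁻¹ := by rw [this]
    _ = g * d * g⁻¹ := by group

end Cfsg.Agent.S1243
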