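import Cfsg.Statements.S1244
import Mathlib.GroupTheory.Transfer

set_option autoImplicit false
open Cfsg

namespace Cfsg.Agent.S1244

/-- Let G be a finite group with no subgroup of index 2 whose Sylow 2-subgroup S is commutative, and let R ≤ S be a subgroup whose 2-rank is exactly one less than the 2-rank r of S. Then every involution of S is conjugate, by an element of N_G(S), to an element of R. -/
theorem result {G : Type*} [Group G] [Finite G] (hG : ∀ H : Subgroup G, H.index ≠ 2) (S : Sylow 2 G) (hS : IsMulCommutative (S : Subgroup G)) (r : ℕ) (hr1 : 1 ≤ r) (hSr : Cfsg.PRankLE 2 r (S : Subgroup G) ∧ ¬ Cfsg.PRankLE 2 (r - 1) (S : Subgroup G)) (R : Subgroup G) (hRS : R ≤ S) (hRr : Cfsg.PRankLE 2 (r - 1) R ∧ (r = 1 ∨ ¬ Cfsg.PRankLE 2 (r - 2) R)) (t : G) (ht : orderOf t = 2) (htS : t ∈ S) : ∃ n ∈ Subgroup.normalizer ((S : Subgroup G) : Set G), n * t * n⁻¹ ∈ R := by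
  classical
  haveI : Fact (Nat.Prime 2) := ⟨Nat.prime_two⟩
  by_contra hnone
  push Not at hnone
  let S₀ : Subgroup G := (S : Subgroup G)
  letI : CommGroup ↥S₀ := { (inferInstance : Group ↥S₀) with mul_comm := hS.is_comm.comm }
  set V : Subgroup ↥S₀ := (powMonoidHom 2 : ↥S₀ →* ↥S₀).ker with hV
  have hVmem : ∀ s : ↥S₀, s ∈ V ↔ s ^ 2 = 1 := fun s => Iff.rfl
  set W : Subgroup ↥S₀ := V ⊓ R.subgroupOf S₀ with hW
  have hpow : ∀ A : Subgroup ↥S₀, ∃ a, Nat.card ↥A = 2 ^ a := fun A =>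
    IsPGroup.iff_card.1 (S.isPGroup'.to_subgroup A)
  have hVcard : Nat.card ↥V = 2 ^ r := by
    obtain ⟨a, ha⟩ := hpow V
    have h1 := hSr.1 V ⟨⟨fun u v => mul_comm u v⟩⟩ fun u hu => (hVmem u).1 hu
    have h2 : ∃ A : Subgroup ↥S₀, (∀ u ∈ A, u ^ 2 = 1) ∧ 2 ^ (r - 1) < Nat.card ↥A := by
      by_contra hh
      push Not at hh
      exact hSr.2 fun A _ hA => hh A hA
    obtain ⟨A, hA, hA'⟩ := h2
    have h3 := hA'.trans_le (Subgroup.card_le_of_le (fun u hu => (hVmem u).2 (hA u hu) : A ≤ V))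
    rw [ha] at h1 h3
    have := (Nat.pow_le_pow_iff_right one_lt_two).1 h1
    have := (Nat.pow_lt_pow_iff_right one_lt_two).1 h3
    rw [ha]; congr 1; omega
  have hWcard : Nat.card ↥W = 2 ^ (r - 1) := by
    obtain ⟨a, ha⟩ := hpow W
    have eW : Nat.card ↥(W.map S₀.subtype) = Nat.card ↥W := Subgroup.card_map_of_injective Subtype.coe_injective
    have hle : W.map S₀.subtype ≤ R := by rintro _ ⟨u, hu, rfl⟩; exact hu.2
    have e2 : Nat.card ↥((W.map S₀.subtype).subgroupOf R) = Nat.card ↥W := by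
      rw [Nat.card_congr (Subgroup.subgroupOfEquivOfLe hle).toEquiv, eW]
    have h1 := hRr.1 ((W.map S₀.subtype).subgroupOf R)
      ⟨⟨fun u v => Subtype.ext (Subtype.ext
        (congrArg Subtype.val
          (hS.is_comm.comm ⟨((u : ↥R) : G), hRS u.1.2⟩ ⟨((v : ↥R) : G), hRS v.1.2⟩) :))⟩⟩
      (fun u hu => by
        obtain ⟨w, hw, e⟩ := hu
        refine Subtype.ext ?_
        rw [Subgroup.coe_pow, show (u : G) = (w : G) from e.symm]
        exact congrArg Subtype.val hw.1)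
    rw [e2, ha] at h1
    have h1' := (Nat.pow_le_pow_iff_right one_lt_two).1 h1
    rcases hRr.2 with h3 | h3
    · rw [ha]; congr 1; omega
    have h2 : ∃ A : Subgroup ↥R, (∀ u ∈ A, u ^ 2 = 1) ∧ 2 ^ (r - 2) < Nat.card ↥A := by
      by_contra hh
      push Not at hh
      exact h3 fun A _ hA => hh A hA
    obtain ⟨A, hA, hA'⟩ := h2
    have hle' : A.map R.subtype ≤ W.map S₀.subtype := by
      rintro _ ⟨u, hu, rfl⟩
      exact ⟨⟨(u : G), hRS u.2⟩, ⟨(hVmem _).2 (Subtype.ext (congrArg Subtype.val (hA u hu) :)), u.2⟩, rfl⟩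
    have h4 := Subgroup.card_le_of_le hle'
    rw [Subgroup.card_map_of_injective Subtype.coe_injective, eW, ha] at h4
    have := (Nat.pow_lt_pow_iff_right one_lt_two).1 (hA'.trans_le h4)
    rw [ha]; congr 1; omega
  have hWV : (W.subgroupOf V).index = 2 := by
    have h1 := Subgroup.card_mul_index (W.subgroupOf V)
    rw [Nat.card_congr (Subgroup.subgroupOfEquivOfLe (inf_le_left : W ≤ V)).toEquiv, hWcard, hVcard,
      show 2 ^ r = 2 ^ (r - 1) * 2 by rw [← pow_succ]; congr 1; omega] at h1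
    exact Nat.eq_of_mul_eq_mul_left (by positivity) h1
  set N : Subgroup G := Subgroup.normalizer (S₀ : Set G)
  have hSN : S₀ ≤ N := Subgroup.le_normalizer
  let f₀ : ↥N → ↥S₀ := fun n => ⟨(n : G) * t * (n : G)⁻¹, (Subgroup.mem_normalizer_iff.1 n.2 t).1 htS⟩
  let f : ↥N ⧸ S₀.subgroupOf N → ↥S₀ := fun q => Quotient.liftOn' q f₀ fun a b hab => by
    rw [QuotientGroup.leftRel_apply] at hab
    have hc := congrArg Subtype.val (hS.is_comm.comm ⟨_, hab⟩ ⟨t, htS⟩)
    refine Subtype.ext ?_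
    show (a : G) * t * (a : G)⁻¹ = (b : G) * t * (b : G)⁻¹
    change (a : G)⁻¹ * b * t = t * ((a : G)⁻¹ * b) at hc
    calc (a : G) * t * (a : G)⁻¹ = a * (t * ((a : G)⁻¹ * b)) * (b : G)⁻¹ := by group
      _ = a * ((a : G)⁻¹ * b * t) * (b : G)⁻¹ := by rw [hc]
      _ = b * t * (b : G)⁻¹ := by group
  haveI : Fintype (↥N ⧸ S₀.subgroupOf N) := Fintype.ofFinite _
  have hfV : ∀ q, f q ∈ V := fun q => Quotient.inductionOn' q fun n => (hVmem _).2 (Subtype.ext (by
    show ((n : G) * t * (n : G)⁻¹) ^ 2 = 1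
    rw [conj_pow, ← ht, pow_orderOf_eq_one, mul_one, mul_inv_cancel]))
  have hfR : ∀ q, f q ∉ W := fun q => Quotient.inductionOn' q fun n hn => hnone n n.2 hn.2
  have hprod : ∀ s : Finset (↥N ⧸ S₀.subgroupOf N), ∏ q ∈ s, f q ∈ V ∧ (∏ q ∈ s, f q ∈ W ↔ Even s.card) := by
    intro s
    induction s using Finset.induction with
    | empty => simp [one_mem]
    | @insert q s hq ih =>
      rw [Finset.prod_insert hq, Finset.card_insert_of_notMem hq]
      refine ⟨mul_mem (hfV q) ih.1, ?_⟩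
      have h1 := Subgroup.mul_mem_iff_of_index_two hWV (a := ⟨f q, hfV q⟩) (b := ⟨_, ih.1⟩)
      change f q * _ ∈ W ↔ (f q ∈ W ↔ _ ∈ W) at h1
      refine h1.trans ?_
      rw [Nat.even_add_one]
      have := hfR q
      have := ih.2
      tauto
  set p := ∏ q, f q with hp
  have hodd : ¬ Even (Fintype.card (↥N ⧸ S₀.subgroupOf N)) := by
    rw [even_iff_two_dvd, ← Nat.card_eq_fintype_card]
    exact fun h2 => S.not_dvd_index (h2.trans (Subgroup.relIndex_dvd_index_of_le hSN))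
  have hp1 : p ≠ 1 := fun e => by
    have := (hprod Finset.univ).2
    rw [← hp, e, Finset.card_univ] at this
    exact hodd (this.1 (one_mem W))
  have hpN : ∀ m ∈ N, m * (p : G) * m⁻¹ = p := by
    intro m hm
    let c : ↥S₀ →* ↥S₀ :=
      { toFun := fun s => ⟨m * s * m⁻¹, (Subgroup.mem_normalizer_iff.1 hm _).1 s.2⟩
        map_one' := Subtype.ext (by simp)
        map_mul' := fun a b => Subtype.ext (by simp) }
    have h1 : c p = p := by
      rw [hp, map_prod]
      refine Fintype.prod_equiv (MulAction.toPerm (⟨m, hm⟩ : ↥N)) _ _ fun q => ?_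
      induction q using Quotient.inductionOn' with
      | h n =>
        refine Subtype.ext ?_
        show m * ((n : G) * t * (n : G)⁻¹) * m⁻¹ = (m * (n : G)) * t * (m * (n : G))⁻¹
        group
    exact congrArg Subtype.val h1
  have hcent : ∀ u ∈ S₀, u ∈ Subgroup.centralizer (S₀ : Set G) := fun u hu =>
    Subgroup.mem_centralizer_iff.2 fun w hw => congrArg Subtype.val (hS.is_comm.comm ⟨w, hw⟩ ⟨u, hu⟩)
  have key : ∀ (k : ℕ) (g₀ : G), g₀⁻¹ * (p : G) ^ k * g₀ ∈ S₀ → g₀⁻¹ * (p : G) ^ k * g₀ = (p : G) ^ k := by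
    intro k g₀ hg₀
    obtain ⟨m, hm, e⟩ := Sylow.conj_eq_normalizer_conj_of_mem_centralizer S ((p : G) ^ k) g₀
      (hcent _ (pow_mem p.2 k)) (hcent _ hg₀)
    rw [e]
    have h1 := hpN m⁻¹ (inv_mem hm)
    calc m⁻¹ * (p : G) ^ k * m = (m⁻¹ * (p : G) * (m⁻¹)⁻¹) ^ k := by rw [conj_pow, inv_inv]
      _ = (p : G) ^ k := by rw [h1]
  let T : G →* ↥S₀ := MonoidHom.transfer (MonoidHom.id ↥S₀)
  have hT : T p ≠ 1 := by
    rw [show T p = _ from MonoidHom.transfer_eq_pow (MonoidHom.id ↥S₀) (p : G) key]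
    intro e
    have e' : (p : G) ^ S₀.index = 1 := congrArg Subtype.val e
    obtain ⟨j, hj⟩ : Odd S₀.index := Nat.not_even_iff_odd.1 (mt even_iff_two_dvd.1 S.not_dvd_index)
    have hp2 : (p : G) ^ 2 = 1 := congrArg Subtype.val ((hVmem p).1 (hprod Finset.univ).1)
    rw [hj, pow_succ, pow_mul, hp2, one_pow, one_mul] at e'
    exact hp1 (Subtype.ext e')
  obtain ⟨a, ha⟩ := hpow T.range
  have ha0 : a ≠ 0 := fun e => hT (by
    have h1 : T.range = ⊥ := Subgroup.card_eq_one.1 (by rw [ha, e, pow_zero])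
    exact Subgroup.mem_bot.1 (h1 ▸ ⟨_, rfl⟩))
  obtain ⟨a', rfl⟩ := Nat.exists_eq_succ_of_ne_zero ha0
  obtain ⟨K, hK⟩ := Sylow.exists_subgroup_card_pow_prime 2 (G := ↥T.range) (n := a') (ha ▸ pow_dvd_pow 2 a'.le_succ)
  refine hG (K.comap T.rangeRestrict) ?_
  rw [Subgroup.index_comap_of_surjective _ T.rangeRestrict_surjective]
  have h1 := K.card_mul_index
  rw [hK, ha, pow_succ] at h1
  exact Nat.eq_of_mul_eq_mul_left (by positivity) h1

end Cfsg.Agent.S1244
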