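import Cfsg.Statements.S1246
import Cfsg.Agent.Layer.CharP
import Cfsg.Agent.Coprime.AxB

set_option autoImplicit false
open Cfsg

namespace Cfsg.Agent.S1246

/-- Let V ≤ U be p-subgroups of the finite group G. If the generalized Fitting subgroup of C_G(V) is a p-group, then so is that of C_G(U). -/
theorem result {G : Type*} [Group G] [Finite G] {p : ℕ} [Fact p.Prime] (U V : Subgroup G) (hVU : V ≤ U) (hU : IsPGroup p U) (hV : IsPGroup p ↥(Cfsg.generalizedFittingSubgroup ↥(Subgroup.centralizer (V : Set G)))) : IsPGroup p ↥(Cfsg.generalizedFittingSubgroup ↥(Subgroup.centralizer (U : Set G))) := by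
  classical
  have key : ∀ (n : ℕ) (W : Subgroup G), W ≤ U → Nat.card U - Nat.card W = n →
      Subgroup.centralizer (Cfsg.pCore p ↥(Subgroup.centralizer (W : Set G)) : Set ↥(Subgroup.centralizer (W : Set G))) ≤
        Cfsg.pCore p ↥(Subgroup.centralizer (W : Set G)) →
      Subgroup.centralizer (Cfsg.pCore p ↥(Subgroup.centralizer (U : Set G)) : Set ↥(Subgroup.centralizer (U : Set G))) ≤
        Cfsg.pCore p ↥(Subgroup.centralizer (U : Set G)) := by
    intro n
    induction n using Nat.strong_induction_on with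
    | _ n ih =>
      intro W hWU hn hW
      rcases hWU.eq_or_lt with rfl | hlt
      · exact hW
      set W1 := U ⊓ Subgroup.normalizer (W : Set G) with hW1
      have hlt1 : W < W1 := by
        refine lt_of_le_of_ne (le_inf hWU Subgroup.le_normalizer) fun he => ?_
        haveI : Group.IsNilpotent ↥U := hU.isNilpotent
        have hne : W.subgroupOf U < ⊤ := lt_top_iff_ne_top.mpr fun ht => hlt.not_ge (Subgroup.subgroupOf_eq_top.mp ht)
        obtain ⟨x, hx, hxW⟩ := SetLike.exists_of_lt (normalizerCondition_of_isNilpotent (W.subgroupOf U) hne)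
        refine hxW ?_
        rw [Subgroup.mem_subgroupOf, he]
        refine ⟨x.2, Subgroup.mem_normalizer_iff.mpr fun b => ⟨fun hb => ?_, fun hb => ?_⟩⟩
        · exact (Subgroup.mem_normalizer_iff.mp hx ⟨b, hWU hb⟩).mp hb
        · have hbU : b ∈ U := by
            have h2 := U.mul_mem (U.mul_mem (U.inv_mem x.2) (hWU hb)) x.2
            simpa [mul_assoc] using h2
          exact (Subgroup.mem_normalizer_iff.mp hx ⟨b, hbU⟩).mpr hb
      have hc : Nat.card W < Nat.card W1 := Set.ncard_lt_ncard (SetLike.coe_ssubset_coe.mpr hlt1)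
      have hc1 : Nat.card W1 ≤ Nat.card U := Subgroup.card_le_of_le inf_le_left
      refine ih _ ?_ W1 inf_le_left rfl ?_
      · omega
      set C := Subgroup.centralizer (W : Set G) with hC
      set C1 := Subgroup.centralizer (W1 : Set G) with hC1
      set R := (Cfsg.pCore p ↥C).map C.subtype with hR
      have hRp : IsPGroup p ↥R := (Solv.pCore_mem (G := ↥C) p).2.map _
      have hC1C : C1 ≤ C := Subgroup.centralizer_le hlt1.le
      have hNR : Subgroup.normalizer (W : Set G) ≤ Subgroup.normalizer (R : Set G) := by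
        haveI : (Cfsg.pCore p ↥C).Characteristic := inferInstance
        have hCn : Subgroup.normalizer (W : Set G) ≤ Subgroup.normalizer (C : Set G) :=
          Layer.normalizer_le_normalizer_centralizer _
        exact hCn.trans (Layer.normalizer_le_normalizer_char _)
      set T := R ⊔ W1 with hT
      have hTp : IsPGroup p ↥T :=
        hRp.to_sup_of_normal_left' (hU.to_le inf_le_left) ((inf_le_right : W1 ≤ _).trans hNR)
      have hC1T : C1 ≤ Subgroup.normalizer (T : Set G) := by
        intro g hg
        show g ∈ Subgroup.normalizer ((R ⊔ W1 : Subgroup G) : Set G)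
        refine Subgroup.mem_normalizer_iff_map_conj_eq.mpr ?_
        show (R ⊔ W1).map _ = R ⊔ W1
        rw [Subgroup.map_sup]
        congr 1
        · exact Subgroup.mem_normalizer_iff_map_conj_eq.mp
            (hNR (Subgroup.centralizer_le_normalizer _ (hC1C hg)))
        · exact Subgroup.mem_normalizer_iff_map_conj_eq.mp (Subgroup.centralizer_le_normalizer _ hg)
      haveI hsn : ((T ⊓ C1).subgroupOf C1).Normal := ⟨fun z hz g => by
        rw [Subgroup.mem_subgroupOf] at hz ⊢
        exact ⟨(Subgroup.mem_normalizer_iff.mp (hC1T g.2) _).mp hz.1, C1.mul_mem (C1.mul_mem g.2 hz.2) (C1.inv_mem g.2)⟩⟩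
      have hle : (T ⊓ C1).subgroupOf C1 ≤ Cfsg.pCore p ↥C1 :=
        Solv.le_pCore hsn ((hTp.to_le inf_le_left).comap_subtype)
      intro y hy
      have hgoal : ∀ z : ↥C1, z ∈ Subgroup.centralizer (Cfsg.pCore p ↥C1 : Set ↥C1) → (orderOf z).Coprime p → z = 1 := by
        intro z hz hzo
        have hT1 : T ≤ Subgroup.centralizer {(z : G)} := by
          refine CoprimeAct.le_centralizer_of_axb hTp (by rwa [Subgroup.orderOf_coe]) (hC1T z.2)
            (le_sup_right : W1 ≤ R ⊔ W1) (fun w hw => Subgroup.mem_centralizer_singleton_iff.mpr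
              (Subgroup.mem_centralizer_iff.mp z.2 w hw)) (fun t ht => ?_)
          exact Subgroup.mem_centralizer_singleton_iff.mpr (congrArg Subtype.val
            (Subgroup.mem_centralizer_iff.mp hz ⟨t, ht.2⟩ (hle (show (⟨t, ht.2⟩ : ↥C1) ∈ (T ⊓ C1).subgroupOf C1 from ⟨ht.1, ht.2⟩))))
        have hzC : (⟨z, hC1C z.2⟩ : ↥C) ∈ Cfsg.pCore p ↥C := hW (Subgroup.mem_centralizer_iff.mpr fun r hr =>
          Subtype.ext (Subgroup.mem_centralizer_singleton_iff.mp (hT1 (Subgroup.mem_sup_left ⟨r, hr, rfl⟩))))
        have h1 := PSolv.eq_one_of_coprime_mem (Solv.pCore_mem (G := ↥C) p).2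
          (x := (⟨z, hC1C z.2⟩ : ↥C)) (by rw [Subgroup.orderOf_mk, Subgroup.orderOf_coe]; exact hzo) hzC
        exact Subtype.ext (congrArg Subtype.val h1 :)
      haveI := (Solv.pCore_mem (G := ↥C1) p).1
      refine Solv.le_pCore (p := p)
        (inferInstance : (Subgroup.centralizer (Cfsg.pCore p ↥C1 : Set ↥C1)).Normal) ?_ hy
      intro z
      refine ⟨(orderOf (z : ↥C1)).factorization p, Subtype.ext ?_⟩
      rw [SubmonoidClass.coe_pow, OneMemClass.coe_one]
      refine hgoal _ (Subgroup.pow_mem _ z.2 _) ?_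
      rw [orderOf_pow, Nat.gcd_eq_right (Nat.ordProj_dvd _ _)]
      exact (Nat.coprime_ordCompl (Fact.out : p.Prime) (orderOf_pos _).ne').symm
  have hstart : Cfsg.generalizedFittingSubgroup ↥(Subgroup.centralizer (V : Set G)) =
      Cfsg.pCore p ↥(Subgroup.centralizer (V : Set G)) :=
    le_antisymm (Solv.le_pCore inferInstance hV) ((Solv.pCore_le_fittingSubgroup p).trans le_sup_right)
  rw [Layer.fstar_eq_pCore_iff.mpr (key _ V hVU rfl (Layer.fstar_eq_pCore_iff.mp hstart))]
  exact (Solv.pCore_mem p).2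

end Cfsg.Agent.S1246
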