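import Cfsg.Statements.S1253
import Cfsg.Agent.TwoFus.Isolated

set_option autoImplicit false
open Cfsg

namespace Cfsg.Agent.S1253

/-- Let z be an isolated involution of the finite group G with centralizer C, p an odd prime and P a Sylow p-subgroup of G normalized by z. Then P ∩ C has p-power-free index in C (it is a Sylow p-subgroup of C), and |P : C_P(z)| equals the number of elements x ∈ P with z x z⁻¹ = x⁻¹. -/
theorem result {G : Type*} [Group G] [Finite G] (z : G) (hz : Cfsg.IsIsolatedInvolution z) {p : ℕ} [Fact p.Prime] (hp : p ≠ 2) (P : Sylow p G) (hzP : z ∈ Subgroup.normalizer ((P : Subgroup G) : Set G)) : ¬ p ∣ ((P : Subgroup G) ⊓ Subgroup.centralizer ({z} : Set G)).relIndex (Subgroup.centralizer ({z} : Set G)) ∧ ((P : Subgroup G) ⊓ Subgroup.centralizer ({z} : Set G)).relIndex (P : Subgroup G) = Nat.card {x : G // x ∈ P ∧ z * x * z⁻¹ = x⁻¹} := by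
  set C := Subgroup.centralizer ({z} : Set G) with hC
  have hodd : ∀ x ∈ (P : Subgroup G), Odd (orderOf x) := by
    intro x hx
    obtain ⟨j, hj⟩ := P.isPGroup' ⟨x, hx⟩
    exact Odd.of_dvd_nat ((Fact.out : p.Prime).odd_of_ne_two hp).pow
      (orderOf_dvd_of_pow_eq_one (by simpa using congrArg Subtype.val hj : x ^ p ^ j = 1))
  have hzP' : ∀ g ∈ (P : Subgroup G), g * z * g⁻¹ * z ∈ (P : Subgroup G) := by
    intro g hg
    have h := (Subgroup.mem_normalizer_iff.1 hzP g⁻¹).1 (Subgroup.inv_mem _ hg)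
    rw [TwoFus.Iso.inv_eq hz] at h
    simpa [mul_assoc] using Subgroup.mul_mem _ hg h
  refine ⟨?_, ?_⟩
  · -- a Sylow subgroup of `C` is no larger than `P ⊓ C`
    have hPC : IsPGroup p ↥(((P : Subgroup G) ⊓ C).subgroupOf C) :=
      (P.isPGroup'.to_le inf_le_left).of_equiv (Subgroup.subgroupOfEquivOfLe inf_le_right).symm
    obtain ⟨R, hR⟩ := hPC.exists_le_sylow
    suffices hcard : Nat.card ↥(R : Subgroup ↥C) ≤ Nat.card ↥(((P : Subgroup G) ⊓ C).subgroupOf C) by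
      show ¬ p ∣ (((P : Subgroup G) ⊓ C).subgroupOf C).index
      rw [Subgroup.eq_of_le_of_card_ge hR hcard]
      exact R.not_dvd_index
    obtain ⟨g, hg⟩ := TwoFus.exists_conjMap_le P (R.isPGroup'.map C.subtype)
    set t := g * z * g⁻¹ with ht
    have htz := TwoFus.Iso.isolated_conj hz g
    set S := (P : Subgroup G).map (MulAut.conj g).toMonoidHom with hS
    have hcardS : Nat.card ↥(S ⊓ Subgroup.centralizer ({t} : Set G)) =
        Nat.card ↥((P : Subgroup G) ⊓ C) := by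
      rw [← TwoFus.card_conjMap g ((P : Subgroup G) ⊓ C)]
      congr 3
      ext x
      simp only [hS, ht, hC, Subgroup.mem_inf, TwoFus.mem_conjMap,
        TwoFus.Iso.mem_centralizer_iff']
      refine and_congr Iff.rfl ⟨fun h => ?_, fun h => ?_⟩
      · calc z * (g⁻¹ * x * g) = g⁻¹ * (g * z * g⁻¹ * x) * g := by group
          _ = g⁻¹ * (x * (g * z * g⁻¹)) * g := by rw [h]
          _ = g⁻¹ * x * g * z := by group
      · calc g * z * g⁻¹ * x = g * (z * (g⁻¹ * x * g)) * g⁻¹ := by group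
          _ = g * (g⁻¹ * x * g * z) * g⁻¹ := by rw [h]
          _ = x * (g * z * g⁻¹) := by group
    rw [Nat.card_congr (Subgroup.subgroupOfEquivOfLe inf_le_right).toEquiv, ← hcardS]
    have hrep : ∀ a : ↥(R : Subgroup ↥C), ∃ k : G, TwoFus.Iso.InK t k ∧ k ∈ S ∧
        k⁻¹ * ((a : ↥C) : G) ∈ Subgroup.centralizer ({t} : Set G) := by
      intro a
      obtain ⟨k, hk, hkc, hkH⟩ := TwoFus.Iso.exists_rep htz ((a : ↥C) : G)
      have ha : ((a : ↥C) : G) ∈ S := hg ⟨_, a.2, rfl⟩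
      have haP : g⁻¹ * ((a : ↥C) : G) * g ∈ (P : Subgroup G) := TwoFus.mem_conjMap.1 ha
      refine ⟨k, hk, hkH S (TwoFus.mem_conjMap.2 ?_), ?_⟩
      · have := hzP' _ haP
        simpa [ht, mul_assoc] using this
      · simpa [ht, mul_assoc] using Subgroup.inv_mem _ hkc
    choose k hk hkS hkc using hrep
    refine Nat.card_le_card_of_injective (fun a => ⟨(k a)⁻¹ * ((a : ↥C) : G),
      S.mul_mem (S.inv_mem (hkS a)) (hg ⟨_, a.2, rfl⟩), hkc a⟩) ?_
    intro a b h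
    have h' : (k a)⁻¹ * ((a : ↥C) : G) = (k b)⁻¹ * ((b : ↥C) : G) := congrArg Subtype.val h
    have e : ((b : ↥C) : G) * ((a : ↥C) : G)⁻¹ = k b * (k a)⁻¹ := by
      calc ((b : ↥C) : G) * ((a : ↥C) : G)⁻¹ = k b * ((k b)⁻¹ * (b : ↥C)) * ((a : ↥C) : G)⁻¹ := by group
        _ = k b * ((k a)⁻¹ * (a : ↥C)) * ((a : ↥C) : G)⁻¹ := by rw [h']
        _ = k b * (k a)⁻¹ := by group
    obtain ⟨r, hr⟩ := TwoFus.Iso.exists_conj_of_inK htz (hk b)
    obtain ⟨r', hr'⟩ := TwoFus.Iso.exists_conj_of_inK htz (hk a)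
    have hba : ((b : ↥C) : G) * ((a : ↥C) : G)⁻¹ = (r * g) * z * (r * g)⁻¹ * ((r' * g) * z * (r' * g)⁻¹) := by
      have h1 : (r * g) * z * (r * g)⁻¹ = k b * t := by rw [hr]; group
      have h2 : (r' * g) * z * (r' * g)⁻¹ = k a * t := by rw [hr']; group
      have h3 : t * (k a * t) = (k a)⁻¹ := by
        have := (hk a).2
        rwa [TwoFus.Iso.inv_eq htz, mul_assoc] at this
      rw [h1, h2, mul_assoc, h3, e]
    have hcomm : Commute (((b : ↥C) : G) * ((a : ↥C) : G)⁻¹) z :=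
      (TwoFus.Iso.mem_centralizer_iff'.1 (C.mul_mem (b : ↥C).2 (C.inv_mem (a : ↥C).2))).symm
    rw [hba] at hcomm
    have heq := TwoFus.Iso.conj_eq_of_commute hz _ _ hcomm
    rw [heq, TwoFus.Iso.sq_one (TwoFus.Iso.isolated_conj hz _), mul_inv_eq_one] at hba
    exact Subtype.ext (Subtype.ext hba.symm)
  · -- representatives of the cosets of `C` in `P`
    set D := ((P : Subgroup G) ⊓ C).subgroupOf (P : Subgroup G) with hD
    refine (Nat.card_eq_of_bijective (fun x : {x : G // x ∈ (P : Subgroup G) ∧ z * x * z⁻¹ = x⁻¹} =>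
      (QuotientGroup.mk (⟨x.1, x.2.1⟩ : ↥(P : Subgroup G)) : ↥(P : Subgroup G) ⧸ D)) ⟨?_, ?_⟩).symm
    · intro x y h
      have h' := Subgroup.mem_subgroupOf.1 (QuotientGroup.eq.1 h)
      exact Subtype.ext (TwoFus.Iso.rep_unique hz ⟨hodd _ x.2.1, x.2.2⟩ ⟨hodd _ y.2.1, y.2.2⟩ h'.2)
    · intro q
      obtain ⟨⟨g, hg⟩, rfl⟩ := QuotientGroup.mk_surjective q
      obtain ⟨k, hk, hkc, hkH⟩ := TwoFus.Iso.exists_rep hz g
      have hkP : k ∈ (P : Subgroup G) := hkH _ (hzP' g hg)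
      refine ⟨⟨k, hkP, hk.2⟩, QuotientGroup.eq.2 (Subgroup.mem_subgroupOf.2 ⟨?_, ?_⟩)⟩
      · exact Subgroup.mul_mem _ (Subgroup.inv_mem _ hkP) hg
      · simpa [hC] using Subgroup.inv_mem _ hkc

end Cfsg.Agent.S1253
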