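import Cfsg.Statements.S1254
import Cfsg.Agent.TwoModels.Dihedral

set_option autoImplicit false
open Cfsg

namespace Cfsg.Agent.S1254

/-- Let X be a finite group whose Sylow 2-subgroup S is dihedral (of order at least 4). Then X has a normal 2-complement if and only if, for every Klein four-subgroup U ≤ S, the normalizer N_X(U) is generated by C_X(U) and N_S(U). -/
theorem result {X : Type*} [Group X] [Finite X] (S : Sylow 2 X) (m : ℕ) (hm : 2 ≤ m) (eS : (S : Subgroup X) ≃* DihedralGroup m) : Cfsg.HasNormalPComplement 2 X ↔ ∀ U : Subgroup X, U ≤ S → IsKleinFour U → Subgroup.normalizer (U : Set X) = Subgroup.centralizer (U : Set X) ⊔ ((S : Subgroup X) ⊓ Subgroup.normalizer (U : Set X)) := by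
  haveI : Fact (Nat.Prime 2) := ⟨Nat.prime_two⟩
  obtain ⟨h, A, B, hmh, hcard, d⟩ := TwoModels.IsDih.exists_coord S m hm eS
  constructor
  · intro hN U hUS hU
    obtain ⟨O, hO, hcomp⟩ := Transfer.hasNPC_complement_every hN S
    refine le_antisymm (fun n hn => ?_) (sup_le (Subgroup.centralizer_le_normalizer _) inf_le_right)
    obtain ⟨⟨o, s⟩, hos, -⟩ := hcomp.existsUnique n
    change (o : X) * (s : X) = n at hos
    have key : ∀ u ∈ U, n * u * n⁻¹ = (s : X) * u * (s : X)⁻¹ := by
      intro u hu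
      have h1 : (n * u * n⁻¹) * ((s : X) * u * (s : X)⁻¹)⁻¹ ∈ O := by
        rw [← hos, show (o : X) * s * u * ((o : X) * s)⁻¹ * ((s : X) * u * (s : X)⁻¹)⁻¹ =
          (o : X) * (((s : X) * u * (s : X)⁻¹) * (o : X)⁻¹ * ((s : X) * u * (s : X)⁻¹)⁻¹) by group]
        exact mul_mem o.2 (hO.conj_mem _ (inv_mem o.2) _)
      have h2 : (n * u * n⁻¹) * ((s : X) * u * (s : X)⁻¹)⁻¹ ∈ (S : Subgroup X) :=
        mul_mem (hUS ((Subgroup.mem_normalizer_iff.1 hn u).1 hu)) (inv_mem (mul_mem (mul_mem s.2 (hUS hu)) (inv_mem s.2)))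
      exact mul_inv_eq_one.1 (Subgroup.disjoint_def.1 hcomp.disjoint h1 h2)
    have hsN : (s : X) ∈ Subgroup.normalizer (U : Set X) := TwoModels.mem_normalizer_of fun u hu => by
      rw [← key u hu]; exact (Subgroup.mem_normalizer_iff.1 hn u).1 hu
    have hoC : (o : X) ∈ Subgroup.centralizer (U : Set X) := Subgroup.mem_centralizer_iff.2 fun w hw => by
      set u := (s : X)⁻¹ * w * s with hu'
      have hu : u ∈ U := by
        have := (Subgroup.mem_normalizer_iff.1 (inv_mem hsN) w).1 hw
        rwa [inv_inv] at this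
      have h1 := key u hu
      rw [hu', ← hos] at h1
      have h2 : (o : X) * w * (o : X)⁻¹ = w := by
        calc (o : X) * w * (o : X)⁻¹ = (o : X) * s * ((s : X)⁻¹ * w * s) * ((o : X) * s)⁻¹ := by group
          _ = (s : X) * ((s : X)⁻¹ * w * s) * (s : X)⁻¹ := h1
          _ = w := by group
      exact (mul_inv_eq_iff_eq_mul.1 h2).symm
    rw [← hos]
    exact mul_mem (Subgroup.mem_sup_left hoC) (Subgroup.mem_sup_right ⟨s.2, hsN⟩)
  · intro hyp
    refine d.hasNPC fun i => d.not_fused i fun n hn => ?_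
    rw [hyp _ (d.four_le i) (d.four_klein i)] at hn
    have hle : Subgroup.centralizer (TwoModels.IsDih.four h A B i : Set X) ⊔
        ((S : Subgroup X) ⊓ Subgroup.normalizer (TwoModels.IsDih.four h A B i : Set X)) ≤
          Subgroup.centralizer {A ^ (h : ℤ)} :=
      sup_le (Subgroup.centralizer_le fun w hw => by
          rw [Set.mem_singleton_iff.1 hw]; exact TwoModels.IsDih.c_mem_four i)
        fun s hs => Subgroup.mem_centralizer_iff.2 fun w hw => by
          rw [Set.mem_singleton_iff.1 hw]; exact d.c_comm hs.1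
    rw [← Subgroup.mem_centralizer_iff.1 (hle hn) _ rfl, mul_inv_cancel_right]

end Cfsg.Agent.S1254
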