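import Cfsg.Statements.S1255
import Cfsg.Agent.TwoModels.Dihedral

set_option autoImplicit false
open Cfsg

namespace Cfsg.Agent.S1255

/-- Let X be a finite group whose Sylow 2-subgroup S is dihedral of order 2m ≥ 4. Then X has no subgroup of index 2 and no isolated involution if and only if either all involutions of X are conjugate, or for every Klein four-subgroup U ≤ S the index |N_X(U) : C_X(U)| equals 3 when |S| = 4 and equals 6 when |S| > 4. -/
theorem result {X : Type*} [Group X] [Finite X] (S : Sylow 2 X) (m : ℕ) (hm : 2 ≤ m) (eS : (S : Subgroup X) ≃* DihedralGroup m) : ((∀ H : Subgroup X, H.index ≠ 2) ∧ (∀ z : X, ¬ Cfsg.IsIsolatedInvolution z)) ↔ ((∀ a b : X, orderOf a = 2 → orderOf b = 2 → IsConj a b) ∨ (∀ U : Subgroup X, U ≤ S → IsKleinFour U → (Subgroup.centralizer (U : Set X)).relIndex (Subgroup.normalizer (U : Set X)) = (if Nat.card S = 4 then 3 else 6))) := by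
  haveI : Fact (Nat.Prime 2) := ⟨Nat.prime_two⟩
  obtain ⟨h, A, B, hmh, hcard, d⟩ := TwoModels.IsDih.exists_coord S m hm eS
  constructor
  · rintro ⟨h2, -⟩
    left
    have hf : ∀ i : ℤ, IsConj (A ^ i * B) (A ^ (h : ℤ)) := fun i => by
      by_contra hne
      obtain ⟨M, -, hM, -⟩ := d.exists_index_two_avoid i hne
      exact h2 M hM
    exact fun a b ha hb => (d.one_class hf ha).trans (d.one_class hf hb).symm
  · intro hyp
    have hf : ∀ i : ℤ, IsConj (A ^ i * B) (A ^ (h : ℤ)) := fun i => by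
      rcases hyp with h1 | h1
      · exact h1 _ _ (d.refl_order i) d.c_order
      · refine d.fused i ?_
        rw [h1 _ (d.four_le i) (d.four_klein i)]
        split_ifs <;> omega
    refine ⟨d.no_index_two_of_one_class hf, fun z hz => ?_⟩
    obtain ⟨g, hg⟩ := isConj_iff.1 (d.one_class hf hz.1).symm
    obtain ⟨k, hk⟩ := isConj_iff.1 ((d.one_class hf hz.1).trans (hf 0).symm)
    have h2 : (g * k) * z * (g * k)⁻¹ = g * (A ^ (0 : ℤ) * B) * g⁻¹ := by rw [← hk]; group
    have h3 := hz.2 (g * k) (by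
      rw [h2, ← hg]
      show g * A ^ (h : ℤ) * g⁻¹ * (g * (A ^ (0 : ℤ) * B) * g⁻¹) = g * (A ^ (0 : ℤ) * B) * g⁻¹ * (g * A ^ (h : ℤ) * g⁻¹)
      calc g * A ^ (h : ℤ) * g⁻¹ * (g * (A ^ (0 : ℤ) * B) * g⁻¹) = g * (A ^ (h : ℤ) * (A ^ (0 : ℤ) * B)) * g⁻¹ := by group
        _ = g * ((A ^ (0 : ℤ) * B) * A ^ (h : ℤ)) * g⁻¹ := by rw [d.c_comm (d.refl_mem 0)]
        _ = g * (A ^ (0 : ℤ) * B) * g⁻¹ * (g * A ^ (h : ℤ) * g⁻¹) := by group)
    rw [h2, ← hg] at h3
    exact d.refl_ne_c 0 (mul_left_cancel (mul_right_cancel h3))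

end Cfsg.Agent.S1255
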