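import Cfsg.Statements.S1256
import Cfsg.Agent.TwoModels.Dihedral

set_option autoImplicit false
open Cfsg

namespace Cfsg.Agent.S1256

/-- Let X be a finite group whose Sylow 2-subgroup S is dihedral of order 2m ≥ 4. If |S| = 4, any two Klein four-subgroups of X are conjugate; if |S| > 4, there are Klein four-subgroups U₁, U₂ of X that are not conjugate, and every Klein four-subgroup of X is conjugate to U₁ or to U₂. -/
theorem result {X : Type*} [Group X] [Finite X] (S : Sylow 2 X) (m : ℕ) (hm : 2 ≤ m) (eS : (S : Subgroup X) ≃* DihedralGroup m) : (Nat.card S = 4 → ∀ U V : Subgroup X, IsKleinFour U → IsKleinFour V → (∃ x : X, U.map (MulAut.conj x).toMonoidHom = V)) ∧ (4 < Nat.card S → ∃ U₁ U₂ : Subgroup X, IsKleinFour U₁ ∧ IsKleinFour U₂ ∧ ¬ (∃ x : X, U₁.map (MulAut.conj x).toMonoidHom = U₂) ∧ ∀ V : Subgroup X, IsKleinFour V → (∃ x : X, V.map (MulAut.conj x).toMonoidHom = U₁) ∨ (∃ x : X, V.map (MulAut.conj x).toMonoidHom = U₂))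 := by
  haveI : Fact (Nat.Prime 2) := ⟨Nat.prime_two⟩
  obtain ⟨h, A, B, hmh, hcard, d⟩ := TwoModels.IsDih.exists_coord S m hm eS
  have hpos := d.hpos
  have into : ∀ V : Subgroup X, IsKleinFour V →
      ∃ g : X, ∃ i : ℤ, V.map (MulAut.conj g).toMonoidHom = TwoModels.IsDih.four h A B i := by
    intro V hV
    have hp : IsPGroup 2 ↥V := IsPGroup.of_card (n := 2) (by rw [hV.card_four]; norm_num)
    obtain ⟨g, -, hg⟩ := TwoModels.conj_into (L := ⊤) S le_top hp le_top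
    have e := V.equivMapOfInjective (MulAut.conj g).toMonoidHom (MulAut.conj g).injective
    obtain ⟨i, hi⟩ := d.four_shape (V := V.map (MulAut.conj g).toMonoidHom)
      ⟨by rw [← Nat.card_congr e.toEquiv]; exact hV.card_four,
        by rw [← Monoid.exponent_eq_of_mulEquiv e]; exact hV.exponent_two⟩
      (by rintro _ ⟨t, ht, rfl⟩; exact hg t ht)
    exact ⟨g, i, hi⟩
  have hmap : ∀ (g g' : X) (V : Subgroup X), (V.map (MulAut.conj g).toMonoidHom).map (MulAut.conj g').toMonoidHom =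
      V.map (MulAut.conj (g' * g)).toMonoidHom := fun g g' V => by
    rw [Subgroup.map_map]
    congr 1
    ext v
    simp [mul_assoc]
  refine ⟨fun h4 U V hU hV => ?_, fun h4 => ?_⟩
  · obtain ⟨g, i, hi⟩ := into U hU
    obtain ⟨g', j, hj⟩ := into V hV
    have hS : ∀ k : ℤ, TwoModels.IsDih.four h A B k = (S : Subgroup X) := fun k =>
      Subgroup.eq_of_le_of_card_ge (d.four_le k) (by rw [(d.four_klein k).card_four, h4])
    refine ⟨g'⁻¹ * g, ?_⟩
    rw [← hmap, hi, hS, ← hS j, ← hj, hmap, inv_mul_cancel]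
    ext v
    simp
  · have hh : 2 ∣ h := d.hev.resolve_left fun e => by omega
    obtain ⟨w, hw⟩ := hh
    set c := A ^ (h : ℤ)
    refine ⟨TwoModels.IsDih.four h A B 0, TwoModels.IsDih.four h A B 1, d.four_klein 0, d.four_klein 1, ?_, fun V hV => ?_⟩
    · rintro ⟨g₀, hg₀⟩
      -- adjust the conjugating element so that it fixes the central involution
      obtain ⟨g, hg, hgc⟩ : ∃ g : X, (∀ t ∈ TwoModels.IsDih.four h A B 0, g * t * g⁻¹ ∈ TwoModels.IsDih.four h A B 1) ∧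
          g * c * g⁻¹ = c := by
        have hg : ∀ t ∈ TwoModels.IsDih.four h A B 0, g₀ * t * g₀⁻¹ ∈ TwoModels.IsDih.four h A B 1 :=
          fun t ht => hg₀ ▸ ⟨t, ht, rfl⟩
        by_cases hc : g₀ * c * g₀⁻¹ = c
        · exact ⟨g₀, hg, hc⟩
        have hb := hg c (TwoModels.IsDih.c_mem_four 0)
        have hnf : IsConj (A ^ (1 : ℤ) * B) c := by
          have hswap : IsConj (A ^ (1 : ℤ) * B) (A ^ ((1 : ℤ) + h) * B) := isConj_iff.2 ⟨A ^ (w : ℤ), by
            rw [d.conj_refl, show (1 : ℤ) + 2 * w = 1 + h by rw [hw]; push_cast; ring]⟩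
          rcases d.mem_four 1 hb with e | e | e | e
          · exact absurd (conj_eq_one_iff.1 e) d.c_ne
          · exact absurd e hc
          · exact (isConj_iff.2 ⟨g₀, e⟩ : IsConj c _).symm
          · exact hswap.trans (isConj_iff.2 ⟨g₀, e⟩ : IsConj c _).symm
        obtain ⟨n, hn, hnc⟩ : ∃ n ∈ Subgroup.normalizer (TwoModels.IsDih.four h A B 1 : Set X), n * c * n⁻¹ ≠ c := by
          by_contra hne
          push Not at hne
          exact d.not_fused 1 hne hnf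
        -- the transposition of the two reflections
        have ht : ∀ k : ℤ, A ^ (w : ℤ) * (A ^ k * B) * (A ^ (w : ℤ))⁻¹ = A ^ (k + h) * B := fun k => by
          rw [d.conj_refl, show k + 2 * (w : ℤ) = k + h by rw [hw]; push_cast; ring]
        have htc : A ^ (w : ℤ) * c * (A ^ (w : ℤ))⁻¹ = c := by
          rw [← d.c_comm (zpow_mem d.XS _), mul_inv_cancel_right]
        have htN : A ^ (w : ℤ) ∈ Subgroup.normalizer (TwoModels.IsDih.four h A B 1 : Set X) :=
          TwoModels.mem_normalizer_of fun s hs => TwoModels.conj_sup_mem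
            (by rw [htc]; exact TwoModels.IsDih.c_mem_four 1) (by rw [ht]; exact d.refl'_mem_four 1) hs
        have htt : A ^ (w : ℤ) * (A ^ ((1 : ℤ) + h) * B) * (A ^ (w : ℤ))⁻¹ = A ^ (1 : ℤ) * B := by
          rw [ht, mul_left_inj, d.zpow_eq_iff]; exact ⟨-1, by ring⟩
        obtain ⟨n', hn', hn'c⟩ : ∃ n' ∈ Subgroup.normalizer (TwoModels.IsDih.four h A B 1 : Set X),
            n' * (g₀ * c * g₀⁻¹) * n'⁻¹ = c := by
          have hinv : ∀ {v : X}, n * c * n⁻¹ = v → n⁻¹ * v * (n⁻¹)⁻¹ = c := fun {v} e => by rw [← e]; group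
          rcases d.mem_four 1 hb with e | e | e | e
          · exact absurd (conj_eq_one_iff.1 e) d.c_ne
          · exact absurd e hc
          all_goals
            rcases d.mem_four 1 (TwoModels.normalizer_conj hn (TwoModels.IsDih.c_mem_four 1)) with e' | e' | e' | e'
            · exact absurd (conj_eq_one_iff.1 e') d.c_ne
            · exact absurd e' hnc
          · exact ⟨n⁻¹, inv_mem hn, e ▸ hinv e'⟩
          · refine ⟨n⁻¹ * A ^ (w : ℤ), mul_mem (inv_mem hn) htN, ?_⟩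
            rw [e, show n⁻¹ * A ^ (w : ℤ) * (A ^ (1 : ℤ) * B) * (n⁻¹ * A ^ (w : ℤ))⁻¹ =
              n⁻¹ * (A ^ (w : ℤ) * (A ^ (1 : ℤ) * B) * (A ^ (w : ℤ))⁻¹) * (n⁻¹)⁻¹ by group, ht]
            exact hinv e'
          · refine ⟨n⁻¹ * A ^ (w : ℤ), mul_mem (inv_mem hn) htN, ?_⟩
            rw [e, show n⁻¹ * A ^ (w : ℤ) * (A ^ ((1 : ℤ) + h) * B) * (n⁻¹ * A ^ (w : ℤ))⁻¹ =
              n⁻¹ * (A ^ (w : ℤ) * (A ^ ((1 : ℤ) + h) * B) * (A ^ (w : ℤ))⁻¹) * (n⁻¹)⁻¹ by group, htt]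
            exact hinv e'
          · exact ⟨n⁻¹, inv_mem hn, e ▸ hinv e'⟩
        refine ⟨n' * g₀, fun t ht' => ?_, ?_⟩
        · rw [show n' * g₀ * t * (n' * g₀)⁻¹ = n' * (g₀ * t * g₀⁻¹) * n'⁻¹ by group]
          exact TwoModels.normalizer_conj hn' (hg t ht')
        · rw [show n' * g₀ * c * (n' * g₀)⁻¹ = n' * (g₀ * c * g₀⁻¹) * n'⁻¹ by group]; exact hn'c
      -- fusion inside the centralizer of `c`
      set L := Subgroup.centralizer ({c} : Set X)
      have hSL : (S : Subgroup X) ≤ L := fun s hs => Subgroup.mem_centralizer_iff.2 fun v hv => by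
        rw [Set.mem_singleton_iff.1 hv]; exact d.c_comm hs
      have dL : TwoModels.IsDih (S.subtype hSL) h (⟨A, hSL d.XS⟩ : ↥L) ⟨B, hSL d.YS⟩ :=
        ⟨d.hpos, d.hev, by rw [← Subgroup.orderOf_coe]; exact d.hX, by rw [← Subgroup.orderOf_coe]; exact d.hY,
          Subtype.ext d.rel, fun ⟨r, hr⟩ => d.nmem ⟨r, by
            have := congrArg Subtype.val hr; simpa using this⟩, d.XS, d.YS, fun s hs => by
            obtain ⟨r, e | e⟩ := d.cases s hs
            · exact ⟨r, Or.inl (Subtype.ext (by simpa using e))⟩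
            · exact ⟨r, Or.inr (Subtype.ext (by simpa using e))⟩⟩
      have hnpc := dL.hasNPC fun r hr => by
        obtain ⟨u, hu⟩ := isConj_iff.1 hr.symm
        have h1 := congrArg Subtype.val hu
        simp only [Subgroup.coe_mul, Subgroup.coe_inv, Subgroup.coe_zpow] at h1
        rw [show (u : X) * A ^ (h : ℤ) = A ^ (h : ℤ) * u from (Subgroup.mem_centralizer_iff.1 u.2 c rfl).symm,
          mul_inv_cancel_right] at h1
        exact d.refl_ne_c r h1.symm
      obtain ⟨O, hO, hcomp⟩ := Transfer.hasNPC_complement_every hnpc (S.subtype hSL)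
      have hgL : g ∈ L := Subgroup.mem_centralizer_iff.2 fun v hv => by
        rw [Set.mem_singleton_iff.1 hv]; exact (mul_inv_eq_iff_eq_mul.1 hgc).symm
      obtain ⟨⟨o, s⟩, hos, -⟩ := hcomp.existsUnique (⟨g, hgL⟩ : ↥L)
      change (o : ↥L) * (s : ↥L) = ⟨g, hgL⟩ at hos
      let f : ↥L := ⟨A ^ (0 : ℤ) * B, hSL (d.refl_mem 0)⟩
      have hgf : g * (A ^ (0 : ℤ) * B) * g⁻¹ ∈ TwoModels.IsDih.four h A B 1 := hg _ (TwoModels.IsDih.refl_mem_four 0)
      have h1 : (⟨g, hgL⟩ : ↥L) * f * (⟨g, hgL⟩ : ↥L)⁻¹ * ((s : ↥L) * f * (s : ↥L)⁻¹)⁻¹ ∈ O := by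
        rw [← hos, show (o : ↥L) * s * f * ((o : ↥L) * s)⁻¹ * ((s : ↥L) * f * (s : ↥L)⁻¹)⁻¹ =
          (o : ↥L) * (((s : ↥L) * f * (s : ↥L)⁻¹) * (o : ↥L)⁻¹ * ((s : ↥L) * f * (s : ↥L)⁻¹)⁻¹) by group]
        exact mul_mem o.2 (hO.conj_mem _ (inv_mem o.2) _)
      have h2 : (⟨g, hgL⟩ : ↥L) * f * (⟨g, hgL⟩ : ↥L)⁻¹ * ((s : ↥L) * f * (s : ↥L)⁻¹)⁻¹ ∈
          ((S.subtype hSL : Sylow 2 ↥L) : Subgroup ↥L) :=
        mul_mem (show (⟨g, hgL⟩ : ↥L) * f * (⟨g, hgL⟩ : ↥L)⁻¹ ∈ ((S.subtype hSL : Sylow 2 ↥L) : Subgroup ↥L) from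
            d.four_le 1 hgf)
          (inv_mem (mul_mem (mul_mem s.2 (show f ∈ ((S.subtype hSL : Sylow 2 ↥L) : Subgroup ↥L) from d.refl_mem 0))
            (inv_mem s.2)))
      have h3 := mul_inv_eq_one.1 (Subgroup.disjoint_def.1 hcomp.disjoint h1 h2)
      have h4 : ((s : ↥L) : X) * (A ^ (0 : ℤ) * B) * ((s : ↥L) : X)⁻¹ ∈ TwoModels.IsDih.four h A B 1 := by
        rw [show ((s : ↥L) : X) * (A ^ (0 : ℤ) * B) * ((s : ↥L) : X)⁻¹ = g * (A ^ (0 : ℤ) * B) * g⁻¹ from
          (congrArg Subtype.val h3).symm]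
        exact hgf
      obtain ⟨r, hr⟩ : ∃ r : ℤ, ((s : ↥L) : X) * (A ^ (0 : ℤ) * B) * ((s : ↥L) : X)⁻¹ = A ^ (2 * r) * B := by
        obtain ⟨r, e | e⟩ := d.cases ((s : ↥L) : X) (show ((s : ↥L) : X) ∈ (S : Subgroup X) from s.2)
        · exact ⟨r, by rw [e, d.conj_refl, zero_add]⟩
        · refine ⟨r, ?_⟩
          rw [e, zpow_zero, one_mul, show A ^ r * B * B * (A ^ r * B)⁻¹ = A ^ r * (B * B) * B⁻¹ * (A ^ r)⁻¹ by group,
            d.yy, mul_one, inv_eq_of_mul_eq_one_right d.yy, ← zpow_neg, mul_assoc, d.y_pow, neg_neg, ← mul_assoc,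
            ← zpow_add, two_mul]
      rw [hr] at h4
      rcases d.mem_four 1 h4 with e | e | e | e
      · have := d.refl_order (2 * r); rw [e, orderOf_one] at this; omega
      · exact d.refl_ne_c _ e
      · obtain ⟨t, ht⟩ := d.zpow_eq_iff.1 (mul_right_cancel e)
        have : (2 : ℤ) ∣ 1 := ⟨(h : ℤ) * t + r, by linarith⟩
        omega
      · obtain ⟨t, ht⟩ := d.zpow_eq_iff.1 (mul_right_cancel e)
        have : (2 : ℤ) ∣ 1 := ⟨(h : ℤ) * t + r - w, by
          have : (h : ℤ) = 2 * w := by exact_mod_cast hw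
          linarith⟩
        omega
    · obtain ⟨g, i, hi⟩ := into V hV
      have hconj : ∀ i r : ℤ, (TwoModels.IsDih.four h A B i).map (MulAut.conj (A ^ r)).toMonoidHom =
          TwoModels.IsDih.four h A B (i + 2 * r) := fun i r => by
        unfold TwoModels.IsDih.four
        rw [Subgroup.map_sup, MonoidHom.map_zpowers, MonoidHom.map_zpowers]
        congr 2
        · show A ^ r * A ^ (h : ℤ) * (A ^ r)⁻¹ = A ^ (h : ℤ)
          rw [zpow_mul_comm, mul_inv_cancel_right]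
        · exact d.conj_refl r i
      rcases Int.even_or_odd' i with ⟨r, rfl | rfl⟩
      · exact Or.inl ⟨A ^ (-r) * g, by rw [← hmap, hi, hconj, show 2 * r + 2 * -r = 0 by ring]⟩
      · exact Or.inr ⟨A ^ (-r) * g, by rw [← hmap, hi, hconj, show 2 * r + 1 + 2 * -r = 1 by ring]⟩

end Cfsg.Agent.S1256
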