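import Cfsg.Statements.S1258
import Cfsg.Agent.Layer.Quasisimple

set_option autoImplicit false
open Cfsg
open scoped commutatorElement

namespace Cfsg.Agent.S1258

/-- If the central quotient of a finite group X is non-abelian simple, then X = X' Z(X) and the commutator subgroup X' is quasisimple. -/
theorem result {X : Type*} [Group X] [Finite X] (hs : IsSimpleGroup (X ⧸ Subgroup.center X)) (hna : ¬ IsMulCommutative (X ⧸ Subgroup.center X)) : commutator X ⊔ Subgroup.center X = ⊤ ∧ Cfsg.IsQuasisimple ↥(commutator X) := by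
  haveI : (commutator X).Normal := inferInstance
  set Z := Subgroup.center X
  have hsup : commutator X ⊔ Z = ⊤ := by
    rcases (Subgroup.Normal.map (inferInstance : (commutator X).Normal) (QuotientGroup.mk' Z)
      (QuotientGroup.mk'_surjective _)).eq_bot_or_eq_top with h | h
    · exfalso
      apply hna
      refine Subgroup.Normal.quotient_commutative_iff_commutator_le.mpr ?_
      rwa [Subgroup.map_eq_bot_iff, QuotientGroup.ker_mk'] at h
    · have := congrArg (Subgroup.comap (QuotientGroup.mk' Z)) h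
      rwa [Subgroup.comap_map_eq, QuotientGroup.ker_mk', Subgroup.comap_top] at this
  refine ⟨hsup, ?_⟩
  have hdec : ∀ x : X, ∃ d ∈ commutator X, ∃ z ∈ Z, x = d * z := fun x => by
    have hx : x ∈ commutator X ⊔ Z := hsup ▸ Subgroup.mem_top x
    obtain ⟨d, hd, z, hz, rfl⟩ := Subgroup.mem_sup_of_normal_right.mp hx
    exact ⟨d, hd, z, hz, rfl⟩
  have hDD : ⁅commutator X, commutator X⁆ = commutator X := by
    refine le_antisymm (Subgroup.commutator_le_self _) ?_
    conv_lhs => rw [commutator_def, Subgroup.commutator_def]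
    rw [Subgroup.closure_le]
    rintro _ ⟨a, -, b, -, rfl⟩
    obtain ⟨d, hd, z, hz, rfl⟩ := hdec a
    obtain ⟨e, he, w, hw, rfl⟩ := hdec b
    have h1 : z * (e * w) = e * w * z := (Subgroup.mem_center_iff.mp hz _).symm
    have h2 : w * d⁻¹ = d⁻¹ * w := (Subgroup.mem_center_iff.mp hw _).symm
    have e1 : ⁅d * z, e * w⁆ = ⁅d, e⁆ := by
      simp only [commutatorElement_def]
      calc d * z * (e * w) * (d * z)⁻¹ * (e * w)⁻¹ = d * (z * (e * w)) * z⁻¹ * d⁻¹ * (e * w)⁻¹ := by group
        _ = d * e * (w * d⁻¹) * w⁻¹ * e⁻¹ := by rw [h1]; group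
        _ = d * e * d⁻¹ * e⁻¹ := by rw [h2]; group
    rw [e1]
    exact Subgroup.commutator_mem_commutator hd he
  refine Layer.isQuasisimple_of (Subgroup.isPerfect_iff.mpr hDD) ?_ fun N hN hNtop n hn => ?_
  · rw [Subgroup.nontrivial_iff_ne_bot]
    intro hbot
    apply hna
    exact Subgroup.Normal.quotient_commutative_iff_commutator_le.mpr (hbot ▸ bot_le)
  · haveI : (N.map (commutator X).subtype).Normal := by
      refine ⟨fun m hm x => ?_⟩
      obtain ⟨d, hd, z, hz, rfl⟩ := hdec x
      obtain ⟨u, hu, rfl⟩ := hm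
      refine ⟨⟨d, hd⟩ * u * ⟨d, hd⟩⁻¹, hN.conj_mem u hu _, ?_⟩
      have h1 : z * (u : X) = u * z := (Subgroup.mem_center_iff.mp hz _).symm
      calc d * (u : X) * d⁻¹ = d * (u * z) * z⁻¹ * d⁻¹ := by group
        _ = d * z * (u : X) * (d * z)⁻¹ := by rw [← h1]; group
    set M := N.map (commutator X).subtype
    rcases (Subgroup.Normal.map (inferInstance : M.Normal) (QuotientGroup.mk' Z)
      (QuotientGroup.mk'_surjective _)).eq_bot_or_eq_top with h | h
    · rw [Subgroup.map_eq_bot_iff, QuotientGroup.ker_mk'] at h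
      have hc := h ⟨n, hn, rfl⟩
      rw [Subgroup.mem_center_iff]
      exact fun k => Subtype.ext (Subgroup.mem_center_iff.mp hc k)
    · exfalso
      apply hNtop
      have hMZ : M ⊔ Z = ⊤ := by
        have := congrArg (Subgroup.comap (QuotientGroup.mk' Z)) h
        rwa [Subgroup.comap_map_eq, QuotientGroup.ker_mk', Subgroup.comap_top] at this
      have hle : commutator X ≤ M := by
        rw [← hDD, Subgroup.commutator_le]
        intro a ha b _
        have haM : a ∈ M ⊔ Z := hMZ ▸ Subgroup.mem_top a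
        obtain ⟨m, hm, z, hz, rfl⟩ := Subgroup.mem_sup_of_normal_right.mp haM
        have h1 : z * b = b * z := (Subgroup.mem_center_iff.mp hz b).symm
        have e : ⁅m * z, b⁆ = m * (b * m⁻¹ * b⁻¹) := by
          simp only [commutatorElement_def]
          calc m * z * b * (m * z)⁻¹ * b⁻¹ = m * (z * b) * z⁻¹ * m⁻¹ * b⁻¹ := by group
            _ = m * (b * m⁻¹ * b⁻¹) := by rw [h1]; group
        rw [e]
        exact mul_mem hm ((inferInstance : M.Normal).conj_mem _ (inv_mem hm) b)
      rw [eq_top_iff]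
      rintro ⟨x, hx⟩ -
      obtain ⟨y, hy, hyx⟩ := hle hx
      have : y = ⟨x, hx⟩ := Subtype.ext hyx
      exact this ▸ hy

end Cfsg.Agent.S1258
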