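import Cfsg.Statements.S1264
import Cfsg.Agent.Layer.Decomp

set_option autoImplicit false
open Cfsg

namespace Cfsg.Agent.S1264

/-- Let G be finite, C = C_G(F(G)) the centralizer of the Fitting subgroup, and N a solvable subgroup of C normalized by C. Then N ≤ Z(F(G)). -/
theorem result {G : Type*} [Group G] [Finite G] (N : Subgroup G) (hN : N ≤ Subgroup.centralizer (Cfsg.fittingSubgroup G : Set G)) (hnorm : Subgroup.centralizer (Cfsg.fittingSubgroup G : Set G) ≤ Subgroup.normalizer (N : Set G)) (hsolv : Group.IsSolvable ↥N) : N ≤ (Subgroup.center ↥(Cfsg.fittingSubgroup G)).map (Cfsg.fittingSubgroup G).subtype := by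
  set C := Subgroup.centralizer (Cfsg.fittingSubgroup G : Set G)
  haveI : C.Normal := inferInstance
  have hsn : N.IsSubnormal := Subgroup.IsSubnormal.trans hN
    (Subgroup.normal_subgroupOf_of_le_normalizer hnorm).isSubnormal (Subgroup.Normal.isSubnormal inferInstance)
  obtain ⟨R, hR, hRs, hle⟩ := Layer.exists_solvable_normal_ge hsn hsolv
  haveI := hR
  have hs : Group.IsSolvable (R ⊓ C : Subgroup G) := by
    haveI := hRs
    exact Group.isSolvable_of_isSolvable_injective (f := Subgroup.inclusion (inf_le_left : R ⊓ C ≤ R))
      (Subgroup.inclusion_injective _)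
  have h1 := Layer.solvable_normal_le_fitting inferInstance hs inf_le_right
  rw [Layer.center_map_eq_inf_centralizer]
  exact le_inf ((le_inf hle hN).trans h1) hN

end Cfsg.Agent.S1264
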