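import Cfsg.Statements.S1266
import Cfsg.Agent.Layer.PElement

set_option autoImplicit false
open Cfsg
open scoped commutatorElement

namespace Cfsg.Agent.S1266

/-- Let P be a p-subgroup of the finite group G and N = N_G(P). Then the preimage in N of E(N / O_{p'}(N)) centralizes O_p(G). -/
theorem result {G : Type*} [Group G] [Finite G] (p : ℕ) [Fact p.Prime] (P : Subgroup G) (hP : IsPGroup p ↥P) : (((Cfsg.layer (↥(Subgroup.normalizer ((P : Subgroup G) : Set G)) ⧸ Cfsg.pPrimeCore p ↥(Subgroup.normalizer ((P : Subgroup G) : Set G)))).comap (QuotientGroup.mk' (Cfsg.pPrimeCore p ↥(Subgroup.normalizer ((P : Subgroup G) : Set G))))).map (Subgroup.normalizer ((P : Subgroup G) : Set G)).subtype) ≤ Subgroup.centralizer (Cfsg.pCore p G : Set G) := by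
  classical
  set N := Subgroup.normalizer (P : Set G) with hN
  set π := QuotientGroup.mk' (Cfsg.pPrimeCore p ↥N) with hπ
  haveI := (Solv.pPrimeCore_mem (G := ↥N) p).1
  set E := Cfsg.layer (↥N ⧸ Cfsg.pPrimeCore p ↥N) with hE
  set L := E.comap π with hL
  haveI : L.Normal := Subgroup.Normal.comap inferInstance _
  -- `L` centralizes every normal `p`-subgroup of `N`
  have hcent : ∀ S : Subgroup ↥N, S.Normal → IsPGroup p ↥S → L ≤ Subgroup.centralizer (S : Set ↥N) := by
    intro S hSn hS x hx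
    rw [Subgroup.mem_centralizer_iff]
    intro s hs
    haveI := hSn
    haveI hSm : (S.map π).Normal := Subgroup.Normal.map hSn π (QuotientGroup.mk'_surjective _)
    have h1 : π x ∈ Subgroup.centralizer ((Cfsg.fittingSubgroup _ : Subgroup (↥N ⧸ Cfsg.pPrimeCore p ↥N)) : Set _) :=
      Layer.layer_le_centralizer_fitting hx
    have h2 : π s ∈ Cfsg.fittingSubgroup (↥N ⧸ Cfsg.pPrimeCore p ↥N) :=
      Solv.pCore_le_fittingSubgroup p (Solv.le_pCore hSm (hS.map π) (Subgroup.mem_map_of_mem _ hs))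
    have h3 : ⁅s, x⁆ ∈ Cfsg.pPrimeCore p ↥N := by
      refine (QuotientGroup.eq_one_iff _).mp ?_
      show π ⁅s, x⁆ = 1
      rw [map_commutatorElement, commutatorElement_eq_one_iff_mul_comm]
      exact Subgroup.mem_centralizer_iff.mp h1 _ h2
    have h4 : ⁅s, x⁆ ∈ S := by
      rw [commutatorElement_def, mul_assoc, mul_assoc]
      refine S.mul_mem hs ?_
      rw [← mul_assoc]
      exact hSn.conj_mem _ (S.inv_mem hs) x
    exact commutatorElement_eq_one_iff_mul_comm.mp (PSolv.eq_one_of_mem hS PSolv.not_dvd_pPrimeCore h4 h3)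
  set R := Cfsg.pCore p G with hR
  haveI : R.Normal := (Solv.pCore_mem p).1
  set T := R ⊔ P with hTdef
  have hT : IsPGroup p ↥T := IsPGroup.to_sup_of_normal_left (Solv.pCore_mem p).2 hP
  have hTN : N ≤ Subgroup.normalizer (T : Set G) :=
    Layer.le_normalizer_sup (by rw [Subgroup.normalizer_eq_top_iff.mpr inferInstance]; exact le_top) le_rfl
  haveI hTn : (T.subgroupOf N).Normal := ⟨fun z hz g => by
    rw [Subgroup.mem_subgroupOf] at hz ⊢
    exact (Subgroup.mem_normalizer_iff.mp (hTN g.2) _).mp hz⟩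
  haveI hCn : ((Subgroup.centralizer (R : Set G)).subgroupOf N).Normal := Subgroup.Normal.comap inferInstance _
  set D := L ⊓ (Subgroup.centralizer (R : Set G)).subgroupOf N with hD
  have hp' : ∀ y : ↥N, y ∈ L → (orderOf y).Coprime p → y ∈ D := by
    intro y hy hyo
    refine ⟨hy, ?_⟩
    have h := CoprimeAct.le_centralizer_of_axb hT (x := (y : G)) (by rwa [Subgroup.orderOf_coe]) (hTN y.2)
      (le_sup_right : P ≤ R ⊔ P) (fun u hu => Subgroup.mem_centralizer_singleton_iff.mpr (congrArg Subtype.val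
        (Subgroup.mem_centralizer_iff.mp (hcent (P.subgroupOf N) Subgroup.normal_in_normalizer hP.comap_subtype hy)
          ⟨u, Subgroup.le_normalizer hu⟩ hu)))
      (fun t ht => Subgroup.mem_centralizer_singleton_iff.mpr (congrArg Subtype.val
        (Subgroup.mem_centralizer_iff.mp (hcent (T.subgroupOf N) inferInstance hT.comap_subtype hy)
          ⟨t, Subgroup.centralizer_le_normalizer _ ht.2⟩ ht.1)))
    exact Subgroup.mem_centralizer_iff.mpr fun r hr =>
      Subgroup.mem_centralizer_singleton_iff.mp (h (Subgroup.mem_sup_left hr))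
  have hOD : Cfsg.pPrimeCore p ↥N ≤ D := fun y hy => hp' y
    (by show π y ∈ E; rw [show π y = 1 from (QuotientGroup.eq_one_iff y).mpr hy]; exact one_mem _)
    (PSolv.coprime_orderOf_of_mem PSolv.not_dvd_pPrimeCore hy)
  haveI : D.Normal := inferInstance
  haveI : (D.map π).Normal := Subgroup.Normal.map inferInstance π (QuotientGroup.mk'_surjective _)
  let q := QuotientGroup.mk' (D.map π)
  have hEp : IsPGroup p ↥(E.map q) := by
    rintro ⟨_, e, he, rfl⟩
    obtain ⟨y, rfl⟩ := QuotientGroup.mk'_surjective (Cfsg.pPrimeCore p ↥N) e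
    refine ⟨(orderOf y).factorization p, Subtype.ext ?_⟩
    rw [SubmonoidClass.coe_pow, OneMemClass.coe_one]
    show (q (π y)) ^ p ^ (orderOf y).factorization p = 1
    rw [← map_pow, ← map_pow]
    refine (QuotientGroup.eq_one_iff _).mpr (Subgroup.mem_map_of_mem π (hp' _ ?_ ?_))
    · exact L.pow_mem (he : π y ∈ E) _
    · rw [orderOf_pow, Nat.gcd_eq_right (Nat.ordProj_dvd _ _)]
      exact (Nat.coprime_ordCompl (Fact.out : p.Prime) (orderOf_pos y).ne').symm
  have hperf : ⁅E.map q, E.map q⁆ = E.map q := by rw [← Subgroup.map_commutator, Layer.layer_perfect]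
  haveI : Group.IsPerfect ↥(E.map q) := Subgroup.isPerfect_iff.mpr hperf
  haveI : Group.IsNilpotent ↥(E.map q) := hEp.isNilpotent
  have hbot : E.map q = ⊥ := by
    by_contra hne
    haveI : Nontrivial ↥(E.map q) := (Subgroup.nontrivial_iff_ne_bot _).mpr hne
    exact Group.IsPerfect.not_isSolvable ↥(E.map q) inferInstance
  rintro _ ⟨x, hx, rfl⟩
  have h := Subgroup.mem_map_of_mem q (show π x ∈ E from hx)
  rw [hbot, Subgroup.mem_bot] at h
  obtain ⟨d, hd, hde⟩ := (QuotientGroup.eq_one_iff _).mp h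
  have : d⁻¹ * x ∈ D := hOD ((QuotientGroup.eq (s := Cfsg.pPrimeCore p ↥N)).mp hde)
  have hxD : x ∈ D := by simpa using D.mul_mem hd this
  exact hxD.2

end Cfsg.Agent.S1266
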