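import Cfsg.Statements.S1267
import Cfsg.Agent.Layer.Decomp
import Cfsg.Agent.Coprime.AxB

set_option autoImplicit false
open Cfsg

namespace Cfsg.Agent.S1267


open scoped commutatorElement

/-- Let G be finite and P ≤ O_p(G). Then E(N_G(P)) = E(G). -/
theorem result {G : Type*} [Group G] [Finite G] (p : ℕ) [Fact p.Prime] (P : Subgroup G) (hP : P ≤ Cfsg.pCore p G) : (Cfsg.layer ↥(Subgroup.normalizer ((P : Subgroup G) : Set G))).map (Subgroup.normalizer ((P : Subgroup G) : Set G)).subtype = Cfsg.layer G := by
  set N := Subgroup.normalizer ((P : Subgroup G) : Set G) with hN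
  set Q := Cfsg.pCore p G with hQ
  haveI : Q.Normal := (Solv.pCore_mem p).1
  have hQF : Q ≤ Cfsg.fittingSubgroup G := Solv.pCore_le_fittingSubgroup p
  have hE : Cfsg.layer G ≤ N := by
    intro e he u
    have hc := Layer.layer_le_centralizer_fitting he
    refine ⟨fun hu => ?_, fun hu => ?_⟩
    · have := Subgroup.mem_centralizer_iff.mp hc u (hQF (hP hu))
      rw [show e * u * e⁻¹ = u by rw [← this]; group]; exact hu
    · have := Subgroup.mem_centralizer_iff.mp hc _ (hQF (hP hu))
      rw [show u = e * u * e⁻¹ by
        calc u = e⁻¹ * (e * u * e⁻¹ * e) := by group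
          _ = e⁻¹ * (e * (e * u * e⁻¹)) := by rw [this]
          _ = e * u * e⁻¹ := by group]
      exact hu
  refine le_antisymm ?_ ?_
  · rw [Cfsg.layer, sSup_eq_iSup', Subgroup.map_iSup]
    refine iSup_le fun ⟨L, hL⟩ => ?_
    by_contra hnot
    set L' := L.map N.subtype with hL'
    have hLN : L' ≤ N := Subgroup.map_subtype_le _
    have hperf : ⁅L', L'⁆ = L' := by rw [hL', ← Subgroup.map_commutator, Layer.component_perfect hL]
    -- `L` centralizes the solvable normal subgroups of `N`
    have hsolv : ∀ R : Subgroup G, Group.IsSolvable ↥R → L' ≤ Subgroup.normalizer (R : Set G) → R ≤ N →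
        L' ≤ Subgroup.centralizer (R : Set G) := by
      intro R hR hn hRN
      haveI := hR
      have h1 : ⁅L, R.subgroupOf N⁆ = ⊥ := by
        refine Layer.component_centralizes_solvable hL
          (Group.isSolvable_of_surjective (f := (Subgroup.subgroupOfEquivOfLe hRN).symm.toMonoidHom)
            (MulEquiv.surjective _)) ?_
        intro l hl u
        have := (Subgroup.mem_normalizer_iff.mp (hn (Subgroup.mem_map_of_mem _ hl))) (u : G)
        exact this
      have h2 := congrArg (Subgroup.map N.subtype) h1
      rw [Subgroup.map_commutator, Subgroup.map_subgroupOf_eq_of_le hRN, Subgroup.map_bot] at h2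
      exact Subgroup.commutator_eq_bot_iff_le_centralizer.mp h2
    have hQp : IsPGroup p Q := (Solv.pCore_mem p).2
    have hQN : L' ≤ Subgroup.centralizer ((Q ⊓ N : Subgroup G) : Set G) := by
      haveI := (hQp.to_le (inf_le_left : Q ⊓ N ≤ Q)).isNilpotent
      refine hsolv _ inferInstance ?_ inf_le_right
      intro l hl u
      simp only [SetLike.mem_coe, Subgroup.mem_inf]
      exact and_congr (Subgroup.mem_normalizer_iff.mp
        (by rw [Subgroup.normalizer_eq_top_iff.mpr inferInstance]; trivial) u) ((Subgroup.le_normalizer (hLN hl)) u)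
    have hPQN : P ≤ Q ⊓ N := le_inf hP Subgroup.le_normalizer
    have hpprime : ∀ x ∈ L', (orderOf x).Coprime p → x ∈ Subgroup.centralizer (Q : Set G) := by
      intro x hx hxo
      have hxc : Q ⊓ N ≤ Subgroup.centralizer ({x} : Set G) := fun u hu =>
        Subgroup.mem_centralizer_singleton_iff.mpr (Subgroup.mem_centralizer_iff.mp (hQN hx) u hu)
      have hxQ : x ∈ Subgroup.normalizer (Q : Set G) := by
        rw [Subgroup.normalizer_eq_top_iff.mpr inferInstance]; trivial
      have h := CoprimeAct.le_centralizer_of_axb hQp hxo hxQ hP (hPQN.trans hxc) (by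
        refine le_trans (le_inf inf_le_left ?_) hxc
        refine inf_le_right.trans ?_
        exact Subgroup.centralizer_le_normalizer _)
      exact Subgroup.mem_centralizer_iff.mpr fun u hu => Subgroup.mem_centralizer_singleton_iff.mp (h hu)
    have hLQ : L' ≤ Subgroup.centralizer (Q : Set G) := by
      have hqs := Layer.isQuasisimple_of_mulEquiv (L.equivMapOfInjective N.subtype N.subtype_injective) hL.2
      have hK : ((Subgroup.centralizer (Q : Set G)).subgroupOf L').Normal := inferInstance
      rcases Layer.eq_top_or_le_center hqs hK with h | h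
      · exact Subgroup.subgroupOf_eq_top.mp h
      · exfalso
        -- otherwise `L'` modulo its centre is a `p`-group
        have hnab := Layer.not_isSolvable_of_isQuasisimple hqs
        apply hnab
        have hpg : IsPGroup p (↥L' ⧸ Subgroup.center ↥L') := by
          intro z
          obtain ⟨x, rfl⟩ := QuotientGroup.mk'_surjective _ z
          refine ⟨(orderOf x).factorization p, ?_⟩
          rw [← map_pow, QuotientGroup.mk'_apply, QuotientGroup.eq_one_iff]
          refine h ?_
          show ((x ^ p ^ (orderOf x).factorization p : ↥L') : G) ∈ Subgroup.centralizer (Q : Set G)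
          refine hpprime _ (x ^ p ^ (orderOf x).factorization p).2 ?_
          rw [Subgroup.orderOf_coe, orderOf_pow, Nat.gcd_eq_right (Nat.ordProj_dvd _ _)]
          exact (Nat.coprime_ordCompl (Fact.out : p.Prime) (orderOf_pos x).ne').symm
        haveI := hpg.isNilpotent
        rw [Group.isSolvable_iff_subgroup_quotient (Subgroup.center ↥L')]
        exact ⟨Group.isSolvable_of_comm fun a b => mul_comm' a b, inferInstance⟩
    have hLF : L' ≤ Subgroup.centralizer (Cfsg.fittingSubgroup G : Set G) := by
      rw [Subgroup.le_centralizer_iff, Solv.fittingSubgroup_eq_iSup]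
      refine iSup_le fun q => ?_
      rw [← Subgroup.le_centralizer_iff]
      haveI := Fact.mk q.2
      by_cases hqp : (q : ℕ) = p
      · rw [hqp]; exact hLQ
      · have hqN : Cfsg.pCore (q : ℕ) G ≤ N := by
          intro u hu
          refine Subgroup.centralizer_le_normalizer _ ?_
          refine Subgroup.mem_centralizer_iff.mpr fun v hv => ?_
          exact (Solv.pCore_commute (Ne.symm hqp) (hP hv) hu).eq
        haveI := (Solv.pCore_mem (G := G) (q : ℕ)).2.isNilpotent
        refine hsolv _ inferInstance ?_ hqN
        haveI := (Solv.pCore_mem (G := G) (q : ℕ)).1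
        rw [Subgroup.normalizer_eq_top_iff.mpr inferInstance]; exact le_top
    have hLE : L' ≤ Subgroup.centralizer (Cfsg.layer G : Set G) := by
      rw [Subgroup.le_centralizer_iff, Cfsg.layer]
      refine sSup_le fun K hK => ?_
      rw [← Subgroup.le_centralizer_iff]
      have hKN : K ≤ N := (Layer.component_le_layer hK).trans hE
      have hK' := Layer.isComponent_subgroupOf hK hKN
      have hne : L ≠ K.subgroupOf N := by
        intro h
        apply hnot
        show L.map N.subtype ≤ Cfsg.layer G
        rw [h, Subgroup.map_subgroupOf_eq_of_le hKN]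
        exact Layer.component_le_layer hK
      have h1 := congrArg (Subgroup.map N.subtype) (Layer.components_commute hL hK' hne)
      rw [Subgroup.map_commutator, Subgroup.map_subgroupOf_eq_of_le hKN, Subgroup.map_bot] at h1
      exact Subgroup.commutator_eq_bot_iff_le_centralizer.mp h1
    have hLC : L' ≤ Subgroup.centralizer (Cfsg.generalizedFittingSubgroup G : Set G) := by
      rw [Subgroup.le_centralizer_iff, Cfsg.generalizedFittingSubgroup]
      exact sup_le (Subgroup.le_centralizer_iff.mp hLE) (Subgroup.le_centralizer_iff.mp hLF)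
    have hLs : L' ≤ Cfsg.fittingSubgroup G := hLC.trans Layer.centralizer_generalizedFitting_le_fitting
    apply Layer.component_ne_bot hL
    apply (Subgroup.map_eq_bot_iff_of_injective _ N.subtype_injective).mp
    rw [← hL', ← hperf, ← le_bot_iff]
    exact (Subgroup.commutator_mono le_rfl hLs).trans
      (Subgroup.commutator_eq_bot_iff_le_centralizer.mpr hLF).le
  · refine sSup_le fun K hK => ?_
    have hKN : K ≤ N := (Layer.component_le_layer hK).trans hE
    rw [← Subgroup.map_subgroupOf_eq_of_le hKN]
    exact Subgroup.map_mono (Layer.component_le_layer (Layer.isComponent_subgroupOf hK hKN))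

end Cfsg.Agent.S1267
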