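import Cfsg.Statements.S1268
import Cfsg.Agent.PSolv.Balance
import Cfsg.Agent.Layer.Decomp

set_option autoImplicit false
open Cfsg

namespace Cfsg.Agent.S1268

/-- Let G be finite with F*(G) = O_p(G). Then F*(N) = O_p(N) for N the normalizer of any p-subgroup P of G. -/
theorem result {G : Type*} [Group G] [Finite G] (p : ℕ) [Fact p.Prime] (h : Cfsg.generalizedFittingSubgroup G = Cfsg.pCore p G) (P : Subgroup G) (hP : IsPGroup p ↥P) : Cfsg.generalizedFittingSubgroup ↥(Subgroup.normalizer ((P : Subgroup G) : Set G)) = Cfsg.pCore p ↥(Subgroup.normalizer ((P : Subgroup G) : Set G)) := by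
  set N := Subgroup.normalizer ((P : Subgroup G) : Set G)
  have hG : PSolv.SelfCentralizingCore p G := by
    have := Layer.centralizer_generalizedFitting_le (G := G)
    rwa [h] at this
  have hp' : Cfsg.pPrimeCore p G = ⊥ := by
    rw [eq_bot_iff]
    intro x hx
    haveI := (Solv.pPrimeCore_mem (G := G) p).1
    haveI := (Solv.pCore_mem (G := G) p).1
    have hd : Disjoint (Cfsg.pPrimeCore p G) (Cfsg.pCore p G) := disjoint_iff_inf_le.mpr fun y hy =>
      Subgroup.mem_bot.mpr (PSolv.eq_one_of_mem (Solv.pCore_mem p).2 (PSolv.not_dvd_pPrimeCore (G := G)) hy.2 hy.1)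
    have hxC : x ∈ Subgroup.centralizer (Cfsg.pCore p G : Set G) := Subgroup.mem_centralizer_iff.mpr fun u hu =>
      (Subgroup.commute_of_normal_of_disjoint _ _ (Solv.pPrimeCore_mem p).1 (Solv.pCore_mem p).1 hd x u hx hu).eq.symm
    exact Subgroup.mem_bot.mpr
      (PSolv.eq_one_of_mem (Solv.pCore_mem p).2 (PSolv.not_dvd_pPrimeCore (G := G)) (hG hxC) hx)
  have hq : PSolv.SelfCentralizingCore p (G ⧸ Cfsg.pPrimeCore p G) :=
    PSolv.selfCentralizingCore_congr (QuotientGroup.quotientBot.symm.trans (QuotientGroup.quotientMulEquivOfEq hp'.symm)) hG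
  have hN' : Cfsg.pPrimeCore p ↥N = ⊥ := by
    have := PSolv.pPrimeCore_local hq hP (Subgroup.centralizer_le_normalizer _) le_rfl (Or.inl Subgroup.le_normalizer)
    rw [hp', bot_inf_eq] at this
    exact (Subgroup.map_eq_bot_iff_of_injective _ N.subtype_injective).mp this
  have hF : Cfsg.fittingSubgroup ↥N = Cfsg.pCore p ↥N := Solv.fitting_eq_pCore hN'
  have hP' : P.subgroupOf N ≤ Cfsg.pCore p ↥N := Solv.le_pCore inferInstance hP.comap_subtype
  have hCF : Subgroup.centralizer (Cfsg.fittingSubgroup ↥N : Set ↥N) ≤ Cfsg.fittingSubgroup ↥N := by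
    rw [hF]
    intro x hx
    set R := Cfsg.pCore p G
    haveI : R.Normal := (Solv.pCore_mem p).1
    have hgoal : ∀ y : ↥N, y ∈ Subgroup.centralizer (Cfsg.pCore p ↥N : Set ↥N) → (orderOf y).Coprime p → y = 1 := by
      intro y hy hyo
      have hyc : ∀ u : G, u ∈ P → u * (y : G) = y * u := fun u hu =>
        congrArg Subtype.val (Subgroup.mem_centralizer_iff.mp hy ⟨u, Subgroup.le_normalizer hu⟩ (hP' hu))
      have hT : IsPGroup p ↥(R ⊔ P) := IsPGroup.to_sup_of_normal_left (Solv.pCore_mem p).2 hP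
      have hyn : (y : G) ∈ Subgroup.normalizer ((R ⊔ P : Subgroup G) : Set G) := by
        rw [Subgroup.mem_normalizer_iff_map_conj_eq, Subgroup.map_sup]
        congr 1
        · exact Subgroup.mem_normalizer_iff_map_conj_eq.mp
            (by rw [Subgroup.normalizer_eq_top_iff.mpr inferInstance]; trivial)
        · exact Subgroup.mem_normalizer_iff_map_conj_eq.mp y.2
      have hle : (R ⊔ P).subgroupOf N ≤ Cfsg.pCore p ↥N := by
        refine Solv.le_pCore ?_ hT.comap_subtype
        refine ⟨fun z hz g => ?_⟩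
        have hg : (g : G) ∈ Subgroup.normalizer ((R ⊔ P : Subgroup G) : Set G) := by
          rw [Subgroup.mem_normalizer_iff_map_conj_eq, Subgroup.map_sup]
          congr 1
          · exact Subgroup.mem_normalizer_iff_map_conj_eq.mp
              (by rw [Subgroup.normalizer_eq_top_iff.mpr inferInstance]; trivial)
          · exact Subgroup.mem_normalizer_iff_map_conj_eq.mp g.2
        rw [Subgroup.mem_subgroupOf] at hz ⊢
        exact (Subgroup.mem_normalizer_iff.mp hg _).mp hz
      have := CoprimeAct.le_centralizer_of_axb hT (by rwa [Subgroup.orderOf_coe]) hyn (le_sup_right : P ≤ R ⊔ P)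
        (fun u hu => Subgroup.mem_centralizer_singleton_iff.mpr (hyc u hu))
        (fun t ht => by
          have htN : t ∈ N := Subgroup.centralizer_le_normalizer _ ht.2
          exact Subgroup.mem_centralizer_singleton_iff.mpr (congrArg Subtype.val
            (Subgroup.mem_centralizer_iff.mp hy ⟨t, htN⟩ (hle ht.1))))
      have hyR : (y : G) ∈ R := hG (Subgroup.mem_centralizer_iff.mpr fun r hr =>
        Subgroup.mem_centralizer_singleton_iff.mp (this (Subgroup.mem_sup_left hr)))
      exact Subtype.ext (PSolv.eq_one_of_coprime_mem (Solv.pCore_mem p).2 (by rwa [Subgroup.orderOf_coe]) hyR)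
    haveI := (Solv.pCore_mem (G := ↥N) p).1
    refine Solv.le_pCore (p := p) (inferInstance : (Subgroup.centralizer (Cfsg.pCore p ↥N : Set ↥N)).Normal) ?_ hx
    intro z
    refine ⟨(orderOf (z : ↥N)).factorization p, Subtype.ext ?_⟩
    rw [SubmonoidClass.coe_pow, OneMemClass.coe_one]
    refine hgoal _ (Subgroup.pow_mem _ z.2 _) ?_
    rw [orderOf_pow, Nat.gcd_eq_right (Nat.ordProj_dvd _ _)]
    exact (Nat.coprime_ordCompl (Fact.out : p.Prime) (orderOf_pos _).ne').symm
  rw [Cfsg.generalizedFittingSubgroup, Layer.centralizer_fitting_le_iff.mp hCF, bot_sup_eq, hF]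

end Cfsg.Agent.S1268
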