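import Cfsg.Statements.S1270
import Cfsg.Agent.Layer.PElement
import Cfsg.Agent.Layer.Decomp
import Cfsg.Agent.Coprime.AxB
import Cfsg.Agent.Solv.Cores

set_option autoImplicit false
open Cfsg
open scoped commutatorElement

namespace Cfsg.Agent.S1270

/-- Let G be finite with O_{p'}(G) = 1, x of order p, and L a component with ⁅L, ⟨x⟩⁆ ≠ L. Then ⁅L, O_{p'}(C_G(x))⁆ = 1. -/
theorem result {G : Type*} [Group G] [Finite G] (p : ℕ) [Fact p.Prime] (hO : Cfsg.pPrimeCore p G = ⊥) (x : G) (hx : orderOf x = p) (L : Subgroup G) (hL : Cfsg.IsComponent L) (hne : ⁅L, Subgroup.zpowers x⁆ ≠ L) : ⁅L, Cfsg.centralizerPPrimeCore p x⁆ = ⊥ := by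
  classical
  have hp : p.Prime := Fact.out
  have hxp : x ^ p = 1 := by rw [← hx]; exact pow_orderOf_eq_one x
  have hperf : ⁅L, L⁆ = L := Layer.component_perfect hL
  set C := Subgroup.centralizer ({x} : Set G) with hC
  set Q := Cfsg.centralizerPPrimeCore p x with hQdef
  have hQdef' : Q = (Cfsg.pPrimeCore p ↥C).map C.subtype := rfl
  have hQp : ¬ p ∣ Nat.card ↥Q := by
    rw [hQdef', Subgroup.card_map_of_injective C.subtype_injective]; exact PSolv.not_dvd_pPrimeCore
  have hQC : Q ≤ C := hQdef' ▸ Subgroup.map_subtype_le _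
  have hCQ : C ≤ Subgroup.normalizer (Q : Set G) := by
    haveI := (Solv.pPrimeCore_mem (G := ↥C) p).1
    have h := Subgroup.le_normalizer_map (H := Cfsg.pPrimeCore p ↥C) C.subtype
    rwa [Subgroup.normalizer_eq_top_iff.mpr inferInstance, ← MonoidHom.range_eq_map, Subgroup.range_subtype, ← hQdef'] at h
  have hQx : ∀ y ∈ Q, Commute y x := fun y hy => Subgroup.mem_centralizer_singleton_iff.mp (hQC hy)
  -- `Q` centralizes `O_p(G)`
  set O := Cfsg.pCore p G with hOdef
  haveI hOn : O.Normal := (Solv.pCore_mem p).1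
  have hX : IsPGroup p ↥(Subgroup.zpowers x) := IsPGroup.of_card (n := 1) (by rw [Nat.card_zpowers, hx, pow_one])
  have hON : ∀ S : Subgroup G, S ≤ Subgroup.normalizer (O : Set G) := fun S => by
    rw [Subgroup.normalizer_eq_top_iff.mpr hOn]; exact le_top
  have hR : IsPGroup p ↥(Subgroup.zpowers x ⊔ O) := PSolv.isPGroup_sup hX (Solv.pCore_mem p).2 (hON _)
  set R := Subgroup.zpowers x ⊔ O with hRdef
  have hQR : ∀ y ∈ Q, y ∈ Subgroup.centralizer (R : Set G) := by
    intro y hy
    have hyx := hQx y hy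
    have hle : R ≤ Subgroup.centralizer {y} := by
      refine CoprimeAct.le_centralizer_of_axb hR (PSolv.coprime_orderOf_of_mem hQp hy) ?_ (le_sup_left : Subgroup.zpowers x ≤ R) ?_ ?_
      · rw [Subgroup.mem_normalizer_iff_map_conj_eq, hRdef, Subgroup.map_sup, MonoidHom.map_zpowers]
        congr 1
        · congr 1
          show y * x * y⁻¹ = x
          rw [hyx.eq, mul_inv_cancel_right]
        · exact Subgroup.mem_normalizer_iff_map_conj_eq.mp (hON ⊤ (Subgroup.mem_top y))
      · rintro _ ⟨i, rfl⟩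
        exact Subgroup.mem_centralizer_singleton_iff.mpr (hyx.zpow_right i).symm.eq
      · intro q hqq
        obtain ⟨hq, hqc⟩ : q ∈ R ∧ q ∈ Subgroup.centralizer ((Subgroup.zpowers x : Subgroup G) : Set G) := hqq
        have hqC : q ∈ C := Subgroup.mem_centralizer_singleton_iff.mpr (Subgroup.mem_centralizer_iff.mp hqc x (Subgroup.mem_zpowers x)).symm
        rw [Subgroup.mem_centralizer_singleton_iff]
        refine (commutatorElement_eq_one_iff_mul_comm.mp ?_).symm
        refine PSolv.eq_one_of_mem hR hQp ?_ ?_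
        · have hyR : y ∈ Subgroup.normalizer (R : Set G) := by
            rw [Subgroup.mem_normalizer_iff_map_conj_eq, hRdef, Subgroup.map_sup, MonoidHom.map_zpowers]
            congr 1
            · congr 1
              show y * x * y⁻¹ = x
              rw [hyx.eq, mul_inv_cancel_right]
            · exact Subgroup.mem_normalizer_iff_map_conj_eq.mp (hON ⊤ (Subgroup.mem_top y))
          rw [commutatorElement_def]
          exact R.mul_mem ((Subgroup.mem_normalizer_iff.mp hyR q).mp hq) (R.inv_mem hq)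
        · rw [commutatorElement_def, mul_assoc, mul_assoc, ← mul_assoc q]
          exact Q.mul_mem hy ((Subgroup.mem_normalizer_iff.mp (hCQ hqC) y⁻¹).mp (Q.inv_mem hy))
    exact Subgroup.mem_centralizer_iff.mpr fun r hr => Subgroup.mem_centralizer_singleton_iff.mp (hle hr)
  have hnorm : ∀ y ∈ Q, ∀ K : Subgroup G, Cfsg.IsComponent K → K.map (MulAut.conj y).toMonoidHom = K := by
    intro y hy K hK
    refine Layer.normalizes_component hO hR le_sup_right ?_ hK
    set C' := Subgroup.centralizer (R : Set G) with hC'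
    have hC'C : C' ≤ C := fun g hg => Subgroup.mem_centralizer_singleton_iff.mpr
      (Subgroup.mem_centralizer_iff.mp hg x (Subgroup.mem_sup_left (Subgroup.mem_zpowers x))).symm
    refine ⟨⟨y, hQR y hy⟩, Solv.le_pPrimeCore (N := Q.subgroupOf C')
      (Subgroup.normal_subgroupOf_of_le_normalizer (hC'C.trans hCQ)) ?_ hy, rfl⟩
    exact (PSolv.coprime_of_not_dvd hQp).coprime_dvd_left (Subgroup.card_comap_dvd_of_injective _ _ C'.subtype_injective)
  -- the diagonal
  suffices hmain : ∀ n : ℕ, 0 < n → x ^ n ∈ Subgroup.centralizer (L : Set G) →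
      (∀ i j : ℕ, i < n → j < n → i ≠ j → ∀ a ∈ L, ∀ b ∈ L, Commute (x ^ i * a * (x ^ i)⁻¹) (x ^ j * b * (x ^ j)⁻¹)) →
      ⁅L, Q⁆ = ⊥ by
    by_cases hmove : L.map (MulAut.conj x).toMonoidHom = L
    · refine hmain 1 Nat.one_pos ?_ (fun i j hi hj hij => absurd (by omega) hij)
      rw [pow_one]
      have hxN : Subgroup.zpowers x ≤ Subgroup.normalizer (L : Set G) :=
        Subgroup.zpowers_le.mpr (Subgroup.mem_normalizer_iff_map_conj_eq.mpr hmove)
      have hKc := hL.2
      have hle : ⁅L, Subgroup.zpowers x⁆ ≤ L := Subgroup.le_normalizer_iff_commutator_le_left.mp hxN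
      have hn : ((⁅L, Subgroup.zpowers x⁆).subgroupOf L).Normal :=
        Subgroup.normal_subgroupOf_of_le_normalizer (Subgroup.normalizer_commutator_ge_left L _)
      rcases Layer.eq_top_or_le_center hKc hn with h | h
      · exact absurd (le_antisymm hle (Subgroup.subgroupOf_eq_top.mp h)) hne
      · have h1 : ⁅⁅Subgroup.zpowers x, L⁆, L⁆ = ⊥ := by
          rw [Subgroup.commutator_eq_bot_iff_le_centralizer, Subgroup.commutator_comm]
          intro g hg
          exact Subgroup.mem_centralizer_iff.mpr fun l hl => congrArg Subtype.val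
            (Subgroup.mem_center_iff.mp (h (show (⟨g, hle hg⟩ : ↥L) ∈ _ from hg)) ⟨l, hl⟩)
        have h2 := Layer.commutator_eq_bot_of_perfect hperf h1
        exact Subgroup.commutator_eq_bot_iff_le_centralizer.mp h2 (Subgroup.mem_zpowers x)
    · refine hmain p hp.pos (by rw [hxp]; exact one_mem _) ?_
      intro i j hi hj hij a ha b hb
      set Li := L.map (MulAut.conj (x ^ i)).toMonoidHom with hLi
      set Lj := L.map (MulAut.conj (x ^ j)).toMonoidHom with hLj
      have hd : Li ≠ Lj := by
        intro he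
        apply hmove
        have hij' : x ^ ((i : ℤ) - j) ∈ Subgroup.normalizer (L : Set G) := by
          have h1 := congrArg (fun S : Subgroup G => S.map (MulAut.conj (x ^ j)⁻¹).toMonoidHom) he
          simp only [hLi, hLj, Subgroup.map_map] at h1
          rw [Subgroup.mem_normalizer_iff_map_conj_eq]
          have e1 : ((MulAut.conj (x ^ j)⁻¹).toMonoidHom.comp (MulAut.conj (x ^ j)).toMonoidHom) = MonoidHom.id G := by
            ext g; simp
          have e2 : ((MulAut.conj (x ^ j)⁻¹).toMonoidHom.comp (MulAut.conj (x ^ i)).toMonoidHom) = (MulAut.conj (x ^ ((i : ℤ) - j))).toMonoidHom := by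
            ext g
            show (x ^ j)⁻¹ * (x ^ i * g * (x ^ i)⁻¹) * (x ^ j)⁻¹⁻¹ = x ^ ((i : ℤ) - j) * g * (x ^ ((i : ℤ) - j))⁻¹
            group
          rwa [e1, e2, Subgroup.map_id] at h1
        refine Subgroup.mem_normalizer_iff_map_conj_eq.mp ?_
        have hne0 : ((i : ℤ) - j) ≠ 0 := by omega
        obtain ⟨u, v, huv⟩ : IsCoprime ((i : ℤ) - j) (p : ℤ) := by
          rw [Int.isCoprime_iff_gcd_eq_one]
          refine (hp.coprime_iff_not_dvd.mpr ?_).symm
          intro hdvd
          have hlt : ((i : ℤ) - j).natAbs < p := by omega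
          have := Nat.le_of_dvd (Int.natAbs_pos.mpr hne0) hdvd
          omega
        have hxe : x = (x ^ ((i : ℤ) - j)) ^ u := by
          rw [← zpow_mul]
          have hz : x ^ ((p : ℤ) * v) = 1 := by rw [zpow_mul, zpow_natCast, hxp, one_zpow]
          have h1 : ((i : ℤ) - j) * u = 1 + -((p : ℤ) * v) := by rw [← huv]; ring
          rw [h1, zpow_add, zpow_one, zpow_neg, hz, inv_one, mul_one]
        rw [hxe]
        exact Subgroup.zpow_mem _ hij' u
      have hLic : Cfsg.IsComponent Li := Layer.isComponent_map_equiv (MulAut.conj (x ^ i)) hL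
      have hLjc : Cfsg.IsComponent Lj := Layer.isComponent_map_equiv (MulAut.conj (x ^ j)) hL
      have h := Subgroup.commutator_mem_commutator (show x ^ i * a * (x ^ i)⁻¹ ∈ Li from ⟨a, ha, rfl⟩)
        (show x ^ j * b * (x ^ j)⁻¹ ∈ Lj from ⟨b, hb, rfl⟩)
      rw [Layer.components_commute hLic hLjc hd, Subgroup.mem_bot] at h
      exact commutatorElement_eq_one_iff_mul_comm.mp h
  intro n hn hxn hcomm
  let P : ℕ → G → G := fun m l => ((List.range m).map fun i => x ^ i * l * (x ^ i)⁻¹).prod
  have hP0 : ∀ l, P 0 l = 1 := fun l => rfl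
  have hPs : ∀ m l, P (m + 1) l = P m l * (x ^ m * l * (x ^ m)⁻¹) := fun m l => by
    simp [P, List.range_succ, List.map_append, List.prod_append]
  have hPcomm : ∀ m, m ≤ n → ∀ j, m ≤ j → j < n → ∀ a ∈ L, ∀ b ∈ L, Commute (P m a) (x ^ j * b * (x ^ j)⁻¹) := by
    intro m
    induction m with
    | zero => intro _ j _ _ a _ b _; rw [hP0]; exact Commute.one_left _
    | succ m ih =>
      intro hm j hmj hj a ha b hb
      rw [hPs]
      exact (ih (by omega) j (by omega) hj a ha b hb).mul_left (hcomm m j (by omega) hj (by omega) a ha b hb)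
  have hPmul : ∀ m, m ≤ n → ∀ a ∈ L, ∀ b ∈ L, P m (a * b) = P m a * P m b := by
    intro m
    induction m with
    | zero => intro _ a _ b _; simp [hP0]
    | succ m ih =>
      intro hm a ha b hb
      rw [hPs, hPs, hPs, ih (by omega) a ha b hb]
      have := (hPcomm m (by omega) m le_rfl (by omega) b hb a ha).eq
      calc P m a * P m b * (x ^ m * (a * b) * (x ^ m)⁻¹)
            = P m a * (P m b * (x ^ m * a * (x ^ m)⁻¹)) * (x ^ m * b * (x ^ m)⁻¹) := by group
        _ = P m a * ((x ^ m * a * (x ^ m)⁻¹) * P m b) * (x ^ m * b * (x ^ m)⁻¹) := by rw [this]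
        _ = _ := by group
  have hshift : ∀ m l, l * (x * P m l * x⁻¹) = P (m + 1) l := by
    intro m l
    induction m with
    | zero => rw [hPs, hP0]; group
    | succ m ih =>
      rw [hPs (m + 1)]
      conv_lhs => rw [hPs m]
      rw [← ih, pow_succ']
      group
  let d : ↥L →* G := MonoidHom.mk' (fun l => P n l) fun a b => hPmul n le_rfl a a.2 b b.2
  have hdC : ∀ l : ↥L, d l ∈ C := by
    intro l
    rw [Subgroup.mem_centralizer_singleton_iff]
    have hlast : x ^ n * (l : G) * (x ^ n)⁻¹ = l := by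
      rw [← Subgroup.mem_centralizer_iff.mp hxn l l.2, mul_inv_cancel_right]
    have hl : Commute (P n (l : G)) (l : G) := by
      have hgen : ∀ m, m ≤ n → Commute (P m (l : G)) (l : G) := by
        intro m
        induction m with
        | zero => intro _; rw [hP0]; exact Commute.one_left _
        | succ m ih =>
          intro hm
          rw [hPs]
          refine (ih (by omega)).mul_left ?_
          by_cases hm0 : m = 0
          · subst hm0
            simp only [pow_zero, one_mul, inv_one, mul_one]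
            exact Commute.refl _
          · have := hcomm m 0 (by omega) hn hm0 l l.2 l l.2
            simpa using this
      exact hgen n le_rfl
    have h := hshift n (l : G)
    rw [hPs, hlast, hl.eq] at h
    show P n l * x = x * P n l
    calc P n l * x = (x * P n l * x⁻¹) * x := by rw [mul_left_cancel h]
      _ = x * P n l := by group
  set Lq := Q.comap d with hLq
  haveI : Lq.Normal := ⟨fun a ha m => by
    show d (m * a * m⁻¹) ∈ Q
    rw [map_mul, map_mul, map_inv]
    exact (Subgroup.mem_normalizer_iff.mp (hCQ (hdC m)) _).mp ha⟩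
  have hker : ∀ a : ↥L, d a = 1 → ∀ b : ↥L, a * b = b * a := by
    intro a ha b
    refine Subtype.ext ?_
    have hfirst : ∀ m, m + 1 ≤ n → ∃ r : G, P (m + 1) (a : G) = a * r ∧ Commute r (b : G) := by
      intro m
      induction m with
      | zero => intro _; exact ⟨1, by simp [hPs, hP0], Commute.one_left _⟩
      | succ m ih =>
        intro hm
        obtain ⟨r, hr, hrc⟩ := ih (by omega)
        refine ⟨r * (x ^ (m + 1) * a * (x ^ (m + 1))⁻¹), by rw [hPs, hr]; group, hrc.mul_left ?_⟩
        have := hcomm (m + 1) 0 (by omega) hn (Nat.succ_ne_zero m) a a.2 b b.2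
        simpa using this
    obtain ⟨m, rfl⟩ : ∃ m, n = m + 1 := ⟨n - 1, by omega⟩
    obtain ⟨r, hr, hrc⟩ := hfirst m le_rfl
    have h1 : (a : G) * r = 1 := hr.symm.trans ha
    rw [eq_inv_of_mul_eq_one_right h1] at hrc
    exact (Commute.inv_left_iff.mp hrc).eq
  obtain ⟨S⟩ : Nonempty (Sylow p ↥L) := inferInstance
  rcases Layer.eq_top_or_le_center hL.2 (‹Lq.Normal›) with htop | hcen
  · exfalso
    obtain ⟨s, ⟨s', hs', rfl⟩, hsc⟩ := Layer.exists_noncentral_mem_sylow hO hL (Subgroup.map_subtype_le (S : Subgroup ↥L))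
      (S.isPGroup'.map _) (by
        show ¬ p ∣ (((S : Subgroup ↥L).map L.subtype).subgroupOf L).index
        rw [Subgroup.subgroupOf, Subgroup.comap_map_eq_self_of_injective L.subtype_injective]
        exact S.not_dvd_index)
    apply hsc
    have hds : d s' = 1 := PSolv.eq_one_of_mem (S.isPGroup'.map d) hQp ⟨s', hs', rfl⟩ (htop.ge (Subgroup.mem_top s'))
    exact Subgroup.mem_centralizer_iff.mpr fun b hb => (congrArg Subtype.val (hker s' hds ⟨b, hb⟩)).symm
  · have hQL : Q ≤ Subgroup.normalizer (L : Set G) := fun y hy => Subgroup.mem_normalizer_iff_map_conj_eq.mpr (hnorm y hy L hL)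
    have hc1 : ⁅⁅Q, L⁆, L⁆ = ⊥ := by
      rw [Subgroup.commutator_eq_bot_iff_le_centralizer, Subgroup.commutator_le]
      intro y hy l hl
      have hcL : ⁅y, l⁆ ∈ L := by
        rw [commutatorElement_def]
        exact L.mul_mem ((Subgroup.mem_normalizer_iff.mp (hQL hy) l).mp hl) (L.inv_mem hl)
      have hdc : ∀ m, m ≤ n → P m (y * l * y⁻¹) = y * P m l * y⁻¹ := by
        intro m
        induction m with
        | zero => intro _; simp [hP0]
        | succ m ih =>
          intro hm
          have hym : Commute y (x ^ m) := (hQx y hy).pow_right m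
          rw [hPs, hPs, ih (by omega)]
          calc y * P m l * y⁻¹ * (x ^ m * (y * l * y⁻¹) * (x ^ m)⁻¹)
                = y * P m l * y⁻¹ * ((x ^ m * y) * l * (x ^ m * y)⁻¹) := by group
            _ = y * P m l * y⁻¹ * ((y * x ^ m) * l * (y * x ^ m)⁻¹) := by rw [hym.eq]
            _ = _ := by group
      have hyl : y * l * y⁻¹ ∈ L := (Subgroup.mem_normalizer_iff.mp (hQL hy) l).mp hl
      have hmem : (⟨_, hcL⟩ : ↥L) ∈ Lq := by
        show d ⟨⁅y, l⁆, hcL⟩ ∈ Q
        have e : (⟨⁅y, l⁆, hcL⟩ : ↥L) = (⟨_, hyl⟩ : ↥L) * (⟨l, hl⟩ : ↥L)⁻¹ := Subtype.ext (by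
          show ⁅y, l⁆ = y * l * y⁻¹ * l⁻¹
          rw [commutatorElement_def])
        rw [e, map_mul, map_inv]
        show P n (y * l * y⁻¹) * (d ⟨l, hl⟩)⁻¹ ∈ Q
        rw [hdc n le_rfl, show y * P n l * y⁻¹ * (d ⟨l, hl⟩)⁻¹ = y * (d ⟨l, hl⟩ * y⁻¹ * (d ⟨l, hl⟩)⁻¹) by
          show y * P n l * y⁻¹ * (P n l)⁻¹ = y * (P n l * y⁻¹ * (P n l)⁻¹); group]
        exact Q.mul_mem hy ((Subgroup.mem_normalizer_iff.mp (hCQ (hdC _)) _).mp (Q.inv_mem hy))
      exact Subgroup.mem_centralizer_iff.mpr fun b hb => congrArg Subtype.val (Subgroup.mem_center_iff.mp (hcen hmem) ⟨b, hb⟩)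
    rw [Subgroup.commutator_comm]
    exact Layer.commutator_eq_bot_of_perfect hperf hc1

end Cfsg.Agent.S1270
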