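import Cfsg.Statements.S1273
import Cfsg.Agent.PSolv.PComponent

set_option autoImplicit false
open Cfsg

namespace Cfsg.Agent.S1273

/-- Let K be a p-component of the finite group X and N a normal subgroup of K whose index in K is prime to p. Then N = K. -/
theorem result {X : Type*} [Group X] [Finite X] (p : ℕ) [Fact p.Prime] (K : Subgroup X) (hK : Cfsg.IsPComponent p K) (N : Subgroup ↥K) [N.Normal] (hidx : (N.index).Coprime p) : N = ⊤ := by
  rw [← top_le_iff]
  intro x _
  have h : PSolv.pGen p K ≤ N.map K.subtype := by
    refine PSolv.pGen_le_of_subnormal (Subgroup.map_subtype_le N) ?_ ?_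
    · rw [Subgroup.subgroupOf, Subgroup.comap_map_eq_self_of_injective K.subtype_injective]
      exact Subgroup.Normal.isSubnormal inferInstance
    · rw [Subgroup.relIndex, Subgroup.subgroupOf, Subgroup.comap_map_eq_self_of_injective K.subtype_injective]
      exact hidx
  rw [PSolv.pComponent_eq_pGen_self hK] at h
  obtain ⟨y, hy, hye⟩ := h x.2
  exact (Subtype.ext hye : y = x) ▸ hy

end Cfsg.Agent.S1273
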