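import Cfsg.Statements.S1275
import Cfsg.Agent.PSolv.PComponent

set_option autoImplicit false
open Cfsg

namespace Cfsg.Agent.S1275

/-- For a 2-component K of a finite group X, the quotient of K by its core O(K) is quasisimple. -/
theorem result {X : Type*} [Group X] [Finite X] (K : Subgroup X) (hK : Cfsg.IsPComponent 2 K) : Cfsg.IsQuasisimple (↥K ⧸ Cfsg.oddCore ↥K) := by
  haveI : Fact (Nat.Prime 2) := ⟨Nat.prime_two⟩
  let f : ↥K →* ↥(K.map (QuotientGroup.mk' (Cfsg.pPrimeCore 2 X))) :=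
    ((QuotientGroup.mk' (Cfsg.pPrimeCore 2 X)).comp K.subtype).codRestrict _
      (fun a => Subgroup.mem_map_of_mem _ a.2)
  have hf : Function.Surjective f := by
    rintro ⟨y, x, hx, rfl⟩
    exact ⟨⟨x, hx⟩, rfl⟩
  have hker : f.ker = Cfsg.pPrimeCore 2 ↥K := by
    apply Subgroup.map_injective K.subtype_injective
    rw [PSolv.pPrimeCore_subgroup_eq hK.1]
    ext x
    constructor
    · rintro ⟨a, ha, rfl⟩
      exact ⟨(QuotientGroup.eq_one_iff (a : X)).mp (congrArg Subtype.val ha), a.2⟩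
    · rintro ⟨h1, h2⟩
      exact ⟨⟨x, h2⟩, Subtype.ext ((QuotientGroup.eq_one_iff x).mpr h1), rfl⟩
  exact Layer.isQuasisimple_of_mulEquiv
    ((QuotientGroup.quotientMulEquivOfEq hker.symm).trans
      (QuotientGroup.quotientKerEquivOfSurjective f hf)).symm hK.2.1.2

end Cfsg.Agent.S1275
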