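import Cfsg.Statements.S1276
import Cfsg.Agent.PSolv.PComponent

set_option autoImplicit false
open Cfsg

namespace Cfsg.Agent.S1276


open scoped commutatorElement

/-- Let K be a 2-component of the finite group X. Then K is quasisimple if and only if ⁅K, O(K)⁆ = 1. -/
theorem result {X : Type*} [Group X] [Finite X] (K : Subgroup X) (hK : Cfsg.IsPComponent 2 K) : Cfsg.IsQuasisimple ↥K ↔ ⁅K, ((Cfsg.oddCore ↥K).map K.subtype)⁆ = ⊥ := by
  haveI : Fact (Nat.Prime 2) := ⟨Nat.prime_two⟩
  constructor
  · intro hq
    rcases Layer.eq_top_or_le_center hq (N := Cfsg.oddCore ↥K) (Solv.pPrimeCore_mem 2).1 with h | h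
    · exfalso
      have hc := (Solv.pPrimeCore_mem (G := ↥K) 2).2
      rw [show Cfsg.pPrimeCore 2 ↥K = ⊤ from h, Subgroup.card_top] at hc
      exact PSolv.not_dvd_of_coprime hc (PSolv.pComponent_dvd_card hK)
    · rw [Subgroup.commutator_eq_bot_iff_le_centralizer, Subgroup.le_centralizer_iff]
      rintro _ ⟨a, ha, rfl⟩
      exact Subgroup.mem_centralizer_iff.mpr fun k hk =>
        congrArg Subtype.val (Subgroup.mem_center_iff.mp (h ha) ⟨k, hk⟩)
  · intro hcomm
    have hperf : Group.IsPerfect ↥K := by
      rw [Group.isPerfect_def]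
      apply Subgroup.map_injective K.subtype_injective
      rw [Subgroup.map_subtype_commutator, ← MonoidHom.range_eq_map, Subgroup.range_subtype,
        PSolv.pComponent_perfect hK]
    have hne : Nontrivial ↥K := by
      rw [Subgroup.nontrivial_iff_ne_bot]
      intro h
      have := PSolv.pComponent_dvd_card hK
      rw [h, Subgroup.card_bot] at this
      exact absurd (Nat.le_of_dvd one_pos this) (by norm_num)
    refine Layer.isQuasisimple_of hperf hne fun N hN hNtop => ?_
    set N' := N.map K.subtype
    have hN's : N'.IsSubnormal := Subgroup.IsSubnormal.trans' (Subgroup.Normal.isSubnormal hN) hK.1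
    have hNK : N' ≤ K := Subgroup.map_subtype_le N
    set π := QuotientGroup.mk' (Cfsg.pPrimeCore 2 X)
    have hsub : ((N'.map π).subgroupOf (K.map π)).Normal := by
      rw [Subgroup.normal_subgroupOf_iff_le_normalizer (Subgroup.map_mono hNK)]
      refine le_trans (Subgroup.map_mono ?_) (Subgroup.le_normalizer_map π)
      have := Subgroup.le_normalizer_map (H := N) K.subtype
      rwa [Subgroup.normalizer_eq_top_iff.mpr hN, ← MonoidHom.range_eq_map, Subgroup.range_subtype] at this
    rcases Layer.eq_top_or_le_center hK.2.1.2 hsub with h | h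
    · exfalso
      have him : N'.map π = K.map π :=
        le_antisymm (Subgroup.map_mono hNK) (Subgroup.subgroupOf_eq_top.mp h)
      apply hNtop
      apply Subgroup.map_injective K.subtype_injective
      rw [← MonoidHom.range_eq_map, Subgroup.range_subtype]
      exact hK.2.2 N' hN's hNK him
    · have h1 : ⁅N', K⁆ ≤ (Cfsg.oddCore ↥K).map K.subtype := by
        show _ ≤ (Cfsg.pPrimeCore 2 ↥K).map K.subtype
        rw [PSolv.pPrimeCore_subgroup_eq hK.1]
        refine le_inf ?_ ((Subgroup.commutator_mono hNK le_rfl).trans K.commutator_le_self)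
        rw [Subgroup.commutator_le]
        intro n hn k hk
        refine (QuotientGroup.eq_one_iff _).mp ?_
        show π ⁅n, k⁆ = 1
        rw [map_commutatorElement, commutatorElement_eq_one_iff_mul_comm]
        exact (congrArg Subtype.val (Subgroup.mem_center_iff.mp
          (h (show (⟨π n, Subgroup.mem_map_of_mem π (hNK hn)⟩ : ↥(K.map π)) ∈ (N'.map π).subgroupOf (K.map π) from
            Subgroup.mem_map_of_mem π hn)) ⟨π k, Subgroup.mem_map_of_mem π hk⟩)).symm
      have h2 : ⁅⁅N', K⁆, K⁆ = ⊥ := by
        rw [← le_bot_iff, ← hcomm, Subgroup.commutator_comm ⁅N', K⁆ K]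
        exact Subgroup.commutator_mono le_rfl h1
      have h3 := Layer.commutator_eq_bot_of_perfect (PSolv.pComponent_perfect hK) h2
      intro n hn
      refine Subgroup.mem_center_iff.mpr fun k => Subtype.ext ?_
      exact (Subgroup.mem_centralizer_iff.mp
        (Subgroup.commutator_eq_bot_iff_le_centralizer.mp h3 (Subgroup.mem_map_of_mem _ hn)) k k.2)

end Cfsg.Agent.S1276
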