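import Cfsg.Statements.S1277
import Cfsg.Agent.PSolv.PComponent

set_option autoImplicit false
open Cfsg

namespace Cfsg.Agent.S1277

/-- For a finite group X with core O(X): the image of E(X) in X / O(X) is all of E(X / O(X)) if and only if every 2-component of X is a component, i.e. L_{2'}(X) ≤ E(X). -/
theorem result {X : Type*} [Group X] [Finite X] : (Cfsg.layer X).map (QuotientGroup.mk' (Cfsg.oddCore X)) = Cfsg.layer (X ⧸ Cfsg.oddCore X) ↔ Cfsg.pLayer 2 X ≤ Cfsg.layer X := by
  haveI : Fact (Nat.Prime 2) := ⟨Nat.prime_two⟩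
  haveI hOn := (Solv.pPrimeCore_mem (G := X) 2).1
  show (Cfsg.layer X).map (QuotientGroup.mk' (Cfsg.pPrimeCore 2 X)) = Cfsg.layer (X ⧸ Cfsg.pPrimeCore 2 X) ↔ _
  set π := QuotientGroup.mk' (Cfsg.pPrimeCore 2 X) with hπ
  constructor
  · intro h
    refine sSup_le fun K hK => ?_
    obtain ⟨hc, hKeq⟩ := PSolv.isPComponent_iff.mp hK
    rw [hKeq]
    refine (Subgroup.closure_le _).mpr ?_
    rintro x ⟨hx, k, hk⟩
    have hx' : x ∈ Cfsg.layer X ⊔ Cfsg.pPrimeCore 2 X := by
      rw [← QuotientGroup.ker_mk' (Cfsg.pPrimeCore 2 X), ← Subgroup.comap_map_eq, Subgroup.mem_comap, h]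
      exact Layer.component_le_layer hc hx
    obtain ⟨a, ha, b, hb, rfl⟩ := Subgroup.mem_sup_of_normal_right.mp hx'
    haveI : (Cfsg.layer X).Normal := inferInstance
    have h1 : QuotientGroup.mk' (Cfsg.layer X) (a * b) = QuotientGroup.mk' (Cfsg.layer X) b := by
      rw [map_mul, show QuotientGroup.mk' (Cfsg.layer X) a = 1 from (QuotientGroup.eq_one_iff a).mpr ha, one_mul]
    have h2 : orderOf (QuotientGroup.mk' (Cfsg.layer X) b) = 1 := by
      refine Nat.eq_one_of_dvd_coprimes (((PSolv.coprime_orderOf_of_mem (PSolv.not_dvd_pPrimeCore (G := X)) hb).coprime_dvd_left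
        (orderOf_map_dvd _ b)).pow_right k) dvd_rfl ?_
      rw [← h1]
      exact (orderOf_map_dvd _ _).trans (orderOf_dvd_of_pow_eq_one hk)
    exact Subgroup.mul_mem _ ha ((QuotientGroup.eq_one_iff b).mp (orderOf_eq_one_iff.mp h2))
  · intro h
    refine le_antisymm (Subgroup.map_le_iff_le_comap.mpr (sSup_le fun L hL => ?_)) ?_
    · rw [← Subgroup.map_le_iff_le_comap]
      by_cases hne : L.map π = ⊥
      · rw [hne]; exact bot_le
      refine Layer.component_le_layer ⟨hL.1.map (QuotientGroup.mk'_surjective _), ?_⟩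
      let φ : ↥L →* ↥(L.map π) := (π.comp L.subtype).codRestrict _ fun x => ⟨x, x.2, rfl⟩
      have hφ : Function.Surjective φ := by
        rintro ⟨_, y, hy, rfl⟩
        exact ⟨⟨y, hy⟩, rfl⟩
      haveI := hL.2.1
      refine Layer.isQuasisimple_of (Subgroup.isPerfect_iff.mpr ?_) ((Subgroup.nontrivial_iff_ne_bot _).mpr hne)
        fun N hN hNt => ?_
      · rw [← Subgroup.map_commutator, Layer.component_perfect hL]
      rcases Layer.eq_top_or_le_center hL.2 (hN.comap φ) with h1 | h1
      · refine absurd ?_ hNt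
        rw [← Subgroup.map_comap_eq_self_of_surjective hφ N, h1, Subgroup.map_top_of_surjective _ hφ]
      · rw [← Subgroup.map_comap_eq_self_of_surjective hφ N]
        rintro _ ⟨x, hx, rfl⟩
        refine Subgroup.mem_center_iff.mpr fun y => ?_
        obtain ⟨y, rfl⟩ := hφ y
        rw [← map_mul, ← map_mul, Subgroup.mem_center_iff.mp (h1 hx) y]
    · rw [← PSolv.map_pLayer]
      exact Subgroup.map_mono h

end Cfsg.Agent.S1277
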