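import Cfsg.Statements.S1278
import Cfsg.Agent.PSolv.PComponent

set_option autoImplicit false
open Cfsg

namespace Cfsg.Agent.S1278


open scoped commutatorElement

/-- Let K ≠ L be 2-components of the finite group X. Then ⁅K, L⁆ ≤ O(K) ⊓ O(L), and if K is quasisimple then ⁅K, L⁆ = 1. -/
theorem result {X : Type*} [Group X] [Finite X] (K L : Subgroup X) (hK : Cfsg.IsPComponent 2 K) (hL : Cfsg.IsPComponent 2 L) (hne : K ≠ L) : ⁅K, L⁆ ≤ ((Cfsg.oddCore ↥K).map K.subtype) ⊓ ((Cfsg.oddCore ↥L).map L.subtype) ∧ (Cfsg.IsQuasisimple ↥K → ⁅K, L⁆ = ⊥) := by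
  haveI : Fact (Nat.Prime 2) := ⟨Nat.prime_two⟩
  have h := PSolv.pComponent_commutator_le hK hL hne
  have hLK : ⁅K, L⁆ ≤ K := by
    rw [Subgroup.commutator_comm]
    exact Subgroup.le_normalizer_iff_commutator_le_left.mp
      ((PSolv.pComponent_le_pLayer hL).trans (PSolv.pComponent_normalizer_pLayer hK)) |> fun h' => by
        rw [Subgroup.commutator_comm]; exact h'
  have hKL : ⁅K, L⁆ ≤ L := by
    rw [Subgroup.commutator_comm]
    exact Subgroup.le_normalizer_iff_commutator_le_left.mp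
      ((PSolv.pComponent_le_pLayer hK).trans (PSolv.pComponent_normalizer_pLayer hL))
  refine ⟨le_inf ?_ ?_, fun hq => ?_⟩
  · show _ ≤ (Cfsg.pPrimeCore 2 ↥K).map K.subtype
    rw [PSolv.pPrimeCore_subgroup_eq hK.1]; exact le_inf h hLK
  · show _ ≤ (Cfsg.pPrimeCore 2 ↥L).map L.subtype
    rw [PSolv.pPrimeCore_subgroup_eq hL.1]; exact le_inf h hKL
  · have h1 : ⁅K, L⁆ ≤ (Cfsg.pPrimeCore 2 ↥K).map K.subtype := by
      rw [PSolv.pPrimeCore_subgroup_eq hK.1]; exact le_inf h hLK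
    have h2 : ⁅⁅L, K⁆, K⁆ = ⊥ := by
      rw [Subgroup.commutator_comm L K, Subgroup.commutator_eq_bot_iff_le_centralizer]
      refine h1.trans ?_
      rintro _ ⟨a, ha, rfl⟩
      refine Subgroup.mem_centralizer_iff.mpr fun k hk => ?_
      rcases Layer.eq_top_or_le_center hq (N := Cfsg.pPrimeCore 2 ↥K) (Solv.pPrimeCore_mem 2).1 with htop | hc
      · exfalso
        have hcc := (Solv.pPrimeCore_mem (G := ↥K) 2).2
        rw [htop, Subgroup.card_top] at hcc
        exact PSolv.not_dvd_of_coprime hcc (PSolv.pComponent_dvd_card hK)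
      · exact congrArg Subtype.val (Subgroup.mem_center_iff.mp (hc ha) ⟨k, hk⟩)
    rw [Subgroup.commutator_comm]
    exact Layer.commutator_eq_bot_of_perfect (PSolv.pComponent_perfect hK) h2

end Cfsg.Agent.S1278
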