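import Cfsg.Statements.S1279
import Cfsg.Agent.PSolv.Balance

set_option autoImplicit false
open Cfsg

namespace Cfsg.Agent.S1279

/-- Let A be a noncyclic elementary abelian p-subgroup of the finite group G such that C_G(a) is solvable for every non-identity a ∈ A. Then a ↦ O_{p'}(C_G(a)) is a solvable A-signalizer functor on G. -/
theorem result {G : Type*} [Group G] [Finite G] (p : ℕ) [Fact p.Prime] (A : Subgroup G) (hA : Cfsg.IsElementaryAbelian p A) (hA2 : p ^ 2 ≤ Nat.card ↥A) (hsolv : ∀ a ∈ A, a ≠ 1 → Group.IsSolvable ↥(Subgroup.centralizer ({a} : Set G))) : Cfsg.IsSolvableSignalizerFunctor p A (fun a => Cfsg.centralizerPPrimeCore p a) := by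
  refine ⟨⟨fun a _ _ => Signalizer.centralizerPPrimeCore_le_centralizer a,
    fun a _ _ => Signalizer.centralizerPPrimeCore_not_dvd a, ?_, ?_⟩, ?_⟩
  · intro a ha _ b hb x hx
    refine ((Signalizer.centralizer_le_normalizer_centralizerPPrimeCore a ?_) x).mp hx
    exact Subgroup.mem_centralizer_singleton_iff.mpr (Signalizer.isElementaryAbelian_comm hA hb ha)
  · intro a ha _ b hb hb1
    haveI := hsolv b hb hb1
    exact PSolv.balance_of (hA.2 a ha) (Signalizer.isElementaryAbelian_comm hA ha hb)
      PSolv.selfCentralizingCore_quotient_of_solvable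
  · intro a ha ha1
    haveI := hsolv a ha ha1
    exact Group.isSolvable_of_isSolvable_injective
      (Subgroup.inclusion_injective (Signalizer.centralizerPPrimeCore_le_centralizer a))

end Cfsg.Agent.S1279
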