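import Cfsg.Statements.S1280
import Cfsg.Agent.Coprime.Signalizer
import Cfsg.Agent.Solv.Cores

set_option autoImplicit false
open Cfsg

namespace Cfsg.Agent.S1280

/-- Let θ be a solvable A-signalizer functor (A a noncyclic elementary abelian p-subgroup of the finite group G), and X, Y members of its family with Y ≤ N_G(X). Then X ⊔ Y (= XY) is again in the family. -/
theorem result {G : Type*} [Group G] [Finite G] (p : ℕ) [Fact p.Prime] (A : Subgroup G) (hA : Cfsg.IsElementaryAbelian p A) (hA2 : p ^ 2 ≤ Nat.card ↥A) (θ : G → Subgroup G) (hθ : Cfsg.IsSolvableSignalizerFunctor p A θ) (X Y : Subgroup G) (hX : X ∈ Cfsg.signalizerFamily p A θ) (hY : Y ∈ Cfsg.signalizerFamily p A θ) (hn : Y ≤ Subgroup.normalizer (X : Set G)) : X ⊔ Y ∈ Cfsg.signalizerFamily p A θ := by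
  have hXn : A ≤ Subgroup.normalizer (X : Set G) := Signalizer.mem_normalizer_of_forall_conj hX.2.2.1
  have hYn : A ≤ Subgroup.normalizer (Y : Set G) := Signalizer.mem_normalizer_of_forall_conj hY.2.2.1
  have hXY : X ⊔ Y ≤ Subgroup.normalizer (X : Set G) := sup_le Subgroup.le_normalizer hn
  haveI hXn' : (X.subgroupOf (X ⊔ Y)).Normal := (Subgroup.normal_subgroupOf_iff_le_normalizer le_sup_left).mpr hXY
  have hsurj : Function.Surjective
      ((QuotientGroup.mk' (X.subgroupOf (X ⊔ Y))).comp (Subgroup.inclusion (le_sup_right : Y ≤ X ⊔ Y))) := by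
    intro z
    obtain ⟨⟨z, hz⟩, rfl⟩ := QuotientGroup.mk'_surjective _ z
    obtain ⟨x, hx, y, hy, rfl⟩ : ∃ x ∈ X, ∃ y ∈ Y, x * y = z := by
      have : z ∈ ((X ⊔ Y : Subgroup G) : Set G) := hz
      rw [Subgroup.coe_mul_of_right_le_normalizer_left X Y hn] at this
      exact Set.mem_mul.mp this
    refine ⟨⟨y, hy⟩, (QuotientGroup.eq).mpr ?_⟩
    rw [Subgroup.mem_subgroupOf]
    have := (Subgroup.mem_normalizer_iff.mp (inv_mem (hn hy)) x).mp hx
    simpa [mul_assoc] using this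
  refine ⟨?_, ?_, ?_, ?_⟩
  · rw [Group.isSolvable_iff_subgroup_quotient (X.subgroupOf (X ⊔ Y))]
    refine ⟨?_, ?_⟩
    · haveI := hX.1
      exact Group.isSolvable_of_surjective
        (f := (Subgroup.subgroupOfEquivOfLe (le_sup_left : X ≤ X ⊔ Y)).symm.toMonoidHom) (MulEquiv.surjective _)
    · haveI := hY.1
      exact Group.isSolvable_of_surjective hsurj
  · intro hdvd
    have h1 : Nat.card ↥X * X.relIndex (X ⊔ Y) = Nat.card ↥(X ⊔ Y) := by
      rw [← Subgroup.relIndex_bot_left, ← Subgroup.relIndex_bot_left]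
      exact Subgroup.relIndex_mul_relIndex _ _ _ bot_le le_sup_left
    rw [← h1] at hdvd
    rcases (Fact.out : p.Prime).dvd_mul.mp hdvd with h | h
    · exact hX.2.1 h
    · exact hY.2.1 (h.trans (Subgroup.card_dvd_of_surjective _ hsurj))
  · intro b hb u hu
    have h1 : (X ⊔ Y).map (MulAut.conj b).toMonoidHom ≤ X ⊔ Y := by
      rw [Subgroup.map_sup]
      refine sup_le_sup ?_ ?_
      · exact (Subgroup.mem_normalizer_iff_map_conj_eq.mp (hXn hb)).le
      · exact (Subgroup.mem_normalizer_iff_map_conj_eq.mp (hYn hb)).le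
    exact h1 (Subgroup.mem_map_of_mem _ hu)
  · rintro a ha ha1 z ⟨hz, hzc⟩
    obtain ⟨x, hx, y, hy, rfl⟩ : ∃ x ∈ X, ∃ y ∈ Y, x * y = z := by
      have : z ∈ ((X ⊔ Y : Subgroup G) : Set G) := hz
      rw [Subgroup.coe_mul_of_right_le_normalizer_left X Y hn] at this
      exact Set.mem_mul.mp this
    have hc : a * (x * y) = x * y * a := Subgroup.mem_centralizer_iff.mp hzc a rfl
    have hmem : x⁻¹ * (a * x * a⁻¹) ∈ X ⊓ Y := by
      refine ⟨X.mul_mem (X.inv_mem hx) ((hXn ha x).mp hx), ?_⟩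
      have e : x⁻¹ * (a * x * a⁻¹) = y * (a * y * a⁻¹)⁻¹ := by
        calc x⁻¹ * (a * x * a⁻¹) = x⁻¹ * (a * (x * y)) * (y⁻¹ * a⁻¹) := by group
          _ = x⁻¹ * (x * y * a) * (y⁻¹ * a⁻¹) := by rw [hc]
          _ = y * (a * y * a⁻¹)⁻¹ := by group
      rw [e]
      exact Y.mul_mem hy (Y.inv_mem ((hYn ha y).mp hy))
    obtain ⟨n, hnN, hnc⟩ := Signalizer.exists_fixed_in_coset_elem (hA.2 a ha)
      (fun h => hX.2.1 (h.trans (Subgroup.card_dvd_of_le (inf_le_left : X ⊓ Y ≤ X))))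
      (show a ∈ Subgroup.normalizer ((X ⊓ Y : Subgroup G) : Set G) from fun u => by
        simp only [SetLike.mem_coe, Subgroup.mem_inf]
        exact and_congr (hXn ha u) (hYn ha u)) hmem
    have h1 : x * n ∈ θ a := hX.2.2.2 a ha ha1 ⟨X.mul_mem hx hnN.1, hnc⟩
    have h2 : n⁻¹ * y ∈ θ a := by
      refine hY.2.2.2 a ha ha1 ⟨Y.mul_mem (Y.inv_mem hnN.2) hy, ?_⟩
      have : n⁻¹ * y = (x * n)⁻¹ * (x * y) := by group
      rw [this]
      exact Subgroup.mul_mem _ (Subgroup.inv_mem _ hnc) hzc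
    have e : x * y = (x * n) * (n⁻¹ * y) := by group
    rw [e]
    exact Subgroup.mul_mem _ h1 h2

end Cfsg.Agent.S1280
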