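import Cfsg.Statements.S1281
import Cfsg.Agent.Coprime.Signalizer

set_option autoImplicit false
open Cfsg

namespace Cfsg.Agent.S1281

/-- Let θ be a solvable A-signalizer functor on the finite group G (A a noncyclic elementary abelian p-subgroup) and N a normal subgroup of order prime to p. Then for all non-identity a, b ∈ A, the image of θ a in G / N meets the centralizer of the image of b inside the image of θ b. -/
theorem result {G : Type*} [Group G] [Finite G] (p : ℕ) [Fact p.Prime] (A : Subgroup G) (hA : Cfsg.IsElementaryAbelian p A) (hA2 : p ^ 2 ≤ Nat.card ↥A) (θ : G → Subgroup G) (hθ : Cfsg.IsSolvableSignalizerFunctor p A θ) (N : Subgroup G) [N.Normal] (hN : ¬ p ∣ Nat.card ↥N) (a b : G) (ha : a ∈ A) (ha1 : a ≠ 1) (hb : b ∈ A) (hb1 : b ≠ 1) : (θ a).map (QuotientGroup.mk' N) ⊓ Subgroup.centralizer {QuotientGroup.mk' N b} ≤ (θ b).map (QuotientGroup.mk' N) := by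
  rintro z ⟨⟨g, hg, rfl⟩, hzc⟩
  have hc : QuotientGroup.mk' N b * QuotientGroup.mk' N g = QuotientGroup.mk' N g * QuotientGroup.mk' N b :=
    Subgroup.mem_centralizer_iff.mp hzc _ rfl
  obtain ⟨hθ1, hθ2, hθ3, hθ4⟩ := hθ.1
  have hmem : g⁻¹ * (b * g * b⁻¹) ∈ θ a ⊓ N := by
    refine ⟨(θ a).mul_mem ((θ a).inv_mem hg) (hθ3 a ha ha1 b hb g hg), ?_⟩
    refine (QuotientGroup.eq_one_iff _).mp ?_
    change QuotientGroup.mk' N (g⁻¹ * (b * g * b⁻¹)) = 1
    rw [map_mul, map_mul, map_mul, map_inv, map_inv, hc]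
    group
  have hbn : b ∈ Subgroup.normalizer ((θ a ⊓ N : Subgroup G) : Set G) := by
    intro u
    simp only [SetLike.mem_coe, Subgroup.mem_inf]
    exact and_congr (Signalizer.mem_normalizer_of_forall_conj (hθ3 a ha ha1) hb u)
      (Subgroup.mem_normalizer_iff.mp (by rw [Subgroup.normalizer_eq_top_iff.mpr inferInstance]; trivial) u)
  obtain ⟨n, hn, hnc⟩ := Signalizer.exists_fixed_in_coset_elem (hA.2 b hb)
    (fun h => hN (h.trans (Subgroup.card_dvd_of_le (inf_le_right : θ a ⊓ N ≤ N)))) hbn hmem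
  refine ⟨g * n, hθ4 a ha ha1 b hb hb1 ⟨(θ a).mul_mem hg hn.1, hnc⟩, ?_⟩
  simp [(QuotientGroup.eq_one_iff n).mpr hn.2]

end Cfsg.Agent.S1281
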