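import Cfsg.Statements.S1282
import Cfsg.Agent.Coprime.Signalizer

set_option autoImplicit false
open Cfsg

namespace Cfsg.Agent.S1282

/-- Let A be an elementary abelian p-subgroup of rank at least 3 of the finite group G, q ≠ p a prime, and Q₁, Q₂ q-subgroups normalized by A with D = Q₁ ∩ Q₂ different from both. Then there is a non-identity a ∈ A such that, for i = 1 and i = 2, N_{Q_i}(D) ∩ C_G(a) is not contained in D. -/
theorem result {G : Type*} [Group G] [Finite G] (p : ℕ) [Fact p.Prime] (A : Subgroup G) (hA : Cfsg.IsElementaryAbelian p A) (hA3 : p ^ 3 ≤ Nat.card ↥A) (q : ℕ) [Fact q.Prime] (hqp : q ≠ p) (Q₁ Q₂ : Subgroup G) (h₁ : IsPGroup q ↥Q₁) (h₂ : IsPGroup q ↥Q₂) (hA₁ : A ≤ Subgroup.normalizer (Q₁ : Set G)) (hA₂ : A ≤ Subgroup.normalizer (Q₂ : Set G)) (hD₁ : Q₁ ⊓ Q₂ ≠ Q₁) (hD₂ : Q₁ ⊓ Q₂ ≠ Q₂) : ∃ a ∈ A, a ≠ 1 ∧ ¬ (Subgroup.normalizer ((Q₁ ⊓ Q₂ : Subgroup G) : Set G) ⊓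 Q₁ ⊓ Subgroup.centralizer {a} ≤ Q₁ ⊓ Q₂) ∧ ¬ (Subgroup.normalizer ((Q₁ ⊓ Q₂ : Subgroup G) : Set G) ⊓ Q₂ ⊓ Subgroup.centralizer {a} ≤ Q₁ ⊓ Q₂) := by
  have hAD : A ≤ Subgroup.normalizer ((Q₁ ⊓ Q₂ : Subgroup G) : Set G) := by
    intro a ha x
    simp only [SetLike.mem_coe, Subgroup.mem_inf]
    exact and_congr (hA₁ ha x) (hA₂ ha x)
  have main : ∀ Q : Subgroup G, IsPGroup q ↥Q → A ≤ Subgroup.normalizer (Q : Set G) →
      Q₁ ⊓ Q₂ ≤ Q → Q₁ ⊓ Q₂ ≠ Q → ∃ B : Subgroup G, B ≤ A ∧ B.relIndex A ≤ p ∧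
        ¬ (Subgroup.normalizer ((Q₁ ⊓ Q₂ : Subgroup G) : Set G) ⊓ Q ⊓ Subgroup.centralizer (B : Set G)
          ≤ Q₁ ⊓ Q₂) := by
    intro Q hQ hAQ hle hne
    set D := Q₁ ⊓ Q₂
    set U := Subgroup.normalizer (D : Set G) ⊓ Q
    haveI := hQ.isNilpotent
    have hlt : D.subgroupOf Q < ⊤ := lt_top_iff_ne_top.mpr fun h =>
      hne (le_antisymm hle (Subgroup.subgroupOf_eq_top.mp h))
    obtain ⟨u, hu1, hu2⟩ := SetLike.exists_of_lt (Group.normalizerCondition_of_isNilpotent _ hlt)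
    have huU : (u : G) ∈ U := by
      refine ⟨fun x => ⟨fun hx => ?_, fun hx => ?_⟩, u.2⟩
      · exact (hu1 ⟨x, hle hx⟩).mp hx
      · have hxQ : x ∈ Q := by
          have := mul_mem (mul_mem (inv_mem u.2) (hle hx)) u.2
          simpa [mul_assoc] using this
        exact (hu1 ⟨x, hxQ⟩).mpr hx
    have hUD : ¬ U ≤ D := fun h => hu2 (h huU)
    have hAU : A ≤ Subgroup.normalizer (U : Set G) := by
      intro a ha x
      simp only [U, SetLike.mem_coe, Subgroup.mem_inf]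
      exact and_congr (Subgroup.le_normalizer (hAD ha) x) (hAQ ha x)
    have hUp : ¬ p ∣ Nat.card U := by
      intro h
      obtain ⟨n, hn⟩ := IsPGroup.iff_card.mp hQ
      have h2 := h.trans (Subgroup.card_dvd_of_le (inf_le_right : U ≤ Q))
      rw [hn] at h2
      exact hqp ((Nat.prime_dvd_prime_iff_eq Fact.out Fact.out).mp
        ((Fact.out : p.Prime).dvd_of_dvd_pow h2)).symm
    by_contra hcon
    simp only [not_exists, not_and, not_not] at hcon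
    apply hUD
    rw [CoprimeAct.le_iSup_inf_centralizer hA.1 hA.2 hUp hAU]
    exact iSup_le fun B => hcon B B.2.1 B.2.2
  obtain ⟨B₁, hB₁, hi₁, hn₁⟩ := main Q₁ h₁ hA₁ inf_le_left hD₁
  obtain ⟨B₂, hB₂, hi₂, hn₂⟩ := main Q₂ h₂ hA₂ inf_le_right hD₂
  obtain ⟨a, ha, ha1⟩ : ∃ a ∈ B₁ ⊓ B₂, a ≠ 1 := by
    refine (B₁ ⊓ B₂).bot_or_exists_ne_one.resolve_left fun hbot => ?_
    have h := Subgroup.relIndex_inf_le (H := B₁) (K := B₂) (L := A)
    rw [hbot, Subgroup.relIndex_bot_left] at h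
    have h3 : p ^ 3 ≤ p * p := (hA3.trans h).trans (Nat.mul_le_mul hi₁ hi₂)
    have : p * p = p ^ 2 := (sq p).symm
    rw [this] at h3
    have := (Nat.pow_le_pow_iff_right (Fact.out : p.Prime).one_lt).mp h3
    omega
  exact ⟨a, hB₁ ha.1, ha1,
    fun h => hn₁ (le_trans (inf_le_inf_left _ (Subgroup.centralizer_le (Set.singleton_subset_iff.mpr ha.1))) h),
    fun h => hn₂ (le_trans (inf_le_inf_left _ (Subgroup.centralizer_le (Set.singleton_subset_iff.mpr ha.2))) h)⟩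

end Cfsg.Agent.S1282
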