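import Cfsg.Statements.S1286
import Mathlib.GroupTheory.Perm.Fin
import Mathlib.Data.Fintype.Perm
import Mathlib.GroupTheory.SpecificGroups.Cyclic

set_option autoImplicit false
open Cfsg

namespace Cfsg.Agent.S1286


/-- `(1 2)` in zero-based numbering. -/
def pa : Equiv.Perm (Fin 5) := Equiv.swap 0 1
/-- `(3 4)`. -/
def pb : Equiv.Perm (Fin 5) := Equiv.swap 2 3
/-- a 3-cycle centralized by `pa`. -/
def ps : Equiv.Perm (Fin 5) := Equiv.swap 2 3 * Equiv.swap 3 4
/-- a 3-cycle centralized by `pb`. -/
def pt : Equiv.Perm (Fin 5) := Equiv.swap 0 1 * Equiv.swap 1 4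


/-- There exist a finite group X, an elementary abelian subgroup A of order 4 and a solvable A-signalizer functor θ on X for the prime 2 which is not complete. -/
theorem result : ∃ (X : Type) (_ : Group X) (_ : Finite X) (A : Subgroup X) (θ : X → Subgroup X), Cfsg.IsElementaryAbelian 2 A ∧ Nat.card ↥A = 4 ∧ Cfsg.IsSolvableSignalizerFunctor 2 A θ ∧ ¬ Cfsg.IsCompleteSignalizerFunctor 2 A θ := by
  classical
  have ha2 : pa * pa = 1 := by decide
  have hb2 : pb * pb = 1 := by decide
  have hab : pa * pb = pb * pa := by decide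
  have ha1 : pa ≠ 1 := by decide
  have hb1 : pb ≠ 1 := by decide
  have hne : pa ≠ pb := by decide
  let A : Subgroup (Equiv.Perm (Fin 5)) :=
    { carrier := {g | g = 1 ∨ g = pa ∨ g = pb ∨ g = pa * pb}
      one_mem' := Or.inl rfl
      mul_mem' := by
        rintro g h (rfl | rfl | rfl | rfl) (rfl | rfl | rfl | rfl) <;> decide
      inv_mem' := by
        rintro g (rfl | rfl | rfl | rfl) <;> decide }
  have hA : ∀ g, g ∈ A ↔ g = 1 ∨ g = pa ∨ g = pb ∨ g = pa * pb := fun g => Iff.rfl
  let θ : Equiv.Perm (Fin 5) → Subgroup (Equiv.Perm (Fin 5)) := fun g =>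
    if g = pa then Subgroup.zpowers ps else if g = pb then Subgroup.zpowers pt else ⊥
  have hθc : θ (pa * pb) = ⊥ := by
    simp only [θ]
    rw [if_neg (by decide), if_neg (by decide)]
  have hθa : θ pa = Subgroup.zpowers ps := if_pos rfl
  have hθb : θ pb = Subgroup.zpowers pt := by simp only [θ]; rw [if_neg (fun h => hne h.symm), if_pos trivial]
  have hs3 : orderOf ps = 3 := orderOf_eq_prime (by decide) (by decide)
  have ht3 : orderOf pt = 3 := orderOf_eq_prime (by decide) (by decide)
  have hz : ∀ s : Equiv.Perm (Fin 5), orderOf s = 3 → ∀ g ∈ Subgroup.zpowers s, g = 1 ∨ g = s ∨ g = s * s := by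
    intro s hs g hg
    obtain ⟨i, rfl⟩ := (Submonoid.mem_powers_iff g s).mp (mem_powers_iff_mem_zpowers.mpr hg)
    rw [← pow_mod_orderOf, hs]
    have : i % 3 < 3 := Nat.mod_lt _ (by norm_num)
    interval_cases (i % 3)
    · exact Or.inl (pow_zero s)
    · exact Or.inr (Or.inl (pow_one s))
    · exact Or.inr (Or.inr (pow_two s))
  refine ⟨Equiv.Perm (Fin 5), inferInstance, inferInstance, A, θ, ⟨?_, ?_⟩, ?_, ⟨⟨?_, ?_, ?_, ?_⟩, ?_⟩, ?_⟩
  · refine ⟨⟨?_⟩⟩
    rintro ⟨g, hg⟩ ⟨h, hh⟩
    apply Subtype.ext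
    show g * h = h * g
    rcases (hA g).mp hg with rfl | rfl | rfl | rfl <;> rcases (hA h).mp hh with rfl | rfl | rfl | rfl <;> decide
  · intro g hg
    rcases (hA g).mp hg with rfl | rfl | rfl | rfl <;> decide
  · have hset : (A : Set (Equiv.Perm (Fin 5))) = {1, pa, pb, pa * pb} := by
      ext g; exact hA g
    rw [← SetLike.coe_sort_coe, Nat.card_coe_set_eq, hset, Set.ncard_eq_toFinset_card']
    simp [Set.toFinset_insert, Finset.card_insert_of_notMem, ha1.symm, hb1.symm, hne,
      show (1 : Equiv.Perm (Fin 5)) ≠ pa * pb by decide, show pa ≠ pa * pb by decide, show pb ≠ pa * pb by decide]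
  · intro g hg hg1
    rcases (hA g).mp hg with rfl | rfl | rfl | rfl
    · exact absurd rfl hg1
    · rw [hθa, Subgroup.zpowers_le]
      exact Subgroup.mem_centralizer_singleton_iff.mpr (by decide)
    · rw [hθb, Subgroup.zpowers_le]
      exact Subgroup.mem_centralizer_singleton_iff.mpr (by decide)
    · rw [hθc]; exact bot_le
  · intro g hg hg1
    rcases (hA g).mp hg with rfl | rfl | rfl | rfl
    · exact absurd rfl hg1
    · rw [hθa, Nat.card_zpowers, hs3]; decide
    · rw [hθb, Nat.card_zpowers, ht3]; decide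
    · rw [hθc, Subgroup.card_bot]; decide
  · intro g hg hg1 h hh x hx
    rcases (hA g).mp hg with rfl | rfl | rfl | rfl
    · exact absurd rfl hg1
    · rw [hθa] at hx ⊢
      have hmem : h * x * h⁻¹ = 1 ∨ h * x * h⁻¹ = ps ∨ h * x * h⁻¹ = ps * ps := by
        rcases hz ps hs3 x hx with rfl | rfl | rfl <;> rcases (hA h).mp hh with rfl | rfl | rfl | rfl <;> decide
      rcases hmem with e | e | e <;> rw [e]
      · exact Subgroup.one_mem _
      · exact Subgroup.mem_zpowers _
      · exact Subgroup.mul_mem _ (Subgroup.mem_zpowers _) (Subgroup.mem_zpowers _)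
    · rw [hθb] at hx ⊢
      have hmem : h * x * h⁻¹ = 1 ∨ h * x * h⁻¹ = pt ∨ h * x * h⁻¹ = pt * pt := by
        rcases hz pt ht3 x hx with rfl | rfl | rfl <;> rcases (hA h).mp hh with rfl | rfl | rfl | rfl <;> decide
      rcases hmem with e | e | e <;> rw [e]
      · exact Subgroup.one_mem _
      · exact Subgroup.mem_zpowers _
      · exact Subgroup.mul_mem _ (Subgroup.mem_zpowers _) (Subgroup.mem_zpowers _)
    · rw [hθc] at hx ⊢
      rw [Subgroup.mem_bot] at hx ⊢
      rw [hx]; group
  · rintro g hg hg1 h hh hh1 x ⟨hx, hxc⟩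
    have hcomm : h * x = x * h := Subgroup.mem_centralizer_iff.mp hxc h rfl
    by_cases hgh : g = h
    · exact hgh ▸ hx
    suffices x = 1 by rw [this]; exact Subgroup.one_mem _
    rcases (hA g).mp hg with rfl | rfl | rfl | rfl
    · exact absurd rfl hg1
    · rw [hθa] at hx
      rcases hz ps hs3 x hx with rfl | rfl | rfl
      · rfl
      all_goals
        exfalso
        rcases (hA h).mp hh with rfl | rfl | rfl | rfl
        · exact hh1 rfl
        · exact hgh rfl
        all_goals exact absurd hcomm (by decide)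
    · rw [hθb] at hx
      rcases hz pt ht3 x hx with rfl | rfl | rfl
      · rfl
      all_goals
        exfalso
        rcases (hA h).mp hh with rfl | rfl | rfl | rfl
        · exact hh1 rfl
        · exact absurd hcomm (by decide)
        · exact hgh rfl
        · exact absurd hcomm (by decide)
    · rw [hθc] at hx
      exact Subgroup.mem_bot.mp hx
  · intro g hg hg1
    rcases (hA g).mp hg with rfl | rfl | rfl | rfl
    · exact absurd rfl hg1
    · rw [hθa]; infer_instance
    · rw [hθb]; infer_instance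
    · rw [hθc]; infer_instance
  · rintro ⟨_, X, _, hX2, hX⟩
    apply hX2
    have hs : ps ∈ X := by
      have h := hX pa (Or.inr (Or.inl rfl)) ha1
      rw [hθa] at h
      exact ((h.symm ▸ Subgroup.mem_zpowers ps : ps ∈ X ⊓ Subgroup.centralizer {pa})).1
    have ht : pt ∈ X := by
      have h := hX pb (Or.inr (Or.inr (Or.inl rfl))) hb1
      rw [hθb] at h
      exact ((h.symm ▸ Subgroup.mem_zpowers pt : pt ∈ X ⊓ Subgroup.centralizer {pb})).1
    let z := ps * ps * pt * ps * pt
    have hzX : z ∈ X := X.mul_mem (X.mul_mem (X.mul_mem (X.mul_mem hs hs) ht) hs) ht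
    have hzo : orderOf z = 2 := orderOf_eq_prime (by decide) (by decide)
    have hdvd := orderOf_dvd_natCard (⟨z, hzX⟩ : X)
    rwa [Subgroup.orderOf_mk, hzo] at hdvd

end Cfsg.Agent.S1286
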