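import Cfsg.Statements.S1289
import Cfsg.Agent.PSolv.PComponent

set_option autoImplicit false
open Cfsg

namespace Cfsg.Agent.S1289

/-- A p-component K of the finite group X is subnormal, perfect, of order divisible by p, and minimal among the subnormal perfect subgroups of X of order divisible by p. -/
theorem result {X : Type*} [Group X] [Finite X] (p : ℕ) [Fact p.Prime] (K : Subgroup X) (hK : Cfsg.IsPComponent p K) : K.IsSubnormal ∧ ⁅K, K⁆ = K ∧ p ∣ Nat.card ↥K ∧ ∀ H : Subgroup X, H ≤ K → H.IsSubnormal → ⁅H, H⁆ = H → p ∣ Nat.card ↥H → H = K := by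
  refine ⟨hK.1, PSolv.pComponent_perfect hK, PSolv.pComponent_dvd_card hK, fun H hle hH hperf hp => ?_⟩
  refine hK.2.2 H hH hle ?_
  set π := QuotientGroup.mk' (Cfsg.pPrimeCore p X)
  have hsn : ((H.map π).subgroupOf (K.map π)).IsSubnormal :=
    (hH.map (QuotientGroup.mk'_surjective _)).subgroupOf
  rcases Layer.eq_top_or_le_center_of_isSubnormal hK.2.1.2 hsn with h | h
  · exact le_antisymm (Subgroup.map_mono hle) (Subgroup.subgroupOf_eq_top.mp h)
  · exfalso
    have h1 : H.map π = ⊥ := by
      have e : ⁅H.map π, H.map π⁆ = H.map π := by rw [← Subgroup.map_commutator, hperf]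
      rw [← e, Subgroup.commutator_eq_bot_iff_le_centralizer]
      intro x hx
      refine Subgroup.mem_centralizer_iff.mpr fun y hy => ?_
      exact congrArg Subtype.val (Subgroup.mem_center_iff.mp
        (h (show (⟨x, Subgroup.map_mono hle hx⟩ : ↥(K.map π)) ∈ (H.map π).subgroupOf (K.map π) from hx))
        ⟨y, Subgroup.map_mono hle hy⟩)
    have h2 : H ≤ Cfsg.pPrimeCore p X := by
      intro x hx
      exact (QuotientGroup.eq_one_iff x).mp (Subgroup.mem_bot.mp (h1 ▸ Subgroup.mem_map_of_mem π hx))
    exact PSolv.not_dvd_pPrimeCore (hp.trans (Subgroup.card_dvd_of_le h2))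

end Cfsg.Agent.S1289
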