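import Cfsg.Statements.S1300
import Cfsg.Agent.Coprime.Signalizer

set_option autoImplicit false
open Cfsg

namespace Cfsg.Agent.S1300

/-- For a finite group G, balance in the sense of commuting involutions is the same as 1-balance for the prime 2. -/
theorem result {G : Type*} [Group G] [Finite G] : Cfsg.IsBalanced G ↔ Cfsg.IsKBalanced 2 1 G := by
  have hcard : ∀ x : G, orderOf x = 2 → ∀ A : Subgroup G, x ∈ A → Nat.card ↥A = 2 →
      Cfsg.signalizerDelta 2 A = Cfsg.centralizerPPrimeCore 2 x := by
    intro x hx A hxA hA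
    have hx1 : x ≠ 1 := fun h => by simp [h] at hx
    have hz : Subgroup.zpowers x = A := Subgroup.eq_of_le_of_card_ge (Subgroup.zpowers_le.mpr hxA)
      (by rw [Nat.card_zpowers, hx, hA])
    refine le_antisymm (Signalizer.signalizerDelta_le hxA hx1) (Signalizer.le_signalizerDelta fun a ha ha1 => ?_)
    rw [← hz] at ha
    obtain ⟨i, hi⟩ := (Submonoid.mem_powers_iff a x).mp (mem_powers_iff_mem_zpowers.mpr ha)
    subst hi
    rcases Nat.even_or_odd i with ⟨j, rfl⟩ | ⟨j, rfl⟩
    · exfalso; apply ha1
      rw [← two_mul, pow_mul, ← hx, pow_orderOf_eq_one, one_pow]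
    · rw [pow_add, pow_mul, ← hx, pow_orderOf_eq_one, one_pow, one_mul, pow_one]
  constructor
  · intro hbal A _ hA b hb hcomm
    rw [pow_one] at hA
    obtain ⟨x, hxA, hx1⟩ := A.bot_or_exists_ne_one.resolve_left (fun h => by simp [h] at hA)
    have hx : orderOf x = 2 := by
      have h := orderOf_dvd_natCard (⟨x, hxA⟩ : A)
      rw [Subgroup.orderOf_mk, hA, Nat.dvd_prime Nat.prime_two] at h
      exact h.resolve_left (fun h => hx1 (orderOf_eq_one_iff.mp h))
    rw [hcard x hx A hxA hA, hbal x b hx hb (hcomm x hxA)]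
    exact inf_le_left
  · intro hbal x y hx hy hxy
    have key : ∀ x y : G, orderOf x = 2 → orderOf y = 2 → x * y = y * x →
        Cfsg.centralizerPPrimeCore 2 x ⊓ Subgroup.centralizer {y} ≤
          Cfsg.centralizerPPrimeCore 2 y ⊓ Subgroup.centralizer {x} := by
      intro x y hx hy hxy
      refine le_inf ?_ (inf_le_left.trans (Signalizer.centralizerPPrimeCore_le_centralizer x))
      have hc : Nat.card ↥(Subgroup.zpowers x) = 2 := by rw [Nat.card_zpowers, hx]
      have hel : Cfsg.IsElementaryAbelian 2 (Subgroup.zpowers x) := by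
        refine ⟨inferInstance, ?_⟩
        rintro _ ⟨i, rfl⟩
        show (x ^ i) ^ 2 = 1
        rw [← zpow_natCast, ← zpow_mul, mul_comm, zpow_mul, zpow_natCast, ← hx, pow_orderOf_eq_one, one_zpow]
      have h := hbal (Subgroup.zpowers x) hel (by rw [hc, pow_one]) y hy (fun a ha => by
        obtain ⟨i, rfl⟩ := ha
        exact ((show Commute x y from hxy).zpow_left i))
      rwa [hcard x hx _ (Subgroup.mem_zpowers x) hc] at h
    exact le_antisymm (key x y hx hy hxy) (key y x hy hx hxy.symm)

end Cfsg.Agent.S1300
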