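import Cfsg.Statements.S1303
import Cfsg.Agent.Solv.Fitting
import Cfsg.Agent.Char.Integral
import Mathlib.Data.ZMod.Basic
import Mathlib.LinearAlgebra.Matrix.SpecialLinearGroup
import Mathlib.Tactic.FinCases

set_option autoImplicit false
open Cfsg

namespace Cfsg.Agent.S1303


/-- Upper transvection. -/
def su : Matrix.SpecialLinearGroup (Fin 2) (ZMod 3) := ⟨!![1, 1; 0, 1], by simp [Matrix.det_fin_two_of]⟩
/-- Lower transvection. -/
def sv : Matrix.SpecialLinearGroup (Fin 2) (ZMod 3) := ⟨!![1, 0; 1, 1], by simp [Matrix.det_fin_two_of]⟩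

theorem neg_three : ∀ a : ZMod 3, -a = a → a = 0 := by decide


/-- The group X = SL(2, 3): it is 2-constrained, O_{2'}(X) = 1, its centre A = Z(X) contains every involution of X = C_X(A), and X has a subgroup of order 3 (normalized by A) not contained in O_{2'}(X). -/
theorem result : Cfsg.IsPConstrained 2 (Matrix.SpecialLinearGroup (Fin 2) (ZMod 3)) ∧ Cfsg.pPrimeCore 2 (Matrix.SpecialLinearGroup (Fin 2) (ZMod 3)) = ⊥ ∧ (∀ t : Matrix.SpecialLinearGroup (Fin 2) (ZMod 3), orderOf t = 2 → t ∈ Subgroup.center (Matrix.SpecialLinearGroup (Fin 2) (ZMod 3))) ∧ ∃ Q : Subgroup (Matrix.SpecialLinearGroup (Fin 2) (ZMod 3)), Nat.card ↥Q = 3 ∧ ¬ (Q ≤ Cfsg.pPrimeCore 2 (Matrix.SpecialLinearGroup (Fin 2) (ZMod 3))) := by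
  classical
  haveI : Fact (Nat.Prime 2) := ⟨Nat.prime_two⟩
  haveI : Fact (Nat.Prime 3) := ⟨Nat.prime_three⟩
  have hcard : Nat.card (Matrix.SpecialLinearGroup (Fin 2) (ZMod 3)) = 24 := by
    rw [Nat.card_eq_fintype_card]; rfl
  haveI : Group.IsSolvable (Matrix.SpecialLinearGroup (Fin 2) (ZMod 3)) :=
    Char.isSolvable_of_card_eq_pow_mul_pow _ Nat.prime_two Nat.prime_three (a := 3) (b := 1) (by rw [hcard]; norm_num)
  have hne : su * sv ≠ sv * su := by
    decide
  have ho : ∀ w : Matrix.SpecialLinearGroup (Fin 2) (ZMod 3), w ^ 3 = 1 → w ≠ 1 → orderOf w = 3 :=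
    fun w h h' => orderOf_eq_prime h h'
  have hu : orderOf su = 3 := ho _ (by decide) (by decide)
  have hv : orderOf sv = 3 := ho _ (by decide) (by decide)
  have hcore : Cfsg.pPrimeCore 2 (Matrix.SpecialLinearGroup (Fin 2) (ZMod 3)) = ⊥ := by
    obtain ⟨hn, hc⟩ := Solv.pPrimeCore_mem (G := Matrix.SpecialLinearGroup (Fin 2) (ZMod 3)) 2
    set N := Cfsg.pPrimeCore 2 (Matrix.SpecialLinearGroup (Fin 2) (ZMod 3))
    haveI := hn
    have hd := Subgroup.card_subgroup_dvd_card N
    rw [hcard] at hd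
    have hodd : ¬ 2 ∣ Nat.card N := fun h => by
      have := hc ▸ Nat.dvd_gcd h (dvd_refl 2); norm_num at this
    have h13 : Nat.card N = 1 ∨ Nat.card N = 3 := by
      have h3 : Nat.card N ∣ 2 ^ 3 * 3 := (show (24 : ℕ) = 2 ^ 3 * 3 by norm_num) ▸ hd
      have h4 : Nat.card N ∣ 3 := (Nat.Coprime.pow_right 3 hc).dvd_of_dvd_mul_left h3
      exact (Nat.dvd_prime Nat.prime_three).mp h4
    rcases h13 with h | h
    · exact Subgroup.eq_bot_of_card_eq _ h
    exfalso
    apply hne
    have hall : ∀ w, orderOf w = 3 → w ∈ N := by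
      intro w hw
      have h1 : orderOf (QuotientGroup.mk' N w) ∣ 3 := (orderOf_map_dvd (QuotientGroup.mk' N) w).trans hw.dvd
      have h2 : orderOf (QuotientGroup.mk' N w) ∣ 8 := by
        refine (orderOf_dvd_natCard _).trans (dvd_of_eq ?_)
        have := Subgroup.card_eq_card_quotient_mul_card_subgroup N
        rw [hcard, h] at this
        omega
      have h3 := Nat.eq_one_of_dvd_coprimes (by norm_num) h1 h2
      exact (QuotientGroup.eq_one_iff _).mp (orderOf_eq_one_iff.mp h3)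
    haveI : IsCyclic ↥N := isCyclic_of_prime_card h
    letI : CommGroup ↥N := IsCyclic.commGroup
    exact congrArg Subtype.val (mul_comm (⟨su, hall _ hu⟩ : ↥N) ⟨sv, hall _ hv⟩)
  refine ⟨?_, hcore, ?_, ⟨Subgroup.zpowers su, by rw [Nat.card_zpowers, hu], fun h => ?_⟩⟩
  · unfold Cfsg.IsPConstrained
    set O := Cfsg.pPrimePCore 2 (Matrix.SpecialLinearGroup (Fin 2) (ZMod 3)) with hO
    intro P
    have hOeq : O = Cfsg.pCore 2 (Matrix.SpecialLinearGroup (Fin 2) (ZMod 3)) := by
      have hker : Function.Injective (QuotientGroup.mk' (Cfsg.pPrimeCore 2 (Matrix.SpecialLinearGroup (Fin 2) (ZMod 3)))) := by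
        rw [← MonoidHom.ker_eq_bot_iff, QuotientGroup.ker_mk', hcore]
      refine le_antisymm (Solv.le_pCore ?_ ?_) ?_
      · haveI := (Solv.pCore_mem (G := Matrix.SpecialLinearGroup (Fin 2) (ZMod 3) ⧸
          Cfsg.pPrimeCore 2 (Matrix.SpecialLinearGroup (Fin 2) (ZMod 3))) 2).1
        exact Subgroup.Normal.comap inferInstance _
      · exact (Solv.pCore_mem 2).2.comap_of_injective _ hker
      · intro g hg
        have h := Solv.le_pCore ((Solv.pCore_mem (G := Matrix.SpecialLinearGroup (Fin 2) (ZMod 3)) 2).1.map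
          (QuotientGroup.mk' (Cfsg.pPrimeCore 2 (Matrix.SpecialLinearGroup (Fin 2) (ZMod 3))))
          (QuotientGroup.mk'_surjective _)) ((Solv.pCore_mem 2).2.map _)
        exact h (Subgroup.mem_map_of_mem _ hg)
    have hOp : IsPGroup 2 O := hOeq ▸ (Solv.pCore_mem 2).2
    have htop : (P : Subgroup O) = ⊤ := by
      have h : IsPGroup 2 (⊤ : Subgroup O) := hOp.to_subgroup ⊤
      exact (P.is_maximal' h le_top).symm
    rw [htop, ← MonoidHom.range_eq_map, Subgroup.range_subtype, hOeq]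
    exact Solv.centralizer_pCore_le hcore
  · intro t ht
    have ht2 : t * t = 1 := by
      rw [← pow_two]
      exact (congrArg (fun k : ℕ => t ^ k) ht.symm).trans (pow_orderOf_eq_one t)
    have hti : t⁻¹ = t := inv_eq_of_mul_eq_one_right ht2
    have hm := congrArg (fun M : Matrix.SpecialLinearGroup (Fin 2) (ZMod 3) => (M : Matrix (Fin 2) (Fin 2) (ZMod 3))) hti
    simp only [Matrix.SpecialLinearGroup.coe_inv, Matrix.adjugate_fin_two] at hm
    have h01 := congrFun (congrFun hm 0) 1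
    have h10 := congrFun (congrFun hm 1) 0
    have h00 := congrFun (congrFun hm 0) 0
    simp at h01 h10 h00
    have h01' : (t : Matrix (Fin 2) (Fin 2) (ZMod 3)) 0 1 = 0 := by
      exact neg_three _ h01
    have h10' : (t : Matrix (Fin 2) (Fin 2) (ZMod 3)) 1 0 = 0 := by
      exact neg_three _ h10
    refine Subgroup.mem_center_iff.mpr fun g => ?_
    apply Subtype.ext
    simp only [Matrix.SpecialLinearGroup.coe_mul]
    ext i j
    fin_cases i <;> fin_cases j <;> simp [Matrix.mul_apply, Fin.sum_univ_two, h01', h10', ← h00, mul_comm]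
  · have h1 := h (Subgroup.mem_zpowers su)
    rw [hcore, Subgroup.mem_bot] at h1
    simp [h1] at hu

end Cfsg.Agent.S1303
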