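import Cfsg.Statements.S1306
import Cfsg.Agent.Layer.Basic
import Mathlib.GroupTheory.Perm.Cycle.Type
import Cfsg.Agent.Coprime.SylowFusion

set_option autoImplicit false
open Cfsg

namespace Cfsg.Agent.S1306

/-- Let G be finite, x an involution and L ≤ C_G(x) a component of C_G(x). Suppose L is a component of C_G(y) for every involution y ∈ C_G(L), and ⁅L, g L g⁻¹⁆ ≠ 1 whenever g L g⁻¹ ≠ L. Then L is a standard subgroup of G. -/
theorem result {G : Type*} [Group G] [Finite G] (x : G) (hx : orderOf x = 2) (L : Subgroup G) (hLx : L ≤ Subgroup.centralizer ({x} : Set G)) (hL : Cfsg.IsComponent (L.subgroupOf (Subgroup.centralizer ({x} : Set G)))) (hne : ∀ y : G, orderOf y = 2 → y ∈ Subgroup.centralizer (L : Set G) → L ≤ Subgroup.centralizer ({y} : Set G) ∧ Cfsg.IsComponent (L.subgroupOf (Subgroup.centralizer ({y} : Set G)))) (hnc : ∀ g : G, L.map (MulAut.conj g).toMonoidHom ≠ L → ⁅L, L.map (MulAut.conj g).toMonoidHom⁆ ≠ ⊥) : Cfsg.IsStandardSubgroup L := by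
  set C := Subgroup.centralizer (L : Set G) with hCdef
  have hxC : x ∈ C := by
    rw [hCdef, Subgroup.mem_centralizer_iff]
    intro l hl
    exact Subgroup.mem_centralizer_singleton_iff.mp (hLx hl)
  have hq : Cfsg.IsQuasisimple ↥L := Layer.isQuasisimple_of_mulEquiv (Subgroup.subgroupOfEquivOfLe hLx) hL.2
  -- conjugates of `L` that are components of the centralizer of an involution coincide
  have key : ∀ g : G, ∀ y' : G, orderOf y' = 2 → y' ∈ C → g * y' * g⁻¹ ∈ C →
      g ∈ Subgroup.normalizer (L : Set G) := by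
    intro g y' hy' hy'C hgy'
    have hy2 : orderOf (g * y' * g⁻¹) = 2 := by
      rw [← hy']; exact orderOf_injective (MulAut.conj g).toMonoidHom (MulAut.conj g).injective y'
    obtain ⟨hL1, hc1⟩ := hne _ hy' hy'C
    obtain ⟨hL2, hc2⟩ := hne _ hy2 hgy'
    let φ := MulAut.conj g
    let K := Subgroup.centralizer ({y'} : Set G)
    let K2 := Subgroup.centralizer ({g * y' * g⁻¹} : Set G)
    let ψ : K ≃* K2 :=
      { toFun := fun k => ⟨g * k * g⁻¹, Subgroup.mem_centralizer_singleton_iff.mpr (by
          have hk := Subgroup.mem_centralizer_singleton_iff.mp k.2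
          calc g * (k : G) * g⁻¹ * (g * y' * g⁻¹) = g * ((k : G) * y') * g⁻¹ := by group
            _ = g * y' * g⁻¹ * (g * k * g⁻¹) := by rw [hk]; group)⟩
        invFun := fun k => ⟨g⁻¹ * k * g, Subgroup.mem_centralizer_singleton_iff.mpr (by
          have hk := Subgroup.mem_centralizer_singleton_iff.mp k.2
          calc g⁻¹ * (k : G) * g * y' = g⁻¹ * ((k : G) * (g * y' * g⁻¹)) * g := by group
            _ = y' * (g⁻¹ * k * g) := by rw [hk]; group)⟩
        left_inv := fun k => Subtype.ext (by change g⁻¹ * (g * (k : G) * g⁻¹) * g = k; group)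
        right_inv := fun k => Subtype.ext (by change g * (g⁻¹ * (k : G) * g) * g⁻¹ = k; group)
        map_mul' := fun a b => Subtype.ext (by
          change g * ((a : G) * b) * g⁻¹ = g * a * g⁻¹ * (g * b * g⁻¹); group) }
    have hLg : L.map φ.toMonoidHom ≤ K2 := by
      rintro _ ⟨l, hl, rfl⟩
      exact (ψ ⟨l, hL1 hl⟩).2
    have hc3 : Cfsg.IsComponent ((L.map φ.toMonoidHom).subgroupOf K2) := by
      have h := Layer.isComponent_map_equiv ψ hc1
      have e : (L.subgroupOf K).map ψ.toMonoidHom = (L.map φ.toMonoidHom).subgroupOf K2 := by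
        ext k
        constructor
        · rintro ⟨l, hl, rfl⟩
          exact ⟨l, hl, rfl⟩
        · rintro ⟨l, hl, hlk⟩
          exact ⟨⟨l, hL1 hl⟩, hl, Subtype.ext hlk⟩
      rwa [e] at h
    refine Subgroup.mem_normalizer_iff_map_conj_eq.mpr ?_
    by_contra hne'
    replace hne' : L.map φ.toMonoidHom ≠ L := hne'
    have hdist : L.subgroupOf K2 ≠ (L.map φ.toMonoidHom).subgroupOf K2 := by
      intro h
      apply hne'
      have h2 := congrArg (Subgroup.map K2.subtype) h
      rw [Subgroup.map_subgroupOf_eq_of_le hL2, Subgroup.map_subgroupOf_eq_of_le hLg] at h2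
      exact h2.symm
    have hcomm := congrArg (Subgroup.map K2.subtype) (Layer.components_commute hc2 hc3 hdist)
    rw [Subgroup.map_commutator, Subgroup.map_subgroupOf_eq_of_le hL2, Subgroup.map_subgroupOf_eq_of_le hLg,
      Subgroup.map_bot] at hcomm
    exact hnc g hne' hcomm
  have hNN : Subgroup.normalizer (L : Set G) ≤ Subgroup.normalizer (C : Set G) := by
    intro g hg
    refine SylowFusion.mem_normalizer_of_conj_mem fun c hc => ?_
    rw [hCdef, Subgroup.mem_centralizer_iff]
    intro l hl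
    have h1 : g⁻¹ * l * g ∈ L := (Subgroup.mem_normalizer_iff''.mp hg l).mp hl
    have h2 := Subgroup.mem_centralizer_iff.mp hc _ h1
    calc l * (g * c * g⁻¹) = g * (g⁻¹ * l * g * c) * g⁻¹ := by group
      _ = g * c * g⁻¹ * l := by rw [h2]; group
  refine ⟨hq, ⟨?_, fun g hg => ?_⟩, hnc, le_antisymm hNN fun g hg => key g x hx hxC ((hg x).mp hxC)⟩
  · rw [even_iff_two_dvd, ← hx]
    exact Subgroup.orderOf_dvd_natCard C hxC
  · rw [← Nat.not_even_iff_odd, even_iff_two_dvd]
    intro h2
    obtain ⟨y, hy⟩ := exists_prime_orderOf_dvd_card' 2 h2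
    obtain ⟨hyC, ⟨y', hy'C, hy'y⟩⟩ := y.2
    have hy2 : orderOf (y : G) = 2 := by
      rw [← hy]; exact orderOf_injective _ (Subgroup.subtype_injective _) y
    have hy'y' : g * y' * g⁻¹ = (y : G) := hy'y
    have ho : orderOf y' = 2 := by
      rw [← hy2, ← hy'y']
      exact (orderOf_injective (MulAut.conj g).toMonoidHom (MulAut.conj g).injective y').symm
    exact hg (hNN (key g y' ho hy'C (hy'y' ▸ hyC)))

end Cfsg.Agent.S1306
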