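import Cfsg.Statements.S1314
import Mathlib.GroupTheory.Commutator.Basic
import Mathlib.Tactic.Group

set_option autoImplicit false
open Cfsg

namespace Cfsg.Agent.S1314


open scoped commutatorElement


/-- Let x be an involution of a group G and L a perfect subgroup with ⁅L, x L x⁻¹⁆ = 1. Then l ↦ l (x l x⁻¹) is a group homomorphism π from L to G whose kernel is central in L and whose image lies in C_G(x); and the commutator subgroup of C_{L ⊔ xLx⁻¹}(x) equals the image of π. -/
theorem result {G : Type*} [Group G] [Finite G] (x : G) (hx : orderOf x = 2) (L : Subgroup G) (hperf : ⁅L, L⁆ = L) (hcomm : ⁅L, L.map (MulAut.conj x).toMonoidHom⁆ = ⊥) : ∃ π : ↥L →* G, (∀ l : ↥L, π l = (l : G) * (x * (l : G) * x⁻¹)) ∧ π.ker ≤ Subgroup.center ↥L ∧ π.range ≤ Subgroup.centralizer ({x} : Set G) ∧ ⁅(L ⊔ L.map (MulAut.conj x).toMonoidHom) ⊓ Subgroup.centralizer ({x} : Set G), (L ⊔ L.map (MulAut.conj x).toMonoidHom) ⊓ Subgroup.centralizer ({x} : Set G)⁆ = π.range := by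
  set Lx := L.map (MulAut.conj x).toMonoidHom with hLx
  have hxx : x * x = 1 := by rw [← pow_two, ← hx, pow_orderOf_eq_one]
  have hc : ∀ a ∈ L, ∀ b ∈ Lx, a * b = b * a := fun a ha b hb =>
    commutatorElement_eq_one_iff_mul_comm.mp (Subgroup.commutator_eq_bot_iff_le_centralizer.mp hcomm ha |> fun h =>
      commutatorElement_eq_one_iff_mul_comm.mpr (Subgroup.mem_centralizer_iff.mp h b hb).symm)
  have hcl : ∀ a ∈ L, x * a * x⁻¹ ∈ Lx := fun a ha => ⟨a, ha, by simp⟩
  let π : ↥L →* G :=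
    { toFun := fun l => (l : G) * (x * (l : G) * x⁻¹)
      map_one' := by simp
      map_mul' := fun a b => by
        have h := hc b b.2 _ (hcl a a.2)
        simp only [Subgroup.coe_mul]
        calc (a : G) * b * (x * (a * b) * x⁻¹) = a * ((b : G) * (x * a * x⁻¹)) * (x * b * x⁻¹) := by group
          _ = a * ((x * a * x⁻¹) * b) * (x * b * x⁻¹) := by rw [h]
          _ = a * (x * a * x⁻¹) * (b * (x * b * x⁻¹)) := by group }
  refine ⟨π, fun l => rfl, ?_, ?_, ?_⟩
  · intro l hl
    refine Subgroup.mem_center_iff.mpr fun g => Subtype.ext ?_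
    have h1 : (l : G) = (x * (l : G) * x⁻¹)⁻¹ := eq_inv_of_mul_eq_one_left (MonoidHom.mem_ker.mp hl)
    have h2 : (l : G) ∈ Lx := h1 ▸ Lx.inv_mem (hcl l l.2)
    exact hc g g.2 l h2
  · rintro _ ⟨l, rfl⟩
    refine Subgroup.mem_centralizer_singleton_iff.mpr ?_
    show (l : G) * (x * l * x⁻¹) * x = x * ((l : G) * (x * l * x⁻¹))
    have hxi : x⁻¹ = x := inv_eq_of_mul_eq_one_right hxx
    calc (l : G) * (x * l * x⁻¹) * x = (x * l * x⁻¹) * l * x := by rw [hc l l.2 _ (hcl l l.2)]
      _ = x * l * (x * l * x) := by rw [hxi]; group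
      _ = x * ((l : G) * (x * l * x⁻¹)) := by rw [hxi]; group
  · have hperf' : ⁅(⊤ : Subgroup L), ⊤⁆ = ⊤ := Subgroup.map_injective L.subtype_injective (by
      rw [Subgroup.map_commutator, ← MonoidHom.range_eq_map, Subgroup.range_subtype, hperf])
    have hrange : ⁅π.range, π.range⁆ = π.range := by
      rw [MonoidHom.range_eq_map, ← Subgroup.map_commutator, hperf']
    have hrC : π.range ≤ Subgroup.centralizer ({x} : Set G) := by
      rintro _ ⟨l, rfl⟩
      refine Subgroup.mem_centralizer_singleton_iff.mpr ?_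
      show (l : G) * (x * l * x⁻¹) * x = x * ((l : G) * (x * l * x⁻¹))
      have hxi : x⁻¹ = x := inv_eq_of_mul_eq_one_right hxx
      calc (l : G) * (x * l * x⁻¹) * x = (x * l * x⁻¹) * l * x := by rw [hc l l.2 _ (hcl l l.2)]
        _ = x * l * (x * l * x) := by rw [hxi]; group
        _ = x * ((l : G) * (x * l * x⁻¹)) := by rw [hxi]; group
    refine le_antisymm ?_ ?_
    · have hdec : ∀ z ∈ (L ⊔ Lx) ⊓ Subgroup.centralizer ({x} : Set G), ∃ l : L, ∃ c,
          (∀ w ∈ L ⊔ Lx, c * w = w * c) ∧ z = π l * c := by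
        rintro z ⟨hz, hzc⟩
        have hn : Lx ≤ Subgroup.normalizer (L : Set G) := by
          intro b hb u
          constructor
          · intro hu
            rw [show b * u * b⁻¹ = u by rw [← hc u hu b hb]; group]
            exact hu
          · intro hu
            rw [show u = b⁻¹ * (b * u * b⁻¹) * b by group,
              show b⁻¹ * (b * u * b⁻¹) * b = b * u * b⁻¹ by
                rw [mul_assoc, hc _ hu b hb]; group]
            exact hu
        have hz' : z ∈ ((L ⊔ Lx : Subgroup G) : Set G) := hz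
        rw [Subgroup.coe_mul_of_right_le_normalizer_left L Lx hn, Set.mem_mul] at hz'
        obtain ⟨l, hl, _, ⟨l', hl', rfl⟩, rfl⟩ := hz'
        simp only [MulEquiv.coe_toMonoidHom, MulAut.conj_apply] at hzc ⊢
        have hzx := Subgroup.mem_centralizer_singleton_iff.mp hzc
        have hxi : x⁻¹ = x := inv_eq_of_mul_eq_one_right hxx
        -- `l * x l' x⁻¹ = l' * x l x⁻¹`
        have heq : l * (x * l' * x⁻¹) = l' * (x * l * x⁻¹) := by
          calc l * (x * l' * x⁻¹) = (x * (l * (x * l' * x⁻¹))) * x⁻¹ := by rw [← hzx]; group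
            _ = x * l * x⁻¹ * ((x * x) * l' * (x * x)⁻¹) := by group
            _ = x * l * x⁻¹ * l' := by rw [hxx]; group
            _ = l' * (x * l * x⁻¹) := (hc l' hl' _ (hcl l hl)).symm
        have hd : l'⁻¹ * l ∈ Lx := by
          have : l'⁻¹ * l = (x * l * x⁻¹) * (x * l' * x⁻¹)⁻¹ := by
            calc l'⁻¹ * l = l'⁻¹ * (l * (x * l' * x⁻¹)) * (x * l' * x⁻¹)⁻¹ := by group
              _ = l'⁻¹ * (l' * (x * l * x⁻¹)) * (x * l' * x⁻¹)⁻¹ := by rw [heq]
              _ = (x * l * x⁻¹) * (x * l' * x⁻¹)⁻¹ := by group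
          rw [this]
          exact Lx.mul_mem (hcl l hl) (Lx.inv_mem (hcl l' hl'))
        have hd' : l⁻¹ * l' ∈ Lx := by simpa using Lx.inv_mem hd
        refine ⟨⟨l, hl⟩, x * (l⁻¹ * l') * x⁻¹, ?_, ?_⟩
        · have hcL : x * (l⁻¹ * l') * x⁻¹ ∈ L := by
            obtain ⟨u, hu, hue⟩ := hd'
            rw [← hue]
            show x * (x * u * x⁻¹) * x⁻¹ ∈ L
            have : x * (x * u * x⁻¹) * x⁻¹ = u := by
              calc x * (x * u * x⁻¹) * x⁻¹ = (x * x) * u * (x * x)⁻¹ := by group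
                _ = u := by rw [hxx]; group
            rw [this]; exact hu
          have hcLx : x * (l⁻¹ * l') * x⁻¹ ∈ Lx := hcl _ (L.mul_mem (L.inv_mem hl) hl')
          intro w hw
          have : L ⊔ Lx ≤ Subgroup.centralizer ({x * (l⁻¹ * l') * x⁻¹} : Set G) := sup_le
            (fun a ha => Subgroup.mem_centralizer_singleton_iff.mpr (hc a ha _ hcLx))
            (fun b hb => Subgroup.mem_centralizer_singleton_iff.mpr (hc _ hcL b hb).symm)
          exact (Subgroup.mem_centralizer_singleton_iff.mp (this hw)).symm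
        · show l * (x * l' * x⁻¹) = l * (x * l * x⁻¹) * (x * (l⁻¹ * l') * x⁻¹)
          group
      rw [Subgroup.commutator_le]
      intro a ha b hb
      obtain ⟨l, c, hcc, rfl⟩ := hdec a ha
      obtain ⟨m, d, hdd, rfl⟩ := hdec b hb
      have hπM : ∀ k : L, π k ∈ L ⊔ Lx := fun k => Subgroup.mul_mem_sup k.2 (hcl k k.2)
      have hdM : d ∈ L ⊔ Lx := by
        have := (L ⊔ Lx).mul_mem ((L ⊔ Lx).inv_mem (hπM m)) hb.1
        simpa using this
      have h1 := hcc _ (hπM m)
      have h2 := hcc d hdM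
      have h3 := hdd _ (hπM l)
      have h4 := hdd _ (hπM m)
      have hC1 : Commute c (π m * d) := Commute.mul_right h1 h2
      have e : ⁅π l * c, π m * d⁆ = ⁅π l, π m⁆ := by
        rw [commutatorElement_def, commutatorElement_def]
        calc π l * c * (π m * d) * (π l * c)⁻¹ * (π m * d)⁻¹
            = π l * (c * (π m * d)) * c⁻¹ * (π l)⁻¹ * d⁻¹ * (π m)⁻¹ := by group
          _ = π l * ((π m * d) * c) * c⁻¹ * (π l)⁻¹ * d⁻¹ * (π m)⁻¹ := by rw [hC1.eq]
          _ = π l * π m * (d * (π l)⁻¹) * d⁻¹ * (π m)⁻¹ := by group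
          _ = π l * π m * ((π l)⁻¹ * d) * d⁻¹ * (π m)⁻¹ := by rw [(show Commute d (π l) from h3).inv_right.eq]
          _ = π l * π m * (π l)⁻¹ * (π m)⁻¹ := by group
      rw [e]
      exact hrange.le (Subgroup.commutator_mem_commutator ⟨l, rfl⟩ ⟨m, rfl⟩)
    · rw [← hrange]
      have hle : π.range ≤ (L ⊔ Lx) ⊓ Subgroup.centralizer ({x} : Set G) := le_inf (by
        rintro _ ⟨l, rfl⟩
        exact Subgroup.mul_mem_sup l.2 (hcl l l.2)) hrC
      rw [hrange]
      conv_lhs => rw [← hrange]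
      exact Subgroup.commutator_mono hle hle

end Cfsg.Agent.S1314
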