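import Cfsg.Statements.S1316
import Cfsg.Agent.Layer.Decomp

set_option autoImplicit false
open Cfsg
open scoped commutatorElement

namespace Cfsg.Agent.S1316

/-- For a finite group X, E(X) equals the intersection of the derived series of F*(X) (its last term). -/
theorem result {X : Type*} [Group X] [Finite X] : (⨅ n : ℕ, (derivedSeries ↥(Cfsg.generalizedFittingSubgroup X) n).map (Cfsg.generalizedFittingSubgroup X).subtype) = Cfsg.layer X := by
  set F := Cfsg.generalizedFittingSubgroup X
  refine le_antisymm ?_ (le_iInf fun n => ?_)
  · obtain ⟨n, hn⟩ : ∃ n, (derivedSeries F n).map F.subtype ≤ Cfsg.layer X := by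
      haveI := Solv.fittingSubgroup_isNilpotent (G := X)
      obtain ⟨n, hn⟩ := (Group.isSolvable_def (G := ↥(Cfsg.fittingSubgroup X))).mp inferInstance
      refine ⟨n, ?_⟩
      have key : ∀ k, (derivedSeries F k).map F.subtype ≤
          Cfsg.layer X ⊔ (derivedSeries (Cfsg.fittingSubgroup X) k).map (Cfsg.fittingSubgroup X).subtype := by
        intro k
        induction k with
        | zero =>
          simp only [derivedSeries_zero, ← MonoidHom.range_eq_map, Subgroup.range_subtype]
          exact le_rfl
        | succ k ih =>
          rw [derivedSeries_succ, Subgroup.map_commutator]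
          refine (Subgroup.commutator_mono ih ih).trans ?_
          rw [derivedSeries_succ, Subgroup.map_commutator, Subgroup.commutator_le]
          intro a ha b hb
          haveI : (Cfsg.layer X).Normal := inferInstance
          obtain ⟨l, hl, f, hf, rfl⟩ := Subgroup.mem_sup_of_normal_left.mp ha
          obtain ⟨l', hl', f', hf', rfl⟩ := Subgroup.mem_sup_of_normal_left.mp hb
          let π := QuotientGroup.mk' (Cfsg.layer X)
          have e : ⁅l * f, l' * f'⁆ * ⁅f, f'⁆⁻¹ ∈ Cfsg.layer X := by
            rw [← QuotientGroup.eq_one_iff]
            have hl1 : π l = 1 := (QuotientGroup.eq_one_iff l).mpr hl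
            have hl2 : π l' = 1 := (QuotientGroup.eq_one_iff l').mpr hl'
            change π (⁅l * f, l' * f'⁆ * ⁅f, f'⁆⁻¹) = 1
            rw [map_mul, map_inv, map_commutatorElement, map_commutatorElement, map_mul, map_mul, hl1, hl2,
              one_mul, one_mul, mul_inv_cancel]
          have h2 := Subgroup.mul_mem_sup e (Subgroup.commutator_mem_commutator hf hf')
          simpa only [inv_mul_cancel_right] using h2
      refine (key n).trans ?_
      rw [hn, Subgroup.map_bot, sup_bot_eq]
    exact (iInf_le _ n).trans hn
  · induction n with
    | zero => rw [derivedSeries_zero, ← MonoidHom.range_eq_map, Subgroup.range_subtype]; exact le_sup_left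
    | succ k ih =>
      rw [derivedSeries_succ, Subgroup.map_commutator, ← Layer.layer_perfect]
      exact Subgroup.commutator_mono ih ih

end Cfsg.Agent.S1316
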