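import Cfsg.Statements.S1318
import Cfsg.Agent.Layer.Decomp

set_option autoImplicit false
open Cfsg

namespace Cfsg.Agent.S1318


theorem fstar_top_of_subnormal {Y : Type*} [Group Y] [Finite Y] (h : Cfsg.generalizedFittingSubgroup Y = ⊤)
    {K : Subgroup Y} (hK : K.IsSubnormal) : Cfsg.generalizedFittingSubgroup ↥K = ⊤ := by
  induction hK with
  | top =>
    rw [← Layer.map_generalizedFittingSubgroup (Subgroup.topEquiv (G := Y)).symm, h,
      Subgroup.map_top_of_surjective _ (MulEquiv.surjective _)]
  | step A B hle _ hN ih =>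
    haveI := hN
    have h1 := Layer.generalizedFitting_inf_normal (G := ↥B) (A.subgroupOf B)
    rw [ih, top_inf_eq] at h1
    have h2 : Cfsg.generalizedFittingSubgroup ↥(A.subgroupOf B) = ⊤ :=
      Subgroup.map_injective (A.subgroupOf B).subtype_injective
        (h1.symm.trans (by rw [← MonoidHom.range_eq_map, Subgroup.range_subtype]))
    rw [← Layer.map_generalizedFittingSubgroup (Subgroup.subgroupOfEquivOfLe hle), h2,
      Subgroup.map_top_of_surjective _ (MulEquiv.surjective _)]

theorem subnormal_map_of_normal {X : Type*} [Group X] {F : Subgroup X} [F.Normal] {K : Subgroup ↥F}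
    (hK : K.IsSubnormal) : (K.map F.subtype).IsSubnormal := by
  induction hK with
  | top =>
    rw [← MonoidHom.range_eq_map, Subgroup.range_subtype]
    exact Subgroup.Normal.isSubnormal inferInstance
  | step A B hle _ hN ih =>
    refine Subgroup.IsSubnormal.step _ _ (Subgroup.map_mono hle) ih ?_
    rw [Subgroup.normal_subgroupOf_iff_le_normalizer (Subgroup.map_mono hle)]
    exact (Subgroup.map_mono ((Subgroup.normal_subgroupOf_iff_le_normalizer hle).mp hN)).trans
      (Subgroup.le_normalizer_map _)


/-- Let X be finite and S ≤ F*(X) a subgroup subnormal in F*(X). Then F(S) = F(X) ∩ S (inside X) and S = F(S)E(S). -/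
theorem result {X : Type*} [Group X] [Finite X] (S : Subgroup X) (hS : S ≤ Cfsg.generalizedFittingSubgroup X) (hsn : (S.subgroupOf (Cfsg.generalizedFittingSubgroup X)).IsSubnormal) : (Cfsg.fittingSubgroup ↥S).map S.subtype = Cfsg.fittingSubgroup X ⊓ S ∧ Cfsg.fittingSubgroup ↥S ⊔ Cfsg.layer ↥S = ⊤ := by
  set F := Cfsg.generalizedFittingSubgroup X with hF
  haveI : F.Normal := inferInstance
  have hY : Cfsg.generalizedFittingSubgroup ↥F = ⊤ := by
    have h1 := Layer.generalizedFitting_inf_normal (G := X) F
    rw [← hF, inf_idem] at h1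
    exact Subgroup.map_injective F.subtype_injective
      (h1.symm.trans (by rw [← MonoidHom.range_eq_map, Subgroup.range_subtype]))
  have hS2 : Cfsg.generalizedFittingSubgroup ↥S = ⊤ := by
    rw [← Layer.map_generalizedFittingSubgroup (Subgroup.subgroupOfEquivOfLe hS),
      fstar_top_of_subnormal hY hsn, Subgroup.map_top_of_surjective _ (MulEquiv.surjective _)]
  have hSn : S.IsSubnormal := by
    have := subnormal_map_of_normal hsn
    rwa [Subgroup.map_subgroupOf_eq_of_le hS] at this
  refine ⟨?_, ?_⟩
  · refine le_antisymm (le_inf ?_ (Subgroup.map_subtype_le _)) ?_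
    · rw [Solv.fittingSubgroup_eq_iSup, Subgroup.map_iSup]
      refine iSup_le fun q => ?_
      haveI := Fact.mk q.2
      refine le_trans ?_ (Solv.pCore_le_fittingSubgroup (q : ℕ))
      refine Solv.le_pCore_of_isSubnormal ?_ ((Solv.pCore_mem _).2.map _)
      refine Subgroup.IsSubnormal.step _ S (Subgroup.map_subtype_le _) hSn ?_
      rw [Subgroup.normal_subgroupOf_iff_le_normalizer (Subgroup.map_subtype_le _)]
      have h := Subgroup.le_normalizer_map (H := Cfsg.pCore (q : ℕ) ↥S) S.subtype
      rwa [Subgroup.normalizer_eq_top_iff.mpr inferInstance, ← MonoidHom.range_eq_map, Subgroup.range_subtype] at h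
    · intro x hx
      refine ⟨⟨x, hx.2⟩, ?_, rfl⟩
      have hle : (Cfsg.fittingSubgroup X).subgroupOf S ≤ Cfsg.fittingSubgroup ↥S := by
        refine Solv.le_fittingSubgroup inferInstance ?_
        haveI := Solv.fittingSubgroup_isNilpotent (G := X)
        refine Subgroup.isNilpotent_of_ker_le_center ((S.subtype.comp ((Cfsg.fittingSubgroup X).subgroupOf S).subtype).codRestrict
          (Cfsg.fittingSubgroup X) (fun a => a.2)) ?_
        intro a ha
        have h1 : ((a : ↥S) : X) = 1 := congrArg Subtype.val (MonoidHom.mem_ker.mp ha)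
        have h2 : a = 1 := Subtype.ext (Subtype.ext h1)
        rw [h2]; exact Subgroup.one_mem _
      exact hle hx.1
  · rw [sup_comm]; exact hS2

end Cfsg.Agent.S1318
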