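import Cfsg.Statements.S1321
import Cfsg.Agent.Layer.Decomp

set_option autoImplicit false
open Cfsg

namespace Cfsg.Agent.S1321

/-- Let X be finite and U ≤ X. Then E(X) is generated by C_{E(X)}(U) together with ⁅E(X), U⁆ (indeed it is their product, ⁅E(X), U⁆ being normal in E(X)). -/
theorem result {X : Type*} [Group X] [Finite X] (U : Subgroup X) : Cfsg.layer X = (Cfsg.layer X ⊓ Subgroup.centralizer (U : Set X)) ⊔ ⁅Cfsg.layer X, U⁆ ∧ ⁅Cfsg.layer X, U⁆ ≤ Cfsg.layer X := by
  set E := Cfsg.layer X
  have hle : ⁅E, U⁆ ≤ E := Subgroup.le_normalizer_iff_commutator_le_left.mp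
    (by rw [Subgroup.normalizer_eq_top_iff.mpr (inferInstance : E.Normal)]; exact le_top)
  refine ⟨le_antisymm (sSup_le fun L hL => ?_) (sup_le inf_le_left hle), hle⟩
  have hLE : L ≤ E := Layer.component_le_layer hL
  have hnorm : (⁅E, U⁆.subgroupOf E).Normal :=
    Subgroup.normal_subgroupOf_of_le_normalizer (Subgroup.normalizer_commutator_ge_left E U)
  have hsn : ⁅E, U⁆.IsSubnormal :=
    Subgroup.IsSubnormal.trans hle hnorm.isSubnormal (Subgroup.Normal.isSubnormal inferInstance)
  rcases Layer.le_or_commutator_eq_bot hL hsn with h | h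
  · exact h.trans le_sup_right
  · refine le_trans (le_inf hLE ?_) le_sup_left
    rw [← Subgroup.commutator_eq_bot_iff_le_centralizer, Subgroup.commutator_comm]
    refine Layer.commutator_eq_bot_of_perfect (Layer.component_perfect hL) ?_
    rw [eq_bot_iff, ← h, Subgroup.commutator_comm L ⁅E, U⁆]
    refine Subgroup.commutator_mono ?_ le_rfl
    rw [Subgroup.commutator_comm E U]
    exact Subgroup.commutator_mono le_rfl hLE

end Cfsg.Agent.S1321
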