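import Cfsg.Statements.S1327
import Cfsg.Agent.PSolv.PComponent

set_option autoImplicit false
open Cfsg

namespace Cfsg.Agent.S1327

/-- A finite group X is p-constrained if and only if its p-layer L_{p'}(X) is trivial (equivalently X / O_{p'}(X) has trivial layer). -/
theorem result {X : Type*} [Group X] [Finite X] (p : ℕ) [Fact p.Prime] : Cfsg.IsPConstrained p X ↔ Cfsg.pLayer p X = ⊥ := by
  rw [PSolv.isPConstrained_iff]
  have hF : Cfsg.fittingSubgroup (X ⧸ Cfsg.pPrimeCore p X) = Cfsg.pCore p (X ⧸ Cfsg.pPrimeCore p X) :=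
    Solv.fitting_eq_pCore (Solv.pPrimeCore_quotient p)
  rw [show PSolv.SelfCentralizingCore p (X ⧸ Cfsg.pPrimeCore p X) ↔
      Cfsg.layer (X ⧸ Cfsg.pPrimeCore p X) = ⊥ by
    rw [PSolv.SelfCentralizingCore, ← hF]; exact Layer.centralizer_fitting_le_iff]
  constructor
  · intro h
    rw [eq_bot_iff]
    refine sSup_le fun K hK => ?_
    exfalso
    exact Layer.component_ne_bot hK.2.1 (le_bot_iff.mp ((Layer.component_le_layer hK.2.1).trans h.le))
  · intro h
    rw [← PSolv.map_pLayer, h, Subgroup.map_bot]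

end Cfsg.Agent.S1327
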