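import Cfsg.Statements.S1331
import Cfsg.Agent.Coprime.Signalizer

set_option autoImplicit false
open Cfsg

namespace Cfsg.Agent.S1331

/-- Let θ be a solvable A-signalizer functor on the finite group G for the prime p, A elementary abelian of rank at least 3, X a member of the family of θ, and B ≤ A with |B| ≥ p². Then X is generated by the subgroups X ∩ ⋂_{d ∈ D, d ≠ 1} θ d, D ranging over the subgroups of index p in B. -/
theorem result {G : Type*} [Group G] [Finite G] (p : ℕ) [Fact p.Prime] (A : Subgroup G) (hA : Cfsg.IsElementaryAbelian p A) (hA3 : p ^ 3 ≤ Nat.card ↥A) (θ : G → Subgroup G) (hθ : Cfsg.IsSolvableSignalizerFunctor p A θ) (X : Subgroup G) (hX : X ∈ Cfsg.signalizerFamily p A θ) (B : Subgroup G) (hB : B ≤ A) (hB2 : p ^ 2 ≤ Nat.card ↥B) : X = ⨆ D : {D : Subgroup G // D ≤ B ∧ D.relIndex B = p}, X ⊓ Cfsg.signalizerInf (D : Subgroup G) θ := by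
  have hBe := Signalizer.isElementaryAbelian_mono hA hB
  have hXn : A ≤ Subgroup.normalizer (X : Set G) := Signalizer.mem_normalizer_of_forall_conj hX.2.2.1
  have hBp := Signalizer.isPGroup_of_isElementaryAbelian hBe
  obtain ⟨m, hm⟩ := IsPGroup.iff_card.mp hBp
  have hm2 : 2 ≤ m := (Nat.pow_le_pow_iff_right (Fact.out : p.Prime).one_lt).mp (hm ▸ hB2)
  have key : ∀ D : Subgroup G, D ≤ B → D.relIndex B = p →
      X ⊓ Subgroup.centralizer (D : Set G) ≤ ⨆ D : {D : Subgroup G // D ≤ B ∧ D.relIndex B = p},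
        X ⊓ Cfsg.signalizerInf (D : Subgroup G) θ := by
    intro D hD hDi
    refine le_trans ?_ (le_iSup (fun D : {D : Subgroup G // D ≤ B ∧ D.relIndex B = p} =>
        X ⊓ Cfsg.signalizerInf (D : Subgroup G) θ) ⟨D, hD, hDi⟩)
    refine le_inf inf_le_left (le_iInf fun d => ?_)
    exact le_trans (inf_le_inf_left _ (Subgroup.centralizer_le (Set.singleton_subset_iff.mpr d.2.1)))
      (hX.2.2.2 d (hB (hD d.2.1)) d.2.2)
  refine le_antisymm ?_ (iSup_le fun D => inf_le_left)
  conv_lhs => rw [CoprimeAct.le_iSup_inf_centralizer hBe.1 hBe.2 hX.2.1 (hB.trans hXn)]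
  refine iSup_le fun D => ?_
  obtain ⟨j, hj, hje⟩ := (Nat.dvd_prime_pow (Fact.out : p.Prime)).mp
    (show (D : Subgroup G).relIndex B ∣ p ^ m from hm ▸ Subgroup.relIndex_dvd_card _ _)
  have hle := D.2.2
  rw [hje] at hle
  have hj1 : j ≤ 1 := (Nat.pow_le_pow_iff_right (Fact.out : p.Prime).one_lt).mp (by simpa using hle)
  rcases Nat.le_one_iff_eq_zero_or_eq_one.mp hj1 with h0 | h1
  · subst h0
    have hDB : B ≤ (D : Subgroup G) := Subgroup.relIndex_eq_one.mp (by simpa using hje)
    obtain ⟨K, hK⟩ := Sylow.exists_subgroup_card_pow_prime p (n := m - 1)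
      (show p ^ (m - 1) ∣ Nat.card ↥B from hm ▸ pow_dvd_pow p (by omega))
    have hKi : (K.map B.subtype).relIndex B = p := by
      have h1 : Nat.card ↥(K.map B.subtype) * (K.map B.subtype).relIndex B = Nat.card ↥B := by
        rw [← Subgroup.relIndex_bot_left, ← Subgroup.relIndex_bot_left]
        exact Subgroup.relIndex_mul_relIndex _ _ _ bot_le (Subgroup.map_subtype_le _)
      rw [Subgroup.card_map_of_injective (Subgroup.subtype_injective _), hK, hm] at h1
      have h2 : p ^ m = p ^ (m - 1) * p := by rw [← pow_succ]; congr 1; omega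
      rw [h2] at h1
      exact Nat.eq_of_mul_eq_mul_left (pow_pos (Fact.out : p.Prime).pos _) h1
    exact le_trans (inf_le_inf_left _ (Subgroup.centralizer_le ((Subgroup.map_subtype_le K).trans hDB)))
      (key _ (Subgroup.map_subtype_le _) hKi)
  · subst h1
    exact key _ D.2.1 (by simpa using hje)

end Cfsg.Agent.S1331
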