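import Cfsg.Statements.S1335
import Cfsg.Agent.Coprime.Signalizer

set_option autoImplicit false
open Cfsg

namespace Cfsg.Agent.S1335

/-- Let H be a subgroup of the finite group G, p a prime, k ≥ 1, P a Sylow p-subgroup of H of p-rank at least k, and suppose N_G(X) ≤ H for every subgroup X ≤ P of p-rank at least k. Then P is a Sylow p-subgroup of G. -/
theorem result {G : Type*} [Group G] [Finite G] {p : ℕ} [Fact p.Prime] (k : ℕ) (hk : 1 ≤ k) (H : Subgroup G) (P : Sylow p ↥H) (hP : ¬ Cfsg.PRankLE p (k - 1) ↥(P : Subgroup ↥H)) (hΓ : (∀ X : Subgroup G, X ≤ (P : Subgroup ↥H).map H.subtype → ¬ Cfsg.PRankLE p (k - 1) ↥X → Subgroup.normalizer (X : Set G) ≤ H)) : ∃ Q : Sylow p G, (Q : Subgroup G) = (P : Subgroup ↥H).map H.subtype := by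
  set P' := (P : Subgroup ↥H).map H.subtype with hP'
  have hP'H : P' ≤ H := Subgroup.map_subtype_le _
  have hP'p : IsPGroup p ↥P' := P.isPGroup'.map _
  obtain ⟨Q, hQ⟩ := hP'p.exists_le_sylow
  have hrank : ¬ Cfsg.PRankLE p (k - 1) ↥P' := by
    intro hle
    apply hP
    intro A hAc hAe
    let e := (P : Subgroup ↥H).equivMapOfInjective H.subtype H.subtype_injective
    haveI := hAc
    have h := hle (A.map e.toMonoidHom) inferInstance (by
      rintro _ ⟨a, ha, rfl⟩
      rw [← map_pow, hAe a ha, map_one])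
    rwa [Subgroup.card_map_of_injective e.injective] at h
  refine ⟨Q, (le_antisymm hQ ?_).symm⟩
  by_contra hlt
  haveI := Q.isPGroup'.isNilpotent
  have hlt' : P'.subgroupOf (Q : Subgroup G) < ⊤ := lt_top_iff_ne_top.mpr fun h =>
    hlt (Subgroup.subgroupOf_eq_top.mp h)
  obtain ⟨u, hu1, hu2⟩ := SetLike.exists_of_lt (Group.normalizerCondition_of_isNilpotent _ hlt')
  have huN : (u : G) ∈ Subgroup.normalizer (P' : Set G) := by
    intro x
    refine ⟨fun hx => (hu1 ⟨x, hQ hx⟩).mp hx, fun hx => ?_⟩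
    have hxQ : x ∈ (Q : Subgroup G) := by
      have := mul_mem (mul_mem (inv_mem u.2) (hQ hx)) u.2
      simpa [mul_assoc] using this
    exact (hu1 ⟨x, hxQ⟩).mpr hx
  have huH : (u : G) ∈ H := hΓ P' le_rfl hrank huN
  have hR : IsPGroup p ↥((P' ⊔ Subgroup.zpowers (u : G)).subgroupOf H) :=
    (Q.isPGroup'.to_le (sup_le hQ (Subgroup.zpowers_le.mpr u.2))).comap_subtype
  have hPR : (P : Subgroup ↥H) ≤ (P' ⊔ Subgroup.zpowers (u : G)).subgroupOf H := fun x hx =>
    Subgroup.mem_sup_left (Subgroup.mem_map_of_mem _ hx)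
  have := P.is_maximal' hR hPR
  apply hu2
  show (u : G) ∈ P'
  refine ⟨⟨u, huH⟩, ?_, rfl⟩
  rw [← this]
  exact Subgroup.mem_sup_right (Subgroup.mem_zpowers _)

end Cfsg.Agent.S1335
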