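import Cfsg.Statements.S1336
import Cfsg.Agent.Solv.Cores

set_option autoImplicit false
open Cfsg

namespace Cfsg.Agent.S1336

/-- Let G be finite and p prime. Then G has a proper subgroup H with p ∣ |H| and p ∤ |H ∩ gHg⁻¹| for every g ∉ H (a strongly p-embedded subgroup) if and only if G is not 1-connected for p. -/
theorem result {G : Type*} [Group G] [Finite G] (p : ℕ) [Fact p.Prime] : (∃ H : Subgroup G, H ≠ ⊤ ∧ p ∣ Nat.card ↥H ∧ ∀ g : G, g ∉ H → ¬ p ∣ Nat.card ↥(H ⊓ H.map (MulAut.conj g).toMonoidHom)) ↔ ¬ Cfsg.IsKConnected p 1 G := by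
  classical
  have hp := (Fact.out : p.Prime)
  set r := fun A B : Subgroup G => Cfsg.IsElementaryAbelian p A ∧ p ^ 1 ≤ Nat.card ↥A ∧ Cfsg.IsElementaryAbelian p B ∧
    p ^ 1 ≤ Nat.card ↥B ∧ ∀ a ∈ A, ∀ b ∈ B, a * b = b * a with hr
  have hsymm : ∀ {A B}, r A B → r B A := fun h => ⟨h.2.2.1, h.2.2.2.1, h.1, h.2.1, fun b hb a ha => (h.2.2.2.2 a ha b hb).symm⟩
  have hsymm' : ∀ {A B}, Relation.ReflTransGen r A B → Relation.ReflTransGen r B A := by
    intro A B h
    induction h with
    | refl => exact Relation.ReflTransGen.refl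
    | tail _ h2 ih => exact Relation.ReflTransGen.head (hsymm h2) ih
  have hz : ∀ z : G, orderOf z = p → Cfsg.IsElementaryAbelian p (Subgroup.zpowers z) ∧
      p ^ 1 ≤ Nat.card ↥(Subgroup.zpowers z) := by
    intro z hz
    refine ⟨⟨inferInstance, ?_⟩, by rw [Nat.card_zpowers, hz, pow_one]⟩
    rintro _ ⟨i, rfl⟩
    show (z ^ i) ^ p = 1
    rw [← zpow_natCast (z ^ i), ← zpow_mul, mul_comm, zpow_mul, zpow_natCast, ← hz, pow_orderOf_eq_one, one_zpow]
  have helt : ∀ A : Subgroup G, Cfsg.IsElementaryAbelian p A → p ^ 1 ≤ Nat.card ↥A →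
      ∃ a ∈ A, orderOf a = p := by
    intro A hA hc
    haveI : Nontrivial ↥A := Finite.one_lt_card_iff_nontrivial.mp (lt_of_lt_of_le (by simpa using hp.one_lt) hc)
    obtain ⟨a, ha⟩ := exists_ne (1 : ↥A)
    exact ⟨a, a.2, orderOf_eq_prime (hA.2 a a.2) fun h => ha (Subtype.ext h)⟩
  constructor
  · rintro ⟨H, hHt, hpH, hH⟩ hconn
    obtain ⟨a, ha⟩ := exists_prime_orderOf_dvd_card' p hpH
    have ha' : orderOf (a : G) = p := by rw [Subgroup.orderOf_coe]; exact ha
    have hin : ∀ B, Relation.ReflTransGen r (Subgroup.zpowers (a : G)) B → B ≤ H := by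
      intro B h
      induction h with
      | refl => exact Subgroup.zpowers_le.mpr a.2
      | @tail B C _ h2 ih =>
        obtain ⟨b, hb, hbo⟩ := helt B h2.1 h2.2.1
        intro c hc
        by_contra hcH
        refine hH c hcH ?_
        have hb' : b ∈ H ⊓ H.map (MulAut.conj c).toMonoidHom := ⟨ih hb, b, ih hb, by
          show c * b * c⁻¹ = b
          rw [← h2.2.2.2.2 b hb c hc, mul_inv_cancel_right]⟩
        rw [← hbo, ← Subgroup.orderOf_mk b hb']
        exact orderOf_dvd_natCard _
    refine hHt (eq_top_iff.mpr fun g _ => ?_)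
    by_contra hgH
    refine hH g hgH ?_
    have hgo : orderOf (g * (a : G) * g⁻¹) = p := by
      rw [← ha']
      exact orderOf_injective (MulAut.conj g).toMonoidHom (MulAut.conj g).injective (a : G)
    have hmem : g * (a : G) * g⁻¹ ∈ H ⊓ H.map (MulAut.conj g).toMonoidHom :=
      ⟨hin _ (hconn _ _ (hz _ ha').1 (hz _ ha').2 (hz _ hgo).1 (hz _ hgo).2) (Subgroup.mem_zpowers _),
        (a : G), a.2, rfl⟩
    rw [← hgo, ← Subgroup.orderOf_mk _ hmem]
    exact orderOf_dvd_natCard _
  · intro hn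
    simp only [Cfsg.IsKConnected, not_forall] at hn
    obtain ⟨E1, E2, hE1, hc1, hE2, hc2, hnot⟩ := hn
    obtain ⟨a1, -, ha1⟩ := helt E1 hE1 hc1
    let P : Sylow p G := default
    haveI : Nontrivial ↥(P : Subgroup G) := by
      refine (Subgroup.nontrivial_iff_ne_bot _).mpr fun h => ?_
      have hd : p ∣ Nat.card G := ha1 ▸ orderOf_dvd_natCard a1
      exact P.ne_bot_of_dvd_card hd h
    haveI := P.isPGroup'.center_nontrivial
    obtain ⟨n, hn0, hcard⟩ := (P.isPGroup'.to_subgroup (Subgroup.center ↥(P : Subgroup G))).nontrivial_iff_card.mp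
      inferInstance
    obtain ⟨z, hzo⟩ := exists_prime_orderOf_dvd_card' p
      (show p ∣ Nat.card ↥(Subgroup.center ↥(P : Subgroup G)) by rw [hcard]; exact dvd_pow_self p hn0.ne')
    set z0 : G := ((z : ↥(P : Subgroup G)) : G) with hz0
    have hz0o : orderOf z0 = p := by rw [hz0, Subgroup.orderOf_coe, Subgroup.orderOf_coe, hzo]
    set Z := Subgroup.zpowers z0 with hZ
    let f : G → Subgroup G → Subgroup G := fun g A => A.map (MulAut.conj g).toMonoidHom
    have hf : ∀ g h A, f g (f h A) = f (g * h) A := fun g h A => by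
      show (A.map _).map _ = _
      rw [Subgroup.map_map]
      show _ = A.map _
      rw [map_mul]; rfl
    have hf1 : ∀ A, f 1 A = A := fun A => by
      show A.map _ = A
      ext x; simp
    have hrconj : ∀ g {A B}, r A B → r (f g A) (f g B) := by
      intro g A B h
      have he : ∀ A : Subgroup G, Cfsg.IsElementaryAbelian p A → p ^ 1 ≤ Nat.card ↥A →
          Cfsg.IsElementaryAbelian p (f g A) ∧ p ^ 1 ≤ Nat.card ↥(f g A) := by
        intro A hA hc
        refine ⟨⟨⟨⟨?_⟩⟩, ?_⟩, ?_⟩
        · rintro ⟨_, a, ha, rfl⟩ ⟨_, b, hb, rfl⟩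
          refine Subtype.ext ?_
          show (MulAut.conj g) a * (MulAut.conj g) b = (MulAut.conj g) b * (MulAut.conj g) a
          rw [← map_mul, ← map_mul, show a * b = b * a from
            congrArg Subtype.val (hA.1.is_comm.comm (⟨a, ha⟩ : A) ⟨b, hb⟩)]
        · rintro _ ⟨a, ha, rfl⟩
          rw [← map_pow, hA.2 a ha, map_one]
        · exact hc.trans_eq (Subgroup.card_map_of_injective (MulAut.conj g).injective).symm
      refine ⟨(he A h.1 h.2.1).1, (he A h.1 h.2.1).2, (he B h.2.2.1 h.2.2.2.1).1, (he B h.2.2.1 h.2.2.2.1).2, ?_⟩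
      rintro _ ⟨a, ha, rfl⟩ _ ⟨b, hb, rfl⟩
      show (MulAut.conj g) a * (MulAut.conj g) b = (MulAut.conj g) b * (MulAut.conj g) a
      rw [← map_mul, ← map_mul, h.2.2.2.2 a ha b hb]
    have hconj : ∀ g {A B}, Relation.ReflTransGen r A B → Relation.ReflTransGen r (f g A) (f g B) :=
      fun g A B h => by
        induction h with
        | refl => exact Relation.ReflTransGen.refl
        | tail _ h2 ih => exact ih.tail (hrconj g h2)
    let H : Subgroup G :=
      { carrier := {g | Relation.ReflTransGen r Z (f g Z)}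
        one_mem' := by
          show Relation.ReflTransGen r Z (f 1 Z)
          rw [hf1]
        mul_mem' := fun {a b} ha hb => by
          show Relation.ReflTransGen r Z (f (a * b) Z)
          rw [← hf]
          exact Relation.ReflTransGen.trans ha (hconj a hb)
        inv_mem' := fun {a} ha => by
          show Relation.ReflTransGen r Z (f a⁻¹ Z)
          have := hconj a⁻¹ (hsymm' ha)
          rwa [hf, inv_mul_cancel, hf1] at this }
    have hPH : ∀ x ∈ (P : Subgroup G), f x Z = Z := by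
      intro x hx
      show Z.map _ = Z
      rw [hZ, MonoidHom.map_zpowers]
      congr 1
      show x * z0 * x⁻¹ = z0
      have := congrArg Subtype.val (Subgroup.mem_center_iff.mp z.2 ⟨x, hx⟩)
      rw [hz0, show x * ((z : ↥(P : Subgroup G)) : G) = ((z : ↥(P : Subgroup G)) : G) * x from this, mul_inv_cancel_right]
    have htoZ : ∀ (g : G) (A : Subgroup G), Cfsg.IsElementaryAbelian p A → p ^ 1 ≤ Nat.card ↥A →
        f g A ≤ (P : Subgroup G) → Relation.ReflTransGen r A (f g⁻¹ Z) := by
      intro g A hA hc hle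
      have h1 : r (f g A) Z := by
        refine ⟨⟨⟨⟨?_⟩⟩, ?_⟩, hc.trans_eq (Subgroup.card_map_of_injective (MulAut.conj g).injective).symm,
          (hz z0 hz0o).1, (hz z0 hz0o).2, ?_⟩
        · rintro ⟨_, a, ha, rfl⟩ ⟨_, b, hb, rfl⟩
          refine Subtype.ext ?_
          show (MulAut.conj g) a * (MulAut.conj g) b = (MulAut.conj g) b * (MulAut.conj g) a
          rw [← map_mul, ← map_mul, show a * b = b * a from
            congrArg Subtype.val (hA.1.is_comm.comm (⟨a, ha⟩ : A) ⟨b, hb⟩)]
        · rintro _ ⟨a, ha, rfl⟩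
          rw [← map_pow, hA.2 a ha, map_one]
        · intro a ha b hb
          obtain ⟨i, rfl⟩ := hb
          have := congrArg Subtype.val (Subgroup.mem_center_iff.mp z.2 ⟨a, hle ha⟩)
          exact ((show Commute a z0 from this).zpow_right i).eq
      have := hconj g⁻¹ (Relation.ReflTransGen.single h1)
      rwa [hf, inv_mul_cancel, hf1] at this
    have hinto : ∀ A : Subgroup G, Cfsg.IsElementaryAbelian p A → ∃ g, f g A ≤ (P : Subgroup G) := by
      intro A hA
      obtain ⟨Q, hQ⟩ := (show IsPGroup p A from fun a => ⟨1, Subtype.ext (by simpa using hA.2 a a.2)⟩).exists_le_sylow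
      obtain ⟨g, hg⟩ := MulAction.exists_smul_eq G Q P
      refine ⟨g, ?_⟩
      rintro _ ⟨a, ha, rfl⟩
      rw [← hg, Sylow.coe_subgroup_smul]
      exact Subgroup.smul_mem_pointwise_smul _ (MulAut.conj g) _ (hQ ha)
    have hHsyl : (P : Subgroup G) ≤ H := fun x hx => by
      show Relation.ReflTransGen r Z (f x Z)
      rw [hPH x hx]
    refine ⟨H, ?_, ?_, ?_⟩
    · intro htop
      refine hnot ?_
      have key : ∀ A : Subgroup G, Cfsg.IsElementaryAbelian p A → p ^ 1 ≤ Nat.card ↥A → Relation.ReflTransGen r A Z := by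
        intro A hA hc
        obtain ⟨g, hg⟩ := hinto A hA
        exact (htoZ g A hA hc hg).trans (hsymm' (show Relation.ReflTransGen r Z (f g⁻¹ Z) from
          (htop ▸ Subgroup.mem_top g⁻¹ : g⁻¹ ∈ H)))
      exact (key E1 hE1 hc1).trans (hsymm' (key E2 hE2 hc2))
    · refine (hzo ▸ orderOf_dvd_natCard z).trans ?_
      exact (Subgroup.card_subgroup_dvd_card _).trans (Subgroup.card_dvd_of_le hHsyl)
    · intro g hg hdvd
      obtain ⟨x, hx⟩ := exists_prime_orderOf_dvd_card' p hdvd
      obtain ⟨hx1, y, hy, hyx⟩ := x.2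
      have hxo : orderOf (x : G) = p := by rw [Subgroup.orderOf_coe, hx]
      have key : ∀ w ∈ H, orderOf w = p → Relation.ReflTransGen r (Subgroup.zpowers w) Z := by
        intro w hw hwo
        obtain ⟨R, hR⟩ : ∃ R : Sylow p ↥H, (⟨w, hw⟩ : ↥H) ∈ (R : Subgroup ↥H) := by
          obtain ⟨R, hR⟩ := (IsPGroup.of_card (n := 1) (show Nat.card ↥(Subgroup.zpowers (⟨w, hw⟩ : ↥H)) = p ^ 1 by
            rw [Nat.card_zpowers, Subgroup.orderOf_mk, hwo, pow_one])).exists_le_sylow
          exact ⟨R, hR (Subgroup.mem_zpowers _)⟩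
        obtain ⟨h, hh⟩ := MulAction.exists_smul_eq ↥H R (P.subtype hHsyl)
        have hle : f (h : G) (Subgroup.zpowers w) ≤ (P : Subgroup G) := by
          show (Subgroup.zpowers w).map _ ≤ _
          rw [MonoidHom.map_zpowers, Subgroup.zpowers_le]
          have : h * (⟨w, hw⟩ : ↥H) * h⁻¹ ∈ (P.subtype hHsyl : Subgroup ↥H) := by
            rw [← hh, Sylow.coe_subgroup_smul]
            exact Subgroup.smul_mem_pointwise_smul _ (MulAut.conj h) _ hR
          exact this
        exact (htoZ h _ (hz w hwo).1 (hz w hwo).2 hle).trans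
          (hsymm' (show Relation.ReflTransGen r Z (f (h : G)⁻¹ Z) from H.inv_mem h.2))
      have hyo : orderOf y = p := by
        rw [← hxo, ← hyx]
        exact (orderOf_injective (MulAut.conj g).toMonoidHom (MulAut.conj g).injective y).symm
      refine hg ?_
      have h1 := hconj g (key y hy hyo)
      have e : f g (Subgroup.zpowers y) = Subgroup.zpowers (x : G) := by
        show (Subgroup.zpowers y).map _ = _
        rw [MonoidHom.map_zpowers, hyx]
      rw [e] at h1
      exact (hsymm' (key _ hx1 hxo)).trans h1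

end Cfsg.Agent.S1336
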