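import Cfsg.Statements.S1341
import Cfsg.Agent.PSolv.PComponent

set_option autoImplicit false
open Cfsg

namespace Cfsg.Agent.S1341


theorem conj_core_centralizer {X : Type*} [Group X] [Finite X] (g : X) (U : Subgroup X) :
    ((Cfsg.oddCore ↥(Subgroup.centralizer (U : Set X))).map (Subgroup.centralizer (U : Set X)).subtype).map
      (MulAut.conj g).toMonoidHom ≤
    (Cfsg.oddCore ↥(Subgroup.centralizer ((U.map (MulAut.conj g).toMonoidHom : Subgroup X) : Set X))).map
      (Subgroup.centralizer ((U.map (MulAut.conj g).toMonoidHom : Subgroup X) : Set X)).subtype := by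
  set C := Subgroup.centralizer (U : Set X)
  set C' := Subgroup.centralizer ((U.map (MulAut.conj g).toMonoidHom : Subgroup X) : Set X)
  have h1 : C.map (MulAut.conj g).toMonoidHom = C' := by
    ext y
    constructor
    · rintro ⟨c, hc, rfl⟩
      refine Subgroup.mem_centralizer_iff.mpr ?_
      rintro _ ⟨u, hu, rfl⟩
      rw [← map_mul, ← map_mul, Subgroup.mem_centralizer_iff.mp hc u hu]
    · intro hy
      refine ⟨g⁻¹ * y * g, Subgroup.mem_centralizer_iff.mpr fun u hu => ?_, by simp [mul_assoc]⟩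
      have := Subgroup.mem_centralizer_iff.mp hy (g * u * g⁻¹) ⟨u, hu, by simp⟩
      calc u * (g⁻¹ * y * g) = g⁻¹ * (g * u * g⁻¹ * y) * g := by group
        _ = g⁻¹ * (y * (g * u * g⁻¹)) * g := by rw [this]
        _ = g⁻¹ * y * g * u := by group
  set N := ((Cfsg.oddCore ↥C).map C.subtype).map (MulAut.conj g).toMonoidHom
  have hNC : N ≤ C' := (Subgroup.map_mono (Subgroup.map_subtype_le _)).trans h1.le
  have hn : C' ≤ Subgroup.normalizer (N : Set X) := by
    rw [← h1]
    refine le_trans (Subgroup.map_mono ?_) (Subgroup.le_normalizer_map _)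
    have := Subgroup.le_normalizer_map (H := Cfsg.oddCore ↥C) C.subtype
    rwa [Subgroup.normalizer_eq_top_iff.mpr (Solv.pPrimeCore_mem 2).1, ← MonoidHom.range_eq_map,
      Subgroup.range_subtype] at this
  have hcard : (Nat.card ↥(N.subgroupOf C')).Coprime 2 := by
    rw [Nat.card_congr (Subgroup.subgroupOfEquivOfLe hNC).toEquiv,
      Subgroup.card_map_of_injective (MulAut.conj g).injective, Subgroup.card_map_of_injective C.subtype_injective]
    exact (Solv.pPrimeCore_mem 2).2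
  intro x hx
  exact ⟨⟨x, hNC hx⟩, Solv.le_pPrimeCore ((Subgroup.normal_subgroupOf_iff_le_normalizer hNC).mpr hn) hcard hx, rfl⟩



/-- Let X be finite and T a Sylow 2-subgroup of L_{2'}(X) O_{2',2}(X). Then L*_{2'}(X) = L_{2'}(X) ⊔ O(X) ⊔ O(C_X(T)). -/
theorem result {X : Type*} [Group X] [Finite X] (T : Sylow 2 ↥(Cfsg.pLayer 2 X ⊔ Cfsg.pPrimePCore 2 X)) : Cfsg.extendedTwoLayer X = Cfsg.pLayer 2 X ⊔ Cfsg.oddCore X ⊔ ((Cfsg.oddCore ↥(Subgroup.centralizer (((T : Subgroup ↥(Cfsg.pLayer 2 X ⊔ Cfsg.pPrimePCore 2 X)).map (Cfsg.pLayer 2 X ⊔ Cfsg.pPrimePCore 2 X).subtype : Subgroup X) : Set X))).map (Subgroup.centralizer (((T : Subgroup ↥(Cfsg.pLayer 2 X ⊔ Cfsg.pPrimePCore 2 X)).map (Cfsg.pLayer 2 X ⊔ Cfsg.pPrimePCore 2 X).subtype : Subgroup X) : Set X)).subtype) := by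
  haveI : Fact (Nat.Prime 2) := ⟨Nat.prime_two⟩
  revert T
  set M := Cfsg.pLayer 2 X ⊔ Cfsg.pPrimePCore 2 X with hM
  intro T
  set B := Cfsg.pLayer 2 X ⊔ Cfsg.oddCore X with hB
  set Z : Sylow 2 ↥M → Subgroup X := fun T =>
    (Cfsg.oddCore ↥(Subgroup.centralizer (((T : Subgroup ↥M).map M.subtype : Subgroup X) : Set X))).map
      (Subgroup.centralizer (((T : Subgroup ↥M).map M.subtype : Subgroup X) : Set X)).subtype with hZ
  show B ⊔ (⨆ T, Z T) = B ⊔ Z T
  refine le_antisymm (sup_le le_sup_left (iSup_le fun T' => ?_)) (sup_le_sup_left (le_iSup Z T) _)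
  set U := (T : Subgroup ↥M).map M.subtype with hU
  -- `B` is normalized by `M`, and `M = B T`
  have hOP : Cfsg.pPrimeCore 2 X ≤ Cfsg.pPrimePCore 2 X := fun z hz => by
    show QuotientGroup.mk' (Cfsg.pPrimeCore 2 X) z ∈ Cfsg.pCore 2 (X ⧸ Cfsg.pPrimeCore 2 X)
    rw [show QuotientGroup.mk' (Cfsg.pPrimeCore 2 X) z = 1 from (QuotientGroup.eq_one_iff z).mpr hz]
    exact Subgroup.one_mem _
  have hBM : B ≤ M := sup_le le_sup_left (hOP.trans le_sup_right)
  set π := QuotientGroup.mk' (Cfsg.pPrimeCore 2 X)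
  have hBeq : B = (Cfsg.layer (X ⧸ Cfsg.pPrimeCore 2 X)).comap π := by
    rw [← PSolv.map_pLayer, Subgroup.comap_map_eq, QuotientGroup.ker_mk']
  haveI hBn : B.Normal := by
    rw [hBeq]
    exact Subgroup.Normal.comap inferInstance _
  haveI : (Cfsg.pPrimePCore 2 X).Normal := by
    haveI := (Solv.pCore_mem (G := X ⧸ Cfsg.pPrimeCore 2 X) 2).1
    exact Subgroup.Normal.comap inferInstance _
  have hUM : U ≤ M := Subgroup.map_subtype_le _
  have hidx : ∃ k, B.relIndex M = 2 ^ k := by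
    have h1 : B.relIndex M ∣ (Cfsg.pPrimeCore 2 X).relIndex (Cfsg.pPrimePCore 2 X) := by
      rw [show M = Cfsg.pPrimePCore 2 X ⊔ B by
        rw [hM, hB, sup_comm]
        exact le_antisymm (sup_le le_sup_left (le_sup_left.trans le_sup_right))
          (sup_le le_sup_left (sup_le le_sup_right (hOP.trans le_sup_left))),
        Subgroup.relIndex_sup_right]
      exact Subgroup.relIndex_dvd_of_le_left _ le_sup_right
    have h2 := Subgroup.relIndex_comap (⊥ : Subgroup (X ⧸ Cfsg.pPrimeCore 2 X)) π (Cfsg.pPrimePCore 2 X)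
    rw [MonoidHom.comap_bot, QuotientGroup.ker_mk', Subgroup.relIndex_bot_left, PSolv.pPrimePCore_map] at h2
    obtain ⟨n, hn⟩ := IsPGroup.iff_card.mp (Solv.pCore_mem (G := X ⧸ Cfsg.pPrimeCore 2 X) 2).2
    obtain ⟨k, -, hk⟩ := (Nat.dvd_prime_pow Nat.prime_two).mp ((h2.trans hn) ▸ h1)
    exact ⟨k, hk⟩
  have hBU : B ⊔ U = M := by
    refine le_antisymm (sup_le hBM hUM) ?_
    obtain ⟨k, hk⟩ := hidx
    have h1 : (B ⊔ U).relIndex M ∣ 2 ^ k := hk ▸ Subgroup.relIndex_dvd_of_le_left _ le_sup_left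
    have h2 : (B ⊔ U).relIndex M ∣ (T : Subgroup ↥M).index := by
      refine dvd_trans (Subgroup.relIndex_dvd_of_le_left _ le_sup_right) (dvd_of_eq ?_)
      show (U.subgroupOf M).index = _
      rw [hU, Subgroup.subgroupOf, Subgroup.comap_map_eq_self_of_injective M.subtype_injective]
    exact Subgroup.relIndex_eq_one.mp (Nat.eq_one_of_dvd_coprimes
      ((PSolv.coprime_of_not_dvd T.not_dvd_index).symm.pow_left k) h1 h2)
  obtain ⟨m, hm⟩ := MulAction.exists_smul_eq ↥M T' T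
  have hconj : ((T' : Subgroup ↥M).map M.subtype).map (MulAut.conj (m : X)).toMonoidHom = U := by
    rw [hU, ← hm, Sylow.coe_subgroup_smul, Subgroup.pointwise_smul_def, Subgroup.map_map]
    refine Eq.trans ?_ (Subgroup.map_map _ _ _).symm
    rfl
  intro z hz
  have hz' : (m : X) * z * (m : X)⁻¹ ∈ Z T := by
    have h := conj_core_centralizer (m : X) ((T' : Subgroup ↥M).map M.subtype) (Subgroup.mem_map_of_mem _ hz)
    rw [hconj] at h
    exact h
  obtain ⟨b, hb, t, ht, hbt⟩ : ∃ b ∈ B, ∃ t ∈ U, b * t = (m : X)⁻¹ := by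
    have h : (m : X)⁻¹ ∈ ((B ⊔ U : Subgroup X) : Set X) := by rw [hBU]; exact M.inv_mem m.2
    rw [Subgroup.normal_mul] at h
    exact Set.mem_mul.mp h
  have ht' : t * ((m : X) * z * (m : X)⁻¹) * t⁻¹ ∈ Z T := by
    set C := Subgroup.centralizer (U : Set X)
    have h1 : Subgroup.normalizer (U : Set X) ≤ Subgroup.normalizer (Z T : Set X) := by
      intro g hg
      rw [Subgroup.mem_normalizer_iff_map_conj_eq]
      refine Subgroup.eq_of_le_of_card_ge ?_ (Subgroup.card_map_of_injective (MulAut.conj g).injective).ge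
      have := conj_core_centralizer g U
      rw [show U.map (MulAut.conj g).toMonoidHom = U from Subgroup.mem_normalizer_iff_map_conj_eq.mp hg] at this
      exact this
    exact (Subgroup.mem_normalizer_iff.mp (h1 (Subgroup.le_normalizer ht)) _).mp hz'
  set w := t * ((m : X) * z * (m : X)⁻¹) * t⁻¹
  have e : z = b * (w * b⁻¹ * w⁻¹) * w := by
    calc z = (m : X)⁻¹ * ((m : X) * z * (m : X)⁻¹) * ((m : X)⁻¹)⁻¹ := by group
      _ = (b * t) * ((m : X) * z * (m : X)⁻¹) * (b * t)⁻¹ := by rw [hbt]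
      _ = b * (w * b⁻¹ * w⁻¹) * w := by simp only [w]; group
  rw [e]
  exact Subgroup.mul_mem_sup (B.mul_mem hb (hBn.conj_mem _ (B.inv_mem hb) w)) ht'

end Cfsg.Agent.S1341
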