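import Cfsg.Statements.S1342
import Cfsg.Agent.PSolv.PComponent

set_option autoImplicit false
open Cfsg

namespace Cfsg.Agent.S1342


theorem conj_core_centralizer {X : Type*} [Group X] [Finite X] (g : X) (U : Subgroup X) :
    ((Cfsg.oddCore ↥(Subgroup.centralizer (U : Set X))).map (Subgroup.centralizer (U : Set X)).subtype).map
      (MulAut.conj g).toMonoidHom ≤
    (Cfsg.oddCore ↥(Subgroup.centralizer ((U.map (MulAut.conj g).toMonoidHom : Subgroup X) : Set X))).map
      (Subgroup.centralizer ((U.map (MulAut.conj g).toMonoidHom : Subgroup X) : Set X)).subtype := by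
  set C := Subgroup.centralizer (U : Set X)
  set C' := Subgroup.centralizer ((U.map (MulAut.conj g).toMonoidHom : Subgroup X) : Set X)
  have h1 : C.map (MulAut.conj g).toMonoidHom = C' := by
    ext y
    constructor
    · rintro ⟨c, hc, rfl⟩
      refine Subgroup.mem_centralizer_iff.mpr ?_
      rintro _ ⟨u, hu, rfl⟩
      rw [← map_mul, ← map_mul, Subgroup.mem_centralizer_iff.mp hc u hu]
    · intro hy
      refine ⟨g⁻¹ * y * g, Subgroup.mem_centralizer_iff.mpr fun u hu => ?_, by simp [mul_assoc]⟩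
      have := Subgroup.mem_centralizer_iff.mp hy (g * u * g⁻¹) ⟨u, hu, by simp⟩
      calc u * (g⁻¹ * y * g) = g⁻¹ * (g * u * g⁻¹ * y) * g := by group
        _ = g⁻¹ * (y * (g * u * g⁻¹)) * g := by rw [this]
        _ = g⁻¹ * y * g * u := by group
  set N := ((Cfsg.oddCore ↥C).map C.subtype).map (MulAut.conj g).toMonoidHom
  have hNC : N ≤ C' := (Subgroup.map_mono (Subgroup.map_subtype_le _)).trans h1.le
  have hn : C' ≤ Subgroup.normalizer (N : Set X) := by
    rw [← h1]
    refine le_trans (Subgroup.map_mono ?_) (Subgroup.le_normalizer_map _)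
    have := Subgroup.le_normalizer_map (H := Cfsg.oddCore ↥C) C.subtype
    rwa [Subgroup.normalizer_eq_top_iff.mpr (Solv.pPrimeCore_mem 2).1, ← MonoidHom.range_eq_map,
      Subgroup.range_subtype] at this
  have hcard : (Nat.card ↥(N.subgroupOf C')).Coprime 2 := by
    rw [Nat.card_congr (Subgroup.subgroupOfEquivOfLe hNC).toEquiv,
      Subgroup.card_map_of_injective (MulAut.conj g).injective, Subgroup.card_map_of_injective C.subtype_injective]
    exact (Solv.pPrimeCore_mem 2).2
  intro x hx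
  exact ⟨⟨x, hNC hx⟩, Solv.le_pPrimeCore ((Subgroup.normal_subgroupOf_iff_le_normalizer hNC).mpr hn) hcard hx, rfl⟩


/-- For a finite group X, L*_{2'}(X) is normal in X. -/
theorem result {X : Type*} [Group X] [Finite X] : (Cfsg.extendedTwoLayer X).Normal := by
  haveI : Fact (Nat.Prime 2) := ⟨Nat.prime_two⟩
  refine ⟨fun x hx g => ?_⟩
  suffices h : (Cfsg.extendedTwoLayer X).map (MulAut.conj g).toMonoidHom ≤ Cfsg.extendedTwoLayer X from
    h (Subgroup.mem_map_of_mem _ hx)
  set M := Cfsg.pLayer 2 X ⊔ Cfsg.pPrimePCore 2 X with hM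
  have hL : (Cfsg.pLayer 2 X).map (MulAut.conj g).toMonoidHom ≤ Cfsg.pLayer 2 X := by
    rw [Subgroup.map_le_iff_le_comap]
    refine sSup_le fun K hK => ?_
    rw [← Subgroup.map_le_iff_le_comap]
    obtain ⟨hc, hKeq⟩ := PSolv.isPComponent_iff.mp hK
    refine PSolv.pComponent_le_pLayer ?_
    rw [PSolv.isPComponent_iff]
    set π := QuotientGroup.mk' (Cfsg.pPrimeCore 2 X)
    have himg : (K.map (MulAut.conj g).toMonoidHom).map π = (K.map π).map (MulAut.conj (π g)).toMonoidHom := by
      rw [Subgroup.map_map, Subgroup.map_map]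
      congr 1
    have hc' : Cfsg.IsComponent ((K.map (MulAut.conj g).toMonoidHom).map π) :=
      himg ▸ Layer.isComponent_map_equiv (MulAut.conj (π g)) hc
    refine ⟨hc', ?_⟩
    conv_lhs => rw [hKeq, PSolv.pGen_map]
    congr 1
    rw [himg]
    ext y
    constructor
    · rintro ⟨z, hz, rfl⟩
      exact ⟨π z, hz, by simp [π]⟩
    · rintro ⟨w, hw, hwe⟩
      refine ⟨g⁻¹ * y * g, ?_, by simp [mul_assoc]⟩
      show π (g⁻¹ * y * g) ∈ K.map π
      have : π (g⁻¹ * y * g) = w := by
        rw [map_mul, map_mul, map_inv, ← hwe]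
        simp [mul_assoc]
      rw [this]; exact hw
  have hO : (Cfsg.pPrimeCore 2 X).map (MulAut.conj g).toMonoidHom ≤ Cfsg.pPrimeCore 2 X := by
    rintro _ ⟨z, hz, rfl⟩
    exact (inferInstance : (Cfsg.pPrimeCore 2 X).Normal).conj_mem z hz g
  have hP : (Cfsg.pPrimePCore 2 X).map (MulAut.conj g).toMonoidHom = Cfsg.pPrimePCore 2 X := by
    haveI := (Solv.pCore_mem (G := X ⧸ Cfsg.pPrimeCore 2 X) 2).1
    haveI : (Cfsg.pPrimePCore 2 X).Normal := Subgroup.Normal.comap inferInstance _
    exact Subgroup.mem_normalizer_iff_map_conj_eq.mp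
      (by rw [Subgroup.normalizer_eq_top_iff.mpr inferInstance]; trivial)
  have hMg : M.map (MulAut.conj g).toMonoidHom = M := by
    refine Subgroup.eq_of_le_of_card_ge ?_ (Subgroup.card_map_of_injective (MulAut.conj g).injective).ge
    rw [hM, Subgroup.map_sup]
    exact sup_le_sup hL hP.le
  show (Cfsg.pLayer 2 X ⊔ Cfsg.oddCore X ⊔ _).map _ ≤ _
  rw [Subgroup.map_sup, Subgroup.map_sup]
  refine sup_le (sup_le (hL.trans (le_sup_left.trans le_sup_left)) (hO.trans (le_sup_right.trans le_sup_left))) ?_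
  rw [Subgroup.map_iSup]
  refine iSup_le fun T => ?_
  refine (conj_core_centralizer g _).trans ?_
  let e : ↥M ≃* ↥M := (M.equivMapOfInjective (MulAut.conj g).toMonoidHom (MulAut.conj g).injective).trans
    (MulEquiv.subgroupCongr hMg)
  let T' : Sylow 2 ↥M := T.mapSurjective (f := e.toMonoidHom) e.surjective
  have hT' : ((T : Subgroup ↥M).map M.subtype).map (MulAut.conj g).toMonoidHom = (T' : Subgroup ↥M).map M.subtype := by
    show _ = ((T : Subgroup ↥M).map e.toMonoidHom).map M.subtype
    rw [Subgroup.map_map, Subgroup.map_map]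
    rfl
  rw [hT']
  refine le_trans ?_ le_sup_right
  exact le_iSup (fun T : Sylow 2 ↥M => ((Cfsg.oddCore ↥(Subgroup.centralizer (((T : Subgroup ↥M).map
    M.subtype : Subgroup X) : Set X))).map (Subgroup.centralizer (((T : Subgroup ↥M).map M.subtype : Subgroup X) : Set X)).subtype)) T'

end Cfsg.Agent.S1342
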