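import Cfsg.Statements.S1343
import Cfsg.Agent.Layer.CharP
import Cfsg.Agent.Layer.PElement
import Cfsg.Agent.S1341

set_option autoImplicit false
open Cfsg

namespace Cfsg.Agent.S1343

/-- Let X be finite. Then L*_{2'}(X) = L_{2'}(X) ⊔ F for some subgroup F of odd order normalized by a Sylow 2-subgroup of X. -/
theorem result {X : Type*} [Group X] [Finite X] : ∃ F : Subgroup X, Odd (Nat.card ↥F) ∧ (∃ S : Sylow 2 X, (S : Subgroup X) ≤ Subgroup.normalizer (F : Set X)) ∧ Cfsg.extendedTwoLayer X = Cfsg.pLayer 2 X ⊔ F := by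
  haveI : Fact (Nat.Prime 2) := ⟨Nat.prime_two⟩
  set M := Cfsg.pLayer 2 X ⊔ Cfsg.pPrimePCore 2 X with hM
  haveI : M.Normal := by
    haveI : (Cfsg.pPrimePCore 2 X).Normal := by
      haveI := (Solv.pCore_mem (G := X ⧸ Cfsg.pPrimeCore 2 X) 2).1
      exact Subgroup.Normal.comap inferInstance _
    haveI hOn := (Solv.pPrimeCore_mem (G := X) 2).1
    have hOP : Cfsg.pPrimeCore 2 X ≤ Cfsg.pPrimePCore 2 X := fun z hz => by
      show QuotientGroup.mk' (Cfsg.pPrimeCore 2 X) z ∈ Cfsg.pCore 2 (X ⧸ Cfsg.pPrimeCore 2 X)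
      rw [show QuotientGroup.mk' (Cfsg.pPrimeCore 2 X) z = 1 from (QuotientGroup.eq_one_iff z).mpr hz]
      exact Subgroup.one_mem _
    have he : M = (Cfsg.layer (X ⧸ Cfsg.pPrimeCore 2 X)).comap (QuotientGroup.mk' (Cfsg.pPrimeCore 2 X)) ⊔
        Cfsg.pPrimePCore 2 X := by
      rw [← PSolv.map_pLayer, Subgroup.comap_map_eq, QuotientGroup.ker_mk', sup_assoc, sup_eq_right.mpr hOP]
    rw [he]
    haveI : ((Cfsg.layer (X ⧸ Cfsg.pPrimeCore 2 X)).comap (QuotientGroup.mk' (Cfsg.pPrimeCore 2 X))).Normal :=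
      Subgroup.Normal.comap inferInstance _
    infer_instance
  obtain ⟨S⟩ : Nonempty (Sylow 2 X) := inferInstance
  have hSi : ¬ 2 ∣ ((S : Subgroup X).subgroupOf M).index := by
    intro hd
    refine S.not_dvd_index (hd.trans ?_)
    show (S : Subgroup X).relIndex M ∣ _
    exact Layer.relIndex_dvd_index_normal _ M
  let T : Sylow 2 ↥M := (S.isPGroup'.comap_subtype (K := M)).toSylow hSi
  set U := (T : Subgroup ↥M).map M.subtype with hU
  have hUS : Subgroup.normalizer (U : Set X) ≥ (S : Subgroup X) := by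
    have e : U = (S : Subgroup X) ⊓ M := Subgroup.subgroupOf_map_subtype _ _
    rw [e]
    exact Layer.le_normalizer_inf Subgroup.le_normalizer (by rw [Subgroup.normalizer_eq_top_iff.mpr inferInstance]; exact le_top)
  set C := Subgroup.centralizer (U : Set X) with hC
  set Q := (Cfsg.oddCore ↥C).map C.subtype with hQ
  haveI : (Cfsg.oddCore X).Normal := (Solv.pPrimeCore_mem 2).1
  haveI : (Cfsg.oddCore ↥C).Characteristic := Solv.pPrimeCore_characteristic 2
  refine ⟨Cfsg.oddCore X ⊔ Q, ?_, ⟨S, ?_⟩, ?_⟩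
  · rw [Nat.odd_iff, ← Nat.not_even_iff, even_iff_two_dvd]
    intro hd
    have h := Solv.card_sup_coprime (A := Cfsg.oddCore X) (B := Q) inferInstance 2 (Solv.pPrimeCore_mem 2).2
      (by rw [Subgroup.card_map_of_injective C.subtype_injective]; exact (Solv.pPrimeCore_mem 2).2)
    exact PSolv.not_dvd_of_coprime h hd
  · refine Layer.le_normalizer_sup (by rw [Subgroup.normalizer_eq_top_iff.mpr inferInstance]; exact le_top) ?_
    exact hUS.trans ((Layer.normalizer_le_normalizer_centralizer U).trans (Layer.normalizer_le_normalizer_char _))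
  · rw [S1341.result T, sup_assoc]

end Cfsg.Agent.S1343
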