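import Cfsg.Statements.S1344
import Cfsg.Agent.Layer.PElement

set_option autoImplicit false
open Cfsg

namespace Cfsg.Agent.S1344

/-- Let K be a 2-component of the finite group X. Then K ≤ L*_{2'}(X) and K is normal in L*_{2'}(X). -/
theorem result {X : Type*} [Group X] [Finite X] (K : Subgroup X) (hK : Cfsg.IsPComponent 2 K) : K ≤ Cfsg.extendedTwoLayer X ∧ (K.subgroupOf (Cfsg.extendedTwoLayer X)).Normal := by
  haveI : Fact (Nat.Prime 2) := ⟨Nat.prime_two⟩
  have hKL : K ≤ Cfsg.pLayer 2 X := PSolv.pComponent_le_pLayer hK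
  refine ⟨hKL.trans (le_sup_left.trans le_sup_left), ?_⟩
  refine Subgroup.normal_subgroupOf_of_le_normalizer ?_
  obtain ⟨hc, hKeq⟩ := PSolv.isPComponent_iff.mp hK
  set π := QuotientGroup.mk' (Cfsg.pPrimeCore 2 X) with hπ
  have hnorm : ∀ g : X, π g ∈ Subgroup.normalizer ((K.map π : Subgroup _) : Set _) →
      g ∈ Subgroup.normalizer (K : Set X) := by
    intro g hg
    rw [hKeq]
    refine PSolv.normalizer_le_normalizer_pGen _ ?_
    rw [← Subgroup.comap_normalizer_eq_of_surjective _ (QuotientGroup.mk'_surjective _), Subgroup.mem_comap]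
    exact hg
  refine sup_le (sup_le (PSolv.pComponent_normalizer_pLayer hK) fun g hg => hnorm g ?_) (iSup_le ?_)
  · rw [show π g = 1 from (QuotientGroup.eq_one_iff g).mpr hg]; exact Subgroup.one_mem _
  · set M := Cfsg.pLayer 2 X ⊔ Cfsg.pPrimePCore 2 X with hMdef
    intro T
    refine (Subgroup.map_subtype_le _).trans fun g hg => hnorm g ?_
    set U := (T : Subgroup ↥M).map M.subtype with hU
    set E := Cfsg.layer (X ⧸ Cfsg.pPrimeCore 2 X) with hE
    set Mb := M.map π with hMb
    have hEM : E ≤ Mb := by rw [hE, ← PSolv.map_pLayer]; exact Subgroup.map_mono le_sup_left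
    have hUi : ¬ 2 ∣ (U.map π).relIndex Mb := by
      intro hd
      refine T.not_dvd_index (hd.trans ?_)
      have hOM : π.ker ≤ M := by
        rw [hπ, QuotientGroup.ker_mk']
        intro z hz
        refine Subgroup.mem_sup_right ?_
        show QuotientGroup.mk' (Cfsg.pPrimeCore 2 X) z ∈ Cfsg.pCore 2 (X ⧸ Cfsg.pPrimeCore 2 X)
        rw [show QuotientGroup.mk' (Cfsg.pPrimeCore 2 X) z = 1 from (QuotientGroup.eq_one_iff z).mpr hz]
        exact Subgroup.one_mem _
      have h1 : (U.map π).relIndex Mb ∣ U.relIndex M := by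
        rw [hMb, Subgroup.relIndex_map_map, sup_eq_left.mpr hOM]
        exact Subgroup.relIndex_dvd_of_le_left _ le_sup_left
      rwa [show U.relIndex M = (T : Subgroup ↥M).index from by
        rw [Subgroup.relIndex, Subgroup.subgroupOf, Subgroup.comap_map_eq_self_of_injective M.subtype_injective]] at h1
    have h1 : ¬ 2 ∣ (U.map π ⊓ E).relIndex E := Layer.sylow_inf_normalised
      (Subgroup.map_mono (Subgroup.map_subtype_le _)) hEM (by rw [Subgroup.normalizer_eq_top_iff.mpr inferInstance]; exact le_top) hUi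
    have h2 : ¬ 2 ∣ (U.map π ⊓ E ⊓ K.map π).relIndex (K.map π) := Layer.sylow_inf_normalised inf_le_right
      (Layer.component_le_layer hc) (Layer.component_normalizer_layer hc) h1
    obtain ⟨s, hs, hsK⟩ := Layer.exists_noncentral_mem_sylow (Solv.pPrimeCore_quotient 2) hc inf_le_right
      ((((T.isPGroup').map M.subtype).map π).to_le (inf_le_left.trans inf_le_left)) h2
    refine ConjFam.mem_normalizer_iff_conjMap.mpr ?_
    by_contra hne
    refine hsK ?_
    have hsg : π g * s * (π g)⁻¹ = s := by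
      obtain ⟨u, hu, rfl⟩ := hs.1.1
      rw [← map_inv, ← map_mul, ← map_mul, ← Subgroup.mem_centralizer_iff.mp hg u hu, mul_inv_cancel_right]
    have hsK' : s ∈ (K.map π).map (MulAut.conj (π g)).toMonoidHom := ⟨s, hs.2, hsg⟩
    have hcm := Layer.components_commute (Layer.isComponent_map_equiv (MulAut.conj (π g)) hc) hc hne
    exact Subgroup.commutator_eq_bot_iff_le_centralizer.mp hcm hsK'

end Cfsg.Agent.S1344
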