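import Cfsg.Statements.S1386

set_option autoImplicit false
open Cfsg

namespace Cfsg.Agent.S1386

/-- Let G be a finite group, W₁, W₂ subgroups forming a self-normalizing cyclic pair, S a subgroup with W₂ ≤ S and W₁ a complement to S' in S, and (W₁, U, W₂') type-P data for S. Then W₂' = W₂ (that is, C_{S'}(W₁) = W₂). -/
theorem result {G : Type*} [Group G] [Finite G] (W₁ W₂ S U W₂' : Subgroup G) (hW : Cfsg.IsSelfNormalizingCyclic W₁ W₂)
    (hSW : Cfsg.IsComplIn ⁅S, S⁆ W₁ S) (hW₂S : W₂ ≤ S) (hP : Cfsg.IsTypePWith S W₁ U W₂') :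
    W₂' = W₂ := by
  obtain ⟨h1, h2, hint, hcomm, hcyc, hN⟩ := hW
  obtain ⟨h1', -, hint', hcomm', hcyc', hN'⟩ := hP.selfNormalizing
  haveI := hcyc'
  obtain ⟨x, hx, hx1⟩ : ∃ x ∈ W₁, x ≠ 1 := by
    by_contra h
    push Not at h
    exact h1 ((Subgroup.eq_bot_iff_forall _).2 h)
  obtain ⟨-, hW1S, -, hfac⟩ := hSW
  have hsub : W₁ ⊔ W₂ ≤ W₁ ⊔ W₂' := by
    refine sup_le le_sup_left fun w hw => ?_
    obtain ⟨a, ha, b, hb, rfl⟩ := hfac w (hW₂S hw)
    have hbx : x * b = b * x := by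
      haveI := hP.W₁_cyclic
      letI := hP.W₁_cyclic.commGroup (α := ↥W₁)
      exact congrArg Subtype.val (mul_comm (⟨x, hx⟩ : ↥W₁) ⟨b, hb⟩)
    have hax : a ∈ ⁅S, S⁆ ⊓ Subgroup.centralizer ({x} : Set G) := by
      refine ⟨ha, Subgroup.mem_centralizer_iff.2 fun y hy => ?_⟩
      rw [Set.mem_singleton_iff.1 hy]
      have h := hcomm x hx _ hw
      rw [← mul_assoc, mul_assoc a b x, ← hbx, ← mul_assoc] at h
      exact mul_right_cancel h
    rw [hP.W₂_centralizer x hx hx1] at hax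
    exact Subgroup.mul_mem _ (le_sup_right (a := W₁) hax) (le_sup_left (b := W₂') hb)
  obtain ⟨y, hy, hy1⟩ : ∃ y ∈ W₂, y ≠ 1 := by
    by_contra h
    push Not at h
    exact h2 ((Subgroup.eq_bot_iff_forall _).2 h)
  have hxy : x * y ∈ (↑(W₁ ⊔ W₂) : Set G) \ (↑W₁ ∪ ↑W₂) := by
    refine ⟨Subgroup.mul_mem _ (le_sup_left (b := W₂) hx) (le_sup_right (a := W₁) hy), ?_⟩
    rintro (h | h)
    · exact hy1 ((Subgroup.eq_bot_iff_forall _).1 hint y
        ⟨by simpa using W₁.mul_mem (W₁.inv_mem hx) h, hy⟩)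
    · exact hx1 ((Subgroup.eq_bot_iff_forall _).1 hint x
        ⟨hx, by simpa using W₂.mul_mem h (W₂.inv_mem hy)⟩)
  have hWW : W₁ ⊔ W₂ = W₁ ⊔ W₂' := by
    refine le_antisymm hsub fun w hw => ?_
    rw [← hN {x * y} (Set.singleton_subset_iff.2 hxy) (Set.singleton_nonempty _)]
    letI := hcyc'.commGroup (α := ↥(W₁ ⊔ W₂'))
    have hw' : w * (x * y) = x * y * w :=
      congrArg Subtype.val (mul_comm (⟨w, hw⟩ : ↥(W₁ ⊔ W₂')) ⟨x * y, hsub hxy.1⟩)
    refine Subgroup.mem_set_normalizer_iff.2 fun z => ?_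
    simp only [Set.mem_singleton_iff]
    constructor
    · rintro rfl; rw [hw', mul_inv_cancel_right]
    · intro h
      have h' := mul_inv_eq_iff_eq_mul.1 h
      exact mul_left_cancel (h'.trans hw'.symm)
  have hcard : ∀ A B : Subgroup G, A ⊓ B = ⊥ → (∀ a ∈ A, ∀ b ∈ B, a * b = b * a) →
      Nat.card ↥(A ⊔ B) = Nat.card ↥A * Nat.card ↥B := by
    intro A B hAB hc
    let φ := MonoidHom.noncommCoprod A.subtype B.subtype fun a b => hc a a.2 b b.2
    have hr : φ.range = A ⊔ B := (MonoidHom.noncommCoprod_range _ _ _).trans (by simp)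
    have hinj : Function.Injective φ :=
      (MonoidHom.noncommCoprod_injective _ _ _).2
        ⟨A.subtype_injective, B.subtype_injective, by simpa [disjoint_iff] using hAB⟩
    rw [← hr, ← Nat.card_prod]
    exact (Nat.card_congr (MonoidHom.ofInjective hinj).toEquiv).symm
  have hn : Nat.card ↥W₂' = Nat.card ↥W₂ := by
    have h := hcard W₁ W₂ hint hcomm
    rw [hWW, hcard W₁ W₂' hint' hcomm'] at h
    exact Nat.eq_of_mul_eq_mul_left Nat.card_pos h
  set V := W₂' ⊔ W₂ with hV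
  have hVW : V ≤ W₁ ⊔ W₂' := sup_le le_sup_right (hWW ▸ le_sup_right)
  haveI : IsCyclic ↥V := isCyclic_of_injective (Subgroup.inclusion hVW) (Subgroup.inclusion_injective hVW)
  letI := (inferInstance : IsCyclic ↥V).commGroup (α := ↥V)
  have hexp : ∀ v : ↥V, v ^ Nat.card ↥W₂ = 1 := by
    intro v
    have key : (⊤ : Subgroup ↥V) ≤ (powMonoidHom (α := ↥V) (Nat.card ↥W₂)).ker := by
      have : (⊤ : Subgroup ↥V) = W₂'.subgroupOf V ⊔ W₂.subgroupOf V := by
        rw [← Subgroup.subgroupOf_sup le_sup_left le_sup_right, Subgroup.subgroupOf_self]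
      rw [this]
      refine sup_le (fun z hz => ?_) (fun z hz => ?_)
      · have h := orderOf_dvd_natCard (⟨z.1, hz⟩ : ↥W₂')
        rw [← Subgroup.orderOf_coe, hn] at h
        refine MonoidHom.mem_ker.2 (Subtype.ext ?_)
        exact (SubmonoidClass.coe_pow z _).trans (orderOf_dvd_iff_pow_eq_one.1 h)
      · have h := orderOf_dvd_natCard (⟨z.1, hz⟩ : ↥W₂)
        rw [← Subgroup.orderOf_coe] at h
        refine MonoidHom.mem_ker.2 (Subtype.ext ?_)
        exact (SubmonoidClass.coe_pow z _).trans (orderOf_dvd_iff_pow_eq_one.1 h)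
    exact key (Subgroup.mem_top v)
  have hle : Nat.card ↥V ≤ Nat.card ↥W₂ := by
    rw [← IsCyclic.exponent_eq_card (α := ↥V)]
    exact Nat.le_of_dvd Nat.card_pos (Monoid.exponent_dvd_of_forall_pow_eq_one hexp)
  exact (Subgroup.eq_of_le_of_card_ge le_sup_left (hle.trans hn.ge)).trans
    (Subgroup.eq_of_le_of_card_ge le_sup_right hle).symm

end Cfsg.Agent.S1386
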