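import Cfsg.Statements.S1387
import Cfsg.Agent.TypeP.FittingHall

set_option autoImplicit false
open Cfsg

namespace Cfsg.Agent.S1387

/-- Let M be a subgroup of a finite group G with type-P data (W₁, U, W₂) and H = M_F. Then the Fitting subgroup F(M) is generated by H and the centralizer of H in U. -/
theorem result {G : Type*} [Group G] [Finite G] (M W₁ U W₂ : Subgroup G) (hP : Cfsg.IsTypePWith M W₁ U W₂) :
    Cfsg.fittingOf M = Cfsg.fittingHallOf M ⊔ (U ⊓ Subgroup.centralizer (Cfsg.fittingHallOf M : Set G)) := by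
  obtain ⟨hHM', hUM', hHU, hfac⟩ := hP.U_compl
  refine le_antisymm (fun x hx => ?_) (sup_le ?_ ?_)
  · obtain ⟨h, hh, u, hu, rfl⟩ := hfac x (hP.fitting_le hx)
    have hF : Cfsg.fittingHallOf M ≤ Cfsg.fittingOf M := by
      rw [← hP.fitting_eq]; exact le_sup_left
    have huF : u ∈ Cfsg.fittingOf M := by
      simpa using Subgroup.mul_mem _ (Subgroup.inv_mem _ (hF hh)) hx
    exact Subgroup.mul_mem _ (le_sup_left (b := U ⊓ _) hh)
      (le_sup_right (a := Cfsg.fittingHallOf M) ⟨hu, TypeP.fitting_inf_complement_le hHU ⟨huF, hu⟩⟩)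
  · rw [← hP.fitting_eq]; exact le_sup_left
  · rw [← hP.fitting_eq]
    refine le_sup_of_le_right (le_inf (inf_le_left.trans (hUM'.trans ?_)) inf_le_right)
    exact Subgroup.commutator_le.2 fun a ha b hb =>
      M.mul_mem (M.mul_mem (M.mul_mem ha hb) (M.inv_mem ha)) (M.inv_mem hb)

end Cfsg.Agent.S1387
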