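import Cfsg.Statements.S1388
import Cfsg.Agent.TypeP.FittingHall

set_option autoImplicit false
open Cfsg

namespace Cfsg.Agent.S1388

/-- Let M be a subgroup of a finite group G with type-P data (W₁, U, W₂) and H = M_F. Then the derived subgroup of U centralizes H, and if U ≠ 1 then U does not centralize H. -/
theorem result {G : Type*} [Group G] [Finite G] (M W₁ U W₂ : Subgroup G) (hP : Cfsg.IsTypePWith M W₁ U W₂) :
    ⁅U, U⁆ ≤ Subgroup.centralizer (Cfsg.fittingHallOf M : Set G) ∧ (U ≠ ⊥ → ¬ U ≤ Subgroup.centralizer (Cfsg.fittingHallOf M : Set G)) := by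
  obtain ⟨hHM', hUM', hHU, hfac⟩ := hP.U_compl
  have hM'M : ⁅M, M⁆ ≤ M := Subgroup.commutator_le.2 fun a ha b hb =>
    M.mul_mem (M.mul_mem (M.mul_mem ha hb) (M.inv_mem ha)) (M.inv_mem hb)
  refine ⟨?_, fun hne hle => hne ?_⟩
  · refine le_trans (le_inf ?_ ?_) (TypeP.fitting_inf_complement_le hHU)
    · exact (Subgroup.commutator_mono hUM' hUM').trans (hP.derived_two_le.trans hP.fitting_eq.le)
    · exact Subgroup.commutator_le.2 fun a ha b hb =>
        U.mul_mem (U.mul_mem (U.mul_mem ha hb) (U.inv_mem ha)) (U.inv_mem hb)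
  -- otherwise `M'` is a normal nilpotent Hall subgroup
  have hM'F : ⁅M, M⁆ ≤ Cfsg.fittingOf M := by
    intro x hx
    obtain ⟨h, hh, u, hu, rfl⟩ := hfac x hx
    rw [← hP.fitting_eq]
    exact Subgroup.mul_mem _ (le_sup_left (b := M ⊓ _) hh)
      (le_sup_right (a := Cfsg.fittingHallOf M) ⟨hM'M (hUM' hu), hle hu⟩)
  set N := (⁅M, M⁆).subgroupOf M with hN
  have hNe : N = commutator ↥M := by
    apply Subgroup.map_injective M.subtype_injective
    rw [hN, Subgroup.map_subgroupOf_eq_of_le hM'M, commutator_def, Subgroup.map_commutator,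
      ← MonoidHom.range_eq_map, Subgroup.range_subtype]
  haveI hNn : N.Normal := hNe ▸ inferInstance
  have hNnil : Group.IsNilpotent ↥N := by
    haveI := Solv.fittingSubgroup_isNilpotent (G := ↥M)
    refine Group.nilpotent_of_mulEquiv (Subgroup.subgroupOfEquivOfLe (show N ≤ Cfsg.fittingSubgroup ↥M from ?_))
    intro x hx
    obtain ⟨f, hf, hfx⟩ := hM'F hx
    rwa [← Subtype.ext hfx]
  obtain ⟨-, hW1M, hint, hfacM⟩ := hP.W₁_compl
  have hcompl : Subgroup.IsComplement' N (W₁.subgroupOf M) := by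
    refine Subgroup.isComplement'_of_disjoint_and_mul_eq_univ ?_ ?_
    · rw [disjoint_iff, Subgroup.eq_bot_iff_forall]
      rintro x ⟨h1, h2⟩
      exact Subtype.ext ((Subgroup.eq_bot_iff_forall _).1 hint x.1 ⟨h1, h2⟩)
    · refine Set.eq_univ_of_forall fun x => ?_
      obtain ⟨a, ha, b, hb, hab⟩ := hfacM x x.2
      exact ⟨⟨a, hM'M ha⟩, ha, ⟨b, hW1M hb⟩, hb, Subtype.ext hab.symm⟩
  have hHall : (Nat.card ↥N).Coprime N.index := by
    rw [hcompl.symm.index_eq_card, ← hcompl.index_eq_card,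
      Nat.card_congr (Subgroup.subgroupOfEquivOfLe hW1M).toEquiv]
    exact hP.W₁_hall.symm
  refine (Subgroup.eq_bot_iff_forall _).2 fun u hu => ?_
  have huN : (⟨u, hM'M (hUM' hu)⟩ : ↥M) ∈ N := hUM' hu
  exact (Subgroup.eq_bot_iff_forall _).1 hHU u
    ⟨⟨_, le_sSup (a := N) (s := {N : Subgroup ↥M | N.Normal ∧ Group.IsNilpotent N ∧ (Nat.card N).Coprime N.index})
      ⟨hNn, hNnil, hHall⟩ huN, rfl⟩, hu⟩

end Cfsg.Agent.S1388
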