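import Cfsg.Statements.S1441

set_option autoImplicit false
open Cfsg
open scoped commutatorElement

namespace Cfsg.Agent.S1441

/-- Let G be a finite group, H a solvable subgroup and A a subgroup normalizing H. Suppose there is a chain H = H₀ ≥ H₁ ≥ ⋯ ≥ H_n = 1 of subgroups normal in H and normalized by A such that A acts trivially on each factor H_{i-1}/H_i (that is, [H_{i-1}, A] ≤ H_i). Then every prime dividing the index of C_A(H) in A divides the order of H. -/
theorem result {G : Type*} [Group G] [Finite G] (H A : Subgroup G) (hH : Group.IsSolvable H) (hA : (A ≤ Subgroup.normalizer (H : Set G)))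
    (n : ℕ) (c : Fin (n + 1) → Subgroup G) (hc0 : c 0 = H) (hcn : c (Fin.last n) = ⊥) (hanti : Antitone c)
    (hcN : ∀ i, H ≤ Subgroup.normalizer ((c i : Subgroup G) : Set G)) (hcA : ∀ i, A ≤ Subgroup.normalizer ((c i : Subgroup G) : Set G))
    (htriv : ∀ i : Fin n, ⁅c i.castSucc, A⁆ ≤ c i.succ) :
    ∀ p : ℕ, p.Prime → p ∣ (A ⊓ Subgroup.centralizer (H : Set G)).relIndex A → p ∣ Nat.card H := by
  intro p hp hdvd
  haveI : Fact p.Prime := ⟨hp⟩
  set N := Nat.card ↥H
  have key : ∀ k : ℕ, ∀ j : Fin (n + 1), n - (j : ℕ) = k → ∀ a ∈ A, ∀ h ∈ c j, a ^ (N ^ k) * h = h * a ^ (N ^ k) := by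
    intro k
    induction k with
    | zero =>
      intro j hj a _ h hh
      obtain rfl : j = Fin.last n := Fin.ext (by simp only [Fin.val_last]; omega)
      rw [hcn, Subgroup.mem_bot] at hh
      rw [hh, mul_one, one_mul]
    | succ k ih =>
      intro j hj a ha h hh
      let i : Fin n := ⟨j, by omega⟩
      have hji : i.castSucc = j := Fin.ext rfl
      set b := a ^ (N ^ k) with hb
      have hbA : b ∈ A := pow_mem ha _
      set d := b * h * b⁻¹ * h⁻¹ with hd
      have hdc : d ∈ c i.succ := by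
        have h1 := inv_mem (Subgroup.commutator_mem_commutator (hji.symm ▸ hh : h ∈ c i.castSucc) hbA)
        rw [commutatorElement_def, mul_inv_rev, mul_inv_rev, mul_inv_rev, inv_inv, inv_inv] at h1
        have h2 := htriv i h1
        rwa [hd, mul_assoc (b * h) b⁻¹, mul_assoc b h]
      have hbd : b * d = d * b := ih i.succ (by simp only [Fin.val_succ, i]; omega) a ha d hdc
      have hpow : ∀ s : ℕ, b ^ s * h * (b ^ s)⁻¹ = d ^ s * h := by
        intro s
        induction s with
        | zero => simp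
        | succ s ihs =>
          calc b ^ (s + 1) * h * (b ^ (s + 1))⁻¹ = b * (b ^ s * h * (b ^ s)⁻¹) * b⁻¹ := by rw [pow_succ']; group
            _ = b * d ^ s * b⁻¹ * (b * h * b⁻¹) := by rw [ihs]; group
            _ = d ^ s * (d * h) := by
                rw [((show Commute b d from hbd).pow_right s).eq, mul_inv_cancel_right, hd, inv_mul_cancel_right]
            _ = d ^ (s + 1) * h := by rw [pow_succ]; exact (mul_assoc _ _ _).symm
      have hdN : d ^ N = 1 := by
        have hdH : d ∈ H := hc0 ▸ hanti (Fin.zero_le _) hdc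
        exact congrArg Subtype.val (pow_card_eq_one' (x := (⟨d, hdH⟩ : ↥H)))
      have h3 := hpow N
      rw [hdN, one_mul, hb, ← pow_mul, ← pow_succ] at h3
      exact mul_inv_eq_iff_eq_mul.1 h3
  set C := A ⊓ Subgroup.centralizer (H : Set G)
  have hmemC : ∀ a : ↥A, a ^ (N ^ n) ∈ C.subgroupOf A := fun a => by
    refine Subgroup.mem_subgroupOf.2 ⟨(a ^ (N ^ n)).2, Subgroup.mem_centralizer_iff.2 fun h hh => ?_⟩
    rw [Subgroup.coe_pow]
    exact (key n 0 (by simp) a a.2 h (hc0.symm ▸ hh)).symm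
  haveI : (C.subgroupOf A).Normal := ⟨fun x hx g => by
    refine Subgroup.mem_subgroupOf.2 ⟨(g * x * g⁻¹).2, Subgroup.mem_centralizer_iff.2 fun h hh => ?_⟩
    have h2 := Subgroup.mem_centralizer_iff.1 (Subgroup.mem_subgroupOf.1 hx).2 _
      ((Subgroup.mem_normalizer_iff.1 (inv_mem (hA g.2)) h).1 hh)
    rw [inv_inv] at h2
    show h * ((g : G) * x * (g : G)⁻¹) = (g : G) * x * (g : G)⁻¹ * h
    calc h * ((g : G) * x * (g : G)⁻¹) = (g : G) * ((g : G)⁻¹ * h * g * x) * (g : G)⁻¹ := by group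
      _ = (g : G) * (x * ((g : G)⁻¹ * h * g)) * (g : G)⁻¹ := by rw [h2]
      _ = (g : G) * x * (g : G)⁻¹ * h := by group⟩
  obtain ⟨q, hq⟩ := exists_prime_orderOf_dvd_card' (G := ↥A ⧸ C.subgroupOf A) p hdvd
  obtain ⟨a, rfl⟩ := QuotientGroup.mk_surjective q
  have h4 : ((a : ↥A ⧸ C.subgroupOf A)) ^ (N ^ n) = 1 := by
    rw [← QuotientGroup.mk_pow]; exact (QuotientGroup.eq_one_iff _).2 (hmemC a)
  exact hp.dvd_of_dvd_pow (hq ▸ orderOf_dvd_of_pow_eq_one h4)

end Cfsg.Agent.S1441
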