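import Cfsg.Statements.S1442
import Mathlib.GroupTheory.Nilpotent

set_option autoImplicit false
open Cfsg

namespace Cfsg.Agent.S1442

/-- Let G be a finite group, H a nilpotent subgroup and A a subgroup normalizing H with the orders of A and H coprime. Put C = H ∩ C_G(A). If H ∩ C_G(C) ≤ C then A centralizes H. -/
theorem result {G : Type*} [Group G] [Finite G] (H A : Subgroup G) (hH : Group.IsNilpotent H) (hA : (A ≤ Subgroup.normalizer (H : Set G))) (hcop : (Nat.card A).Coprime (Nat.card H))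
    (hC : H ⊓ Subgroup.centralizer (((H ⊓ Subgroup.centralizer (A : Set G)) : Subgroup G) : Set G) ≤ (H ⊓ Subgroup.centralizer (A : Set G))) :
    A ≤ Subgroup.centralizer (H : Set G) := by
  classical
  set C := H ⊓ Subgroup.centralizer (A : Set G) with hCdef
  have key : ∀ n ∈ H, n ∈ Subgroup.normalizer (C : Set G) → n ∈ C := by
    intro n hnH hn
    refine ⟨hnH, Subgroup.mem_centralizer_iff.2 fun a ha => ?_⟩
    have hca : ∀ c ∈ C, a * c * a⁻¹ = c := fun c hc => by
      rw [Subgroup.mem_centralizer_iff.1 hc.2 a ha, mul_inv_cancel_right]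
    set m := a * n * a⁻¹ * n⁻¹ with hm
    have hmH : m ∈ H := mul_mem ((Subgroup.mem_normalizer_iff.1 (hA ha) n).1 hnH) (inv_mem hnH)
    have hmC : m ∈ C := hC ⟨hmH, Subgroup.mem_centralizer_iff.2 fun c hc => by
      have h1 := hca _ ((Subgroup.mem_normalizer_iff.1 (inv_mem hn) c).1 hc)
      have h2 := hca _ hc
      rw [inv_inv] at h1
      have h3 : a * n⁻¹ * a⁻¹ * c * (a * n * a⁻¹) = n⁻¹ * c * n := by
        rw [← h1]; nth_rewrite 1 [← h2]; group
      calc c * m = (a * n * a⁻¹) * (a * n⁻¹ * a⁻¹ * c * (a * n * a⁻¹)) * n⁻¹ := by rw [hm]; group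
        _ = (a * n * a⁻¹) * (n⁻¹ * c * n) * n⁻¹ := by rw [h3]
        _ = m * c := by rw [hm]; group⟩
    have hpow : ∀ j : ℕ, a ^ j * n * (a ^ j)⁻¹ = m ^ j * n := by
      intro j
      induction j with
      | zero => simp
      | succ j ih =>
        calc a ^ (j + 1) * n * (a ^ (j + 1))⁻¹ = a * (a ^ j * n * (a ^ j)⁻¹) * a⁻¹ := by rw [pow_succ']; group
          _ = (a * m ^ j * a⁻¹) * (a * n * a⁻¹) := by rw [ih]; group
          _ = m ^ j * (m * n) := by rw [hca _ (pow_mem hmC j), show a * n * a⁻¹ = m * n by rw [hm]; group]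
          _ = m ^ (j + 1) * n := by rw [pow_succ]; exact (mul_assoc _ _ _).symm
    have h4 := hpow (orderOf a)
    rw [pow_orderOf_eq_one, one_mul, inv_one, mul_one] at h4
    have hmd : orderOf m ∣ orderOf a := orderOf_dvd_of_pow_eq_one (mul_eq_right.1 h4.symm)
    have hm1 : m = 1 := by
      rw [← orderOf_eq_one_iff]
      refine Nat.eq_one_of_dvd_coprimes (hcop.coprime_dvd_left (hmd.trans ?_)) dvd_rfl ?_
      · exact (Subgroup.orderOf_coe (⟨a, ha⟩ : ↥A)).symm ▸ orderOf_dvd_natCard _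
      · exact (Subgroup.orderOf_coe (⟨m, hmH⟩ : ↥H)).symm ▸ orderOf_dvd_natCard _
    rw [hm, mul_inv_eq_one, mul_inv_eq_iff_eq_mul] at hm1
    exact hm1
  have htop : C.subgroupOf H = ⊤ := by
    by_contra hne
    haveI := hH
    have hlt := Group.normalizerCondition_of_isNilpotent (G := ↥H) _ (lt_top_iff_ne_top.2 hne)
    refine (hlt.trans_le ?_).false
    rw [← Subgroup.subgroupOf_normalizer_eq inf_le_left]
    intro v hv
    exact Subgroup.mem_subgroupOf.2 (key v v.2 hv)
  intro a ha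
  refine Subgroup.mem_centralizer_iff.2 fun w hw => ?_
  exact (Subgroup.mem_centralizer_iff.1 (Subgroup.subgroupOf_eq_top.1 htop hw).2 a ha).symm

end Cfsg.Agent.S1442
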