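import Cfsg.Statements.S1459
import Cfsg.Agent.Transfer.Basic

set_option autoImplicit false
open Cfsg
open scoped commutatorElement

namespace Cfsg.Agent.S1459

/-- Let G be a finite solvable group. (a) If H is a normal subgroup of order coprime to its index, K is a complement to H, and H ≤ G', then H = [H, K] and H ∩ C_G(K) ≤ [H, H]. (b) If G' is nilpotent and has prime index in G, then the order of G' is coprime to its index and G' = [G, K] (the subgroup generated by commutators of elements of G with elements of K) for every complement K of G'. -/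
theorem result {G : Type*} [Group G] [Finite G] [Group.IsSolvable G] :
    (∀ (H K : Subgroup G), H.Normal → (Nat.card H).Coprime H.index → Subgroup.IsComplement' H K → H ≤ commutator G →
        H = ⁅H, K⁆ ∧ H ⊓ Subgroup.centralizer (K : Set G) ≤ ⁅H, H⁆) ∧
      (Group.IsNilpotent ↥(commutator G) → (commutator G).index.Prime →
        (Nat.card ↥(commutator G)).Coprime (commutator G).index ∧
        ∀ K : Subgroup G, Subgroup.IsComplement' (commutator G) K → commutator G = ⁅(⊤ : Subgroup G), K⁆) := by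
  classical
  have main : ∀ (H K : Subgroup G), H.Normal → (Nat.card H).Coprime H.index → Subgroup.IsComplement' H K → H ≤ commutator G →
      H = ⁅H, K⁆ ∧ H ⊓ Subgroup.centralizer (K : Set G) ≤ ⁅H, H⁆ := by
    intro H K hH hcop hHK hle
    haveI := hH
    have hdec : ∀ g : G, ∃ h ∈ H, ∃ k ∈ K, g = h * k := fun g => by
      obtain ⟨⟨h, k⟩, e, -⟩ := hHK.existsUnique g
      exact ⟨h, h.2, k, k.2, e.symm⟩
    set M := ⁅H, K⁆
    have hMH : M ≤ H := Subgroup.commutator_le_left H K
    haveI hMn : M.Normal := by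
      rw [← Subgroup.normalizer_eq_top_iff, eq_top_iff]
      intro g _
      obtain ⟨h, hh, k, hk, rfl⟩ := hdec g
      exact mul_mem (Subgroup.normalizer_commutator_ge_left H K hh) (Subgroup.normalizer_commutator_ge_right H K hk)
    set D := ⁅H, H⁆ ⊔ M
    have hDH : D ≤ H := sup_le (Subgroup.commutator_le_self H) hMH
    haveI : D.Normal := inferInstance
    let f := QuotientGroup.mk' D
    have hker : ∀ g ∈ D, f g = 1 := fun g hg => (QuotientGroup.eq_one_iff g).2 hg
    have cmk : ∀ {h k : G}, ⁅h, k⁆ ∈ D → f h * f k = f k * f h := fun {h k} hm => by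
      have := hker _ hm
      rwa [map_commutatorElement, commutatorElement_eq_one_iff_commute] at this
    have hKcl : ∀ g : G, g ∈ ⁅K, K⁆ → g ∈ K := fun g hg => Subgroup.commutator_le_self K hg
    have hsub : commutator G ≤ D ⊔ ⁅K, K⁆ := by
      rw [commutator_def, Subgroup.commutator_le]
      intro a _ b _
      obtain ⟨h₁, hh₁, k₁, hk₁, rfl⟩ := hdec a
      obtain ⟨h₂, hh₂, k₂, hk₂, rfl⟩ := hdec b
      have c1 := cmk (Subgroup.mem_sup_left (Subgroup.commutator_mem_commutator hh₁ hh₂) : ⁅h₁, h₂⁆ ∈ D)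
      have c2 := cmk (Subgroup.mem_sup_right (Subgroup.commutator_mem_commutator hh₁ hk₂) : ⁅h₁, k₂⁆ ∈ D)
      have c3 := cmk (Subgroup.mem_sup_right (Subgroup.commutator_mem_commutator hh₂ hk₁) : ⁅h₂, k₁⁆ ∈ D)
      have e : f ⁅h₁ * k₁, h₂ * k₂⁆ = f ⁅k₁, k₂⁆ := by
        simp only [map_commutatorElement, map_mul, commutatorElement_def, mul_inv_rev]
        calc f h₁ * f k₁ * (f h₂ * f k₂) * ((f k₁)⁻¹ * (f h₁)⁻¹) * ((f k₂)⁻¹ * (f h₂)⁻¹)
            = f h₁ * (f k₁ * f h₂) * f k₂ * (f k₁)⁻¹ * (f h₁)⁻¹ * (f k₂)⁻¹ * (f h₂)⁻¹ := by group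
          _ = f h₁ * (f h₂ * f k₁) * f k₂ * (f k₁)⁻¹ * (f h₁)⁻¹ * (f k₂)⁻¹ * (f h₂)⁻¹ := by rw [c3]
          _ = (f h₁ * f h₂) * (f k₁ * f k₂ * (f k₁)⁻¹) * (f k₂ * f h₁)⁻¹ * (f h₂)⁻¹ := by group
          _ = (f h₁ * f h₂) * (f k₁ * f k₂ * (f k₁)⁻¹) * (f h₁ * f k₂)⁻¹ * (f h₂)⁻¹ := by rw [c2]
          _ = (f h₁ * f h₂) * (f k₁ * f k₂ * (f k₁)⁻¹ * (f k₂)⁻¹) * (f h₂ * f h₁)⁻¹ := by group
          _ = (f h₁ * f h₂) * (f k₁ * f k₂ * (f k₁)⁻¹ * (f k₂)⁻¹) * (f h₁ * f h₂)⁻¹ := by rw [c1]
          _ = f k₁ * f k₂ * (f k₁)⁻¹ * (f k₂)⁻¹ := by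
            have d1 : Commute (f h₁ * f h₂) (f k₁) := Commute.mul_left
              (cmk (Subgroup.mem_sup_right (Subgroup.commutator_mem_commutator hh₁ hk₁) : ⁅h₁, k₁⁆ ∈ D)) c3.symm.symm
            have d2 : Commute (f h₁ * f h₂) (f k₂) := Commute.mul_left c2
              (cmk (Subgroup.mem_sup_right (Subgroup.commutator_mem_commutator hh₂ hk₂) : ⁅h₂, k₂⁆ ∈ D))
            rw [(((d1.mul_right d2).mul_right d1.inv_right).mul_right d2.inv_right).eq, mul_inv_cancel_right]
      have h5 := QuotientGroup.eq.1 e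
      have h6 : ⁅k₁, k₂⁆ ∈ D ⊔ ⁅K, K⁆ := Subgroup.mem_sup_right (Subgroup.commutator_mem_commutator hk₁ hk₂)
      have h7 := mul_mem h6 (inv_mem (Subgroup.mem_sup_left (T := ⁅K, K⁆) h5))
      rwa [mul_inv_rev, inv_inv, mul_inv_cancel_left] at h7
    have hHD : H ≤ D := fun g hg => by
      have h1 := hsub (hle hg)
      rw [← SetLike.mem_coe, Subgroup.normal_mul] at h1
      obtain ⟨d, hd, k, hk, rfl⟩ := h1
      have h2 : k ∈ H := by simpa using mul_mem (inv_mem (hDH hd)) hg
      rw [Subgroup.disjoint_def.1 hHK.disjoint h2 (hKcl k hk)]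
      simpa using hd
    have hHM : H = M := by
      refine le_antisymm ?_ hMH
      have h1 : ⁅H.map (QuotientGroup.mk' M), H.map (QuotientGroup.mk' M)⁆ = H.map (QuotientGroup.mk' M) := by
        refine le_antisymm (Subgroup.commutator_le_self _) ?_
        rw [← Subgroup.map_commutator]
        rintro _ ⟨g, hg, rfl⟩
        have h2 := hHD hg
        rw [← SetLike.mem_coe, Subgroup.mul_normal] at h2
        obtain ⟨c, hc, m, hm, rfl⟩ := h2
        exact ⟨c, hc, by rw [map_mul, show QuotientGroup.mk' M m = 1 from (QuotientGroup.eq_one_iff m).2 hm, mul_one]⟩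
      have hbot : H.map (QuotientGroup.mk' M) = ⊥ := by
        by_contra hne
        exact (Group.IsSolvable.commutator_lt_of_ne_bot hne).ne h1
      intro g hg
      exact (QuotientGroup.eq_one_iff g).1 (Subgroup.mem_bot.1 (hbot ▸ ⟨g, hg, rfl⟩))
    refine ⟨hHM, ?_⟩
    set H' := ⁅H, H⁆
    haveI : H'.Normal := inferInstance
    let A : Subgroup (G ⧸ H') := H.map (QuotientGroup.mk' H')
    letI : CommGroup ↥A := { (inferInstance : Group ↥A) with
      mul_comm := by
        rintro ⟨_, u, hu, rfl⟩ ⟨_, v, hv, rfl⟩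
        refine Subtype.ext ?_
        have hm := (QuotientGroup.eq_one_iff _).2 (Subgroup.commutator_mem_commutator hu hv : ⁅u, v⁆ ∈ H')
        change QuotientGroup.mk' H' ⁅u, v⁆ = 1 at hm
        rwa [map_commutatorElement, commutatorElement_eq_one_iff_commute] at hm }
    haveI : Fintype ↥K := Fintype.ofFinite _
    let ψ : ↥H →* ↥A :=
      { toFun := fun h => ∏ k : ↥K, (⟨QuotientGroup.mk' H' ((k : G) * h * (k : G)⁻¹), _, hH.conj_mem _ h.2 _, rfl⟩ : ↥A)
        map_one' := Finset.prod_eq_one fun k _ => Subtype.ext (by simp)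
        map_mul' := fun a b => by
          rw [← Finset.prod_mul_distrib]
          refine Finset.prod_congr rfl fun k _ => Subtype.ext ?_
          show QuotientGroup.mk' H' _ = QuotientGroup.mk' H' _ * QuotientGroup.mk' H' _
          rw [← map_mul]; congr 1; push_cast; group }
    have hψ : ∀ (h : ↥H) (k : ↥K), ψ ⟨(k : G) * h * (k : G)⁻¹, hH.conj_mem _ h.2 _⟩ = ψ h := fun h k =>
      Fintype.prod_equiv (Equiv.mulRight k) _ _ fun j => Subtype.ext (by
        show QuotientGroup.mk' H' _ = QuotientGroup.mk' H' _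
        congr 1; simp [mul_assoc])
    have hker' : H ≤ ψ.ker.map H.subtype := by
      intro x hx
      rw [hHM] at hx
      refine Subgroup.commutator_le.2 (fun h hh k hk => ?_) hx
      refine ⟨⟨h, hh⟩ * ⟨k * h⁻¹ * k⁻¹, hH.conj_mem _ (inv_mem hh) _⟩, ?_, by
        show h * (k * h⁻¹ * k⁻¹) = ⁅h, k⁆
        rw [commutatorElement_def]; group⟩
      rw [SetLike.mem_coe, MonoidHom.mem_ker, map_mul]
      erw [hψ ⟨h⁻¹, inv_mem hh⟩ ⟨k, hk⟩]
      rw [show (⟨h⁻¹, inv_mem hh⟩ : ↥H) = ⟨h, hh⟩⁻¹ from rfl, map_inv, mul_inv_cancel]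
    rintro x ⟨hxH, hxC⟩
    obtain ⟨⟨x', hx'⟩, hψx, e⟩ := hker' hxH
    change x' = x at e
    subst e
    have h1 : ψ ⟨x', hx'⟩ = (⟨QuotientGroup.mk' H' x', x', hx', rfl⟩ : ↥A) ^ Nat.card ↥K := by
      show ∏ k : ↥K, _ = _
      rw [Nat.card_eq_fintype_card, ← Finset.card_univ]
      refine Finset.prod_eq_pow_card fun k _ => Subtype.ext (congrArg (QuotientGroup.mk' H') ?_)
      show (k : G) * x' * (k : G)⁻¹ = x'
      rw [Subgroup.mem_centralizer_iff.1 hxC k k.2, mul_inv_cancel_right]
    have h2 : orderOf (QuotientGroup.mk' H' x') ∣ Nat.card ↥K := orderOf_dvd_of_pow_eq_one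
      (congrArg Subtype.val (h1.symm.trans hψx))
    have h3 : orderOf (QuotientGroup.mk' H' x') ∣ Nat.card ↥H :=
      (orderOf_map_dvd _ x').trans (by rw [← Subgroup.orderOf_mk x' hx']; exact orderOf_dvd_natCard _)
    rw [hHK.symm.index_eq_card] at hcop
    exact (QuotientGroup.eq_one_iff _).1 (orderOf_eq_one_iff.1 (Nat.eq_one_of_dvd_coprimes hcop h3 h2))
  refine ⟨main, fun hnil hidx => ?_⟩
  have hcop : (Nat.card ↥(commutator G)).Coprime (commutator G).index := by
    rw [Nat.coprime_comm, hidx.coprime_iff_not_dvd]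
    intro hd
    haveI : Fact (commutator G).index.Prime := ⟨hidx⟩
    set q := (commutator G).index
    haveI := hnil
    obtain ⟨N, hN, hNc, i, hNi⟩ := Transfer.hasNPC_iff.1 (Transfer.hasNPC_of_nilpotent (p := q) (G := ↥(commutator G)))
    haveI := Transfer.complement_characteristic hN hNc ⟨i, hNi⟩
    set N' := N.map (commutator G).subtype
    haveI : N'.Normal := inferInstance
    let f := QuotientGroup.mk' N'
    have hfs : Function.Surjective f := QuotientGroup.mk'_surjective N'
    have hNle : f.ker ≤ commutator G := by rw [QuotientGroup.ker_mk']; exact Subgroup.map_subtype_le N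
    have hDi : ((commutator G).map f).index = q := by rw [Subgroup.index_map_eq _ hfs hNle]
    have hqp : IsPGroup q (G ⧸ N') := IsPGroup.of_card (n := i + 1) (by
      have h1 := Subgroup.relIndex_mul_index (Subgroup.map_subtype_le N : N' ≤ commutator G)
      have h2 : N'.relIndex (commutator G) = N.index := by
        rw [Subgroup.relIndex, Subgroup.subgroupOf, Subgroup.comap_map_eq_self_of_injective (commutator G).subtype_injective]
      rw [h2, hNi, ← pow_succ] at h1
      rw [← Subgroup.index_eq_card, ← h1])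
    haveI := hqp.isNilpotent
    have hder : (commutator G).map f = commutator (G ⧸ N') := by
      rw [commutator_def, commutator_def, Subgroup.map_commutator, Subgroup.map_top_of_surjective f hfs]
    obtain ⟨g, hg⟩ : ∃ g, g ∉ (commutator G).map f := by
      by_contra hne
      push Not at hne
      rw [(Subgroup.eq_top_iff' _).2 hne, Subgroup.index_top] at hDi
      exact hidx.one_lt.ne hDi
    have htop : Subgroup.zpowers g = ⊤ := by
      by_contra hne
      obtain ⟨M, hM, hgM⟩ := (eq_top_or_exists_le_coatom (Subgroup.zpowers g)).resolve_left hne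
      haveI : M.Normal := Subgroup.NormalizerCondition.normal_of_coatom M Group.normalizerCondition_of_isNilpotent hM
      haveI : IsSimpleOrder (Subgroup ((G ⧸ N') ⧸ M)) := by
        refine @IsSimpleOrder.mk _ _ _ ⟨⊥, ⊤, fun e => hM.1 ?_⟩ fun K => ?_
        · have := congrArg (Subgroup.comap (QuotientGroup.mk' M)) e
          rwa [MonoidHom.comap_bot, QuotientGroup.ker_mk', Subgroup.comap_top] at this
        · rcases (hM.le_iff).1 (QuotientGroup.le_comap_mk' M K) with h | h
          · exact Or.inr (Subgroup.comap_injective (QuotientGroup.mk'_surjective M) (by rw [h, Subgroup.comap_top]))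
          · exact Or.inl (Subgroup.comap_injective (QuotientGroup.mk'_surjective M)
              (by rw [h, MonoidHom.comap_bot, QuotientGroup.ker_mk']))
      have hcyc : ∀ a b : (G ⧸ N') ⧸ M, a * b = b * a := by
        intro a b
        by_cases ha : a = 1
        · rw [ha, one_mul, mul_one]
        have := (IsSimpleOrder.eq_bot_or_eq_top (Subgroup.zpowers a)).resolve_left (by simpa using ha)
        obtain ⟨j, rfl⟩ : b ∈ Subgroup.zpowers a := this ▸ Subgroup.mem_top b
        exact ((Commute.refl a).zpow_right j).eq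
      have hDM : (commutator G).map f ≤ M := by
        rw [hder, commutator_def, Subgroup.commutator_le]
        intro a _ b _
        refine (QuotientGroup.eq_one_iff _).1 ?_
        show QuotientGroup.mk' M ⁅a, b⁆ = 1
        rw [map_commutatorElement, commutatorElement_eq_one_iff_commute]
        exact hcyc _ _
      have hd2 := Subgroup.index_dvd_of_le hDM
      rw [hDi] at hd2
      rcases (Nat.dvd_prime hidx).1 hd2 with e | e
      · exact hM.1 (Subgroup.index_eq_one.1 e)
      · exact hg ((Subgroup.eq_of_le_of_card_ge hDM (by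
          have a1 := M.card_mul_index
          have a2 := ((commutator G).map f).card_mul_index
          rw [e] at a1; rw [hDi] at a2
          exact (Nat.eq_of_mul_eq_mul_right hidx.pos (a1.trans a2.symm)).le)).symm ▸ hgM (Subgroup.mem_zpowers g))
    have hbot : commutator (G ⧸ N') = ⊥ := by
      rw [commutator_def, Subgroup.commutator_eq_bot_iff_le_centralizer]
      intro a _
      refine Subgroup.mem_centralizer_iff.2 fun b _ => ?_
      obtain ⟨u, rfl⟩ : a ∈ Subgroup.zpowers g := htop.symm ▸ Subgroup.mem_top a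
      obtain ⟨v, rfl⟩ : b ∈ Subgroup.zpowers g := htop.symm ▸ Subgroup.mem_top b
      exact zpow_mul_comm g v u
    rw [← hder, Subgroup.map_eq_bot_iff, QuotientGroup.ker_mk'] at hbot
    refine hNc (hd.trans (dvd_of_eq ?_))
    rw [← Subgroup.card_map_of_injective (f := (commutator G).subtype) (commutator G).subtype_injective,
      le_antisymm (Subgroup.map_subtype_le N) hbot]
  exact ⟨hcop, fun K hK => le_antisymm ((main _ K inferInstance hcop hK le_rfl).1.le.trans (Subgroup.commutator_mono le_top le_rfl))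
    (by rw [commutator_def]; exact Subgroup.commutator_mono le_rfl le_top)⟩

end Cfsg.Agent.S1459
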