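import Cfsg.Statements.S1460
import Cfsg.Agent.Solv.SchurZassenhaus
import Cfsg.Agent.TwoFus.Basic

set_option autoImplicit false
open Cfsg Pointwise

namespace Cfsg.Agent.S1460

/-- Let G be a finite solvable group, K a normal subgroup and U a subgroup with G = KU, and H ≤ U a subgroup whose order is coprime to that of K. Then H ∩ G' = H ∩ U'; N_G(H) is generated by K ∩ C_G(H) and U ∩ N_G(H); and if gHg⁻¹ ≤ U for some g ∈ G then g = u c with u ∈ U and c ∈ K ∩ C_G(H). -/
theorem result {G : Type*} [Group G] [Finite G] [Group.IsSolvable G] (K U H : Subgroup G) [K.Normal] (hKU : K ⊔ U = ⊤) (hH : H ≤ U) (hcop : (Nat.card H).Coprime (Nat.card K)) :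
    H ⊓ commutator G = H ⊓ ⁅U, U⁆ ∧
      Subgroup.normalizer (H : Set G) = (K ⊓ Subgroup.centralizer (H : Set G)) ⊔ (U ⊓ Subgroup.normalizer (H : Set G)) ∧
      ∀ g : G, H.map (MulAut.conj g).toMonoidHom ≤ U → ∃ u ∈ U, ∃ c ∈ K ⊓ Subgroup.centralizer (H : Set G), g = u * c := by
  have hdecomp : ∀ g : G, ∃ u ∈ U, ∃ k ∈ K, g = u * k := by
    intro g
    have hg : g ∈ U ⊔ K := by rw [sup_comm, hKU]; exact Subgroup.mem_top g
    obtain ⟨u, hu, k, hk, h⟩ := Subgroup.mem_sup_of_normal_right.1 hg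
    exact ⟨u, hu, k, hk, h.symm⟩
  have hU' : ⁅U, U⁆ ≤ U := Subgroup.commutator_le.2 fun a ha b hb =>
    U.mul_mem (U.mul_mem (U.mul_mem ha hb) (U.inv_mem ha)) (U.inv_mem hb)
  -- (iii)
  have key : ∀ g : G, H.map (MulAut.conj g).toMonoidHom ≤ U →
      ∃ u ∈ U, ∃ c ∈ K ⊓ Subgroup.centralizer (H : Set G), g = u * c := by
    intro g hg
    obtain ⟨u, hu, k, hk, rfl⟩ := hdecomp g
    set H₂ := H.map (MulAut.conj k).toMonoidHom with hH₂
    have hH₂U : H₂ ≤ U := by
      intro x hx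
      have h := hg (TwoFus.conjMap_mul u k H ▸ TwoFus.conj_mem_conjMap (g := u) hx)
      simpa [mul_assoc] using U.mul_mem (U.mul_mem (U.inv_mem hu) h) hu
    set L := H ⊔ (K ⊓ U) with hL
    set V := (K ⊓ U).subgroupOf L with hV
    have hUn : U ≤ Subgroup.normalizer ((K ⊓ U : Subgroup G) : Set G) := fun x hx =>
      TwoFus.mem_normalizer_of_conjMap_eq (by
        rw [Subgroup.map_inf_eq _ _ _ (MulAut.conj x).injective,
          TwoFus.conjMap_eq_of_mem_normalizer (Subgroup.le_normalizer hx)]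
        congr 1
        exact TwoFus.conjMap_eq_of_mem_normalizer (by rw [Subgroup.normalizer_eq_top_iff.2 inferInstance]; trivial))
    haveI hVn : V.Normal := Subgroup.normal_subgroupOf_of_le_normalizer
      (sup_le (hH.trans hUn) Subgroup.le_normalizer)
    have hH₂L : H₂ ≤ L := by
      rintro _ ⟨a, ha, rfl⟩
      have hc : k * a * k⁻¹ * a⁻¹ ∈ K ⊓ U := by
        refine ⟨?_, U.mul_mem (hH₂U ⟨a, ha, rfl⟩) (U.inv_mem (hH ha))⟩
        have := K.mul_mem hk (Subgroup.Normal.conj_mem ‹K.Normal› _ (K.inv_mem hk) a)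
        simpa [mul_assoc] using this
      have := L.mul_mem (le_sup_right (a := H) hc) (le_sup_left (b := K ⊓ U) ha)
      simpa [mul_assoc] using this
    have hcardV : Nat.card ↥V ∣ Nat.card ↥K := by
      rw [hV, Nat.card_congr (Subgroup.subgroupOfEquivOfLe (le_sup_right : K ⊓ U ≤ L)).toEquiv]
      exact Subgroup.card_dvd_of_le inf_le_left
    have hcardH : Nat.card ↥(H.subgroupOf L) = Nat.card ↥H :=
      Nat.card_congr (Subgroup.subgroupOfEquivOfLe (le_sup_left : H ≤ L)).toEquiv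
    have hcardH₂ : Nat.card ↥(H₂.subgroupOf L) = Nat.card ↥H :=
      (Nat.card_congr (Subgroup.subgroupOfEquivOfLe hH₂L).toEquiv).trans (TwoFus.card_conjMap k H)
    have hs1 : H.subgroupOf L ⊔ V = ⊤ := by
      rw [hV, ← Subgroup.subgroupOf_sup le_sup_left le_sup_right, Subgroup.subgroupOf_self]
    have hs2 : H₂.subgroupOf L ⊔ V = ⊤ := by
      rw [hV, ← Subgroup.subgroupOf_sup hH₂L le_sup_right, Subgroup.subgroupOf_eq_top]
      refine sup_le (fun a ha => ?_) le_sup_right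
      have hc : a * (k * a * k⁻¹)⁻¹ ∈ K ⊓ U := by
        refine ⟨?_, U.mul_mem (hH ha) (U.inv_mem (hH₂U ⟨a, ha, rfl⟩))⟩
        have := K.mul_mem (Subgroup.Normal.conj_mem ‹K.Normal› _ hk a) (K.inv_mem hk)
        simpa [mul_assoc] using this
      have := Subgroup.mul_mem (H₂ ⊔ (K ⊓ U)) (le_sup_right (a := H₂) hc)
        (le_sup_left (b := K ⊓ U) (TwoFus.conj_mem_conjMap (g := k) ha))
      simpa [mul_assoc] using this
    have hcopV : (Nat.card ↥V).Coprime V.index := by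
      rw [(Solv.isComplement'_of_coprime_sup hs1 ((hcardH ▸ hcop).coprime_dvd_right hcardV)).symm.index_eq_card,
        hcardH]
      exact (hcop.coprime_dvd_right hcardV).symm
    obtain ⟨m, hm, hconj⟩ := Solv.sz_conj V hcopV (Or.inl inferInstance) hs1
      ((hcardH ▸ hcop).coprime_dvd_right hcardV) hs2 ((hcardH₂ ▸ hcop).coprime_dvd_right hcardV)
    obtain ⟨hmK, hmU⟩ := (hm : (m : G) ∈ K ⊓ U)
    have hnorm : H.map (MulAut.conj ((m : G)⁻¹ * k)).toMonoidHom = H := by
      rw [TwoFus.conjMap_mul, ← hH₂]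
      have e : H.map (MulAut.conj (m : G)).toMonoidHom = H₂ := by
        refine Subgroup.eq_of_le_of_card_ge ?_ (by rw [TwoFus.card_conjMap, TwoFus.card_conjMap])
        intro x hx
        have hxL : x ∈ L := by
          have h := TwoFus.mem_conjMap.1 hx
          simpa [mul_assoc] using L.mul_mem (L.mul_mem m.2 (le_sup_left (b := K ⊓ U) h)) (L.inv_mem m.2)
        have hx' : (m : G)⁻¹ * x * (m : G) ∈ H := TwoFus.mem_conjMap.1 hx
        have : (⟨x, hxL⟩ : ↥L) ∈ MulAut.conj m • H.subgroupOf L := by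
          rw [Solv.mem_conj_smul, Subgroup.mem_subgroupOf]
          simpa [mul_assoc] using hx'
        rw [hconj] at this
        exact this
      rw [← e, ← TwoFus.conjMap_mul, inv_mul_cancel, TwoFus.conjMap_one]
    refine ⟨u * m, U.mul_mem hu hmU, (m : G)⁻¹ * k, ⟨K.mul_mem (K.inv_mem hmK) hk, ?_⟩, by group⟩
    refine Subgroup.mem_centralizer_iff.2 fun a ha => ?_
    set c := (m : G)⁻¹ * k with hc
    have hcK : c ∈ K := K.mul_mem (K.inv_mem hmK) hk
    have h1 : c * a * c⁻¹ * a⁻¹ ∈ H ⊓ K := by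
      refine ⟨H.mul_mem ?_ (H.inv_mem ha), ?_⟩
      · exact hnorm ▸ TwoFus.conj_mem_conjMap ha
      · have := K.mul_mem hcK (Subgroup.Normal.conj_mem ‹K.Normal› _ (K.inv_mem hcK) a)
        simpa [mul_assoc] using this
    rw [(Subgroup.disjoint_of_coprime_natCard hcop).eq_bot, Subgroup.mem_bot, mul_inv_eq_one,
      mul_inv_eq_iff_eq_mul] at h1
    exact h1.symm
  refine ⟨le_antisymm ?_ (inf_le_inf_left H (Subgroup.commutator_mono le_top le_top)), ?_, key⟩
  · -- (i)
    rintro x ⟨hxH, hxG⟩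
    refine ⟨hxH, ?_⟩
    set π := QuotientGroup.mk' K with hπ
    have hmap : (commutator G).map π ≤ ⁅U, U⁆.map π := by
      rw [commutator_def, Subgroup.map_commutator, Subgroup.map_commutator]
      have : (⊤ : Subgroup G).map π ≤ U.map π := by
        rintro _ ⟨g, -, rfl⟩
        obtain ⟨u, hu, k, hk, rfl⟩ := hdecomp g
        exact ⟨u, hu, by simp [hπ, (QuotientGroup.eq_one_iff k).2 hk]⟩
      exact Subgroup.commutator_mono this this
    obtain ⟨w, hw, hwx⟩ := hmap ⟨x, hxG, rfl⟩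
    have hkK : w⁻¹ * x ∈ K := (QuotientGroup.eq (s := K)).1 hwx
    have hkU : w⁻¹ * x ∈ U := U.mul_mem (U.inv_mem (hU' hw)) (hH hxH)
    haveI : (⁅U, U⁆.subgroupOf U).Normal := Subgroup.normal_subgroupOf_of_le_normalizer
      (fun y hy => TwoFus.mem_normalizer_of_conjMap_eq (by
        rw [Subgroup.map_commutator, TwoFus.conjMap_eq_of_mem_normalizer (Subgroup.le_normalizer hy)]))
    let ρ := QuotientGroup.mk' (⁅U, U⁆.subgroupOf U)
    have he : ρ ⟨x, hH hxH⟩ = ρ ⟨w⁻¹ * x, hkU⟩ := by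
      refine (QuotientGroup.eq).2 ?_
      refine Subgroup.mem_subgroupOf.2 ?_
      haveI := ‹(⁅U, U⁆.subgroupOf U).Normal›
      have := Subgroup.Normal.conj_mem this (⟨w⁻¹, U.inv_mem (hU' hw)⟩ : ↥U)
        (Subgroup.mem_subgroupOf.2 (⁅U, U⁆.inv_mem hw)) (⟨x⁻¹, U.inv_mem (hH hxH)⟩ : ↥U)
      simpa [Subgroup.mem_subgroupOf, mul_assoc] using Subgroup.mem_subgroupOf.1 this
    have hd1 : orderOf (ρ ⟨x, hH hxH⟩) ∣ Nat.card ↥H := by
      refine (orderOf_map_dvd ρ _).trans ?_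
      rw [← Subgroup.orderOf_coe]
      simpa [Subgroup.orderOf_coe] using orderOf_dvd_natCard (⟨x, hxH⟩ : ↥H)
    have hd2 : orderOf (ρ ⟨w⁻¹ * x, hkU⟩) ∣ Nat.card ↥K := by
      refine (orderOf_map_dvd ρ _).trans ?_
      rw [← Subgroup.orderOf_coe]
      simpa [Subgroup.orderOf_coe] using orderOf_dvd_natCard (⟨w⁻¹ * x, hkK⟩ : ↥K)
    rw [← he] at hd2
    exact Subgroup.mem_subgroupOf.1
      ((QuotientGroup.eq_one_iff _).1 (orderOf_eq_one_iff.1 (Nat.eq_one_of_dvd_coprimes hcop hd1 hd2)))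
  · -- (ii)
    refine le_antisymm (fun g hg => ?_) (sup_le (inf_le_right.trans (Subgroup.centralizer_le_normalizer _)) inf_le_right)
    obtain ⟨u, hu, c, hc, rfl⟩ := key g (by rw [TwoFus.conjMap_eq_of_mem_normalizer hg]; exact hH)
    have hu' : u ∈ Subgroup.normalizer (H : Set G) := by
      simpa using Subgroup.mul_mem _ hg (Subgroup.inv_mem _ (Subgroup.centralizer_le_normalizer _ hc.2))
    exact Subgroup.mul_mem _ (le_sup_right (a := K ⊓ Subgroup.centralizer (H : Set G)) ⟨hu, hu'⟩)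
      (le_sup_left (b := U ⊓ Subgroup.normalizer (H : Set G)) hc)

end Cfsg.Agent.S1460
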