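import Cfsg.Statements.S1461
import Cfsg.Agent.Solv.Cores

set_option autoImplicit false
open Cfsg
set_option maxHeartbeats 100000

namespace Cfsg.Agent.S1461

/-- Let G be a finite solvable group, p a prime with G = O_{p',p,p'}(G), and S a Sylow p-subgroup. Then: if S ≤ G' then S ≤ [N_G(S), N_G(S)]; if Y ⊆ S and xYx⁻¹ ⊆ S then x = g c for some g ∈ N_G(S) and c centralizing Y; and for every p-subgroup Q there is x ∈ C_G(Q ∩ S) with xQx⁻¹ ≤ S. -/
theorem result {G : Type*} [Group G] [Finite G] [Group.IsSolvable G] (p : ℕ) [Fact p.Prime] (hpl : Cfsg.PLengthLE p 1 G) (S : Sylow p G) :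
    ((S : Subgroup G) ≤ commutator G → (S : Subgroup G) ≤ ⁅Subgroup.normalizer ((S : Subgroup G) : Set G), Subgroup.normalizer ((S : Subgroup G) : Set G)⁆) ∧
      (∀ (Y : Set G) (x : G), Y ⊆ (S : Subgroup G) → (fun y => x * y * x⁻¹) '' Y ⊆ (S : Subgroup G) →
        ∃ g ∈ Subgroup.normalizer ((S : Subgroup G) : Set G), ∃ c ∈ Subgroup.centralizer Y, g * c = x) ∧
      ∀ Q : Subgroup G, IsPGroup p Q → ∃ x ∈ Subgroup.centralizer ((Q ⊓ (S : Subgroup G) : Subgroup G) : Set G), Q.map (MulAut.conj x).toMonoidHom ≤ (S : Subgroup G) := by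
  obtain ⟨U, V, hUn, hVn, hU, hUV, hVU, htop⟩ : ∃ (U V : Subgroup G) (_ : U.Normal) (_ : V.Normal),
      (Nat.card U).Coprime p ∧ U ≤ V ∧ IsPGroup p (V.map (QuotientGroup.mk' U)) ∧
        ∀ x : G, (∃ j : ℕ, orderOf x = p ^ j) → x ∈ V := by
    haveI := (upperPSeries p G 1).2
    haveI := (upperPSeries p G 2).2
    have e1 : (upperPSeries p G 1).1 = (pPrimeCore p (G ⧸ (⊥ : Subgroup G))).comap (QuotientGroup.mk' _) := rfl
    have e2 : (upperPSeries p G 2).1 =
        (pCore p (G ⧸ (upperPSeries p G 1).1)).comap (QuotientGroup.mk' _) := rfl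
    have e3 : (pPrimeCore p (G ⧸ (upperPSeries p G 2).1)).comap (QuotientGroup.mk' _) = ⊤ := hpl
    refine ⟨(upperPSeries p G 1).1, (upperPSeries p G 2).1, (upperPSeries p G 1).2, (upperPSeries p G 2).2, ?_, ?_, ?_, ?_⟩
    · rw [e1]
      refine (Cfsg.Agent.Solv.pPrimeCore_mem (G := G ⧸ (⊥ : Subgroup G)) p).2.coprime_dvd_left (dvd_of_eq ?_)
      rw [← Subgroup.card_map_of_injective (f := QuotientGroup.mk' (⊥ : Subgroup G))
        ((MonoidHom.ker_eq_bot_iff _).mp (QuotientGroup.ker_mk' _)),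
        Subgroup.map_comap_eq_self_of_surjective (QuotientGroup.mk'_surjective _)]
    · intro x hx
      rw [e2, Subgroup.mem_comap, show QuotientGroup.mk' (upperPSeries p G 1).1 x = 1 from (QuotientGroup.eq_one_iff x).mpr hx]
      exact Subgroup.one_mem _
    · rw [e2, Subgroup.map_comap_eq_self_of_surjective (QuotientGroup.mk'_surjective _)]
      exact (Cfsg.Agent.Solv.pCore_mem p).2
    · rintro x ⟨j, hj⟩
      have hx : QuotientGroup.mk' (upperPSeries p G 2).1 x ∈ pPrimeCore p (G ⧸ (upperPSeries p G 2).1) := by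
        have h : x ∈ (⊤ : Subgroup G) := Subgroup.mem_top x
        rw [← e3] at h; exact h
      have h1 := (Subgroup.orderOf_dvd_natCard _ hx)
      have h2 : orderOf (QuotientGroup.mk' (upperPSeries p G 2).1 x) ∣ p ^ j := hj ▸ orderOf_map_dvd _ x
      exact (QuotientGroup.eq_one_iff x).mp (orderOf_eq_one_iff.mp (Nat.eq_one_of_dvd_coprimes
        (Nat.Coprime.pow_right j (Cfsg.Agent.Solv.pPrimeCore_mem (G := G ⧸ (upperPSeries p G 2).1) p).2) h1 h2))
  have hdisj : ∀ z ∈ U, z ∈ (S : Subgroup G) → z = 1 := by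
    intro z hzU hzS
    obtain ⟨j, hj⟩ := IsPGroup.iff_orderOf.mp S.isPGroup' ⟨z, hzS⟩
    rw [Subgroup.orderOf_mk] at hj
    exact orderOf_eq_one_iff.mp (Nat.eq_one_of_dvd_coprimes (Nat.Coprime.pow_right j hU)
      (Subgroup.orderOf_dvd_natCard _ hzU) (dvd_of_eq hj))
  have hpel : ∀ Q : Subgroup G, IsPGroup p Q → Q ≤ V := by
    intro Q hQ x hx
    obtain ⟨j, hj⟩ := IsPGroup.iff_orderOf.mp hQ ⟨x, hx⟩
    exact htop x ⟨j, by rwa [Subgroup.orderOf_mk] at hj⟩
  have hVeq : V = U ⊔ (S : Subgroup G) := by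
    refine le_antisymm ?_ (sup_le hUV (hpel _ S.isPGroup'))
    haveI : (V.map (QuotientGroup.mk' U)).Normal := hVn.map _ (QuotientGroup.mk'_surjective U)
    have h1 := hVU.le_sylow_of_normal (S.mapSurjective (QuotientGroup.mk'_surjective U))
    rw [Sylow.coe_mapSurjective, Subgroup.map_le_iff_le_comap, Subgroup.comap_map_eq, QuotientGroup.ker_mk'] at h1
    rwa [sup_comm]
  have hfrat : ∀ x : G, ∃ n ∈ Subgroup.normalizer ((S : Subgroup G) : Set G), ∃ m ∈ U, x = n * m := by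
    intro x
    have h1 := Sylow.normalizer_sup_eq_top' (N := V) S (hpel _ S.isPGroup')
    rw [hVeq, ← Sylow.coe_coe, sup_comm U, ← sup_assoc, sup_eq_left.mpr Subgroup.le_normalizer] at h1
    have h2 : x ∈ Subgroup.normalizer ((S : Subgroup G) : Set G) ⊔ U := by rw [h1]; trivial
    obtain ⟨n, hn, m, hm, he⟩ := Subgroup.mem_sup_of_normal_right.mp h2
    exact ⟨n, hn, m, hm, he.symm⟩
  have hcent : ∀ y ∈ (S : Subgroup G), ∀ m ∈ U, m * y * m⁻¹ ∈ (S : Subgroup G) → m * y = y * m := by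
    intro y hy m hm hmy
    have h1 : m * y * m⁻¹ * y⁻¹ = 1 := by
      refine hdisj _ ?_ (Subgroup.mul_mem _ hmy (Subgroup.inv_mem _ hy))
      rw [mul_assoc, mul_assoc, ← mul_assoc y]
      exact U.mul_mem hm (hUn.conj_mem _ (U.inv_mem hm) y)
    exact mul_inv_eq_iff_eq_mul.mp (mul_inv_eq_one.mp h1)
  refine ⟨?_, ?_, ?_⟩
  · intro hS s hs
    set N := Subgroup.normalizer ((S : Subgroup G) : Set G) with hN
    have hmap : N.map (QuotientGroup.mk' U) = ⊤ := by
      rw [eq_top_iff]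
      rintro z -
      obtain ⟨x, rfl⟩ := QuotientGroup.mk'_surjective U z
      obtain ⟨n, hn, m, hm, rfl⟩ := hfrat x
      exact ⟨n, hn, by rw [map_mul, show QuotientGroup.mk' U m = 1 from (QuotientGroup.eq_one_iff m).mpr hm, mul_one]⟩
    have h1 : QuotientGroup.mk' U s ∈ (⁅N, N⁆).map (QuotientGroup.mk' U) := by
      rw [Subgroup.map_commutator, hmap, ← Subgroup.map_top_of_surjective _ (QuotientGroup.mk'_surjective U),
        ← Subgroup.map_commutator, ← commutator_def]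
      exact ⟨s, hS hs, rfl⟩
    obtain ⟨c, hc, hcs⟩ := h1
    have hm : c⁻¹ * s ∈ U := QuotientGroup.eq.mp hcs
    have hcN : c ∈ N := Subgroup.commutator_le_self N hc
    have hmN : c⁻¹ * s ∈ N := N.mul_mem (N.inv_mem hcN) (Subgroup.le_normalizer hs)
    set D : Subgroup ↥N := commutator ↥N with hD
    have hcD : (⟨c, hcN⟩ : ↥N) ∈ D := by
      rw [← Subgroup.map_subtype_commutator] at hc
      obtain ⟨c', hc', hce⟩ := hc
      have : c' = ⟨c, hcN⟩ := Subtype.ext hce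
      exact this ▸ hc'
    have heq : QuotientGroup.mk' D (⟨s, Subgroup.le_normalizer hs⟩ : ↥N) = QuotientGroup.mk' D ⟨c⁻¹ * s, hmN⟩ := by
      refine QuotientGroup.eq.mpr ?_
      have h2 := (inferInstance : (commutator ↥N).Normal).conj_mem _ (inv_mem hcD) (⟨s, Subgroup.le_normalizer hs⟩ : ↥N)⁻¹
      rw [inv_inv] at h2
      rw [show (⟨c⁻¹ * s, hmN⟩ : ↥N) = (⟨c, hcN⟩ : ↥N)⁻¹ * ⟨s, Subgroup.le_normalizer hs⟩ from rfl, ← mul_assoc]
      exact h2
    obtain ⟨j, hj⟩ := IsPGroup.iff_orderOf.mp S.isPGroup' ⟨s, hs⟩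
    rw [Subgroup.orderOf_mk] at hj
    have h3 : QuotientGroup.mk' D (⟨s, Subgroup.le_normalizer hs⟩ : ↥N) = 1 := by
      rw [← orderOf_eq_one_iff]
      refine Nat.eq_one_of_dvd_coprimes (a := orderOf (c⁻¹ * s)) (b := p ^ j)
        (Nat.Coprime.pow_right j (hU.coprime_dvd_left (Subgroup.orderOf_dvd_natCard _ hm))) ?_ ?_
      · rw [heq]
        have := orderOf_map_dvd (QuotientGroup.mk' D) (⟨c⁻¹ * s, hmN⟩ : ↥N)
        rwa [Subgroup.orderOf_mk] at this
      · have := orderOf_map_dvd (QuotientGroup.mk' D) (⟨s, Subgroup.le_normalizer hs⟩ : ↥N)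
        rwa [Subgroup.orderOf_mk, hj] at this
    rw [← Subgroup.map_subtype_commutator]
    exact ⟨_, (QuotientGroup.eq_one_iff (N := D) _).mp h3, rfl⟩
  · intro Y x hY hxY
    obtain ⟨n, hn, m, hm, rfl⟩ := hfrat x
    refine ⟨n, hn, m, Subgroup.mem_centralizer_iff.mpr fun y hy => ?_, rfl⟩
    have h1 : n * (m * y * m⁻¹) * n⁻¹ ∈ (S : Subgroup G) := by
      have h := hxY ⟨y, hy, rfl⟩
      rw [show n * (m * y * m⁻¹) * n⁻¹ = n * m * y * (n * m)⁻¹ by group]; exact h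
    exact (hcent y (hY hy) m hm ((Subgroup.mem_normalizer_iff.mp hn _).mpr h1)).symm
  · intro Q hQ
    obtain ⟨R, hR⟩ := hQ.exists_le_sylow
    obtain ⟨g, hg⟩ := MulAction.exists_smul_eq G R S
    obtain ⟨n, hn, m, hm, rfl⟩ := hfrat g
    have hmq : ∀ q ∈ Q, m * q * m⁻¹ ∈ (S : Subgroup G) := by
      intro q hq
      refine (Subgroup.mem_normalizer_iff.mp hn _).mpr ?_
      rw [← hg, Sylow.coe_subgroup_smul]
      have := Subgroup.smul_mem_pointwise_smul q (MulAut.conj (n * m)) _ (hR hq)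
      simpa [mul_assoc] using this
    refine ⟨m, Subgroup.mem_centralizer_iff.mpr fun q hq => (hcent q hq.2 m hm (hmq q hq.1)).symm, ?_⟩
    rintro _ ⟨q, hq, rfl⟩
    exact hmq q hq

end Cfsg.Agent.S1461
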