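import Cfsg.Statements.S1466
import Cfsg.Agent.Puig.Basic

set_option autoImplicit false
open Cfsg

namespace Cfsg.Agent.S1466

/-- Let p be a prime and R a nontrivial finite p-group. Then for every i > 0, Z(R) ≤ C_R(L_i(R)) ≤ L_i(R); likewise Z(R) ≤ C_R(L_*(R)) ≤ L_*(R) and Z(R) ≤ C_R(L(R)) ≤ L(R); and L(R) ≠ 1, L_*(R) ≠ 1. -/
theorem result {R : Type*} [Group R] [Finite R] (p : ℕ) [Fact p.Prime] (hR : IsPGroup p R) [Nontrivial R] :
    (∀ i : ℕ, 0 < i → Subgroup.center R ≤ Subgroup.centralizer ((Cfsg.puigSeq R i : Subgroup R) : Set R) ∧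
        Subgroup.centralizer ((Cfsg.puigSeq R i : Subgroup R) : Set R) ≤ Cfsg.puigSeq R i) ∧
      (Subgroup.center R ≤ Subgroup.centralizer ((Cfsg.puigLower R : Subgroup R) : Set R) ∧ Subgroup.centralizer ((Cfsg.puigLower R : Subgroup R) : Set R) ≤ Cfsg.puigLower R) ∧
      (Subgroup.center R ≤ Subgroup.centralizer ((Cfsg.puigSubgroup R : Subgroup R) : Set R) ∧ Subgroup.centralizer ((Cfsg.puigSubgroup R : Subgroup R) : Set R) ≤ Cfsg.puigSubgroup R) ∧
      Cfsg.puigSubgroup R ≠ ⊥ ∧ Cfsg.puigLower R ≠ ⊥ := by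
  obtain ⟨A, hA, hn, hC⟩ := Puig.exists_selfcentralizing hR
  have hZ : ∀ S : Subgroup R, Subgroup.center R ≤ Subgroup.centralizer (S : Set R) :=
    fun S z hz => Subgroup.mem_centralizer_iff.2 fun s _ => Subgroup.mem_center_iff.1 hz s
  have hlow : A ≤ Cfsg.puigLower R :=
    (Puig.le_seq hA hn (i := 2 * 1) (by norm_num)).trans (le_iSup (fun n => Cfsg.puigSeq R (2 * n)) 1)
  have hup : A ≤ Cfsg.puigSubgroup R := le_iInf fun n => Puig.le_seq hA hn (Nat.succ_pos _)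
  have hself : ∀ S : Subgroup R, A ≤ S → Subgroup.centralizer (S : Set R) ≤ S := fun S h =>
    ((Subgroup.centralizer_le (SetLike.coe_subset_coe.2 h)).trans hC).trans h
  have hA1 : A ≠ ⊥ := by
    intro e
    refine not_subsingleton R ⟨fun a b => ?_⟩
    have h : ∀ r : R, r = 1 := fun r => by
      have hm : r ∈ Subgroup.centralizer (A : Set R) := Subgroup.mem_centralizer_iff.2 fun s hs => by
        rw [e] at hs; rw [Subgroup.mem_bot.1 hs, one_mul, mul_one]
      have := hC hm; rwa [e, Subgroup.mem_bot] at this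
    rw [h a, h b]
  exact ⟨fun i hi => ⟨hZ _, hself _ (Puig.le_seq hA hn hi)⟩, ⟨hZ _, hself _ hlow⟩, ⟨hZ _, hself _ hup⟩,
    fun e => hA1 (le_bot_iff.1 (e ▸ hup)), fun e => hA1 (le_bot_iff.1 (e ▸ hlow))⟩

end Cfsg.Agent.S1466
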