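import Cfsg.Statements.S1471
import Cfsg.Agent.NormField.Count

set_option autoImplicit false
open Cfsg

namespace Cfsg.Agent.S1471

/-- Let p and q be odd primes with (p^q − 1)/(p − 1) coprime to p − 1. Then there are at least two elements a of the field with p ^ q elements such that both a and 2 − a have norm 1 to the prime field. -/
theorem result (p q : ℕ) [Fact p.Prime] [Fact q.Prime] (hp : p ≠ 2) (hq : q ≠ 2) (hA : Nat.Coprime ((p ^ q - 1) / (p - 1)) (p - 1)) :
    2 ≤ Set.ncard {a : GaloisField p q | Algebra.norm (ZMod p) a = 1 ∧ Algebra.norm (ZMod p) (2 - a) = 1} := by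
  have hfr : Module.finrank (ZMod p) (GaloisField p q) = q :=
    GaloisField.finrank p (Fact.out : q.Prime).ne_zero
  haveI : Finite (GaloisField p q) := inferInstance
  have hodd := (Fact.out : q.Prime).odd_of_ne_two hq
  obtain ⟨a, ha, h1, h2⟩ : ∃ a : GaloisField p q, a ≠ 1 ∧ Algebra.norm (ZMod p) a = 1 ∧
      Algebra.norm (ZMod p) (2 - a) = 1 := by
    by_cases h3 : q = 3
    · exact NormField.exists_exceptional_three hp (hfr.trans h3)
    · refine NormField.exists_exceptional_five hp ?_
      obtain ⟨k, hk⟩ := hodd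
      have := (Fact.out : q.Prime).two_le
      omega
  refine (Set.one_lt_ncard (Set.toFinite _)).2 ⟨a, ⟨h1, h2⟩, 1, ⟨map_one _, ?_⟩, ha⟩
  rw [show (2 : GaloisField p q) - 1 = 1 by norm_num, map_one]

end Cfsg.Agent.S1471
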