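import Cfsg.Statements.S1475
import Cfsg.Agent.Solv.Cores
import Cfsg.Agent.Solv.Hall
import Cfsg.Agent.Solv.AbelianAction

set_option autoImplicit false
open Cfsg

namespace Cfsg.Agent.S1475

/-- Let G be a finite solvable group such that the order of every element is a prime power (1 included). Then at most two distinct primes divide the order of G. -/
theorem result {G : Type*} [Group G] [Finite G] [Group.IsSolvable G] (h : ∀ g : G, IsPrimePow (orderOf g) ∨ g = 1) :
    (Nat.card G).primeFactors.card ≤ 2 := by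
  by_contra hcon
  push Not at hcon
  -- orders of elements have a single prime divisor
  have hsingle : ∀ g : G, ∀ a b : ℕ, a.Prime → b.Prime → a ∣ orderOf g → b ∣ orderOf g → a = b := by
    intro g a b ha hb hag hbg
    rcases h g with hg | hg
    · obtain ⟨r, k, hr, hk, hrk⟩ := hg
      rw [← hrk] at hag hbg
      exact (Nat.prime_eq_prime_of_dvd_pow (Nat.prime_iff.2 (Nat.prime_iff.1 ha)) (Nat.prime_iff.2 hr) hag).trans
        (Nat.prime_eq_prime_of_dvd_pow hb (Nat.prime_iff.2 hr) hbg).symm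
    · rw [hg, orderOf_one, Nat.dvd_one] at hag
      exact absurd hag ha.ne_one
  haveI hGn : Nontrivial G := by
    by_contra hn
    rw [not_nontrivial_iff_subsingleton] at hn
    rw [Nat.card_unique] at hcon
    simp at hcon
  obtain ⟨N, hN, hN1, -, hNmin⟩ := Solv.exists_minimal_normal (G := G) (N := ⊤) inferInstance top_ne_bot
  haveI := hN
  haveI : Group.IsSolvable ↥N := inferInstance
  obtain ⟨hNab, p, hp, hpN, hNp, -⟩ := Solv.minimal_normal_solvable hN hN1 (fun M a b => hNmin M a b)
  haveI : Fact p.Prime := ⟨hp⟩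
  have hpos : Nat.card G ≠ 0 := Nat.card_pos.ne'
  obtain ⟨H, hH, -⟩ := Solv.hall_exists_dominating (G := G)
    (m := Nat.card G / p ^ (Nat.card G).factorization p) (n := p ^ (Nat.card G).factorization p)
    (Nat.div_mul_cancel (Nat.ordProj_dvd _ _)).symm
    ((Nat.coprime_ordCompl hp hpos).symm.pow_right _)
  have hpH : ¬ p ∣ Nat.card ↥H := by rw [hH]; exact Nat.not_dvd_ordCompl hp hpos
  -- `H` acts fixed-point-freely on `N`
  haveI : Nontrivial ↥N := N.nontrivial_iff_ne_bot.2 hN1
  letI : CommGroup ↥N := { (inferInstance : Group ↥N) with mul_comm := hNab.is_comm.comm }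
  let φ : ↥H →* MulAut ↥N := (MulAut.conjNormal (H := N)).comp H.subtype
  have hφ : ∀ (a : ↥H) (v : ↥N), ((φ a v : ↥N) : G) = a * v * (a : G)⁻¹ := fun _ _ => rfl
  have hfpf : ∀ a : ↥H, a ≠ 1 → ∀ v : ↥N, φ a v = v → v = 1 := by
    intro a ha v hv
    by_contra hv1
    have hc : Commute (a : G) v := by
      have := congrArg Subtype.val hv
      rw [hφ, mul_inv_eq_iff_eq_mul] at this
      exact this
    obtain ⟨j, hj⟩ := hNp v
    have hvo : orderOf (v : G) ∣ p ^ j :=
      orderOf_dvd_of_pow_eq_one (by simpa using congrArg Subtype.val hj)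
    have hpv : p ∣ orderOf (v : G) := by
      obtain ⟨i, -, hi⟩ := (Nat.dvd_prime_pow hp).1 hvo
      rw [hi]
      refine dvd_pow_self p fun e => hv1 (Subtype.ext ?_)
      rw [e, pow_zero, orderOf_eq_one_iff] at hi
      exact hi
    have haord : orderOf (a : G) ∣ Nat.card ↥H := by
      rw [Subgroup.orderOf_coe]; exact orderOf_dvd_natCard a
    obtain ⟨r, hr, hra⟩ := Nat.exists_prime_and_dvd (n := orderOf (a : G))
      (by rw [Ne, orderOf_eq_one_iff]; exact fun e => ha (Subtype.ext e))
    have hcop : (orderOf (a : G)).Coprime (orderOf (v : G)) :=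
      ((Nat.Coprime.pow_right j ((hp.coprime_iff_not_dvd.2 fun hd => hpH (hd.trans haord)).symm))).coprime_dvd_right hvo
    have := hsingle ((a : G) * v) r p hr hp
      (by rw [hc.orderOf_mul_eq_mul_orderOf_of_coprime hcop]; exact dvd_mul_of_dvd_left hra _)
      (by rw [hc.orderOf_mul_eq_mul_orderOf_of_coprime hcop]; exact dvd_mul_of_dvd_right hpv _)
    subst this
    exact hpH (hra.trans haord)
  have hcyc : ∀ A : Subgroup ↥H, (IsMulCommutative ↥A ∨
      ∃ a b : ℕ, a.Prime ∧ b.Prime ∧ Nat.card ↥A = a * b) → IsCyclic ↥A := fun A hA =>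
    Solv.isCyclic_of_fpf (φ.comp A.subtype)
      (fun a ha v => hfpf a.1 (fun e => ha (Subtype.ext e)) v) hA
  -- a minimal normal subgroup of `H`
  have hprimes : ∀ q : ℕ, q.Prime → q ∣ Nat.card G → q ≠ p → q ∣ Nat.card ↥H := by
    intro q hq hqG hqp
    rw [← Nat.div_mul_cancel (Nat.ordProj_dvd (Nat.card G) p)] at hqG
    rcases hq.dvd_mul.1 hqG with h' | h'
    · rwa [hH]
    · exact absurd (Nat.prime_eq_prime_of_dvd_pow hq hp h') hqp
  obtain ⟨a, haG, hap⟩ : ∃ a ∈ (Nat.card G).primeFactors, a ≠ p :=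
    Finset.exists_mem_ne (by omega) p
  have haH := hprimes a (Nat.prime_of_mem_primeFactors haG) (Nat.dvd_of_mem_primeFactors haG) hap
  haveI : Nontrivial ↥H := Finite.one_lt_card_iff_nontrivial.1
    (lt_of_lt_of_le (Nat.prime_of_mem_primeFactors haG).one_lt (Nat.le_of_dvd Nat.card_pos haH))
  obtain ⟨M, hM, hM1, -, hMmin⟩ := Solv.exists_minimal_normal (G := ↥H) (N := ⊤) inferInstance top_ne_bot
  haveI := hM
  obtain ⟨hMab, q, hq, hqM, -, hMexp⟩ := Solv.minimal_normal_solvable hM hM1 (fun L a b => hMmin L a b)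
  have hMcard : Nat.card ↥M = q := by
    haveI := hcyc M (Or.inl hMab)
    obtain ⟨g, hg⟩ := IsCyclic.exists_generator (α := ↥M)
    rw [← orderOf_eq_card_of_forall_mem_zpowers hg]
    refine ((Nat.dvd_prime hq).1 (orderOf_dvd_of_pow_eq_one (Subtype.ext (by simpa using hMexp g g.2)))).resolve_left ?_
    intro e
    rw [orderOf_eq_card_of_forall_mem_zpowers hg] at e
    rw [e] at hqM
    exact hq.ne_one (Nat.dvd_one.1 hqM)
  -- a third prime
  have hqG : q ∣ Nat.card G := (hqM.trans (Subgroup.card_subgroup_dvd_card M)).trans (Subgroup.card_subgroup_dvd_card H)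
  obtain ⟨r, hrG, hrp, hrq⟩ : ∃ r ∈ (Nat.card G).primeFactors, r ≠ p ∧ r ≠ q := by
    by_contra hno
    push Not at hno
    have hsub : (Nat.card G).primeFactors ⊆ {p, q} := fun r hr => by
      by_cases e : r = p
      · simp [e]
      · simp [hno r hr e]
    have := (Finset.card_le_card hsub).trans (Finset.card_insert_le _ _)
    rw [Finset.card_singleton] at this
    omega
  have hr := Nat.prime_of_mem_primeFactors hrG
  haveI : Fact r.Prime := ⟨hr⟩
  obtain ⟨x, hx⟩ := exists_prime_orderOf_dvd_card' (G := ↥H) r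
    (hprimes r hr (Nat.dvd_of_mem_primeFactors hrG) hrp)
  have hcard : Nat.card ↥(M ⊔ Subgroup.zpowers x) = q * r := by
    have h3 : Nat.card ↥M * M.relIndex (M ⊔ Subgroup.zpowers x) = Nat.card ↥(M ⊔ Subgroup.zpowers x) := by
      rw [← Subgroup.relIndex_bot_left, ← Subgroup.relIndex_bot_left]
      exact Subgroup.relIndex_mul_relIndex _ _ _ bot_le le_sup_left
    rw [Subgroup.relIndex_sup_left] at h3
    rw [← h3, hMcard]
    congr 1
    have hd : M.relIndex (Subgroup.zpowers x) ∣ r := by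
      have := Subgroup.relIndex_dvd_card M (Subgroup.zpowers x)
      rwa [Nat.card_zpowers, hx] at this
    refine ((Nat.dvd_prime hr).1 hd).resolve_left fun e => hrq ?_
    rw [Subgroup.relIndex_eq_one, Subgroup.zpowers_le] at e
    have := orderOf_dvd_natCard (⟨x, e⟩ : ↥M)
    rw [hMcard, ← Subgroup.orderOf_coe, hx] at this
    exact (Nat.prime_dvd_prime_iff_eq hr hq).1 this
  haveI := hcyc _ (Or.inr ⟨q, r, hq, hr, hcard⟩)
  obtain ⟨g, hg⟩ := IsCyclic.exists_generator (α := ↥(M ⊔ Subgroup.zpowers x))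
  have hog : orderOf ((g : ↥H) : G) = q * r := by
    rw [Subgroup.orderOf_coe, Subgroup.orderOf_coe, orderOf_eq_card_of_forall_mem_zpowers hg, hcard]
  exact hrq (hsingle _ r q hr hq (hog ▸ dvd_mul_left r q) (hog ▸ dvd_mul_right q r))

end Cfsg.Agent.S1475
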