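import Cfsg.Statements.S1485
import Cfsg.Agent.Char.Induced

set_option autoImplicit false
set_option linter.all false
open Cfsg

namespace Cfsg.Agent.S1485

/-- Let H be a normal subgroup of the finite group G and θ an irreducible character of H. On H, the function induced from θ equals r times the sum of the distinct G-conjugates of θ, where r is the number of elements of G fixing θ under conjugation divided by the order of H (the index of H in the inertia group). -/
theorem result {G : Type*} [Group G] [Fintype G] (H : Subgroup G) [hN : H.Normal] (θ : H → ℂ) (hθ : Cfsg.IsIrrCharacter H θ) : (fun h : H => Cfsg.indFun H θ h) = ((Nat.card {g : G // ∀ h : H, θ ⟨g * h * g⁻¹, hN.conj_mem h h.2 g⟩ = θ h} : ℂ) / (Nat.card H : ℂ)) • ∑ᶠ ψ ∈ {ψ : H → ℂ | ∃ g : G, ψ = fun h : H => θ ⟨g * h * g⁻¹, hN.conj_mem h h.2 g⟩}, ψ := by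
  classical
  rw [Char.indFun_res_normal]
  let f : G → H → ℂ := Char.conjFn H θ
  have hset : {ψ : H → ℂ | ∃ g : G, ψ = fun h : H => θ ⟨g * h * g⁻¹, hN.conj_mem h h.2 g⟩}
      = Set.range f := by
    ext ψ
    exact ⟨fun ⟨g, hg⟩ => ⟨g, hg.symm⟩, fun ⟨g, hg⟩ => ⟨g, hg.symm⟩⟩
  rw [hset, finsum_mem_eq_finite_toFinset_sum _ (Set.finite_range f)]
  have himg : (Set.finite_range f).toFinset = Finset.univ.image f := by
    ext ψ; simp
  rw [himg, div_eq_mul_inv, mul_comm, mul_smul]
  congr 1
  show ∑ x : G, f x = _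
  rw [← Finset.sum_fiberwise_of_maps_to (g := f) (t := Finset.univ.image f)
    (fun x _ => Finset.mem_image_of_mem f (Finset.mem_univ x)), Finset.smul_sum]
  refine Finset.sum_congr rfl fun ψ hψ => ?_
  obtain ⟨g0, -, hg0⟩ := Finset.mem_image.1 hψ
  rw [Finset.sum_congr rfl (fun i hi => (Finset.mem_filter.1 hi).2), Finset.sum_const,
    ← Nat.cast_smul_eq_nsmul ℂ]
  congr 2
  rw [Nat.card_eq_fintype_card, Fintype.card_subtype]
  refine Finset.card_equiv (Equiv.mulRight g0⁻¹) fun x => ?_
  have h1 : f (x * g0⁻¹) = θ ↔ f x = ψ := by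
    constructor
    · intro h
      have := congrArg (fun φ => Char.conjFn H φ g0) h
      simp only [f, ← Char.conjFn_mul, inv_mul_cancel_right] at this
      rw [← hg0]; exact this
    · intro h
      show Char.conjFn H θ (x * g0⁻¹) = θ
      rw [Char.conjFn_mul]
      show Char.conjFn H (f x) g0⁻¹ = θ
      rw [h, ← hg0]
      show Char.conjFn H (Char.conjFn H θ g0) g0⁻¹ = θ
      rw [← Char.conjFn_mul, mul_inv_cancel, Char.conjFn_one]
  simp only [Finset.mem_filter, Finset.mem_univ, true_and, Equiv.coe_mulRight]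
  rw [← h1]
  exact funext_iff

end Cfsg.Agent.S1485
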