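import Cfsg.Statements.S1487
import Cfsg.Agent.Char.Induced
import Cfsg.Agent.Char.Irr

set_option autoImplicit false
set_option linter.all false
open Cfsg

namespace Cfsg.Agent.S1487

/-- Let A ≤ H be normal subgroups of the finite group G and θ an irreducible character of H. Then θ takes the value θ 1 on all of A if and only if the function induced from θ to G takes its value at 1 on all of A. -/
theorem result {G : Type*} [Group G] [Fintype G] (A H : Subgroup G) [A.Normal] [H.Normal] (hAH : A ≤ H) (θ : H → ℂ) (hθ : Cfsg.IsIrrCharacter H θ) : (∀ a : H, (a : G) ∈ A → θ a = θ 1) ↔ (∀ a : G, a ∈ A → Cfsg.indFun H θ a = Cfsg.indFun H θ 1) := by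
  classical
  have hN : A.Normal := inferInstance
  constructor
  · intro h a ha
    rw [Char.indFun_eq_of_mem_iff, Char.indFun_eq_of_mem_iff]
    congr 1
    refine Finset.sum_congr rfl fun x _ => ?_
    have hm : x⁻¹ * a * x ∈ A := by simpa using hN.conj_mem a ha x⁻¹
    rw [Char.extendByZero_of_mem H θ (hAH hm), h ⟨_, hAH hm⟩ hm,
      Char.extendByZero_of_mem H θ (show x⁻¹ * 1 * x ∈ H by simp)]
    exact congrArg θ (Subtype.ext (by simp))
  · intro h a ha
    have hc := Char.isCharacter_of_isIrrCharacter hθ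
    have he := h a ha
    rw [Char.indFun_eq_of_mem_iff, Char.indFun_eq_of_mem_iff] at he
    have hne : ((Nat.card H : ℂ))⁻¹ ≠ 0 := inv_ne_zero (by exact_mod_cast Nat.card_pos.ne')
    have he' := congrArg Complex.re (mul_left_cancel₀ hne he)
    rw [Complex.re_sum, Complex.re_sum] at he'
    have hmem : ∀ x : G, x⁻¹ * (a : G) * x ∈ H := fun x =>
      hAH (by simpa using hN.conj_mem a ha x⁻¹)
    have hle : ∀ x ∈ (Finset.univ : Finset G), (Cfsg.extendByZero H θ (x⁻¹ * (a : G) * x)).re
        ≤ (Cfsg.extendByZero H θ (x⁻¹ * 1 * x)).re := by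
      intro x _
      have h1 : Cfsg.extendByZero H θ (x⁻¹ * 1 * x) = θ 1 := by
        rw [Char.extendByZero_of_mem H θ (show x⁻¹ * 1 * x ∈ H by simp)]
        exact congrArg θ (Subtype.ext (by simp))
      rw [Char.extendByZero_of_mem H θ (hmem x), h1]
      exact Char.re_isCharacter_le hc _
    have h1 := (Finset.sum_eq_sum_iff_of_le hle).1 he' 1 (Finset.mem_univ _)
    simp only [inv_one, one_mul, mul_one] at h1
    rw [Char.extendByZero_of_mem H θ a.2, Char.extendByZero_of_mem H θ H.one_mem] at h1
    exact Char.eq_apply_one_of_re_eq hc a h1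

end Cfsg.Agent.S1487
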