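import Cfsg.Statements.S1488
import Cfsg.Agent.Char.Induced

set_option autoImplicit false
set_option linter.all false
open Cfsg

namespace Cfsg.Agent.S1488

/-- Let A be a normal subgroup of the finite group G contained in the subgroup H, let θ be a function on H and θ₁ a function on the image of H in G ⧸ A whose composite with the projection is θ. Then the function induced from θ₁ to G ⧸ A, composed with the projection G → G ⧸ A, equals the function induced from θ to G. -/
theorem result {G : Type*} [Group G] [Fintype G] (A H : Subgroup G) [A.Normal] (hAH : A ≤ H) [Fintype (G ⧸ A)] [Fintype ↥(H.map (QuotientGroup.mk' A))] (θ : H → ℂ) (θ₁ : ↥(H.map (QuotientGroup.mk' A)) → ℂ) (hθ : ∀ x : H, θ₁ ⟨QuotientGroup.mk' A x, Subgroup.mem_map_of_mem _ x.2⟩ = θ x) (g : G) : Cfsg.indFun (H.map (QuotientGroup.mk' A)) θ₁ (QuotientGroup.mk' A g) = Cfsg.indFun H θ g := by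
  classical
  have hN : A.Normal := inferInstance
  let π := QuotientGroup.mk' A
  let K := H.map π
  have hE : ∀ y : G, Cfsg.extendByZero K θ₁ (π y) = Cfsg.extendByZero H θ y := by
    intro y
    by_cases hy : y ∈ H
    · rw [Char.extendByZero_of_mem H θ hy, Char.extendByZero_of_mem K θ₁ (Subgroup.mem_map_of_mem π hy)]
      exact hθ ⟨y, hy⟩
    · rw [Char.extendByZero_of_not_mem H θ hy, Char.extendByZero_of_not_mem K θ₁]
      intro hm
      obtain ⟨z, hz, hzy⟩ := Subgroup.mem_map.1 hm
      have hd : z⁻¹ * y ∈ A := QuotientGroup.eq.1 hzy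
      exact hy (by simpa using H.mul_mem hz (hAH hd))
  show (Nat.card K : ℂ)⁻¹ * ∑ q : G ⧸ A, Cfsg.extendByZero K θ₁ (q⁻¹ * π g * q)
    = (Nat.card H : ℂ)⁻¹ * ∑ x : G, Cfsg.extendByZero H θ (x⁻¹ * g * x)
  have hsum : ∑ x : G, Cfsg.extendByZero H θ (x⁻¹ * g * x)
      = (Nat.card A : ℂ) * ∑ q : G ⧸ A, Cfsg.extendByZero K θ₁ (q⁻¹ * π g * q) := by
    rw [← Finset.sum_fiberwise_of_maps_to (g := fun x => π x) (t := (Finset.univ : Finset (G ⧸ A)))
      (fun x _ => Finset.mem_univ _), Finset.mul_sum]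
    refine Finset.sum_congr rfl fun q _ => ?_
    have hterm : ∀ x ∈ Finset.univ.filter (fun x : G => π x = q),
        Cfsg.extendByZero H θ (x⁻¹ * g * x) = Cfsg.extendByZero K θ₁ (q⁻¹ * π g * q) := by
      intro x hx
      rw [← (Finset.mem_filter.1 hx).2, ← hE, map_mul, map_mul, map_inv]
    rw [Finset.sum_congr rfl hterm, Finset.sum_const, nsmul_eq_mul]
    congr 2
    obtain ⟨x0, rfl⟩ := QuotientGroup.mk'_surjective A q
    rw [← Fintype.card_subtype, ← Nat.card_eq_fintype_card]
    refine Nat.card_congr ⟨fun x => ⟨x0⁻¹ * x.1, QuotientGroup.eq.1 x.2.symm⟩,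
      fun a => ⟨x0 * a.1, QuotientGroup.eq.2 (by simpa using a.2)⟩, fun x => ?_, fun a => ?_⟩
    · ext; simp
    · ext; simp
  have hcard : Nat.card H = Nat.card A * Nat.card K := by
    have h1 : K.index = H.index :=
      Subgroup.index_map_eq _ (QuotientGroup.mk'_surjective A)
        (by rw [QuotientGroup.ker_mk']; exact hAH)
    have h2 := Subgroup.card_mul_index K
    have h3 := Subgroup.card_mul_index H
    have h4 := Subgroup.card_eq_card_quotient_mul_card_subgroup A
    rw [← h3, ← h2, h1] at h4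
    exact Nat.eq_of_mul_eq_mul_right (Nat.pos_of_ne_zero Subgroup.index_ne_zero_of_finite)
      (by rw [h4]; ring)
  rw [hsum, hcard]
  have : (Nat.card A : ℂ) ≠ 0 := by exact_mod_cast Nat.card_pos.ne'
  push_cast
  field_simp

end Cfsg.Agent.S1488
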