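import Cfsg.Statements.S1489
import Cfsg.Agent.CharLead.Clifford
import Mathlib

set_option autoImplicit false
open Cfsg
set_option maxHeartbeats 1000000
open Cfsg.Agent.Char

namespace Cfsg.Agent.S1489

/-- Let H be a normal subgroup of the finite group G, θ an irreducible character of H, and T the inertia group of θ (the elements g with θ(g h g⁻¹) = θ(h) for all h ∈ H). If ψ and ψ' are irreducible characters of T having nonzero inner product with the function induced from θ to T, then the function induced from ψ to G is an irreducible character of G, and it equals the one induced from ψ' only if ψ = ψ'. -/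
theorem result {G : Type*} [Group G] [Fintype G] (H T : Subgroup G) [hN : H.Normal] [Fintype T] (θ : H → ℂ) (hθ : Cfsg.IsIrrCharacter H θ) (hT : ∀ g : G, g ∈ T ↔ ∀ h : H, θ ⟨g * h * g⁻¹, hN.conj_mem h h.2 g⟩ = θ h) (hHT : H ≤ T) (ψ ψ' : T → ℂ) (hψ : Cfsg.IsIrrCharacter T ψ) (hψ' : Cfsg.IsIrrCharacter T ψ') (hc : Cfsg.classInner (Cfsg.indFun (H.subgroupOf T) (fun x => θ ⟨(x : T), Subgroup.mem_subgroupOf.mp x.2⟩)) ψ ≠ 0) (hc' : Cfsg.classInner (Cfsg.indFun (H.subgroupOf T) (fun x => θ ⟨(x : T), Subgroup.mem_subgroupOf.mp x.2⟩)) ψ' ≠ 0) : Cfsg.IsIrrCharacter G (Cfsg.indFun T ψ) ∧ (Cfsg.indFun T ψ = Cfsg.indFun T ψ' → ψ = ψ') := by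
  classical
  haveI := Fintype.ofFinite H
  haveI := Fintype.ofFinite (H.subgroupOf T)
  let Θ : Cfsg.IrrCharacter H := ⟨θ, hθ⟩
  have hT' : ∀ g : G, g ∈ T ↔ conjFn H (Θ : H → ℂ) g = Θ :=
    fun g => (hT g).trans ⟨fun h => funext h, fun h n => congrFun h n⟩
  let ε : H.subgroupOf T ≃* H := Subgroup.subgroupOfEquivOfLe hHT
  have hcon : ∀ φ : T → ℂ, Cfsg.IsIrrCharacter T φ →
      Cfsg.classInner (Cfsg.indFun (H.subgroupOf T) (fun x => θ ⟨(x : T), Subgroup.mem_subgroupOf.mp x.2⟩)) φ ≠ 0 →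
      Cfsg.classInner (fun n : H => φ ⟨(n : G), hHT n.2⟩) θ ≠ 0 := by
    intro φ hφ hne h0
    apply hne
    rw [classInner_indFun _ _ (irr_isClassFunction (⟨φ, hφ⟩ : Cfsg.IrrCharacter T)),
      ← classInner_conj_symm]
    have e : Cfsg.classInner (fun x : H.subgroupOf T => φ x) (fun x => θ ⟨(x : T), Subgroup.mem_subgroupOf.mp x.2⟩)
        = Cfsg.classInner (fun n : H => φ ⟨(n : G), hHT n.2⟩) θ := by
      simp only [Cfsg.classInner]
      rw [Nat.card_congr ε.toEquiv]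
      congr 1
      exact Equiv.sum_comp ε.toEquiv (fun a : H => φ ⟨(a : G), hHT a.2⟩ * (starRingEnd ℂ) (θ a))
    rw [show (fun x : H.subgroupOf T => (⟨φ, hφ⟩ : Cfsg.IrrCharacter T).1 x) = fun x : H.subgroupOf T => φ x from rfl, e, h0, map_zero]
  have key : ∀ φ : Cfsg.IrrCharacter T, Cfsg.classInner (fun n : H => (φ : T → ℂ) ⟨(n : G), hHT n.2⟩) θ ≠ 0 →
      ∃ χ : Cfsg.IrrCharacter G, Cfsg.indFun T (φ : T → ℂ) = (χ : G → ℂ) ∧
        Cfsg.classInner (fun n : H => (χ : G → ℂ) n) θ ≠ 0 ∧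
        Cfsg.classInner (fun t : T => (χ : G → ℂ) t) (φ : T → ℂ) ≠ 0 := by
    intro φ hφ
    obtain ⟨k, hk0, hk⟩ := irr_apply_one φ
    obtain ⟨χ, hχ⟩ : ∃ χ : Cfsg.IrrCharacter G, Cfsg.classInner (fun t : T => (χ : G → ℂ) t) (φ : T → ℂ) ≠ 0 := by
      by_contra hne
      push Not at hne
      have h1 := congrFun (classFunction_expand (indFun_isClassFunction T (φ : T → ℂ))) 1
      rw [indFun_apply_one, hk, Finset.sum_apply, Finset.sum_eq_zero (fun χ _ => ?_)] at h1
      · exact Nat.mul_ne_zero T.index_ne_zero_of_finite hk0.ne' (by exact_mod_cast h1)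
      · rw [Pi.smul_apply, classInner_indFun T _ (irr_isClassFunction χ), ← classInner_conj_symm, hne χ, map_zero, zero_smul]
    have hχH : Cfsg.classInner (fun n : H => (χ : G → ℂ) n) θ ≠ 0 := by
      have hres : Cfsg.IsCharacter T (fun t : T => (χ : G → ℂ) t) :=
        isCharacter_comp (isCharacter_of_isIrrCharacter χ.2) T.subtype
      choose m hm using fun η : Cfsg.IrrCharacter T => exists_nat_classInner hres η
      choose b hb using fun η : Cfsg.IrrCharacter T => exists_nat_classInner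
        (isCharacter_comp (isCharacter_of_isIrrCharacter η.2) (Subgroup.inclusion hHT)) Θ
      have hb' : ∀ η : Cfsg.IrrCharacter T,
          Cfsg.classInner (fun n : H => (η : T → ℂ) ⟨(n : G), hHT n.2⟩) θ = b η := hb
      have he : (fun n : H => (χ : G → ℂ) n) = ∑ η : Cfsg.IrrCharacter T,
          (m η : ℂ) • fun n : H => (η : T → ℂ) ⟨(n : G), hHT n.2⟩ := by
        funext n
        have h1 := congrFun (classFunction_expand (isClassFunction_of_isCharacter hres)) ⟨(n : G), hHT n.2⟩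
        rw [Finset.sum_apply] at h1 ⊢
        simp only [hm] at h1
        exact h1
      rw [he, classInner_sum_left]
      simp only [classInner_smul_left, hb']
      have hpos : 0 < ∑ η : Cfsg.IrrCharacter T, m η * b η := by
        refine lt_of_lt_of_le (Nat.mul_pos (Nat.pos_of_ne_zero fun h => hχ (by rw [hm, h, Nat.cast_zero]))
          (Nat.pos_of_ne_zero fun h => hφ (by rw [hb', h, Nat.cast_zero])))
          (Finset.single_le_sum (fun η _ => Nat.zero_le (m η * b η)) (Finset.mem_univ φ))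
      exact_mod_cast hpos.ne'
    exact ⟨χ, (((Cfsg.Agent.CharLead.clifford_core H Θ T hT' hHT χ hχH).2 φ hχ hφ).1).1, hχH, hχ⟩
  obtain ⟨χ, hχ, hχH, hm⟩ := key ⟨ψ, hψ⟩ (hcon ψ hψ hc)
  refine ⟨by rw [show Cfsg.indFun T ψ = (χ : G → ℂ) from hχ]; exact χ.2, fun heq => ?_⟩
  obtain ⟨χ', hχ', -, hm'⟩ := key ⟨ψ', hψ'⟩ (hcon ψ' hψ' hc')
  have hXX : χ' = χ := Subtype.ext (hχ'.symm.trans (heq.symm.trans hχ))
  subst hXX
  have h := ((Cfsg.Agent.CharLead.clifford_core H Θ T hT' hHT χ' hχH).2 ⟨ψ', hψ'⟩ hm' (hcon ψ' hψ' hc')).2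
    ⟨ψ, hψ⟩ hm (hcon ψ hψ hc)
  exact congrArg Subtype.val h

end Cfsg.Agent.S1489
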