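import Cfsg.Statements.S1494
import Cfsg.Agent.CharLead.Linear
import Cfsg.Agent.Char.Irr
import Mathlib

set_option autoImplicit false
open Cfsg

namespace Cfsg.Agent.S1494

theorem char_case {G : Type*} [Group G] [Finite G] (χ : G → ℂ) (hχ : Cfsg.IsCharacter G χ) (p : ℕ) (hp : p.Prime)
    (x y : G) (hx : x ^ p = 1) (hxy : x * y = y * x) : ∃ ω : ℂ, IsIntegral ℤ ω ∧
      χ (x * y) - χ y = (1 - Complex.exp (2 * Real.pi * Complex.I / p)) * ω := by
  classical
  haveI : NeZero p := ⟨hp.ne_zero⟩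
  set ε := Complex.exp (2 * Real.pi * Complex.I / p) with hε
  have hprim : IsPrimitiveRoot ε p := Complex.isPrimitiveRoot_exp p hp.ne_zero
  set A := Subgroup.closure ({x, y} : Set G)
  have hA : ∀ a b : A, a * b = b * a := by
    have h : A ≤ Subgroup.centralizer (A : Set G) := by
      rw [Subgroup.centralizer_closure, Subgroup.closure_le]
      intro u hu
      refine Subgroup.mem_centralizer_iff.2 fun w hw => ?_
      rcases hu with rfl | rfl <;> rcases hw with rfl | rfl <;>
        first | rfl | exact hxy | exact hxy.symm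
    exact fun a b => Subtype.ext (Subgroup.mem_centralizer_iff.1 (h b.2) a a.2)
  haveI := Fintype.ofFinite A
  let X : A := ⟨x, Subgroup.subset_closure (Or.inl rfl)⟩
  let Y : A := ⟨y, Subgroup.subset_closure (Or.inr rfl)⟩
  have hres := Cfsg.Agent.Char.isCharacter_comp hχ A.subtype
  choose c hc using fun η : Cfsg.IrrCharacter A => Cfsg.Agent.Char.exists_nat_classInner hres η
  have hexp := Cfsg.Agent.Char.classFunction_expand (Cfsg.Agent.Char.isClassFunction_of_isCharacter hres)
  have hterm : ∀ η : Cfsg.IrrCharacter A, ∃ w : ℂ, IsIntegral ℤ w ∧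
      (η : A → ℂ) (X * Y) - (η : A → ℂ) Y = (1 - ε) * w := by
    intro η
    have h1 : (η : A → ℂ) 1 = 1 := Cfsg.Agent.CharLead.irr_apply_one_eq_one_of_comm hA η
    let f : A →* ℂ := { toFun := (η : A → ℂ), map_one' := h1,
                        map_mul' := Cfsg.Agent.CharLead.irr_mul_of_apply_one_eq_one η.2 h1 }
    have hfx : f X ^ p = 1 := by
      rw [← map_pow, show X ^ p = 1 from Subtype.ext hx, map_one]
    obtain ⟨j, -, hj⟩ := hprim.eq_pow_of_pow_eq_one hfx
    refine ⟨-(∑ i ∈ Finset.range j, ε ^ i) * (η : A → ℂ) Y, ?_, ?_⟩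
    · refine IsIntegral.mul (IsIntegral.neg (IsIntegral.sum _ fun i _ => IsIntegral.pow ?_ i)) ?_
      · exact Cfsg.Agent.Char.isIntegral_rootOfUnity hp.pos hprim.pow_eq_one
      · exact Cfsg.Agent.Char.isCharacter_isIntegral (Cfsg.Agent.Char.isCharacter_of_isIrrCharacter η.2) Y
    · show f (X * Y) - f Y = (1 - ε) * (-(∑ i ∈ Finset.range j, ε ^ i) * f Y)
      rw [map_mul, ← hj]
      have h2 := geom_sum_mul ε j
      linear_combination (-(f Y)) * h2
  choose w hw1 hw2 using hterm
  refine ⟨∑ η, (c η : ℂ) * w η, IsIntegral.sum _ fun η _ => (isIntegral_natCast _).mul (hw1 η), ?_⟩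
  have e1 : χ (x * y) = ∑ η, (c η : ℂ) * (η : A → ℂ) (X * Y) := by
    have h := congrFun hexp (X * Y)
    simp only [Finset.sum_apply, Pi.smul_apply, smul_eq_mul, hc] at h
    exact h
  have e2 : χ y = ∑ η, (c η : ℂ) * (η : A → ℂ) Y := by
    have h := congrFun hexp Y
    simp only [Finset.sum_apply, Pi.smul_apply, smul_eq_mul, hc] at h
    exact h
  rw [e1, e2, ← Finset.sum_sub_distrib, Finset.mul_sum]
  refine Finset.sum_congr rfl fun η _ => ?_
  rw [← mul_sub, hw2]
  ring

/-- Let χ be a generalized character of the finite group G, p a prime, x an element of order p and y an element commuting with x. Then χ(x * y) − χ(y) = (1 − ε) * ω for some algebraic integer ω, where ε = exp(2πi/p). -/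
theorem result {G : Type*} [Group G] [Finite G] (χ : G → ℂ) (hχ : Cfsg.IsGeneralizedCharacter G χ) (p : ℕ) (hp : p.Prime) (x y : G) (hx : orderOf x = p) (hxy : x * y = y * x) : ∃ ω : ℂ, IsIntegral ℤ ω ∧ χ (x * y) - χ y = (1 - Complex.exp (2 * Real.pi * Complex.I / p)) * ω := by
  obtain ⟨a, b, ha, hb, rfl⟩ := hχ
  have hxp : x ^ p = 1 := by rw [← hx]; exact pow_orderOf_eq_one x
  obtain ⟨u, hu, hu'⟩ := char_case a ha p hp x y hxp hxy
  obtain ⟨v, hv, hv'⟩ := char_case b hb p hp x y hxp hxy
  refine ⟨u - v, hu.sub hv, ?_⟩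
  simp only [Pi.sub_apply]
  linear_combination hu' - hv'

end Cfsg.Agent.S1494
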