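import Mathlib
import Cfsg.Statements.S1495
import Cfsg.Agent.Char.Integral

set_option autoImplicit false
open Cfsg

namespace Cfsg.Agent.S1495

/-- Let p be a prime, ε = exp(2πi/p), and n an integer such that n = (1 − ε) * ω for some algebraic integer ω. Then p divides n. -/
theorem result (p : ℕ) (hp : p.Prime) (n : ℤ) (ω : ℂ) (hω : IsIntegral ℤ ω) (h : (n : ℂ) = (1 - Complex.exp (2 * Real.pi * Complex.I / p)) * ω) : (p : ℤ) ∣ n := by
  classical
  haveI := Fact.mk hp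
  set ζ : ℂ := Complex.exp (2 * Real.pi * Complex.I / p)
  have hζ : IsPrimitiveRoot ζ p := Complex.isPrimitiveRoot_exp p hp.ne_zero
  have hζi : IsIntegral ℤ ζ := Char.isIntegral_rootOfUnity hp.pos hζ.pow_eq_one
  obtain ⟨m, hm⟩ : ∃ m, p = m + 1 := ⟨p - 1, by have := hp.pos; omega⟩
  have hprod : ∏ k ∈ Finset.range m, (1 - ζ ^ (k + 1)) = (p : ℂ) := by
    have hζ' : IsPrimitiveRoot ζ (m + 1) := hm ▸ hζ
    rw [hζ'.prod_one_sub_pow_eq_order, hm]
    push_cast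
    ring
  have he : ∀ k ∈ Finset.range m, ∃ e : ℂ, IsIntegral ℤ e ∧ (1 - ζ) = (1 - ζ ^ (k + 1)) * e := by
    intro k hk
    rw [Finset.mem_range] at hk
    have hcop : Nat.Coprime (k + 1) p := (hp.coprime_iff_not_dvd.2 fun hd => by
      have := Nat.le_of_dvd (Nat.succ_pos k) hd; omega).symm
    obtain ⟨j, hj⟩ := hζ.eq_pow_of_pow_eq_one (ξ := ζ) hζ.pow_eq_one |> fun _ =>
      (hζ.pow_of_coprime _ hcop).eq_pow_of_pow_eq_one (ξ := ζ) hζ.pow_eq_one
    refine ⟨∑ i ∈ Finset.range j, (ζ ^ (k + 1)) ^ i,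
      IsIntegral.sum _ fun i _ => (hζi.pow _).pow _, ?_⟩
    rw [mul_neg_geom_sum, hj.2]
  choose! e hei he1 using he
  have hkey : (n : ℂ) ^ m = (p : ℂ) * ((∏ k ∈ Finset.range m, e k) * ω ^ m) := by
    rw [← hprod, h, mul_pow, ← mul_assoc, ← Finset.prod_mul_distrib]
    congr 1
    rw [← Finset.prod_congr rfl he1, Finset.prod_const, Finset.card_range]
  have hint : IsIntegral ℤ ((((n ^ m : ℤ) : ℚ) / p : ℚ) : ℂ) := by
    have hp0 : (p : ℂ) ≠ 0 := Nat.cast_ne_zero.2 hp.ne_zero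
    push_cast
    rw [hkey, mul_div_cancel_left₀ _ hp0]
    exact (IsIntegral.prod _ fun k hk => hei k hk).mul (hω.pow m)
  obtain ⟨c, hc⟩ := Char.exists_int_of_isIntegral hint
  rw [div_eq_iff (Nat.cast_ne_zero.2 hp.ne_zero)] at hc
  have : (p : ℤ) ∣ n ^ m := ⟨c, by rw [mul_comm]; exact_mod_cast hc⟩
  exact Int.Prime.dvd_pow' hp this

end Cfsg.Agent.S1495
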