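import Cfsg.Statements.S1496
import Mathlib

set_option autoImplicit false
open Cfsg

namespace Cfsg.Agent.S1496

/-- Let H be a subgroup of the finite group G and g an element normalising H whose order is coprime to the order of H. Then for every h ∈ H there are x ∈ H and c ∈ H commuting with g such that x * (h * g) * x⁻¹ = c * g. -/
theorem result {G : Type*} [Group G] [Finite G] (H : Subgroup G) (g : G) (hg : g ∈ Subgroup.normalizer (H : Set G)) (hcop : Nat.Coprime (orderOf g) (Nat.card H)) (h : G) (hh : h ∈ H) : ∃ x ∈ H, ∃ c ∈ H, c * g = g * c ∧ x * (h * g) * x⁻¹ = c * g := by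
  classical
  haveI := Fintype.ofFinite G
  obtain ⟨m, hm1, hm0⟩ := Nat.chineseRemainder hcop 1 0
  have hpart : ∀ c ∈ H, c * g = g * c → (c * g) ^ m = g := by
    intro c hc hcg
    have h1 : g ^ m = g := by
      conv_rhs => rw [← pow_one g]
      exact pow_eq_pow_iff_modEq.2 hm1
    have h2 : c ^ m = 1 := orderOf_dvd_iff_pow_eq_one.1
      ((Subgroup.orderOf_dvd_natCard H hc).trans (Nat.modEq_zero_iff_dvd.1 hm0))
    rw [(show Commute c g from hcg).mul_pow, h1, h2, one_mul]
  let S : Finset G := Finset.univ.filter (· ∈ H)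
  let C : Finset G := Finset.univ.filter fun c => c ∈ H ∧ c * g = g * c
  let T : Finset G := S.image (· * g)
  let Φ : G × G → G := fun p => p.1 * (p.2 * g) * p.1⁻¹
  have hmaps : (S ×ˢ C).image Φ ⊆ T := by
    intro t ht
    simp only [Finset.mem_image, Finset.mem_product, Finset.mem_filter_univ, S, C, T] at ht ⊢
    obtain ⟨⟨y, c⟩, ⟨hy, hc, hcg⟩, rfl⟩ := ht
    refine ⟨y * c * (g * y⁻¹ * g⁻¹), mul_mem (mul_mem hy hc)
      ((Subgroup.mem_normalizer_iff.1 hg _).1 (inv_mem hy)), ?_⟩
    simp only [Φ]; group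
  have hfib : ∀ t ∈ (S ×ˢ C).image Φ, ((S ×ˢ C).filter fun p => Φ p = t).card ≤ C.card := by
    intro t ht
    simp only [Finset.mem_image, Finset.mem_product, Finset.mem_filter_univ, S, C] at ht
    obtain ⟨⟨y, c⟩, ⟨hy, hc, hcg⟩, rfl⟩ := ht
    refine Finset.card_le_card_of_injOn (fun p => y⁻¹ * p.1) ?_ ?_
    · intro p hp
      simp only [Finset.coe_filter, Finset.mem_product, Finset.mem_filter_univ, S, C,
        Set.mem_setOf_eq, Φ] at hp ⊢
      obtain ⟨⟨hp1, hp2, hp3⟩, hp4⟩ := hp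
      have h1 := congrArg (· ^ m) hp4
      simp only [conj_pow, hpart _ hp2 hp3, hpart _ hc hcg] at h1
      refine ⟨Finset.mem_univ _, mul_mem (inv_mem hy) hp1, ?_⟩
      calc y⁻¹ * p.1 * g = y⁻¹ * (p.1 * g * p.1⁻¹) * p.1 := by group
        _ = g * (y⁻¹ * p.1) := by rw [h1]; group
    · rintro ⟨a, b⟩ hp ⟨a', b'⟩ hp' e
      simp only [Finset.coe_filter, Set.mem_setOf_eq, Φ] at hp hp'
      obtain rfl : a = a' := mul_left_cancel e
      have := hp.2.trans hp'.2.symm
      rw [Prod.mk.injEq]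
      exact ⟨rfl, mul_right_cancel (mul_left_cancel (mul_right_cancel this))⟩
  have hCpos : 0 < C.card := Finset.card_pos.2 ⟨1, by simp [C, H.one_mem]⟩
  have hTcard : T.card = S.card := Finset.card_image_of_injective _ (mul_left_injective g)
  have hbig : S.card ≤ ((S ×ˢ C).image Φ).card := by
    have h1 := Finset.card_le_mul_card_image (S ×ˢ C) C.card hfib
    rw [Finset.card_product, mul_comm] at h1
    exact Nat.le_of_mul_le_mul_left h1 hCpos
  have heq : (S ×ˢ C).image Φ = T := Finset.eq_of_subset_of_card_le hmaps (hTcard ▸ hbig)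
  have hmem : h * g ∈ (S ×ˢ C).image Φ := by
    rw [heq]; exact Finset.mem_image.2 ⟨h, by simp [S, hh], rfl⟩
  simp only [Finset.mem_image, Finset.mem_product, Finset.mem_filter_univ, S, C, Φ] at hmem
  obtain ⟨⟨y, c⟩, ⟨hy, hc, hcg⟩, e⟩ := hmem
  exact ⟨y⁻¹, inv_mem hy, c, hc, hcg, by rw [← e]; group⟩

end Cfsg.Agent.S1496
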