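import Cfsg.Statements.S1497
-- no helpers

set_option autoImplicit false
open Cfsg

namespace Cfsg.Agent.S1497

/-- Let A be a nonempty subset of the finite group G not containing 1 and L a subgroup. Then A is a TI-subset whose normaliser is L if and only if the Dade hypothesis holds for A, L and the constant choice H(a) = ⊥. -/
theorem result {G : Type*} [Group G] [Finite G] (A : Set G) (hA : A.Nonempty) (h1 : (1 : G) ∉ A) (L : Subgroup G) : (Cfsg.IsTISubset A ∧ Subgroup.normalizer A = L) ↔ Cfsg.DadeHypothesis A L (fun _ => ⊥) := by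
  constructor
  · rintro ⟨hTI, rfl⟩
    have hC : ∀ a ∈ A, Subgroup.centralizer ({a} : Set G) ≤ Subgroup.normalizer A := by
      intro a ha c hc
      by_contra h
      rw [Subgroup.mem_centralizer_singleton_iff] at hc
      have : c * a * c⁻¹ = a := by rw [hc, mul_inv_cancel_right]
      exact h1 ((hTI c h a ha (by rwa [this])) ▸ ha)
    refine ⟨h1, fun a ha => hC a ha (Subgroup.mem_centralizer_singleton_iff.2 rfl), ?_, ?_,
      fun a _ => bot_le, ?_, fun a _ => bot_inf_eq _, ?_, ?_⟩
    · exact fun x hx a ha => (Subgroup.mem_set_normalizer_iff.1 hx a).1 ha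
    · intro a ha g hg
      refine ⟨g, ?_, rfl⟩
      by_contra h
      exact h1 ((hTI g h a ha hg) ▸ ha)
    · intro a _ c _ u hu
      rw [Subgroup.mem_bot] at hu ⊢
      simp [hu]
    · intro a ha
      rw [bot_sup_eq, inf_eq_right]
      exact hC a ha
    · intro a _ b _
      rw [Subgroup.card_bot]
      exact Nat.coprime_one_left _
  · intro hD
    have hC : ∀ a ∈ A, Subgroup.centralizer ({a} : Set G) ≤ L := by
      intro a ha
      have := hD.sup_eq a ha
      rw [bot_sup_eq, inf_eq_right] at this
      exact this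
    have hN : ∀ g : G, ∀ a ∈ A, g * a * g⁻¹ ∈ A → g ∈ L := by
      intro g a ha hg
      obtain ⟨x, hx, hxe⟩ := hD.fusion a ha g hg
      have : x⁻¹ * g ∈ L := hC a ha (Subgroup.mem_centralizer_singleton_iff.2 (by
        calc x⁻¹ * g * a = x⁻¹ * (g * a * g⁻¹) * g := by group
          _ = x⁻¹ * (x * a * x⁻¹) * g := by rw [hxe]
          _ = _ := by group))
      simpa using mul_mem hx this
    have hLN : L ≤ Subgroup.normalizer A := by
      intro x hx
      rw [Subgroup.mem_set_normalizer_iff]
      intro y
      refine ⟨hD.conj_mem x hx y, fun h => ?_⟩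
      have := hD.conj_mem _ (inv_mem hx) _ h
      simpa [mul_assoc] using this
    refine ⟨fun g hg a ha hga => absurd (hLN (hN g a ha hga)) hg, le_antisymm ?_ hLN⟩
    intro g hg
    obtain ⟨a, ha⟩ := hA
    exact hN g a ha ((Subgroup.mem_set_normalizer_iff.1 hg a).1 ha)

end Cfsg.Agent.S1497
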