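import Mathlib
import Cfsg.Statements.S1498
-- no helpers

set_option autoImplicit false
open Cfsg

namespace Cfsg.Agent.S1498

/-- Under the Dade hypothesis for (A, L, H): for a ∈ A and x ∈ L, the subgroup attached to x * a * x⁻¹ is the conjugate of H a by x. -/
theorem result {G : Type*} [Group G] [Finite G] (A : Set G) (L : Subgroup G) (H : G → Subgroup G) (hD : Cfsg.DadeHypothesis A L H) (a : G) (ha : a ∈ A) (x : G) (hx : x ∈ L) : H (x * a * x⁻¹) = (H a).map (MulAut.conj x).toMonoidHom := by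
  set φ : G →* G := (MulAut.conj x).toMonoidHom
  have hC : (Subgroup.centralizer ({a} : Set G)).map φ
      = Subgroup.centralizer ({x * a * x⁻¹} : Set G) := by
    ext y
    rw [Subgroup.mem_map]
    constructor
    · rintro ⟨c, hc, rfl⟩
      rw [Subgroup.mem_centralizer_singleton_iff] at hc ⊢
      show x * c * x⁻¹ * (x * a * x⁻¹) = x * a * x⁻¹ * (x * c * x⁻¹)
      calc x * c * x⁻¹ * (x * a * x⁻¹) = x * (c * a) * x⁻¹ := by group
        _ = x * (a * c) * x⁻¹ := by rw [hc]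
        _ = _ := by group
    · intro hy
      rw [Subgroup.mem_centralizer_singleton_iff] at hy
      refine ⟨x⁻¹ * y * x, Subgroup.mem_centralizer_singleton_iff.2 ?_, by simp [φ, mul_assoc]⟩
      calc x⁻¹ * y * x * a = x⁻¹ * (y * (x * a * x⁻¹)) * x := by group
        _ = x⁻¹ * (x * a * x⁻¹ * y) * x := by rw [hy]
        _ = _ := by group
  have ha' : x * a * x⁻¹ ∈ A := hD.conj_mem x hx a ha
  have hφL : L.map φ = L := by
    ext y
    rw [Subgroup.mem_map]
    constructor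
    · rintro ⟨c, hc, rfl⟩
      exact mul_mem (mul_mem hx hc) (inv_mem hx)
    · exact fun hy => ⟨x⁻¹ * y * x, mul_mem (mul_mem (inv_mem hx) hy) hx, by simp [φ, mul_assoc]⟩
  set D := Subgroup.centralizer ({x * a * x⁻¹} : Set G)
  set K := (H a).map φ
  set K' := H (x * a * x⁻¹)
  have hKD : K ≤ D := by rw [← hC]; exact Subgroup.map_mono (hD.le_centralizer a ha)
  have hK'D : K' ≤ D := hD.le_centralizer _ ha'
  have hcop : Nat.Coprime (Nat.card K) (Nat.card ↥(L ⊓ D)) := by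
    have hKc : Nat.card K = Nat.card (H a) :=
      (Nat.card_congr ((H a).equivMapOfInjective φ (MulAut.conj x).injective).toEquiv).symm
    rw [hKc]
    exact hD.coprime a ha _ ha'
  have hmapeq : (L ⊓ Subgroup.centralizer ({a} : Set G)).map φ = L ⊓ D := by
    rw [Subgroup.map_inf _ _ _ (MulAut.conj x).injective, hC, hφL]
  haveI hnK' : (K'.subgroupOf D).Normal :=
    ⟨fun u hu c => hD.conj_mem_H _ ha' _ c.2 _ hu⟩
  have hcompl : Subgroup.IsComplement' (K'.subgroupOf D) ((L ⊓ D).subgroupOf D) := by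
    apply Subgroup.isComplement'_of_disjoint_and_mul_eq_univ
    · rw [disjoint_iff, eq_bot_iff]
      rintro ⟨y, hy⟩ ⟨h1, h2⟩
      rw [Subgroup.mem_bot, Subtype.ext_iff]
      have hmem : y ∈ K' ⊓ (L ⊓ D) := ⟨h1, h2⟩
      simpa [K', D, hD.inf_eq_bot _ ha', inf_assoc] using hmem
    · rw [← Subgroup.normal_mul, ← Subgroup.subgroupOf_sup hK'D inf_le_right, hD.sup_eq _ ha']
      simp [D]
  have hcard : Nat.card D = Nat.card K' * Nat.card ↥(L ⊓ D) := by
    rw [← hcompl.card_mul, Nat.card_congr (Subgroup.subgroupOfEquivOfLe hK'D).toEquiv,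
      Nat.card_congr (Subgroup.subgroupOfEquivOfLe (inf_le_right : L ⊓ D ≤ D)).toEquiv]
  have hKK' : K.subgroupOf D ≤ K'.subgroupOf D := by
    rw [← QuotientGroup.ker_mk' (K'.subgroupOf D), ← Subgroup.map_eq_bot_iff, ← Subgroup.card_eq_one]
    refine Nat.eq_one_of_dvd_coprimes hcop ?_ ?_
    · exact (Subgroup.card_map_dvd _ _).trans
        (Nat.card_congr (Subgroup.subgroupOfEquivOfLe hKD).toEquiv).dvd
    · refine (Subgroup.card_subgroup_dvd_card _).trans ?_
      rw [← Subgroup.index, hcompl.symm.index_eq_card,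
        Nat.card_congr (Subgroup.subgroupOfEquivOfLe (inf_le_right : L ⊓ D ≤ D)).toEquiv]
  have hle : K ≤ K' := fun y hy => hKK' (show (⟨y, hKD hy⟩ : D) ∈ K.subgroupOf D from hy)
  refine (Subgroup.eq_of_le_of_card_ge hle ?_).symm
  have h1 : D = K ⊔ (L ⊓ D) := by
    rw [← hmapeq, ← Subgroup.map_sup, hD.sup_eq a ha, hC]
  haveI hnK : (K.subgroupOf D).Normal := by
    constructor
    rintro ⟨u, huD⟩ hu ⟨c, hc⟩
    rw [Subgroup.mem_subgroupOf] at hu ⊢
    obtain ⟨u₀, hu₀, rfl⟩ := Subgroup.mem_map.1 hu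
    rw [← hC] at hc
    obtain ⟨c₀, hc₀, rfl⟩ := Subgroup.mem_map.1 hc
    exact Subgroup.mem_map.2 ⟨c₀ * u₀ * c₀⁻¹, hD.conj_mem_H a ha c₀ hc₀ u₀ hu₀, by simp⟩
  have h2 : Nat.card D ≤ Nat.card K * Nat.card ↥(L ⊓ D) := by
    rw [← Nat.card_prod]
    refine Nat.card_le_card_of_surjective
      (fun uv : K × ↥(L ⊓ D) => (⟨(uv.1 : G) * uv.2, mul_mem (hKD uv.1.2) uv.2.2.2⟩ : D)) ?_
    rintro ⟨y, hy⟩
    have hy' : (⟨y, hy⟩ : D) ∈ K.subgroupOf D ⊔ (L ⊓ D).subgroupOf D := by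
      rw [← Subgroup.subgroupOf_sup hKD inf_le_right, ← h1]
      simp
    obtain ⟨u, hu, v, hv, huv⟩ := Subgroup.mem_sup_of_normal_left.1 hy'
    exact ⟨(⟨u, hu⟩, ⟨v, hv⟩), huv⟩
  rw [hcard] at h2
  exact Nat.le_of_mul_le_mul_right h2 Nat.card_pos

end Cfsg.Agent.S1498
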