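import Cfsg.Statements.S1509
import Cfsg.Agent.Char.Irr

set_option autoImplicit false
open Cfsg

namespace Cfsg.Agent.S1509

/-- Let α, β, γ, δ be functions on a finite group X each of which is an irreducible character or the negative of one, and u, v nonzero real numbers. Suppose ⟨α, β⟩ = ⟨γ, δ⟩ = 0, ⟨α − β, uγ − vδ⟩ = 0, α 1 = β 1 and u γ 1 = v δ 1. Then also ⟨α, γ⟩ = ⟨α, δ⟩ = ⟨β, γ⟩ = ⟨β, δ⟩ = 0. -/
theorem result {X : Type*} [Group X] [Fintype X] (α β γ δ : X → ℂ) (hα : Cfsg.IsIrrCharacter X α ∨ Cfsg.IsIrrCharacter X (-α)) (hβ : Cfsg.IsIrrCharacter X β ∨ Cfsg.IsIrrCharacter X (-β)) (hγ : Cfsg.IsIrrCharacter X γ ∨ Cfsg.IsIrrCharacter X (-γ)) (hδ : Cfsg.IsIrrCharacter X δ ∨ Cfsg.IsIrrCharacter X (-δ)) (u v : ℝ) (hu : u ≠ 0) (hv : v ≠ 0) (hab : Cfsg.classInner α β = 0) (hcd : Cfsg.classInner γ δ = 0) (hmix : Cfsg.classInner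 (α - β) ((u : ℂ) • γ - (v : ℂ) • δ) = 0) (h1 : α 1 = β 1) (h2 : (u : ℂ) * γ 1 = (v : ℂ) * δ 1) : Cfsg.classInner α γ = 0 ∧ Cfsg.classInner α δ = 0 ∧ Cfsg.classInner β γ = 0 ∧ Cfsg.classInner β δ = 0 := by
  classical
  have hsc : ∀ (z : ℂ) (a b : X → ℂ), Cfsg.classInner a (z • b) = (starRingEnd ℂ) z * Cfsg.classInner a b :=
    fun z a b => Char.classInner_smul_right z a b
  have hsigned : ∀ f : X → ℂ, (Cfsg.IsIrrCharacter X f ∨ Cfsg.IsIrrCharacter X (-f)) →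
      ∃ (e : ℂ) (χ : Cfsg.IrrCharacter X), (e = 1 ∨ e = -1) ∧ f = e • (χ : X → ℂ) := by
    rintro f (h | h)
    · exact ⟨1, ⟨f, h⟩, Or.inl rfl, (one_smul _ _).symm⟩
    · exact ⟨-1, ⟨-f, h⟩, Or.inr rfl, by simp⟩
  obtain ⟨e₁, χ₁, he₁, rfl⟩ := hsigned α hα
  obtain ⟨e₂, χ₂, he₂, rfl⟩ := hsigned β hβ
  obtain ⟨e₃, χ₃, he₃, rfl⟩ := hsigned γ hγ
  obtain ⟨e₄, χ₄, he₄, rfl⟩ := hsigned δ hδ
  have ne0 : ∀ e : ℂ, (e = 1 ∨ e = -1) → e ≠ 0 ∧ (starRingEnd ℂ) e = e := by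
    rintro e (rfl | rfl) <;> simp
  simp only [Char.classInner_smul_left, hsc, (ne0 _ he₂).2, (ne0 _ he₄).2, Char.classInner_irr,
    mul_eq_zero, (ne0 _ he₁).1, (ne0 _ he₂).1, (ne0 _ he₃).1, (ne0 _ he₄).1, false_or,
    (ne0 _ he₃).2, ite_eq_right_iff, one_ne_zero, imp_false] at hab hcd ⊢
  have hsr : ∀ a b c : X → ℂ,
      Cfsg.classInner a (b - c) = Cfsg.classInner a b - Cfsg.classInner a c := fun a b c => by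
    rw [← Char.classInner_conj_symm, Char.classInner_sub_left, map_sub, Char.classInner_conj_symm,
      Char.classInner_conj_symm]
  simp only [Char.classInner_sub_left, Char.classInner_smul_left, hsr, hsc,
    Complex.conj_ofReal, (ne0 _ he₃).2, (ne0 _ he₄).2, Char.classInner_irr] at hmix
  simp only [Pi.smul_apply, smul_eq_mul] at h1 h2
  have hq : ∀ e : ℂ, (e = 1 ∨ e = -1) → e * e = 1 := by rintro e (rfl | rfl) <;> norm_num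
  have hu' : (u : ℂ) * e₃ ≠ 0 := mul_ne_zero (by exact_mod_cast hu) (ne0 _ he₃).1
  have hv' : (v : ℂ) * e₄ ≠ 0 := mul_ne_zero (by exact_mod_cast hv) (ne0 _ he₄).1
  have key : ∀ (c₁ c₂ : ℂ) (a b : ℂ) (ψ₁ ψ₂ ψ₃ ψ₄ : Cfsg.IrrCharacter X), c₁ * c₁ = 1 → c₂ * c₂ = 1 →
      a ≠ 0 → b ≠ 0 → ψ₁ ≠ ψ₂ → ψ₃ ≠ ψ₄ →
      c₁ * (ψ₁ : X → ℂ) 1 = c₂ * (ψ₂ : X → ℂ) 1 → a * (ψ₃ : X → ℂ) 1 = b * (ψ₄ : X → ℂ) 1 →
      a * (c₁ * (if ψ₁ = ψ₃ then (1 : ℂ) else 0) - c₂ * (if ψ₂ = ψ₃ then (1 : ℂ) else 0))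
        - b * (c₁ * (if ψ₁ = ψ₄ then (1 : ℂ) else 0) - c₂ * (if ψ₂ = ψ₄ then (1 : ℂ) else 0)) = 0 →
      ψ₁ ≠ ψ₃ := by
    intro c₁ c₂ a b ψ₁ ψ₂ ψ₃ ψ₄ hc₁ hc₂ ha hb h12 h34 hd12 hd34 hm h13
    subst h13
    rw [if_pos rfl, if_neg (Ne.symm h12), if_neg h34] at hm
    have hc₁0 : c₁ ≠ 0 := by rintro rfl; simp at hc₁
    by_cases h24 : ψ₂ = ψ₄
    · subst h24
      rw [if_pos rfl] at hm
      have hx : b * (c₁ * (ψ₂ : X → ℂ) 1 + c₂ * (ψ₁ : X → ℂ) 1) = 0 := by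
        linear_combination (ψ₁ : X → ℂ) 1 * hm - c₁ * hd34
      have hx' := (mul_eq_zero.1 hx).resolve_left hb
      have h2d : 2 * (ψ₂ : X → ℂ) 1 = 0 := by
        linear_combination c₁ * hx' - c₂ * hd12 - (ψ₂ : X → ℂ) 1 * hc₁ - (ψ₂ : X → ℂ) 1 * hc₂
      exact Char.irr_one_ne_zero ψ₂ ((mul_eq_zero.1 h2d).resolve_left two_ne_zero)
    · rw [if_neg h24] at hm
      simp [ha, hc₁0] at hm
  refine ⟨key e₁ e₂ _ _ χ₁ χ₂ χ₃ χ₄ (hq _ he₁) (hq _ he₂) hu' hv' hab hcd h1 ?_ ?_,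
    key e₁ e₂ _ _ χ₁ χ₂ χ₄ χ₃ (hq _ he₁) (hq _ he₂) hv' hu' hab (Ne.symm hcd) h1 ?_ ?_,
    key e₂ e₁ _ _ χ₂ χ₁ χ₃ χ₄ (hq _ he₂) (hq _ he₁) hu' hv' (Ne.symm hab) hcd h1.symm ?_ ?_,
    key e₂ e₁ _ _ χ₂ χ₁ χ₄ χ₃ (hq _ he₂) (hq _ he₁) hv' hu' (Ne.symm hab) (Ne.symm hcd) h1.symm ?_ ?_⟩
  all_goals first
    | linear_combination h2
    | linear_combination -h2
    | linear_combination hmix
    | linear_combination -hmix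

end Cfsg.Agent.S1509
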