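import Mathlib
import Cfsg.Statements.S1546
-- no helpers

set_option autoImplicit false
open Cfsg

namespace Cfsg.Agent.S1546

/-- Let p and q be odd primes and N = (p ^ q − 1) / (p − 1) = 1 + p + ⋯ + p^(q−1). Then N is odd; if p ≡ 1 (mod q) then q ∣ N; and if p is not ≡ 1 (mod q) then N is coprime to p − 1 and every divisor of N is ≡ 1 (mod q). -/
theorem result (p q : ℕ) (hp : p.Prime) (hq : q.Prime) (hp2 : p ≠ 2) (hq2 : q ≠ 2) : Odd ((p ^ q - 1) / (p - 1)) ∧ (p % q = 1 → q ∣ (p ^ q - 1) / (p - 1)) ∧ (p % q ≠ 1 → Nat.Coprime ((p ^ q - 1) / (p - 1)) (p - 1) ∧ ∀ x : ℕ, x ∣ (p ^ q - 1) / (p - 1) → x % q = 1) := by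
  have hp3 : 3 ≤ p := by have := hp.two_le; omega
  have hgeom : (p ^ q - 1) / (p - 1) = ∑ i ∈ Finset.range q, p ^ i :=
    (Nat.geomSum_eq hp.two_le q).symm
  have hmod : (∑ i ∈ Finset.range q, p ^ i) ≡ q [MOD (p - 1)] := by
    have h1 : p ≡ 1 [MOD (p - 1)] := ((Nat.modEq_iff_dvd' (by omega)).2 dvd_rfl).symm
    rw [Nat.ModEq, Finset.sum_nat_mod]
    have : ∀ i ∈ Finset.range q, p ^ i % (p - 1) = 1 % (p - 1) := fun i _ => by
      simpa [Nat.ModEq] using h1.pow i
    rw [Finset.sum_congr rfl this, ← Finset.sum_nat_mod]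
    simp
  rw [hgeom]
  refine ⟨?_, fun h => ?_, fun h => ?_⟩
  · rw [Finset.odd_sum_iff_odd_card_odd, Finset.filter_true_of_mem, Finset.card_range]
    · exact hq.odd_of_ne_two hq2
    · exact fun i _ => (hp.odd_of_ne_two hp2).pow
  · have hd : q ∣ p - 1 := by
      rw [← Nat.modEq_iff_dvd' (by omega)]
      exact (show p ≡ 1 [MOD q] by rw [Nat.ModEq, h, Nat.one_mod_eq_one.2 hq.ne_one]).symm
    exact Nat.modEq_zero_iff_dvd.1 ((hmod.of_dvd hd).trans (Nat.modEq_zero_iff_dvd.2 dvd_rfl))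
  have hnd : ¬ q ∣ p - 1 := fun hd => h (by
    have := ((Nat.modEq_iff_dvd' (by omega : 1 ≤ p)).2 hd).symm
    rwa [Nat.ModEq, Nat.one_mod_eq_one.2 hq.ne_one] at this)
  have hcop : Nat.Coprime (∑ i ∈ Finset.range q, p ^ i) (p - 1) := by
    rw [Nat.coprime_iff_gcd_eq_one, hmod.gcd_eq]
    exact (Nat.coprime_iff_gcd_eq_one.1 (hq.coprime_iff_not_dvd.2 hnd))
  refine ⟨hcop, fun x hx => ?_⟩
  have hprime : ∀ r : ℕ, r.Prime → r ∣ ∑ i ∈ Finset.range q, p ^ i → r % q = 1 := by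
    intro r hr hrN
    haveI := Fact.mk hr
    have hr1 : ¬ r ∣ p - 1 := fun hd => hr.ne_one (Nat.eq_one_of_dvd_coprimes hcop hrN hd)
    have h1 : ((p : ZMod r)) ^ q = 1 := by
      have h2 : (∑ i ∈ Finset.range q, (p : ZMod r) ^ i) = 0 := by
        have := (ZMod.natCast_eq_zero_iff _ r).2 hrN
        simpa using this
      have := geom_sum_mul (p : ZMod r) q
      rw [h2, zero_mul] at this
      exact sub_eq_zero.1 this.symm
    have hne1 : (p : ZMod r) ≠ 1 := by
      intro e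
      apply hr1
      rw [← ZMod.natCast_eq_zero_iff, Nat.cast_sub (by omega), e]
      simp
    haveI := Fact.mk hq
    have hord : orderOf (p : ZMod r) = q := orderOf_eq_prime h1 hne1
    have hd := ZMod.orderOf_dvd_card_sub_one (a := (p : ZMod r)) (fun e => by
      rw [e, zero_pow hq.ne_zero] at h1; exact zero_ne_one h1)
    rw [hord] at hd
    have := ((Nat.modEq_iff_dvd' hr.one_le).2 hd).symm
    rwa [Nat.ModEq, Nat.one_mod_eq_one.2 hq.ne_one] at this
  revert hx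
  induction x using Nat.recOnMul with
  | zero =>
    intro hx
    have hpos : 0 < ∑ i ∈ Finset.range q, p ^ i :=
      Finset.sum_pos (fun i _ => pow_pos (by omega) i) ⟨0, Finset.mem_range.2 hq.pos⟩
    rw [zero_dvd_iff] at hx
    omega
  | one => intro _; exact Nat.one_mod_eq_one.2 hq.ne_one
  | prime r hr => exact hprime r hr
  | mul a b iha ihb =>
    intro hx
    rw [Nat.mul_mod, iha ((dvd_mul_right a b).trans hx), ihb ((dvd_mul_left b a).trans hx), one_mul,
      Nat.one_mod_eq_one.2 hq.ne_one]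

end Cfsg.Agent.S1546
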