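import Cfsg.Statements.S1550
import Cfsg.Agent.M24.Classes
import Cfsg.Agent.M24.Order

set_option autoImplicit false
open scoped Pointwise
open Cfsg

namespace Cfsg.Agent.S1550
open scoped Pointwise

/-- Every 4-element set of the 24 points is a tetrad of exactly one sextet, and the sextets number 1771. -/
theorem result : (∀ t : Finset Cfsg.GolayPt, t.card = 4 → ∃! S : Finset (Finset Cfsg.GolayPt), S ∈ Cfsg.sextets ∧ t ∈ S) ∧ Cfsg.sextets.ncard = 1771 := by
  classical
  have hdisj : ∀ S ∈ Cfsg.sextets, ∀ a ∈ S, ∀ b ∈ S, a ≠ b → Disjoint a b := by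
    intro S hS a ha b hb hne
    have h8 := (hS.2.2 a ha b hb hne).2
    rw [← Finset.card_union_eq_card_add_card, h8, hS.2.1 a ha, hS.2.1 b hb]
  have hcover : ∀ S ∈ Cfsg.sextets, ∀ x, ∃ a ∈ S, x ∈ a := by
    intro S hS x
    have hu : S.biUnion (fun a => a) = Finset.univ := by
      rw [← Finset.card_eq_iff_eq_univ, Finset.card_biUnion fun a ha b hb h => hdisj S hS a ha b hb h]
      rw [Finset.sum_congr rfl (fun a ha => hS.2.1 a ha), Finset.sum_const, hS.1]
      decide +kernel
    have hx : x ∈ S.biUnion (fun a => a) := by rw [hu]; exact Finset.mem_univ x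
    simpa using hx
  have hsub : ∀ S ∈ Cfsg.sextets, ∀ S' ∈ Cfsg.sextets, ∀ t ∈ S, t ∈ S' → S ⊆ S' := by
    intro S hS S' hS' t ht ht' u hu
    by_cases hut : u = t
    · exact hut ▸ ht'
    obtain ⟨x, hx⟩ : u.Nonempty := Finset.card_pos.1 (by rw [hS.2.1 u hu]; norm_num)
    have hxt : x ∉ t := Finset.disjoint_left.1 (hdisj S hS u hu t ht hut) hx
    obtain ⟨v, hv, hxv⟩ := hcover S' hS' x
    have hvt : v ≠ t := fun e => hxt (e ▸ hxv)
    have ho := Cfsg.Agent.M24.octad_eq_of_inter (hS.2.2 t ht u hu (Ne.symm hut)) (hS'.2.2 t ht' v hv (Ne.symm hvt)) (by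
      have h5 : insert x t ⊆ (t ∪ u) ∩ (t ∪ v) := by
        intro z hz
        rcases Finset.mem_insert.1 hz with rfl | hz
        · simp [hx, hxv]
        · simp [hz]
      have := Finset.card_le_card h5
      rw [Finset.card_insert_of_notMem hxt, hS.2.1 t ht] at this
      omega)
    have e : u = v := by
      have d1 := hdisj S hS u hu t ht hut
      have d2 := hdisj S' hS' v hv t ht' hvt
      calc u = (t ∪ u) \ t := by rw [Finset.union_sdiff_left, Finset.sdiff_eq_self_of_disjoint d1]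
        _ = (t ∪ v) \ t := by rw [ho]
        _ = v := by rw [Finset.union_sdiff_left, Finset.sdiff_eq_self_of_disjoint d2]
    exact e ▸ hv
  have huniq : ∀ t : Finset Cfsg.GolayPt, t.card = 4 → ∃! S : Finset (Finset Cfsg.GolayPt), S ∈ Cfsg.sextets ∧ t ∈ S := by
    intro t ht
    have h0 : (Cfsg.Agent.M24.toSet 15).card = 4 := by decide +kernel
    obtain ⟨g, hg, rfl⟩ := Cfsg.Agent.M24.exists_map_finset (s := Cfsg.Agent.M24.toSet 15) (by omega) (h0.trans ht.symm)
    have hl : ([15, 5264, 622848, 3416064, 4196928, 8536096] : List ℕ).Nodup ∧ (∀ a ∈ ([15, 5264, 622848, 3416064, 4196928, 8536096] : List ℕ), a < 2 ^ 24 ∧ Cfsg.Agent.M24.pc a = 4 ∧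
        ∀ b ∈ ([15, 5264, 622848, 3416064, 4196928, 8536096] : List ℕ), a ≠ b → a ||| b ∈ Cfsg.Agent.M24.octL) := by decide +kernel
    let S : Finset (Finset Cfsg.GolayPt) := (([15, 5264, 622848, 3416064, 4196928, 8536096] : List ℕ).map fun a => g • Cfsg.Agent.M24.toSet a).toFinset
    have hS : S ∈ Cfsg.sextets := by
      refine ⟨?_, ?_, ?_⟩
      · rw [List.toFinset_card_of_nodup (hl.1.map_on fun a ha b hb e =>
          Cfsg.Agent.M24.toSet_inj (hl.2 a ha).1 (hl.2 b hb).1 (MulAction.injective g e)), List.length_map]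
        rfl
      · intro a ha
        obtain ⟨m, hm, rfl⟩ := List.mem_map.1 (List.mem_toFinset.1 ha)
        rw [Finset.card_smul_finset, Cfsg.Agent.M24.card_toSet, (hl.2 m hm).2.1]
      · intro a ha b hb hne
        obtain ⟨m, hm, rfl⟩ := List.mem_map.1 (List.mem_toFinset.1 ha)
        obtain ⟨n, hn, rfl⟩ := List.mem_map.1 (List.mem_toFinset.1 hb)
        rw [← Finset.smul_finset_union, ← Cfsg.Agent.M24.toSet_or]
        exact (Cfsg.Agent.M24.smul_mem_octads hg).2 (Cfsg.Agent.M24.mem_octads_list.2 ⟨_, (hl.2 m hm).2.2 n hn (fun e => hne (by rw [e])), rfl⟩)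
    have hmem : g • Cfsg.Agent.M24.toSet 15 ∈ S := List.mem_toFinset.2 (List.mem_map.2 ⟨15, by simp, rfl⟩)
    exact ⟨S, ⟨hS, hmem⟩, fun T ⟨hT, hT'⟩ =>
      Finset.Subset.antisymm (hsub T hT S hS _ hT' hmem) (hsub S hS T hT _ hmem hT')⟩
  refine ⟨huniq, ?_⟩
  set A := (Finset.univ.erase (none : Cfsg.GolayPt)).powersetCard 3 with hA
  have hA4 : ∀ s ∈ A, (insert none s).card = 4 := fun s hs => by
    obtain ⟨h1, h2⟩ := Finset.mem_powersetCard.1 hs
    rw [Finset.card_insert_of_notMem (fun h => by simpa using h1 h), h2]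
  have hcardA : A.card = 1771 := by
    rw [hA, Finset.card_powersetCard, Finset.card_erase_of_mem (Finset.mem_univ _)]
    decide +kernel
  rw [← hcardA, ← Set.ncard_coe_finset]
  symm
  refine Set.ncard_congr (fun s hs => Classical.choose (huniq _ (hA4 s hs))) ?_ ?_ ?_
  · intro s hs
    exact (Classical.choose_spec (huniq _ (hA4 s hs))).1.1
  · intro a b ha hb e
    obtain ⟨⟨hSa, hma⟩, -⟩ := Classical.choose_spec (huniq _ (hA4 a ha))
    obtain ⟨⟨hSb, hmb⟩, -⟩ := Classical.choose_spec (huniq _ (hA4 b hb))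
    rw [← e] at hmb
    have heq : insert none a = insert none b := by
      by_contra hne
      exact Finset.disjoint_left.1 (hdisj _ hSa _ hma _ hmb hne) (Finset.mem_insert_self _ _) (Finset.mem_insert_self _ _)
    have na : none ∉ a := fun h => by simpa using (Finset.mem_powersetCard.1 ha).1 h
    have nb : none ∉ b := fun h => by simpa using (Finset.mem_powersetCard.1 hb).1 h
    rw [← Finset.erase_insert na, heq, Finset.erase_insert nb]
  · intro S hS
    obtain ⟨t, ht, htn⟩ := hcover S hS none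
    have h3 : t.erase none ∈ A := by
      refine Finset.mem_powersetCard.2 ⟨Finset.erase_subset_erase _ (Finset.subset_univ _), ?_⟩
      rw [Finset.card_erase_of_mem htn, hS.2.1 t ht]
    refine ⟨t.erase none, h3, ((Classical.choose_spec (huniq _ (hA4 _ h3))).2 S ⟨hS, ?_⟩).symm⟩
    rw [Finset.insert_erase htn]; exact ht


end Cfsg.Agent.S1550
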