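import Cfsg.Statements.S1553
import Cfsg.Agent.M24.OctFix
import Cfsg.Agent.M24.Facts
import Cfsg.Agent.M24.Classes

set_option autoImplicit false
open scoped Pointwise
open Cfsg

namespace Cfsg.Agent.S1553
open scoped Pointwise

/-- The stabiliser of an octad in the group of the length-24 code induces on the octad exactly its alternating group. -/
theorem result (o : Finset Cfsg.GolayPt) (ho : o ∈ Cfsg.octads) : {e : Equiv.Perm ↥o | ∃ g : Equiv.Perm Cfsg.GolayPt, g ∈ Cfsg.M24 ∧ ∃ h : (∀ x, g x ∈ o ↔ x ∈ o), g.subtypePerm h = e} = (alternatingGroup ↥o : Set (Equiv.Perm ↥o)) := by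
  classical
  obtain ⟨g, hg, rfl⟩ := Cfsg.Agent.M24.exists_map_octad ho
  set o := g • Cfsg.Agent.M24.toSet Cfsg.Agent.M24.oct0 with hoo
  set S := Cfsg.M24 ⊓ MulAction.stabilizer (Equiv.Perm Cfsg.GolayPt) o with hS
  have hcardS : Nat.card S = 322560 := by
    have h1 := Nat.card_congr (MulAction.orbitProdStabilizerEquivGroup Cfsg.M24 o)
    have horb : MulAction.orbit Cfsg.M24 o = Cfsg.octads := by
      ext p
      constructor
      · rintro ⟨v, rfl⟩; exact (Cfsg.Agent.M24.smul_mem_octads v.2).2 ho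
      · intro h
        obtain ⟨v, hv, rfl⟩ := Cfsg.Agent.M24.exists_map_octad h
        refine ⟨⟨v * g⁻¹, Cfsg.M24.mul_mem hv (Cfsg.M24.inv_mem hg)⟩, ?_⟩
        show (v * g⁻¹) • o = _
        rw [hoo, mul_smul, inv_smul_smul]
    have h759 : Cfsg.octads.ncard = 759 := by
      have := Cfsg.Agent.M24.ncard_octads_filter (fun _ => True) (fun _ => true) (by simp)
      simpa using this.trans (by decide +kernel : Cfsg.Agent.M24.octL.countP (fun _ => true) = 759)
    rw [Nat.card_prod, horb, Nat.card_coe_set_eq, h759, Cfsg.Agent.M24.card_M24, Cfsg.Agent.M24.card_stabilizer_subgroup, ← hS] at h1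
    omega
  have hinv : ∀ v : S, ∀ x, (v : Equiv.Perm Cfsg.GolayPt) x ∈ o ↔ x ∈ o := fun v x => by
    have h : (v : Equiv.Perm Cfsg.GolayPt) • o = o := v.2.2
    conv_lhs => rw [← h, ← Equiv.Perm.smul_def, Finset.smul_mem_smul_finset_iff]
  let φ : S →* Equiv.Perm ↥o :=
    MonoidHom.mk' (fun v => (v : Equiv.Perm Cfsg.GolayPt).subtypePerm (hinv v))
      (fun a b => Equiv.ext fun x => Subtype.ext rfl)
  have hker : Nat.card φ.ker = 16 := by
    rw [← (Cfsg.Agent.M24.octad_fixer hg).1]
    refine Nat.card_congr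
      { toFun := fun v => ⟨v.1.1, v.1.2.1, ?_⟩
        invFun := fun v => ⟨⟨v.1, v.2.1, MulAction.mem_stabilizer_iff.2 ?_⟩, ?_⟩
        left_inv := fun v => Subtype.ext (Subtype.ext rfl)
        right_inv := fun v => Subtype.ext rfl }
    · refine (mem_fixingSubgroup_iff _).2 fun x hx => ?_
      have h := congrArg (fun e : Equiv.Perm ↥o => ((e ⟨x, hx⟩ : ↥o) : Cfsg.GolayPt)) v.2
      simpa [φ] using h
    · refine Finset.eq_of_subset_of_card_le (fun y hy => ?_) (le_of_eq (Finset.card_smul_finset _ _).symm)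
      obtain ⟨x, hx, rfl⟩ := Finset.mem_smul_finset.1 hy
      have h := (mem_fixingSubgroup_iff _).1 v.2.2 x (Finset.mem_coe.2 hx)
      rw [h]; exact hx
    · rw [MonoidHom.mem_ker]
      exact Equiv.ext fun x => Subtype.ext ((mem_fixingSubgroup_iff _).1 v.2.2 x (Finset.mem_coe.2 x.2))
  have hrange : φ.range = alternatingGroup ↥o := by
    refine Equiv.Perm.eq_alternatingGroup_of_index_eq_two ?_
    have h1 : Nat.card S = Nat.card φ.range * Nat.card φ.ker := by
      rw [← Subgroup.card_mul_index φ.ker, Subgroup.index_ker, mul_comm]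
    have h2 : Nat.card (Equiv.Perm ↥o) = 40320 := by
      rw [Nat.card_perm, Nat.card_eq_fintype_card, Fintype.card_coe, hoo, Finset.card_smul_finset,
        Cfsg.Agent.M24.card_toSet, show Cfsg.Agent.M24.pc Cfsg.Agent.M24.oct0 = 8 by decide +kernel]
      rfl
    have h3 := Subgroup.card_mul_index φ.range
    rw [hker, hcardS] at h1
    have h4 : Nat.card φ.range = 20160 := by omega
    rw [h4, h2] at h3
    omega
  rw [← hrange]
  ext e
  constructor
  · rintro ⟨v, hv, h, rfl⟩
    refine ⟨⟨v, hv, MulAction.mem_stabilizer_iff.2 ?_⟩, Equiv.ext fun x => rfl⟩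
    ext y
    rw [← Finset.inv_smul_mem_iff, ← h, Equiv.Perm.smul_def]
    simp
  · rintro ⟨v, rfl⟩
    exact ⟨v, v.2.1, hinv v, rfl⟩


end Cfsg.Agent.S1553
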