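import Cfsg.Statements.S1554
import Cfsg.Agent.M24.OctFix
import Cfsg.Agent.M24.Facts
import Cfsg.Agent.M24.Classes
import Cfsg.Agent.M24.Trans

set_option autoImplicit false
open scoped Pointwise
open Cfsg

namespace Cfsg.Agent.S1554
open scoped Pointwise

/-- An octad stabiliser is a split extension: the joint stabiliser of the octad and a point outside it is a complement to the pointwise stabiliser of the octad, and is isomorphic to the alternating group of degree 8. -/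
theorem result (o : Finset Cfsg.GolayPt) (ho : o ∈ Cfsg.octads) (p : Cfsg.GolayPt) (hp : p ∉ o) : (Cfsg.M24 ⊓ fixingSubgroup (Equiv.Perm Cfsg.GolayPt) (o : Set Cfsg.GolayPt)) ⊓ (Cfsg.M24 ⊓ MulAction.stabilizer (Equiv.Perm Cfsg.GolayPt) o ⊓ MulAction.stabilizer (Equiv.Perm Cfsg.GolayPt) p) = ⊥ ∧ (Cfsg.M24 ⊓ fixingSubgroup (Equiv.Perm Cfsg.GolayPt) (o : Set Cfsg.GolayPt)) ⊔ (Cfsg.M24 ⊓ MulAction.stabilizer (Equiv.Perm Cfsg.GolayPt) o ⊓ MulAction.stabilizer (Equiv.Perm Cfsg.GolayPt) p) = (Cfsg.M24 ⊓ MulAction.stabilizer (Equiv.Perm Cfsg.GolayPt) o) ∧ Nonempty (↥(Cfsg.M24 ⊓ MulAction.stabilizer (Equiv.Perm Cfsg.GolayPt) o ⊓ MulAction.stabilizer (Equiv.Perm Cfsg.GolayPt) p) ≃* alternatingGroup (Fin 8)) := by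
  classical
  obtain ⟨g, hg, hgo, hgp⟩ := Cfsg.Agent.M24.exists_map_octad_pt_not_mem ho hp
  subst hgo
  set o := g • Cfsg.Agent.M24.toSet Cfsg.Agent.M24.oct0 with hoo
  set S := Cfsg.M24 ⊓ MulAction.stabilizer (Equiv.Perm Cfsg.GolayPt) o with hS
  have hcardS : Nat.card S = 322560 := by
    have h1 := Nat.card_congr (MulAction.orbitProdStabilizerEquivGroup Cfsg.M24 o)
    have horb : MulAction.orbit Cfsg.M24 o = Cfsg.octads := by
      ext p
      constructor
      · rintro ⟨v, rfl⟩; exact (Cfsg.Agent.M24.smul_mem_octads v.2).2 ho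
      · intro h
        obtain ⟨v, hv, rfl⟩ := Cfsg.Agent.M24.exists_map_octad h
        refine ⟨⟨v * g⁻¹, Cfsg.M24.mul_mem hv (Cfsg.M24.inv_mem hg)⟩, ?_⟩
        show (v * g⁻¹) • o = _
        rw [hoo, mul_smul, inv_smul_smul]
    have h759 : Cfsg.octads.ncard = 759 := by
      have := Cfsg.Agent.M24.ncard_octads_filter (fun _ => True) (fun _ => true) (by simp)
      simpa using this.trans (by decide +kernel : Cfsg.Agent.M24.octL.countP (fun _ => true) = 759)
    rw [Nat.card_prod, horb, Nat.card_coe_set_eq, h759, Cfsg.Agent.M24.card_M24, Cfsg.Agent.M24.card_stabilizer_subgroup, ← hS] at h1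
    omega
  have hinv : ∀ v : S, ∀ x, (v : Equiv.Perm Cfsg.GolayPt) x ∈ o ↔ x ∈ o := fun v x => by
    have h : (v : Equiv.Perm Cfsg.GolayPt) • o = o := v.2.2
    conv_lhs => rw [← h, ← Equiv.Perm.smul_def, Finset.smul_mem_smul_finset_iff]
  let φ : S →* Equiv.Perm ↥o :=
    MonoidHom.mk' (fun v => (v : Equiv.Perm Cfsg.GolayPt).subtypePerm (hinv v))
      (fun a b => Equiv.ext fun x => Subtype.ext rfl)
  have hker : Nat.card φ.ker = 16 := by
    rw [← (Cfsg.Agent.M24.octad_fixer hg).1]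
    refine Nat.card_congr
      { toFun := fun v => ⟨v.1.1, v.1.2.1, ?_⟩
        invFun := fun v => ⟨⟨v.1, v.2.1, MulAction.mem_stabilizer_iff.2 ?_⟩, ?_⟩
        left_inv := fun v => Subtype.ext (Subtype.ext rfl)
        right_inv := fun v => Subtype.ext rfl }
    · refine (mem_fixingSubgroup_iff _).2 fun x hx => ?_
      have h := congrArg (fun e : Equiv.Perm ↥o => ((e ⟨x, hx⟩ : ↥o) : Cfsg.GolayPt)) v.2
      simpa [φ] using h
    · refine Finset.eq_of_subset_of_card_le (fun y hy => ?_) (le_of_eq (Finset.card_smul_finset _ _).symm)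
      obtain ⟨x, hx, rfl⟩ := Finset.mem_smul_finset.1 hy
      have h := (mem_fixingSubgroup_iff _).1 v.2.2 x (Finset.mem_coe.2 hx)
      rw [h]; exact hx
    · rw [MonoidHom.mem_ker]
      exact Equiv.ext fun x => Subtype.ext ((mem_fixingSubgroup_iff _).1 v.2.2 x (Finset.mem_coe.2 x.2))
  have hrange : φ.range = alternatingGroup ↥o := by
    refine Equiv.Perm.eq_alternatingGroup_of_index_eq_two ?_
    have h1 : Nat.card S = Nat.card φ.range * Nat.card φ.ker := by
      rw [← Subgroup.card_mul_index φ.ker, Subgroup.index_ker, mul_comm]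
    have h2 : Nat.card (Equiv.Perm ↥o) = 40320 := by
      rw [Nat.card_perm, Nat.card_eq_fintype_card, Fintype.card_coe, hoo, Finset.card_smul_finset,
        Cfsg.Agent.M24.card_toSet, show Cfsg.Agent.M24.pc Cfsg.Agent.M24.oct0 = 8 by decide +kernel]
      rfl
    have h3 := Subgroup.card_mul_index φ.range
    rw [hker, hcardS] at h1
    have h4 : Nat.card φ.range = 20160 := by omega
    rw [h4, h2] at h3
    omega
  set F := Cfsg.M24 ⊓ fixingSubgroup (Equiv.Perm Cfsg.GolayPt) (o : Set Cfsg.GolayPt) with hF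
  set K := Cfsg.M24 ⊓ MulAction.stabilizer (Equiv.Perm Cfsg.GolayPt) o ⊓
    MulAction.stabilizer (Equiv.Perm Cfsg.GolayPt) p with hK
  have hfix : ∀ v ∈ F, ∀ x ∈ o, v x = x := fun v hv x hx =>
    (mem_fixingSubgroup_iff _).1 hv.2 x (Finset.mem_coe.2 hx)
  have hbot : F ⊓ K = ⊥ := by
    rw [eq_bot_iff]
    rintro v ⟨hvF, hvK⟩
    have h7 : g⁻¹ * v * g ∈ Cfsg.Agent.M24.stab 7 := by
      rw [Cfsg.Agent.M24.mem_stab le_rfl]
      refine ⟨Cfsg.M24.mul_mem (Cfsg.M24.mul_mem (Cfsg.M24.inv_mem hg) hvF.1) hg, fun b hb => ?_⟩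
      have hb' : b = 5 ∨ Cfsg.Agent.M24.pt b ∈ Cfsg.Agent.M24.toSet Cfsg.Agent.M24.oct0 := by
        revert b; decide +kernel
      rw [Equiv.Perm.mul_apply, Equiv.Perm.mul_apply, Equiv.Perm.inv_eq_iff_eq]
      rcases hb' with rfl | hb'
      · rw [hgp]; exact hvK.2
      · exact hfix v hvF _ (Finset.smul_mem_smul_finset hb')
    rw [Cfsg.Agent.M24.stab_seven, Subgroup.mem_bot] at h7
    rw [Subgroup.mem_bot]
    calc v = g * (g⁻¹ * v * g) * g⁻¹ := by group
      _ = 1 := by rw [h7]; group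
  have hFS : F ≤ S := fun v hv => ⟨hv.1, MulAction.mem_stabilizer_iff.2 (Finset.eq_of_subset_of_card_le
    (fun y hy => by
      obtain ⟨x, hx, rfl⟩ := Finset.mem_smul_finset.1 hy
      rw [Equiv.Perm.smul_def, hfix v hv x hx]; exact hx) (le_of_eq (Finset.card_smul_finset _ _).symm))⟩
  have hKS : K ≤ S := inf_le_left
  let ψ : K →* Equiv.Perm ↥o := φ.comp (Subgroup.inclusion hKS)
  have hψ : Function.Injective ψ := by
    rw [← MonoidHom.ker_eq_bot_iff, eq_bot_iff]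
    intro v hv
    have hvF : (v : Equiv.Perm Cfsg.GolayPt) ∈ F := ⟨v.2.1.1, (mem_fixingSubgroup_iff _).2 fun x hx => by
      have h := congrArg (fun e : Equiv.Perm ↥o => ((e ⟨x, hx⟩ : ↥o) : Cfsg.GolayPt)) (MonoidHom.mem_ker.1 hv)
      simpa [ψ, φ] using h⟩
    have : (v : Equiv.Perm Cfsg.GolayPt) ∈ F ⊓ K := ⟨hvF, v.2⟩
    rw [hbot, Subgroup.mem_bot] at this
    exact Subgroup.mem_bot.2 (Subtype.ext this)
  have hsplit : ∀ v ∈ S, ∃ f ∈ F, f⁻¹ * v ∈ K := by
    intro v hv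
    -- the fixer is regular on the sixteen remaining points
    let T : Finset Cfsg.GolayPt := Finset.univ \ o
    have hT : T.card = 16 := by
      rw [Finset.card_sdiff_of_subset (Finset.subset_univ _), Finset.card_univ, hoo, Finset.card_smul_finset,
        Cfsg.Agent.M24.card_toSet, show Cfsg.Agent.M24.pc Cfsg.Agent.M24.oct0 = 8 by decide +kernel]
      decide +kernel
    have hout : ∀ w : Equiv.Perm Cfsg.GolayPt, w ∈ S → w p ∈ T := fun w hw => by
      simp only [T, Finset.mem_sdiff, Finset.mem_univ, true_and]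
      rw [hinv ⟨w, hw⟩ p]; exact hp
    let j : F → T := fun f => ⟨(f : Equiv.Perm Cfsg.GolayPt) p, hout _ (hFS f.2)⟩
    have hj : Function.Bijective j := by
      refine (Nat.bijective_iff_injective_and_card j).2 ⟨fun a b h => ?_, ?_⟩
      · have h' : (a : Equiv.Perm Cfsg.GolayPt) p = (b : Equiv.Perm Cfsg.GolayPt) p := congrArg Subtype.val h
        have hm : ((a : Equiv.Perm Cfsg.GolayPt))⁻¹ * b ∈ F ⊓ K := by
          refine ⟨F.mul_mem (F.inv_mem a.2) b.2, hFS (F.mul_mem (F.inv_mem a.2) b.2),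
            MulAction.mem_stabilizer_iff.2 ?_⟩
          rw [Equiv.Perm.smul_def, Equiv.Perm.mul_apply, Equiv.Perm.inv_eq_iff_eq, h']
        rw [hbot, Subgroup.mem_bot, inv_mul_eq_one] at hm
        exact Subtype.ext hm
      · rw [(Cfsg.Agent.M24.octad_fixer hg).1, Nat.card_eq_fintype_card, Fintype.card_coe, hT]
    obtain ⟨f, hf⟩ := hj.2 ⟨v p, hout v hv⟩
    refine ⟨f, f.2, S.mul_mem (S.inv_mem (hFS f.2)) hv, MulAction.mem_stabilizer_iff.2 ?_⟩
    rw [Equiv.Perm.smul_def, Equiv.Perm.mul_apply, Equiv.Perm.inv_eq_iff_eq]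
    exact (congrArg Subtype.val hf).symm
  have hrψ : ψ.range = alternatingGroup ↥o := by
    rw [← hrange]
    refine le_antisymm (by rintro _ ⟨v, rfl⟩; exact ⟨_, rfl⟩) ?_
    rintro _ ⟨⟨v, hv⟩, rfl⟩
    obtain ⟨f, hf, hk⟩ := hsplit v hv
    refine ⟨⟨_, hk⟩, Equiv.ext fun x => Subtype.ext ?_⟩
    show (f⁻¹ * v) (x : Cfsg.GolayPt) = v x
    rw [Equiv.Perm.mul_apply, Equiv.Perm.inv_eq_iff_eq, hfix f hf _ ((hinv ⟨v, hv⟩ x).2 x.2)]
  refine ⟨hbot, le_antisymm (sup_le hFS hKS) fun v hv => ?_, ⟨?_⟩⟩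
  · obtain ⟨f, hf, hk⟩ := hsplit v hv
    have := Subgroup.mul_mem (F ⊔ K) (Subgroup.mem_sup_left hf) (Subgroup.mem_sup_right hk)
    rwa [mul_inv_cancel_left] at this
  · have h8 : Fintype.card ↥o = 8 := by
      rw [Fintype.card_coe, hoo, Finset.card_smul_finset, Cfsg.Agent.M24.card_toSet]; decide +kernel
    exact (MonoidHom.ofInjective hψ).trans ((MulEquiv.subgroupCongr hrψ).trans
      (Equiv.altCongrHom (Fintype.equivFinOfCardEq h8)))


end Cfsg.Agent.S1554
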