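import Cfsg.Statements.S1555
import Cfsg.Agent.M24.Canon

set_option autoImplicit false
open scoped Pointwise
open Cfsg

namespace Cfsg.Agent.S1555

/-- Two- and four-element subsets of the standard octad. -/
def subMasks : List ℕ := [3, 5, 9, 17, 129, 1025, 4097, 6, 10, 18, 130, 1026, 4098, 12, 20, 132, 1028, 4100, 24, 136, 1032, 4104, 144, 1040, 4112, 1152, 4224, 5120, 15, 23, 135, 1031, 4103, 27, 139, 1035, 4107, 147, 1043, 4115, 1155, 4227, 5123, 29, 141, 1037, 4109, 149, 1045, 4117, 1157, 4229, 5125, 153, 1049, 4121, 1161, 4233, 5129, 1169, 4241, 5137, 5249, 30, 142, 1038, 4110, 150, 1046, 4118, 1158, 4230, 5126, 154, 1050, 4122, 1162, 4234, 5130, 1170, 4242, 5138, 5250, 156, 1052, 4124, 1164, 4236, 5132, 1172, 4244, 5140, 5252, 1176, 4248, 5144, 5256, 5264]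

/-- Completeness test. -/
def subOk (x : ℕ) : Bool :=
  (x &&& Cfsg.Agent.M24.oct0) != x || (Cfsg.Agent.M24.pc x != 2 && Cfsg.Agent.M24.pc x != 4) || subMasks.contains x

/-- Bottom row of the Leech triangle: an octad is met in a prescribed pair of its points by exactly 16 octads and in a prescribed 4-subset by exactly 4 octads. -/
theorem result (o : Finset Cfsg.GolayPt) (ho : o ∈ Cfsg.octads) (s : Finset Cfsg.GolayPt) (hs : s ⊆ o) : (s.card = 2 → {o' : Finset Cfsg.GolayPt | o' ∈ Cfsg.octads ∧ o ∩ o' = s}.ncard = 16) ∧ (s.card = 4 → {o' : Finset Cfsg.GolayPt | o' ∈ Cfsg.octads ∧ o ∩ o' = s}.ncard = 4) := by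
  obtain ⟨g, hg, rfl⟩ := Cfsg.Agent.M24.exists_map_octad ho
  have key : ∀ x ∈ subMasks,
      Cfsg.Agent.M24.octL.countP (fun m => (Cfsg.Agent.M24.oct0 &&& m) == x) = if Cfsg.Agent.M24.pc x = 2 then 16 else 4 := by
    decide +kernel
  have hsub : ∀ x, x &&& Cfsg.Agent.M24.oct0 = x → (Cfsg.Agent.M24.pc x = 2 ∨ Cfsg.Agent.M24.pc x = 4) → x ∈ subMasks := by
    intro x hx h
    have hx' : x < 8192 := lt_of_le_of_lt (hx ▸ Nat.and_le_right) (by decide +kernel)
    have hall : ∀ a < 128, ∀ b < 64, subOk (64 * a + b) = true := by decide +kernel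
    have h1 := hall (x / 64) (by omega) (x % 64) (by omega)
    rw [Nat.div_add_mod] at h1
    simp only [subOk, hx, bne_self_eq_false, Bool.false_or, Bool.or_eq_true, Bool.and_eq_true,
      bne_iff_ne, ne_eq, List.contains_iff_mem] at h1
    rcases h1 with ⟨ha, hb⟩ | h1
    · exact (h.elim ha hb).elim
    · exact h1
  obtain ⟨t, rfl⟩ : ∃ t, s = g • t := ⟨g⁻¹ • s, (smul_inv_smul g s).symm⟩
  rw [Finset.smul_finset_subset_smul_finset_iff] at hs
  set x := Cfsg.Agent.M24.toMask t with hx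
  have ht : Cfsg.Agent.M24.toSet x = t := Cfsg.Agent.M24.toSet_toMask t
  have hxo : x &&& Cfsg.Agent.M24.oct0 = x := by
    refine Cfsg.Agent.M24.toSet_inj (lt_of_le_of_lt Nat.and_le_left (Cfsg.Agent.M24.toMask_lt t)) (Cfsg.Agent.M24.toMask_lt t) ?_
    rw [Cfsg.Agent.M24.toSet_and, ht, Finset.inter_eq_left]; exact hs
  have hcount : ∀ k, (g • t).card = k → (k = 2 ∨ k = 4) →
      {o' : Finset Cfsg.GolayPt | o' ∈ Cfsg.octads ∧ g • Cfsg.Agent.M24.toSet Cfsg.Agent.M24.oct0 ∩ o' = g • t}.ncard =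
        if k = 2 then 16 else 4 := by
    intro k hk hk'
    rw [Finset.card_smul_finset, Cfsg.Agent.M24.card_eq, ← hx] at hk
    subst hk
    rw [← key x (hsub x hxo hk')]
    refine Cfsg.Agent.M24.ncard_octads_smul hg _ _ _ (fun m hm => ?_) rfl
    rw [← ht, ← Finset.smul_finset_inter, ← Cfsg.Agent.M24.toSet_and, beq_iff_eq]
    refine ⟨fun e => Cfsg.Agent.M24.toSet_inj (lt_of_le_of_lt Nat.and_le_left (by decide +kernel))
      (hxo ▸ lt_of_le_of_lt Nat.and_le_left (Cfsg.Agent.M24.toMask_lt t)) (MulAction.injective g e),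
      fun e => by rw [e]⟩
  exact ⟨fun h => hcount 2 h (Or.inl rfl), fun h => hcount 4 h (Or.inr rfl)⟩

end Cfsg.Agent.S1555
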