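import Cfsg.Statements.S1560
import Cfsg.Agent.M24.Trans

set_option autoImplicit false
open scoped Pointwise
open Cfsg

namespace Cfsg.Agent.S1560

/-- Intersection numbers of dodecads: a dodecad meets every other dodecad in 0, 4, 6 or 8 points, meeting 495 of them in 4 points, 1584 in 6 points and 495 in 8 points. -/
theorem result (d : Finset Cfsg.GolayPt) (hd : d ∈ Cfsg.dodecads) : (∀ d' ∈ Cfsg.dodecads, d' ≠ d → (d ∩ d').card = 0 ∨ (d ∩ d').card = 4 ∨ (d ∩ d').card = 6 ∨ (d ∩ d').card = 8) ∧ {d' : Finset Cfsg.GolayPt | d' ∈ Cfsg.dodecads ∧ (d ∩ d').card = 4}.ncard = 495 ∧ {d' : Finset Cfsg.GolayPt | d' ∈ Cfsg.dodecads ∧ (d ∩ d').card = 6}.ncard = 1584 ∧ {d' : Finset Cfsg.GolayPt | d' ∈ Cfsg.dodecads ∧ (d ∩ d').card = 8}.ncard = 495 := by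
  obtain ⟨g, hg, rfl⟩ := Cfsg.Agent.M24.exists_map_dodecad hd
  refine ⟨fun d' hd' hne => ?_, ?_, ?_, ?_⟩
  · obtain ⟨m, hm, rfl⟩ := Cfsg.Agent.M24.exists_dodecad hg hd'
    have key : ∀ m ∈ Cfsg.Agent.M24.dodL, m = Cfsg.Agent.M24.dod0 ∨ Cfsg.Agent.M24.pc (Cfsg.Agent.M24.dod0 &&& m) ∈ [0, 4, 6, 8] := by decide +kernel
    rw [Cfsg.Agent.M24.card_smul_inter]
    rcases key m hm with rfl | h
    · exact absurd rfl hne
    · simpa using h
  · exact Cfsg.Agent.M24.ncard_dodecads_smul hg _ (fun m => Cfsg.Agent.M24.pc (Cfsg.Agent.M24.dod0 &&& m) == 4) 495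
      (fun m _ => by rw [Cfsg.Agent.M24.card_smul_inter, beq_iff_eq]) (by decide +kernel)
  · exact Cfsg.Agent.M24.ncard_dodecads_smul hg _ (fun m => Cfsg.Agent.M24.pc (Cfsg.Agent.M24.dod0 &&& m) == 6) 1584
      (fun m _ => by rw [Cfsg.Agent.M24.card_smul_inter, beq_iff_eq]) (by decide +kernel)
  · exact Cfsg.Agent.M24.ncard_dodecads_smul hg _ (fun m => Cfsg.Agent.M24.pc (Cfsg.Agent.M24.dod0 &&& m) == 8) 495
      (fun m _ => by rw [Cfsg.Agent.M24.card_smul_inter, beq_iff_eq]) (by decide +kernel)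

end Cfsg.Agent.S1560
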