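import Cfsg.Statements.S1562
import Cfsg.Agent.M24.SmallOrb

set_option autoImplicit false
open scoped Pointwise
open Cfsg

namespace Cfsg.Agent.S1562
open scoped Pointwise

/-- Orbits of a triad stabiliser on the triads disjoint from it: the 210 triads inside a common octad with it form one orbit and the remaining 1120 another. -/
theorem result (T : Finset Cfsg.GolayPt) (hT : T.card = 3) : {U : Finset Cfsg.GolayPt | U.card = 3 ∧ Disjoint T U ∧ (∃ o ∈ Cfsg.octads, T ∪ U ⊆ o)}.ncard = 210 ∧ {U : Finset Cfsg.GolayPt | U.card = 3 ∧ Disjoint T U ∧ ¬ (∃ o ∈ Cfsg.octads, T ∪ U ⊆ o)}.ncard = 1120 ∧ ∀ U U' : Finset Cfsg.GolayPt, U.card = 3 → U'.card = 3 → Disjoint T U → Disjoint T U' → ((∃ o ∈ Cfsg.octads, T ∪ U ⊆ o) ↔ (∃ o ∈ Cfsg.octads, T ∪ U' ⊆ o)) → ∃ g : Equiv.Perm Cfsg.GolayPt, g ∈ Cfsg.M24 ∧ g • T = T ∧ g • U = U' := by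
  classical
  have h0 : (Cfsg.Agent.M24.toSet 7).card = 3 := by decide +kernel
  obtain ⟨g, hg, rfl⟩ := Cfsg.Agent.M24.exists_map_finset (s := Cfsg.Agent.M24.toSet 7) (by omega) (h0.trans hT.symm)
  let q : ℕ → Bool := fun m => ([5902343, 3416079, 12656663, 8536111, 45159, 4505735, 11010247, 622863, 1065303, 2183687, 786999, 140167, 459847, 5279, 6292775, 9471495, 2263063, 1116327, 8657159, 4196943, 551943] : List ℕ).any fun o => (m ||| 7) &&& o == (m ||| 7)
  have hL7 : Cfsg.Agent.M24.octL.filter (fun o => o &&& 7 == 7) = [5902343, 3416079, 12656663, 8536111, 45159, 4505735, 11010247, 622863, 1065303, 2183687, 786999, 140167, 459847, 5279, 6292775, 9471495, 2263063, 1116327, 8657159, 4196943, 551943] := by decide +kernel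
  have hq : ∀ m, Cfsg.Agent.M24.inOctB (m ||| 7) = q m := by
    intro m
    rw [Bool.eq_iff_iff]
    simp only [Cfsg.Agent.M24.inOctB, q, ← hL7, List.any_eq_true, List.mem_filter, beq_iff_eq]
    refine ⟨fun ⟨o, ho, h⟩ => ⟨o, ⟨ho, ?_⟩, h⟩, fun ⟨o, ⟨ho, _⟩, h⟩ => ⟨o, ho, h⟩⟩
    have := congrArg (· &&& 7) h
    simp only [Nat.and_assoc] at this
    have e7 : (m ||| 7) &&& 7 = 7 := by
      refine Nat.eq_of_testBit_eq fun i => ?_
      rw [Nat.testBit_and, Nat.testBit_or]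
      cases Nat.testBit 7 i <;> simp
    rw [e7] at this
    refine Nat.eq_of_testBit_eq fun i => ?_
    have t := congrArg (fun z => Nat.testBit z i) this
    simp only [Nat.testBit_and, Nat.testBit_or] at t ⊢
    cases h7 : Nat.testBit 7 i <;> simp [h7] at t ⊢
    exact t
  let f1 : ℕ → Bool := fun m => m &&& 7 == 0 && q m
  let f2 : ℕ → Bool := fun m => m &&& 7 == 0 && !q m
  have hlt : ∀ m ∈ Cfsg.Agent.M24.triadL, m < 2 ^ 24 ∧ Cfsg.Agent.M24.pc m = 3 := by decide +kernel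
  have hnd : Cfsg.Agent.M24.triadL.Nodup := by
    have : (Cfsg.Agent.M24.triadL.map Cfsg.Agent.M24.smallKey).Nodup ↔ True := ⟨fun _ => trivial, fun _ => by
      have e : ∀ a < 24, ∀ b < a, ∀ c < b, Cfsg.Agent.M24.smallKey (2 ^ a ||| 2 ^ b ||| 2 ^ c) = 625 * (c + 1) + 25 * (b + 1) + (a + 1) := by
        decide +kernel
      rw [Cfsg.Agent.M24.triadL, List.map_flatMap]
      simp only [List.map_flatMap, List.map_map]
      refine List.nodup_flatMap.2 ⟨fun a ha => List.nodup_flatMap.2 ⟨fun b hb => ?_, ?_⟩, ?_⟩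
      · refine List.nodup_range.map_on fun c hc c' hc' h => ?_
        simp only [Function.comp, List.mem_range] at ha hb hc hc' h
        rw [e a ha b hb c hc, e a ha b hb c' hc'] at h
        omega
      · refine List.nodup_range.imp_of_mem fun {b b'} hb hb' hne => List.disjoint_left.2 fun x hx hx' => ?_
        simp only [List.mem_map, List.mem_range, Function.comp] at ha hb hb' hx hx'
        obtain ⟨c, hc, rfl⟩ := hx
        obtain ⟨c', hc', h⟩ := hx'
        rw [e a ha b hb c hc, e a ha b' hb' c' hc'] at h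
        omega
      · refine List.nodup_range.imp_of_mem fun {a a'} ha ha' hne => List.disjoint_left.2 fun x hx hx' => ?_
        simp only [List.mem_flatMap, List.mem_map, List.mem_range, Function.comp] at ha ha' hx hx'
        obtain ⟨b, hb, c, hc, rfl⟩ := hx
        obtain ⟨b', hb', c', hc', h⟩ := hx'
        rw [e a ha b hb c hc, e a' ha' b' hb' c' hc'] at h
        omega⟩
    exact (this.2 trivial).of_map _
  have hbasic : ∀ m, m < 2 ^ 24 → ((Disjoint (g • Cfsg.Agent.M24.toSet 7) (g • Cfsg.Agent.M24.toSet m) ↔ m &&& 7 = 0) ∧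
      ((∃ o ∈ Cfsg.octads, g • Cfsg.Agent.M24.toSet 7 ∪ g • Cfsg.Agent.M24.toSet m ⊆ o) ↔ q m = true)) := by
    intro m hm
    refine ⟨?_, ?_⟩
    · rw [Finset.disjoint_iff_inter_eq_empty, ← Finset.smul_finset_inter, Finset.smul_finset_eq_empty,
        ← Cfsg.Agent.M24.toSet_and, Nat.and_comm]
      refine ⟨fun h => Cfsg.Agent.M24.toSet_inj (lt_of_le_of_lt Nat.and_le_left hm) (by norm_num)
        (h.trans (by decide +kernel)), fun h => by rw [h]; decide +kernel⟩
    · rw [← hq, ← Finset.smul_finset_union, ← Cfsg.Agent.M24.toSet_or, Nat.lor_comm]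
      exact Cfsg.Agent.M24.exists_octad_iff hg (Nat.or_lt_two_pow hm (by norm_num))
  have hof : ∀ U : Finset Cfsg.GolayPt, U.card = 3 → ∃ m ∈ Cfsg.Agent.M24.triadL, g • Cfsg.Agent.M24.toSet m = U := fun U hU => by
    obtain ⟨m, hm, e⟩ := Cfsg.Agent.M24.exists_triad (s := g⁻¹ • U) (by rw [Finset.card_smul_finset, hU])
    exact ⟨m, hm, by rw [e, smul_inv_smul]⟩
  have hc : (Cfsg.Agent.M24.triadL.filter f1).length = 210 ∧ (Cfsg.Agent.M24.triadL.filter f2).length = 1120 := by decide +kernel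
  refine ⟨?_, ?_, ?_⟩
  · rw [Cfsg.Agent.M24.ncard_smul g (S := {U | ∃ m ∈ Cfsg.Agent.M24.triadL.filter f1, Cfsg.Agent.M24.toSet m = U}) ?_]
    · exact (Cfsg.Agent.M24.ncard_list (hnd.filter _) (fun m hm => (hlt m (List.mem_of_mem_filter hm)).1) fun o => Iff.rfl).trans hc.1
    · intro U
      simp only [Set.mem_setOf_eq, Finset.card_smul_finset, List.mem_filter, f1, Bool.and_eq_true, beq_iff_eq]
      constructor
      · rintro ⟨h3, hd, ho⟩
        obtain ⟨m, hm, e⟩ := Cfsg.Agent.M24.exists_triad h3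
        subst e
        exact ⟨m, ⟨hm, (hbasic m (hlt m hm).1).1.1 hd, (hbasic m (hlt m hm).1).2.1 ho⟩, rfl⟩
      · rintro ⟨m, ⟨hm, h1, h2⟩, rfl⟩
        exact ⟨by rw [Cfsg.Agent.M24.card_toSet, (hlt m hm).2], (hbasic m (hlt m hm).1).1.2 h1, (hbasic m (hlt m hm).1).2.2 h2⟩
  · rw [Cfsg.Agent.M24.ncard_smul g (S := {U | ∃ m ∈ Cfsg.Agent.M24.triadL.filter f2, Cfsg.Agent.M24.toSet m = U}) ?_]
    · exact (Cfsg.Agent.M24.ncard_list (hnd.filter _) (fun m hm => (hlt m (List.mem_of_mem_filter hm)).1) fun o => Iff.rfl).trans hc.2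
    · intro U
      simp only [Set.mem_setOf_eq, Finset.card_smul_finset, List.mem_filter, f2, Bool.and_eq_true, beq_iff_eq,
        Bool.not_eq_true']
      constructor
      · rintro ⟨h3, hd, ho⟩
        obtain ⟨m, hm, e⟩ := Cfsg.Agent.M24.exists_triad h3
        subst e
        refine ⟨m, ⟨hm, (hbasic m (hlt m hm).1).1.1 hd, ?_⟩, rfl⟩
        exact Bool.eq_false_iff.2 fun h => ho ((hbasic m (hlt m hm).1).2.2 h)
      · rintro ⟨m, ⟨hm, h1, h2⟩, rfl⟩
        refine ⟨by rw [Cfsg.Agent.M24.card_toSet, (hlt m hm).2], (hbasic m (hlt m hm).1).1.2 h1, fun h => ?_⟩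
        rw [(hbasic m (hlt m hm).1).2.1 h] at h2
        simp at h2
  · intro U U' hU hU' hd hd' hiff
    obtain ⟨a, ha, rfl⟩ := hof U hU
    obtain ⟨b, hb, rfl⟩ := hof U' hU'
    obtain ⟨ad, ao⟩ := hbasic a (hlt a ha).1
    obtain ⟨bd, bo⟩ := hbasic b (hlt b hb).1
    rw [ao, bo] at hiff
    have ok : Cfsg.Agent.M24.orbOk [7] Cfsg.Agent.M24.SmallOrb.triGens 152 Cfsg.Agent.M24.SmallOrb.tri0 (Cfsg.Agent.M24.triadL.filter f1) = true ∧
        Cfsg.Agent.M24.orbOk [7] Cfsg.Agent.M24.SmallOrb.triGens 56 Cfsg.Agent.M24.SmallOrb.tri1 (Cfsg.Agent.M24.triadL.filter f2) = true := by decide +kernel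
    obtain ⟨h, hh, he⟩ : ∃ h ∈ Cfsg.Agent.M24.fixAll [7], h • Cfsg.Agent.M24.toSet a = Cfsg.Agent.M24.toSet b := by
      cases hk : q a
      · have hk' : q b = false := Bool.eq_false_iff.2 fun e => by
          rw [hiff.2 e] at hk; simp at hk
        exact Cfsg.Agent.M24.map_of_orbOk ok.2 (List.mem_filter.2 ⟨ha, by simp [f2, ad.1 hd, hk]⟩)
          (List.mem_filter.2 ⟨hb, by simp [f2, bd.1 hd', hk']⟩)
      · exact Cfsg.Agent.M24.map_of_orbOk ok.1 (List.mem_filter.2 ⟨ha, by simp [f1, ad.1 hd, hk]⟩)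
          (List.mem_filter.2 ⟨hb, by simp [f1, bd.1 hd', hiff.1 hk]⟩)
    exact ⟨g * h * g⁻¹, Cfsg.M24.mul_mem (Cfsg.M24.mul_mem hg hh.1) (Cfsg.M24.inv_mem hg),
      Cfsg.Agent.M24.conj_smul (hh.2 7 List.mem_cons_self), Cfsg.Agent.M24.conj_smul he⟩


end Cfsg.Agent.S1562
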