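import Cfsg.Statements.S1600
import Cfsg.Agent.M24.DodPts

set_option autoImplicit false
open scoped Pointwise
open Cfsg

namespace Cfsg.Agent.S1600

/-- The pointwise stabiliser of three points of a dodecad inside the dodecad stabiliser (order 72) is transitive on the complementary dodecad. -/
theorem result (d : Finset Cfsg.GolayPt) (hd : d ∈ Cfsg.dodecads) (p q r : Cfsg.GolayPt) (hp : p ∈ d) (hq : q ∈ d) (hr : r ∈ d) (hpq : p ≠ q) (hpr : p ≠ r) (hqr : q ≠ r) : Nat.card ↥(MulAction.stabilizer Cfsg.M24 d ⊓ MulAction.stabilizer Cfsg.M24 p ⊓ MulAction.stabilizer Cfsg.M24 q ⊓ MulAction.stabilizer Cfsg.M24 r) = 72 ∧ ∀ x ∉ d, ∀ y ∉ d, ∃ g ∈ (MulAction.stabilizer Cfsg.M24 d ⊓ MulAction.stabilizer Cfsg.M24 p ⊓ MulAction.stabilizer Cfsg.M24 q ⊓ MulAction.stabilizer Cfsg.M24 r), ((g : ↥Cfsg.M24) : Equiv.Perm Cfsg.GolayPt) x = y := by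
  classical
  obtain ⟨g, hg, hgd, rfl, rfl, rfl⟩ := Cfsg.Agent.M24.exists_map_dodecad_three hd hp hq hr hpq hpr hqr
  subst hgd
  refine ⟨?_, fun x hx y hy => ?_⟩
  · rw [← Cfsg.Agent.M24.card_fixAll_dod_three]
    refine Nat.card_congr
      { toFun := fun x => ⟨g⁻¹ * x.1.1 * g, ?_⟩
        invFun := fun x => ⟨⟨g * x.1 * g⁻¹, ?_⟩, ?_⟩
        left_inv := fun x => Subtype.ext (Subtype.ext (by simp [mul_assoc]))
        right_inv := fun x => Subtype.ext (by simp [mul_assoc]) }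
    · obtain ⟨⟨v, hv⟩, ⟨⟨h1, h2⟩, h3⟩, h4⟩ := x
      refine ⟨Cfsg.M24.mul_mem (Cfsg.M24.mul_mem (Cfsg.M24.inv_mem hg) hv) hg, fun m hm => ?_⟩
      have e1 : v • (g • Cfsg.Agent.M24.toSet Cfsg.Agent.M24.dod0) = g • Cfsg.Agent.M24.toSet Cfsg.Agent.M24.dod0 := h1
      have e2 : v (g (Cfsg.Agent.M24.pt 0)) = g (Cfsg.Agent.M24.pt 0) := h2
      have e3 : v (g (Cfsg.Agent.M24.pt 1)) = g (Cfsg.Agent.M24.pt 1) := h3
      have e4 : v (g (Cfsg.Agent.M24.pt 2)) = g (Cfsg.Agent.M24.pt 2) := h4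
      simp only [List.mem_cons, List.not_mem_nil, or_false] at hm
      rcases hm with rfl | rfl | rfl | rfl
      · refine (Cfsg.Agent.M24.smul_toSet_two_pow_iff (i := 2) (j := 2) _ (by norm_num) (by norm_num)).2 ?_
        simp [e4]
      · refine (Cfsg.Agent.M24.smul_toSet_two_pow_iff (i := 1) (j := 1) _ (by norm_num) (by norm_num)).2 ?_
        simp [e3]
      · refine (Cfsg.Agent.M24.smul_toSet_two_pow_iff (i := 0) (j := 0) _ (by norm_num) (by norm_num)).2 ?_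
        simp [e2]
      · rw [mul_smul, mul_smul, e1, inv_smul_smul]
    · exact Cfsg.M24.mul_mem (Cfsg.M24.mul_mem hg x.2.1) (Cfsg.M24.inv_mem hg)
    · exact ⟨⟨⟨MulAction.mem_stabilizer_iff.2 (Cfsg.Agent.M24.conj_smul (x.2.2 Cfsg.Agent.M24.dod0 (by simp))),
        MulAction.mem_stabilizer_iff.2 (Cfsg.Agent.M24.conj_apply (Cfsg.Agent.M24.fixAll_point x.2 (i := 0) (by norm_num) (by simp)))⟩,
        MulAction.mem_stabilizer_iff.2 (Cfsg.Agent.M24.conj_apply (Cfsg.Agent.M24.fixAll_point x.2 (i := 1) (by norm_num) (by simp)))⟩,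
        MulAction.mem_stabilizer_iff.2 (Cfsg.Agent.M24.conj_apply (Cfsg.Agent.M24.fixAll_point x.2 (i := 2) (by norm_num) (by simp)))⟩
  · obtain ⟨i, hi, rfl⟩ := Cfsg.Agent.M24.exists_pt g x
    obtain ⟨j, hj, rfl⟩ := Cfsg.Agent.M24.exists_pt g y
    rw [Cfsg.Agent.M24.mem_smul_toSet g hi, Bool.not_eq_true] at hx
    rw [Cfsg.Agent.M24.mem_smul_toSet g hj, Bool.not_eq_true] at hy
    have key : ∀ i < 24, (Cfsg.Agent.M24.dod0).testBit i = false → 2 ^ i ∈ [32, 128, 1024, 2048, 16384, 32768, 131072, 524288, 1048576, 2097152, 4194304, 8388608] := by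
      decide +kernel
    obtain ⟨u, hu, e⟩ := Cfsg.Agent.M24.map_point (Cfsg.Agent.M24.dodThreeOut_ok) hi hj (key i hi hx) (key j hj hy)
    exact ⟨⟨g * u * g⁻¹, Cfsg.M24.mul_mem (Cfsg.M24.mul_mem hg hu.1) (Cfsg.M24.inv_mem hg)⟩,
      ⟨⟨⟨MulAction.mem_stabilizer_iff.2 (Cfsg.Agent.M24.conj_smul (hu.2 Cfsg.Agent.M24.dod0 (by decide +kernel))),
        MulAction.mem_stabilizer_iff.2 (Cfsg.Agent.M24.conj_apply (Cfsg.Agent.M24.fixAll_point hu (i := 0) (by norm_num) (by decide +kernel)))⟩,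
        MulAction.mem_stabilizer_iff.2 (Cfsg.Agent.M24.conj_apply (Cfsg.Agent.M24.fixAll_point hu (i := 1) (by norm_num) (by decide +kernel)))⟩,
        MulAction.mem_stabilizer_iff.2 (Cfsg.Agent.M24.conj_apply (Cfsg.Agent.M24.fixAll_point hu (i := 2) (by norm_num) (by decide +kernel)))⟩,
      Cfsg.Agent.M24.conj_apply e⟩

end Cfsg.Agent.S1600
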