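import Cfsg.Statements.S1604
import Cfsg.Agent.M24.OctPts

set_option autoImplicit false
open scoped Pointwise
open Cfsg

namespace Cfsg.Agent.S1604

/-- layer data -/
def cs2L0P0 : List (List ℕ) := [[0, 1]]

/-- layer data -/
def cs2L1P0 : List (List ℕ) := [[0, 1], [0, 1]]

/-- layer data -/
def cs2L2P0 : List (List ℕ) := [[1], [], [0, 1], []]

/-- layer data -/
def cs2L3P0 : List (List ℕ) := [[1], [0], [0]]

/-- layer data -/
def cs2L4P0 : List (List ℕ) := [[1], [], [1]]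

/-- layer data -/
def cs2L5P0 : List (List ℕ) := [[0], []]

/-- An orbit certificate. -/
def cs2 : Cfsg.Agent.M24.Cert where
  fx := [5279, 1, 2]
  gens := [774186376443406206891286841815833632, 277277630926139824855071202354472992]
  x0 := 9347075
  sp := [cs2L0P0, cs2L1P0, cs2L2P0, cs2L3P0, cs2L4P0, cs2L5P0]

/-- layer data -/
def cs4L0P0 : List (List ℕ) := [[0, 1]]

/-- layer data -/
def cs4L1P0 : List (List ℕ) := [[0, 1], [0, 1]]

/-- layer data -/
def cs4L2P0 : List (List ℕ) := [[0, 1], [0, 1], [0, 1], [0]]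

/-- layer data -/
def cs4L3P0 : List (List ℕ) := [[], [0, 1], [0, 1], [0], [0, 1], [0, 1], [1]]

/-- layer data -/
def cs4L4P0 : List (List ℕ) := [[0, 1], [0], [0, 1], [0, 1], [1], [1], [1], [0, 1], [0], [1]]

/-- layer data -/
def cs4L5P0 : List (List ℕ) := [[0, 1], [0], [0], [1], [0], [0], [0], [0], [0, 1], [0], [0, 1], [1], [1], [0]]

/-- layer data -/
def cs4L6P0 : List (List ℕ) := [[], [], [], [], [1], [0], [0], [], [], [], [], [], [], [1], [], [], []]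

/-- layer data -/
def cs4L7P0 : List (List ℕ) := [[], [], [1], []]

/-- An orbit certificate. -/
def cs4 : Cfsg.Agent.M24.Cert where
  fx := [5279, 1, 2]
  gens := [894839877611410313977266160534693920, 758548709334625621835979119240744992]
  x0 := 5902343
  sp := [cs4L0P0, cs4L1P0, cs4L2P0, cs4L3P0, cs4L4P0, cs4L5P0, cs4L6P0, cs4L7P0]

/-- An orbit certificate. -/
def cs8 : Cfsg.Agent.M24.Cert where
  fx := [5279, 1, 2]
  gens := [588937339939321534589707254941231136]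
  x0 := 5279
  sp := []

/-- Certificates by key. -/
def cs : List (ℕ × Cfsg.Agent.M24.Cert) := [(2, cs2), (4, cs4), (8, cs8)]

theorem cs_ok : Cfsg.Agent.M24.keyCheck [Cfsg.Agent.M24.oct0, 1, 2] (Cfsg.Agent.M24.octL.filter fun m => m.testBit 0 && m.testBit 1)
    (fun m => Cfsg.Agent.M24.pc (Cfsg.Agent.M24.oct0 &&& m)) cs = true := by
  decide +kernel

/-- A hexad stabiliser in the two-point stabiliser has orbits of sizes 1, 16, 60 on the 77 hexads: the 16 hexads disjoint from it and the 60 meeting it in two points. -/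
theorem result (p q : Cfsg.GolayPt) (hpq : p ≠ q) (o o' o'' : Finset Cfsg.GolayPt) (ho : o ∈ Cfsg.octads) (ho' : o' ∈ Cfsg.octads) (ho'' : o'' ∈ Cfsg.octads) (hp : p ∈ o ∧ p ∈ o' ∧ p ∈ o'') (hq : q ∈ o ∧ q ∈ o' ∧ q ∈ o'') (h : (o ∩ o').card = (o ∩ o'').card) : {x : Finset Cfsg.GolayPt | x ∈ Cfsg.octads ∧ p ∈ x ∧ q ∈ x ∧ (o ∩ x).card = 2}.ncard = 16 ∧ {x : Finset Cfsg.GolayPt | x ∈ Cfsg.octads ∧ p ∈ x ∧ q ∈ x ∧ (o ∩ x).card = 4}.ncard = 60 ∧ ∃ g : Equiv.Perm Cfsg.GolayPt, g ∈ Cfsg.M24 ∧ g p = p ∧ g q = q ∧ g • o = o ∧ g • o' = o'' := by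
  obtain ⟨g, hg, rfl, rfl, rfl⟩ := Cfsg.Agent.M24.exists_map_octad_two_in ho hp.1 hq.1 hpq
  obtain ⟨m, hm, rfl⟩ := Cfsg.Agent.M24.exists_octad hg ho'
  obtain ⟨n, hn, rfl⟩ := Cfsg.Agent.M24.exists_octad hg ho''
  simp only [Cfsg.Agent.M24.mem_smul_toSet g (show 0 < 24 by norm_num), Cfsg.Agent.M24.mem_smul_toSet g (show 1 < 24 by norm_num)] at hp hq
  refine ⟨?_, ?_, ?_⟩
  · exact Cfsg.Agent.M24.ncard_octads_smul hg _ (fun m => m.testBit 0 && m.testBit 1 && Cfsg.Agent.M24.pc (Cfsg.Agent.M24.oct0 &&& m) == 2) 16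
      (fun m _ => by simp [Cfsg.Agent.M24.card_smul_inter, Cfsg.Agent.M24.mem_smul_toSet g (show 0 < 24 by norm_num),
        Cfsg.Agent.M24.mem_smul_toSet g (show 1 < 24 by norm_num), and_assoc]) (by decide +kernel)
  · exact Cfsg.Agent.M24.ncard_octads_smul hg _ (fun m => m.testBit 0 && m.testBit 1 && Cfsg.Agent.M24.pc (Cfsg.Agent.M24.oct0 &&& m) == 4) 60
      (fun m _ => by simp [Cfsg.Agent.M24.card_smul_inter, Cfsg.Agent.M24.mem_smul_toSet g (show 0 < 24 by norm_num),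
        Cfsg.Agent.M24.mem_smul_toSet g (show 1 < 24 by norm_num), and_assoc]) (by decide +kernel)
  · rw [Cfsg.Agent.M24.card_smul_inter, Cfsg.Agent.M24.card_smul_inter] at h
    obtain ⟨u, hu, e⟩ := Cfsg.Agent.M24.map_of_keyCheck cs_ok
      (List.mem_filter.2 ⟨hm, by simp [hp.2.1, hq.2.1]⟩) (List.mem_filter.2 ⟨hn, by simp [hp.2.2, hq.2.2]⟩) h
    exact ⟨g * u * g⁻¹, Cfsg.M24.mul_mem (Cfsg.M24.mul_mem hg hu.1) (Cfsg.M24.inv_mem hg),
      Cfsg.Agent.M24.conj_apply (Cfsg.Agent.M24.fixAll_point hu (i := 0) (by norm_num) (by decide +kernel)),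
      Cfsg.Agent.M24.conj_apply (Cfsg.Agent.M24.fixAll_point hu (i := 1) (by norm_num) (by decide +kernel)),
      Cfsg.Agent.M24.conj_smul (hu.2 Cfsg.Agent.M24.oct0 (by decide +kernel)), Cfsg.Agent.M24.conj_smul e⟩

end Cfsg.Agent.S1604
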