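import Cfsg.Statements.S1607
import Cfsg.Agent.M24.Trans

set_option autoImplicit false
open scoped Pointwise
open Cfsg

namespace Cfsg.Agent.S1607

/-- layer data -/
def cs2L0P0 : List (List ℕ) := [[0, 1]]

/-- layer data -/
def cs2L1P0 : List (List ℕ) := [[0, 1], [0, 1]]

/-- layer data -/
def cs2L2P0 : List (List ℕ) := [[0, 1], [0, 1], [0, 1], [0, 1]]

/-- layer data -/
def cs2L3P0 : List (List ℕ) := [[0, 1], [0, 1], [0, 1], [0, 1], [0, 1], [0, 1], [0], [0, 1]]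

/-- layer data -/
def cs2L4P0 : List (List ℕ) := [[1], [1], [0, 1], [0, 1], [0, 1], [0, 1], [0, 1], [0, 1], [0], [0, 1], [0, 1], [1], [0, 1], [0, 1], [0, 1]]

/-- layer data -/
def cs2L5P0 : List (List ℕ) := [[0, 1], [0, 1], [0, 1], [0], [0, 1], [0, 1], [1], [0], [], [], [1], [0], [0, 1], [0, 1], [1], [0], [], [0, 1], [1], [0], [0, 1], [], [], [0, 1], [1], [0]]

/-- layer data -/
def cs2L6P0 : List (List ℕ) := [[1], [], [0], [], [], [0], [0], [1], [0], [0], [1], [], [0], [0, 1], [], [], [1], [1], [], [], [0], [], [0], [], [], [], [0], [0, 1], [], [], []]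

/-- layer data -/
def cs2L7P0 : List (List ℕ) := [[0], [1], [], [], [], [], [1], [], [0, 1], [1], [], [], [], [], [], [], [], []]

/-- layer data -/
def cs2L8P0 : List (List ℕ) := [[], [], [0], [], [], []]

/-- An orbit certificate. -/
def cs2 : Cfsg.Agent.M24.Cert where
  fx := [5279, 1]
  gens := [754645326779192101628801404597541920, 547069494957080216709081948672372960]
  x0 := 13062145
  sp := [cs2L0P0, cs2L1P0, cs2L2P0, cs2L3P0, cs2L4P0, cs2L5P0, cs2L6P0, cs2L7P0, cs2L8P0]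

/-- layer data -/
def cs4L0P0 : List (List ℕ) := [[0, 1]]

/-- layer data -/
def cs4L1P0 : List (List ℕ) := [[0, 1], [0, 1]]

/-- layer data -/
def cs4L2P0 : List (List ℕ) := [[0, 1], [0, 1], [0, 1], [0, 1]]

/-- layer data -/
def cs4L3P0 : List (List ℕ) := [[1], [0, 1], [0, 1], [0, 1], [0, 1], [0, 1], [0, 1], [0, 1]]

/-- layer data -/
def cs4L4P0 : List (List ℕ) := [[0, 1], [0, 1], [0, 1], [0, 1], [0], [1], [0, 1], [1], [0, 1], [0], [0, 1], [1], [0, 1], [0, 1], []]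

/-- layer data -/
def cs4L5P0 : List (List ℕ) := [[0, 1], [0, 1], [0, 1], [1], [0, 1], [0, 1], [1], [0], [1], [0, 1], [0, 1], [], [], [0, 1], [1], [], [1], [0, 1], [0, 1], [0, 1], [1], [0], [0, 1]]

/-- layer data -/
def cs4L6P0 : List (List ℕ) := [[0], [], [0], [1], [1], [0, 1], [1], [0, 1], [1], [0], [0], [1], [0, 1], [0], [], [], [0, 1], [], [0], [], [0, 1], [0], [1], [0], [0], [0], [0], [], [0, 1], [1], [], [0]]

/-- layer data -/
def cs4L7P0 : List (List ℕ) := [[1], [], [], [0, 1], [], [0, 1], [], [], [0, 1], [0], [1], [], [0], [], [], [0, 1], [1], [0], [1], [0], [], [], [], [1], [], [], [1], [1], [], [], []]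

/-- layer data -/
def cs4L8P0 : List (List ℕ) := [[], [0, 1], [], [], [0], [], [], [1], [], [], [], [], [], [], [], [], [], [1], []]

/-- An orbit certificate. -/
def cs4 : Cfsg.Agent.M24.Cert where
  fx := [5279, 1]
  gens := [973035510074520410764198324857014496, 351394476045916756913501030079110208]
  x0 := 5902343
  sp := [cs4L0P0, cs4L1P0, cs4L2P0, cs4L3P0, cs4L4P0, cs4L5P0, cs4L6P0, cs4L7P0, cs4L8P0]

/-- An orbit certificate. -/
def cs8 : Cfsg.Agent.M24.Cert where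
  fx := [5279, 1]
  gens := [984769661582283537672743728474097984]
  x0 := 5279
  sp := []

/-- Certificates by key. -/
def cs : List (ℕ × Cfsg.Agent.M24.Cert) := [(2, cs2), (4, cs4), (8, cs8)]

theorem cs_ok : Cfsg.Agent.M24.keyCheck [Cfsg.Agent.M24.oct0, 1] (Cfsg.Agent.M24.octL.filter fun m => m.testBit 0)
    (fun m => Cfsg.Agent.M24.pc (Cfsg.Agent.M24.oct0 &&& m)) cs = true := by
  decide +kernel

/-- The point stabiliser acts on the 253 heptads of its S(4, 7, 23) with rank 3 and subdegrees 1, 112, 140 (intersections 8, 2, 4). -/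
theorem result (x : Cfsg.GolayPt) (o : Finset Cfsg.GolayPt) (ho : o ∈ Cfsg.octads) (hx : x ∈ o) : {o' : Finset Cfsg.GolayPt | o' ∈ Cfsg.octads ∧ x ∈ o' ∧ (o ∩ o').card = 2}.ncard = 112 ∧ {o' : Finset Cfsg.GolayPt | o' ∈ Cfsg.octads ∧ x ∈ o' ∧ (o ∩ o').card = 4}.ncard = 140 ∧ ∀ o' o'' : Finset Cfsg.GolayPt, o' ∈ Cfsg.octads → o'' ∈ Cfsg.octads → x ∈ o' → x ∈ o'' → (o ∩ o').card = (o ∩ o'').card → ∃ g : Equiv.Perm Cfsg.GolayPt, g ∈ Cfsg.M24 ∧ g x = x ∧ g • o = o ∧ g • o' = o'' := by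
  obtain ⟨g, hg, rfl, rfl⟩ := Cfsg.Agent.M24.exists_map_octad_pt_mem ho hx
  refine ⟨?_, ?_, ?_⟩
  · exact Cfsg.Agent.M24.ncard_octads_smul hg _ (fun m => m.testBit 0 && Cfsg.Agent.M24.pc (Cfsg.Agent.M24.oct0 &&& m) == 2) 112
      (fun m _ => by simp [Cfsg.Agent.M24.card_smul_inter, Cfsg.Agent.M24.mem_smul_toSet g (show 0 < 24 by norm_num)]) (by decide +kernel)
  · exact Cfsg.Agent.M24.ncard_octads_smul hg _ (fun m => m.testBit 0 && Cfsg.Agent.M24.pc (Cfsg.Agent.M24.oct0 &&& m) == 4) 140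
      (fun m _ => by simp [Cfsg.Agent.M24.card_smul_inter, Cfsg.Agent.M24.mem_smul_toSet g (show 0 < 24 by norm_num)]) (by decide +kernel)
  · intro p q hp hq hxp hxq h
    obtain ⟨m, hm, rfl⟩ := Cfsg.Agent.M24.exists_octad hg hp
    obtain ⟨n, hn, rfl⟩ := Cfsg.Agent.M24.exists_octad hg hq
    rw [Cfsg.Agent.M24.card_smul_inter, Cfsg.Agent.M24.card_smul_inter] at h
    rw [Cfsg.Agent.M24.mem_smul_toSet g (show 0 < 24 by norm_num)] at hxp hxq
    obtain ⟨u, hu, e⟩ := Cfsg.Agent.M24.map_of_keyCheck cs_ok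
      (a := m) (b := n) (List.mem_filter.2 ⟨hm, by simpa using hxp⟩)
      (List.mem_filter.2 ⟨hn, by simpa using hxq⟩) h
    exact ⟨g * u * g⁻¹, Cfsg.M24.mul_mem (Cfsg.M24.mul_mem hg hu.1) (Cfsg.M24.inv_mem hg),
      Cfsg.Agent.M24.conj_apply (Cfsg.Agent.M24.fixAll_point hu (by norm_num) (by decide +kernel)),
      Cfsg.Agent.M24.conj_smul (hu.2 Cfsg.Agent.M24.oct0 (by decide +kernel)), Cfsg.Agent.M24.conj_smul e⟩

end Cfsg.Agent.S1607
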