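import Cfsg.Statements.S1636
import Cfsg.Agent.M24.Code

set_option autoImplicit false
open Cfsg

namespace Cfsg.Agent.S1636

/-- The punctured length-23 code has weight distribution 0^1 7^253 8^506 11^1288 12^1288 15^506 16^253 23^1. -/
theorem result : {u : ZMod 23 → ZMod 2 | ∃ w ∈ Cfsg.golayCode, ∀ x : ZMod 23, u x = w (some x)}.ncard = 4096 ∧ {u : ZMod 23 → ZMod 2 | u ∈ {u : ZMod 23 → ZMod 2 | ∃ w ∈ Cfsg.golayCode, ∀ x : ZMod 23, u x = w (some x)} ∧ hammingNorm u = 7}.ncard = 253 ∧ {u : ZMod 23 → ZMod 2 | u ∈ {u : ZMod 23 → ZMod 2 | ∃ w ∈ Cfsg.golayCode, ∀ x : ZMod 23, u x = w (some x)} ∧ hammingNorm u = 8}.ncard = 506 ∧ {u : ZMod 23 → ZMod 2 | u ∈ {u : ZMod 23 → ZMod 2 | ∃ w ∈ Cfsg.golayCode, ∀ x : ZMod 23, u x = w (some x)} ∧ hammingNorm u = 11}.ncard = 1288 ∧ {u : ZMod 23 → ZMod 2 | u ∈ {u : ZMod 23 → ZMod 2 | ∃ w ∈ Cfsg.golayCode, ∀ x : ZMod 23, u x = w (some x)} ∧ hammingNorm u = 12}.ncard = 1288 ∧ {u : ZMod 23 →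 ZMod 2 | u ∈ {u : ZMod 23 → ZMod 2 | ∃ w ∈ Cfsg.golayCode, ∀ x : ZMod 23, u x = w (some x)} ∧ hammingNorm u = 15}.ncard = 506 ∧ {u : ZMod 23 → ZMod 2 | u ∈ {u : ZMod 23 → ZMod 2 | ∃ w ∈ Cfsg.golayCode, ∀ x : ZMod 23, u x = w (some x)} ∧ hammingNorm u = 16}.ncard = 253 ∧ ∀ u ∈ {u : ZMod 23 → ZMod 2 | ∃ w ∈ Cfsg.golayCode, ∀ x : ZMod 23, u x = w (some x)}, u ≠ 0 → 7 ≤ hammingNorm u := by
  classical
  let f : ℕ → ZMod 23 → ZMod 2 := fun n x => Cfsg.Agent.M24.toWord (Cfsg.Agent.M24.enc n) (some x)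
  have hset : {u : ZMod 23 → ZMod 2 | ∃ w ∈ Cfsg.golayCode, ∀ x : ZMod 23, u x = w (some x)} =
      f '' {n | n < 4096} := by
    ext u
    constructor
    · rintro ⟨w, hw, he⟩
      rw [Cfsg.Agent.M24.golayCode_eq] at hw
      obtain ⟨n, hn, rfl⟩ := hw
      exact ⟨n, hn, funext fun x => (he x).symm⟩
    · rintro ⟨n, hn, rfl⟩
      exact ⟨_, Cfsg.Agent.M24.toWord_enc_mem n, fun x => rfl⟩
  have hix : ∀ x : ZMod 23, Cfsg.Agent.M24.ix (some x) = x.val := fun x => rfl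
  have hinj : Set.InjOn f {n | n < 4096} := by
    intro a ha b hb h
    have hbit : ∀ i < 12, a.testBit i = b.testBit i := by
      intro i hi
      have h1 := congrFun h ((i : ℕ) : ZMod 23)
      simp only [f, Cfsg.Agent.M24.toWord, hix, ZMod.val_natCast, Nat.mod_eq_of_lt (by omega : i < 23)] at h1
      have e : ∀ n, n < 4096 → (Cfsg.Agent.M24.enc n).testBit i = n.testBit i := fun n hn => by
        conv_rhs => rw [← Cfsg.Agent.M24.enc_mod hn, show (4096 : ℕ) = 2 ^ 12 from rfl, Nat.testBit_mod_two_pow]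
        simp [hi]
      rw [e a ha, e b hb] at h1
      by_cases p : a.testBit i <;> by_cases q : b.testBit i <;> simp [p, q] at h1 ⊢
    refine Nat.eq_of_testBit_eq fun i => ?_
    rcases Nat.lt_or_ge i 12 with hi | hi
    · exact hbit i hi
    · rw [Nat.testBit_lt_two_pow (lt_of_lt_of_le ha (Nat.pow_le_pow_right (by norm_num : 0 < 2) hi)),
        Nat.testBit_lt_two_pow (lt_of_lt_of_le hb (Nat.pow_le_pow_right (by norm_num : 0 < 2) hi))]
  let q : ℕ → ℕ := fun n => Cfsg.Agent.M24.pc (Cfsg.Agent.M24.enc n % 2 ^ 23)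
  have hnorm : ∀ n, hammingNorm (f n) = q n := by
    intro n
    show hammingNorm (f n) = Cfsg.Agent.M24.pc (Cfsg.Agent.M24.enc n % 2 ^ 23)
    rw [← Cfsg.Agent.M24.card_toSet, hammingNorm]
    refine Finset.card_bij (fun x _ => some x) (fun x hx => ?_) (fun a _ b _ h => Option.some.inj h) (fun y hy => ?_)
    · rw [Finset.mem_filter] at hx
      rw [Cfsg.Agent.M24.mem_toSet, Nat.testBit_mod_two_pow, hix]
      have := hx.2
      simp only [f, Cfsg.Agent.M24.toWord, hix] at this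
      simp [ZMod.val_lt x]
      by_contra hb
      simp [hb] at this
    · rw [Cfsg.Agent.M24.mem_toSet, Nat.testBit_mod_two_pow] at hy
      rcases y with _ | x
      · simp [Cfsg.Agent.M24.ix] at hy
      · refine ⟨x, ?_, rfl⟩
        simp only [Bool.and_eq_true, decide_eq_true_eq] at hy
        simp [f, Cfsg.Agent.M24.toWord, hy.2]
  have hcard : ∀ (P : ℕ → Bool), (f '' {n | n < 4096 ∧ P n = true}).ncard = (List.range 4096).countP P := by
    intro P
    rw [Set.InjOn.ncard_image (hinj.mono fun n hn => hn.1), List.countP_eq_length_filter,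
      ← List.toFinset_card_of_nodup (List.nodup_range.filter _), ← Set.ncard_coe_finset]
    congr 1
    ext n
    simp
  have hw : ∀ k, {u : ZMod 23 → ZMod 2 | u ∈ f '' {n | n < 4096} ∧ hammingNorm u = k}.ncard =
      (List.range 4096).countP fun n => q n == k := by
    intro k
    rw [← hcard]
    congr 1
    ext u
    constructor
    · rintro ⟨⟨n, hn, rfl⟩, h⟩; exact ⟨n, ⟨hn, by simpa [hnorm] using h⟩, rfl⟩
    · rintro ⟨n, ⟨hn, h⟩, rfl⟩; exact ⟨⟨n, hn, rfl⟩, by simpa [hnorm] using h⟩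
  have counts : ([7, 8, 11, 12, 15, 16].map fun k => (List.range 4096).countP fun n => q n == k) =
      [253, 506, 1288, 1288, 506, 253] := by decide +kernel
  simp only [List.map_cons, List.map_nil, List.cons.injEq, and_true] at counts
  obtain ⟨c1, c2, c3, c4, c5, c6⟩ := counts
  have hmin : ∀ n < 4096, n = 0 ∨ 7 ≤ q n := Cfsg.Agent.M24.forall_lt_4096 (by decide +kernel)
  rw [hset]
  refine ⟨?_, (hw 7).trans c1, (hw 8).trans c2, (hw 11).trans c3, (hw 12).trans c4, (hw 15).trans c5, (hw 16).trans c6, ?_⟩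
  · rw [Set.InjOn.ncard_image hinj]
    exact Set.ncard_Iio_nat 4096
  · rintro u ⟨n, hn, rfl⟩ hu
    rw [hnorm]
    refine (hmin n hn).resolve_left ?_
    rintro rfl
    apply hu
    funext x
    simp [f, show Cfsg.Agent.M24.enc 0 = 0 by decide +kernel, Cfsg.Agent.M24.toWord_zero]


end Cfsg.Agent.S1636
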