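import Cfsg.Statements.S1638
import Cfsg.Agent.M24.SmallOrb
import Cfsg.Agent.M24.Simple

set_option autoImplicit false
open scoped Pointwise
open Cfsg

namespace Cfsg.Agent.S1638
open scoped Pointwise

/-- Fix two points p ≠ q and a pair s of two further points. Among the pairs avoiding p, q and disjoint from s, exactly 30 lie in an octad together with p, q and s and exactly 160 do not; and any two pairs other than s that meet s in equally many points and agree on that octad property are carried to one another by an element of the group of the length-24 code fixing p, q and s. -/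
theorem result (p q : Cfsg.GolayPt) (hpq : p ≠ q) (s : Finset Cfsg.GolayPt) (hs : (s.card = 2 ∧ p ∉ s ∧ q ∉ s)) : {t : Finset Cfsg.GolayPt | (t.card = 2 ∧ p ∉ t ∧ q ∉ t) ∧ Disjoint s t ∧ (∃ o ∈ Cfsg.octads, p ∈ o ∧ q ∈ o ∧ s ∪ t ⊆ o)}.ncard = 30 ∧ {t : Finset Cfsg.GolayPt | (t.card = 2 ∧ p ∉ t ∧ q ∉ t) ∧ Disjoint s t ∧ ¬ (∃ o ∈ Cfsg.octads, p ∈ o ∧ q ∈ o ∧ s ∪ t ⊆ o)}.ncard = 160 ∧ ∀ t t' : Finset Cfsg.GolayPt, (t.card = 2 ∧ p ∉ t ∧ q ∉ t) → (t'.card = 2 ∧ p ∉ t' ∧ q ∉ t') → t ≠ s → t' ≠ s → (s ∩ t).card = (s ∩ t').card → ((∃ o ∈ Cfsg.octads, p ∈ o ∧ q ∈ o ∧ s ∪ t ⊆ o) ↔ (∃ o ∈ Cfsg.octads, p ∈ o ∧ q ∈ o ∧ s ∪ t' ⊆ o)) → ∃ g : Equiv.Perm Cfsg.GolayPt, g ∈ Cfsg.M24 ∧ g p = p ∧ g q = q ∧ g • s = s ∧ g • t = t' := by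
  classical
  obtain ⟨x, y, hxy, rfl⟩ := Finset.card_eq_two.1 hs.1
  have hpx : p ≠ x := fun e => hs.2.1 (by simp [e])
  have hpy : p ≠ y := fun e => hs.2.1 (by simp [e])
  have hqx : q ≠ x := fun e => hs.2.2 (by simp [e])
  have hqy : q ≠ y := fun e => hs.2.2 (by simp [e])
  obtain ⟨g, hg, he⟩ := Cfsg.Agent.M24.exists_map_pts (n := 4) (by norm_num) ![Cfsg.Agent.M24.pt 0, Cfsg.Agent.M24.pt 1, Cfsg.Agent.M24.pt 2, Cfsg.Agent.M24.pt 3]
    ![p, q, x, y] (by decide +kernel)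
    (by intro i j; fin_cases i <;> fin_cases j <;> simp [hpq, hpx, hpy, hqx, hqy, hxy, Ne.symm hpq,
      Ne.symm hpx, Ne.symm hpy, Ne.symm hqx, Ne.symm hqy, Ne.symm hxy])
  have hgp : g (Cfsg.Agent.M24.pt 0) = p := he 0
  have hgq : g (Cfsg.Agent.M24.pt 1) = q := he 1
  have hgx : g (Cfsg.Agent.M24.pt 2) = x := he 2
  have hgy : g (Cfsg.Agent.M24.pt 3) = y := he 3
  have e12 : Cfsg.Agent.M24.toSet 12 = {Cfsg.Agent.M24.pt 2, Cfsg.Agent.M24.pt 3} := by decide +kernel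
  have hgs : ({x, y} : Finset Cfsg.GolayPt) = g • Cfsg.Agent.M24.toSet 12 := by
    rw [e12, Finset.smul_finset_insert, Finset.smul_finset_singleton, Equiv.Perm.smul_def,
      Equiv.Perm.smul_def, hgx, hgy]
  rw [hgs]
  let qf : ℕ → Bool := fun m => ([3416079, 8536111, 622863, 5279, 4196943] : List ℕ).any fun o => (m ||| 15) &&& o == (m ||| 15)
  have hL : Cfsg.Agent.M24.octL.filter (fun o => o &&& 15 == 15) = [3416079, 8536111, 622863, 5279, 4196943] := by decide +kernel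
  have hlt : ∀ m ∈ Cfsg.Agent.M24.duadL, m < 2 ^ 24 ∧ Cfsg.Agent.M24.pc m = 2 := by decide +kernel
  have hnd : Cfsg.Agent.M24.duadL.Nodup := by decide +kernel
  let ok : ℕ → Bool := fun m => m &&& 3 == 0
  let f0 : ℕ → Bool := fun m => ok m && (m != 12) && !(m &&& 12 == 0)
  let f1 : ℕ → Bool := fun m => ok m && m &&& 12 == 0 && qf m
  let f2 : ℕ → Bool := fun m => ok m && m &&& 12 == 0 && !qf m
  have hq : ∀ m ∈ Cfsg.Agent.M24.duadL, ((∃ o ∈ Cfsg.octads, p ∈ o ∧ q ∈ o ∧ g • Cfsg.Agent.M24.toSet 12 ∪ g • Cfsg.Agent.M24.toSet m ⊆ o) ↔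
      qf m = true) := by
    intro m hm
    have e3 : Cfsg.Agent.M24.toSet 3 = {Cfsg.Agent.M24.pt 0, Cfsg.Agent.M24.pt 1} := by decide +kernel
    have hu : g • Cfsg.Agent.M24.toSet 3 ∪ (g • Cfsg.Agent.M24.toSet 12 ∪ g • Cfsg.Agent.M24.toSet m) = g • Cfsg.Agent.M24.toSet (m ||| 15) := by
      rw [← Finset.smul_finset_union, ← Finset.smul_finset_union, ← Cfsg.Agent.M24.toSet_or, ← Cfsg.Agent.M24.toSet_or,
        Nat.lor_comm m 15, show (15 : ℕ) = 3 ||| 12 from rfl, Nat.lor_assoc]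
    have hpq3 : g • Cfsg.Agent.M24.toSet 3 = {p, q} := by
      rw [e3, Finset.smul_finset_insert, Finset.smul_finset_singleton, Equiv.Perm.smul_def,
        Equiv.Perm.smul_def, hgp, hgq]
    have h1 : (∃ o ∈ Cfsg.octads, p ∈ o ∧ q ∈ o ∧ g • Cfsg.Agent.M24.toSet 12 ∪ g • Cfsg.Agent.M24.toSet m ⊆ o) ↔
        ∃ o ∈ Cfsg.octads, g • Cfsg.Agent.M24.toSet (m ||| 15) ⊆ o := by
      simp only [← hu, hpq3, Finset.union_subset_iff, Finset.insert_subset_iff, Finset.singleton_subset_iff,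
        and_assoc]
    rw [h1, Cfsg.Agent.M24.exists_octad_iff hg (Nat.or_lt_two_pow (hlt m hm).1 (by norm_num))]
    simp only [Cfsg.Agent.M24.inOctB, qf, ← hL, List.any_eq_true, List.mem_filter, beq_iff_eq]
    refine ⟨fun ⟨o, ho, h⟩ => ⟨o, ⟨ho, ?_⟩, h⟩, fun ⟨o, ⟨ho, _⟩, h⟩ => ⟨o, ho, h⟩⟩
    refine Nat.eq_of_testBit_eq fun i => ?_
    have t := congrArg (fun z => Nat.testBit z i) h
    simp only [Nat.testBit_and, Nat.testBit_or] at t ⊢
    cases h15 : Nat.testBit 15 i <;> simp [h15] at t ⊢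
    exact t
  have hb : ∀ m, m < 2 ^ 24 → ((p ∉ g • Cfsg.Agent.M24.toSet m ∧ q ∉ g • Cfsg.Agent.M24.toSet m ↔ ok m = true) ∧
      (Disjoint (g • Cfsg.Agent.M24.toSet 12) (g • Cfsg.Agent.M24.toSet m) ↔ m &&& 12 = 0)) := by
    intro m hm
    refine ⟨?_, ?_⟩
    · rw [← hgp, ← hgq, Cfsg.Agent.M24.mem_smul_toSet g (by norm_num), Cfsg.Agent.M24.mem_smul_toSet g (by norm_num)]
      simp only [ok, beq_iff_eq, Bool.not_eq_true]
      constructor
      · rintro ⟨a, b⟩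
        refine Nat.eq_of_testBit_eq fun i => ?_
        rw [Nat.testBit_and, Nat.zero_testBit]
        rcases i with _ | _ | i
        · simp [a]
        · simp [b]
        · rw [Nat.testBit_lt_two_pow (x := 3) (by
            calc (3 : ℕ) < 2 ^ 2 := by norm_num
              _ ≤ 2 ^ (i + 2) := Nat.pow_le_pow_right (by norm_num) (by omega))]
          simp
      · intro h
        exact ⟨by simpa using congrArg (fun z => Nat.testBit z 0) h, by
          have := congrArg (fun z => Nat.testBit z 1) h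
          rw [Nat.testBit_and] at this
          simpa [show Nat.testBit 3 1 = true by decide] using this⟩
    · rw [Finset.disjoint_iff_inter_eq_empty, ← Finset.smul_finset_inter, Finset.smul_finset_eq_empty,
        ← Cfsg.Agent.M24.toSet_and, Nat.and_comm]
      exact ⟨fun h => Cfsg.Agent.M24.toSet_inj (lt_of_le_of_lt Nat.and_le_left hm) (by norm_num)
        (h.trans (by decide +kernel)), fun h => by rw [h]; decide +kernel⟩
  have hof : ∀ t : Finset Cfsg.GolayPt, t.card = 2 → ∃ m ∈ Cfsg.Agent.M24.duadL, g • Cfsg.Agent.M24.toSet m = t := fun t ht => by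
    obtain ⟨m, hm, e⟩ := Cfsg.Agent.M24.exists_duad (s := g⁻¹ • t) (by rw [Finset.card_smul_finset, ht])
    exact ⟨m, hm, by rw [e, smul_inv_smul]⟩
  have hc : (Cfsg.Agent.M24.duadL.filter f1).length = 30 ∧ (Cfsg.Agent.M24.duadL.filter f2).length = 160 := by decide +kernel
  have hcard : ∀ m ∈ Cfsg.Agent.M24.duadL, (g • Cfsg.Agent.M24.toSet m).card = 2 := fun m hm => by
    rw [Finset.card_smul_finset, Cfsg.Agent.M24.card_toSet, (hlt m hm).2]
  refine ⟨?_, ?_, ?_⟩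
  · rw [Cfsg.Agent.M24.ncard_smul g (S := {t | ∃ m ∈ Cfsg.Agent.M24.duadL.filter f1, Cfsg.Agent.M24.toSet m = t}) ?_]
    · exact (Cfsg.Agent.M24.ncard_list (hnd.filter _) (fun m hm => (hlt m (List.mem_of_mem_filter hm)).1) fun o => Iff.rfl).trans hc.1
    · intro t
      simp only [Set.mem_setOf_eq, List.mem_filter, f1, Bool.and_eq_true, beq_iff_eq]
      constructor
      · rintro ⟨⟨h2, h3⟩, hd, ho⟩
        obtain ⟨m, hm, e⟩ := Cfsg.Agent.M24.exists_duad (by rwa [Finset.card_smul_finset] at h2)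
        subst e
        exact ⟨m, ⟨hm, ⟨(hb m (hlt m hm).1).1.1 h3, (hb m (hlt m hm).1).2.1 hd⟩, (hq m hm).1 ho⟩, rfl⟩
      · rintro ⟨m, ⟨hm, ⟨h1, h2⟩, h3⟩, rfl⟩
        exact ⟨⟨hcard m hm, (hb m (hlt m hm).1).1.2 h1⟩, (hb m (hlt m hm).1).2.2 h2, (hq m hm).2 h3⟩
  · rw [Cfsg.Agent.M24.ncard_smul g (S := {t | ∃ m ∈ Cfsg.Agent.M24.duadL.filter f2, Cfsg.Agent.M24.toSet m = t}) ?_]
    · exact (Cfsg.Agent.M24.ncard_list (hnd.filter _) (fun m hm => (hlt m (List.mem_of_mem_filter hm)).1) fun o => Iff.rfl).trans hc.2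
    · intro t
      simp only [Set.mem_setOf_eq, List.mem_filter, f2, Bool.and_eq_true, beq_iff_eq, Bool.not_eq_true']
      constructor
      · rintro ⟨⟨h2, h3⟩, hd, ho⟩
        obtain ⟨m, hm, e⟩ := Cfsg.Agent.M24.exists_duad (by rwa [Finset.card_smul_finset] at h2)
        subst e
        exact ⟨m, ⟨hm, ⟨(hb m (hlt m hm).1).1.1 h3, (hb m (hlt m hm).1).2.1 hd⟩,
          Bool.eq_false_iff.2 fun h => ho ((hq m hm).2 h)⟩, rfl⟩
      · rintro ⟨m, ⟨hm, ⟨h1, h2⟩, h3⟩, rfl⟩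
        refine ⟨⟨hcard m hm, (hb m (hlt m hm).1).1.2 h1⟩, (hb m (hlt m hm).1).2.2 h2, fun h => ?_⟩
        rw [(hq m hm).1 h] at h3
        simp at h3
  · intro t t' ht ht' hts hts' hci hiff
    obtain ⟨a, ha, rfl⟩ := hof t ht.1
    obtain ⟨b, hb', rfl⟩ := hof t' ht'.1
    obtain ⟨aok, -⟩ := hb a (hlt a ha).1
    obtain ⟨bok, -⟩ := hb b (hlt b hb').1
    have hoa := aok.1 ht.2
    have hob := bok.1 ht'.2
    rw [hq a ha, hq b hb'] at hiff
    rw [Cfsg.Agent.M24.card_smul_inter, Cfsg.Agent.M24.card_smul_inter] at hci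
    have hn : a ≠ 12 ∧ b ≠ 12 := ⟨fun e => hts (by rw [e]), fun e => hts' (by rw [e])⟩
    have okc : Cfsg.Agent.M24.orbOk [2, 1, 12] Cfsg.Agent.M24.SmallOrb.duoGens 20 Cfsg.Agent.M24.SmallOrb.duo0 (Cfsg.Agent.M24.duadL.filter f0) = true ∧
        Cfsg.Agent.M24.orbOk [2, 1, 12] Cfsg.Agent.M24.SmallOrb.duoGens 144 Cfsg.Agent.M24.SmallOrb.duo1 (Cfsg.Agent.M24.duadL.filter f1) = true ∧
        Cfsg.Agent.M24.orbOk [2, 1, 12] Cfsg.Agent.M24.SmallOrb.duoGens 48 Cfsg.Agent.M24.SmallOrb.duo2 (Cfsg.Agent.M24.duadL.filter f2) = true := by decide +kernel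
    have hz : ∀ m ∈ Cfsg.Agent.M24.duadL, (Cfsg.Agent.M24.pc (12 &&& m) = 0 ↔ m &&& 12 = 0) := by decide +kernel
    obtain ⟨h, hh, he'⟩ : ∃ h ∈ Cfsg.Agent.M24.fixAll [2, 1, 12], h • Cfsg.Agent.M24.toSet a = Cfsg.Agent.M24.toSet b := by
      by_cases h12 : a &&& 12 = 0
      · have h12b : b &&& 12 = 0 := (hz b hb').1 (by rw [← hci]; exact (hz a ha).2 h12)
        cases hk : qf a
        · have hk' : qf b = false := Bool.eq_false_iff.2 fun e => by rw [hiff.2 e] at hk; simp at hk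
          exact Cfsg.Agent.M24.map_of_orbOk okc.2.2 (List.mem_filter.2 ⟨ha, by simp [f2, hoa, h12, hk]⟩)
            (List.mem_filter.2 ⟨hb', by simp [f2, hob, h12b, hk']⟩)
        · exact Cfsg.Agent.M24.map_of_orbOk okc.2.1 (List.mem_filter.2 ⟨ha, by simp [f1, hoa, h12, hk]⟩)
            (List.mem_filter.2 ⟨hb', by simp [f1, hob, h12b, hiff.1 hk]⟩)
      · have h12b : ¬ b &&& 12 = 0 := fun e => h12 ((hz a ha).1 (by rw [hci]; exact (hz b hb').2 e))
        exact Cfsg.Agent.M24.map_of_orbOk okc.1 (List.mem_filter.2 ⟨ha, by simp [f0, hoa, h12, hn.1]⟩)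
          (List.mem_filter.2 ⟨hb', by simp [f0, hob, h12b, hn.2]⟩)
    refine ⟨g * h * g⁻¹, Cfsg.M24.mul_mem (Cfsg.M24.mul_mem hg hh.1) (Cfsg.M24.inv_mem hg), ?_, ?_,
      Cfsg.Agent.M24.conj_smul (hh.2 12 (by simp)), Cfsg.Agent.M24.conj_smul he'⟩
    · rw [← hgp]; exact Cfsg.Agent.M24.conj_apply (Cfsg.Agent.M24.fixAll_point hh (i := 0) (by norm_num) (by simp))
    · rw [← hgq]; exact Cfsg.Agent.M24.conj_apply (Cfsg.Agent.M24.fixAll_point hh (i := 1) (by norm_num) (by simp))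


end Cfsg.Agent.S1638
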