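import Cfsg.Statements.S1754
import Cfsg.Agent.Layer.Quasisimple

set_option autoImplicit false
open Cfsg

namespace Cfsg.Agent.S1754

/-- Let A be a standard subgroup of the finite group G (A quasisimple, C_G(A) tightly embedded of even order, A commuting elementwise with no other conjugate of itself, and N_G(A) = N_G(C_G(A))), and let t be an involution of G centralizing A. Then the centralizer of t lies in the normalizer of A; in particular A, viewed inside C_G(t), is a component of C_G(t). -/
theorem result {G : Type*} [Group G] [Finite G]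
    (A : Subgroup G) (hA : Cfsg.IsStandardSubgroup A) (t : G) (ht : orderOf t = 2) (htA : t ∈ Subgroup.centralizer (A : Set G)) :
    Subgroup.centralizer ({t} : Set G) ≤ Subgroup.normalizer (A : Set G) ∧
      Cfsg.IsComponent (A.subgroupOf (Subgroup.centralizer ({t} : Set G))) := by
  obtain ⟨hq, ⟨-, htight⟩, -, hN⟩ := hA
  set C := Subgroup.centralizer ({t} : Set G) with hC
  set K := Subgroup.centralizer (A : Set G) with hK
  have hle : C ≤ Subgroup.normalizer (A : Set G) := by
    intro c hc
    rw [hN]
    by_contra hne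
    have hct : c * t * c⁻¹ = t := by
      rw [← Subgroup.mem_centralizer_iff.1 hc t rfl, mul_inv_cancel_right]
    have hmem : t ∈ K ⊓ K.map (MulAut.conj c).toMonoidHom := ⟨htA, t, htA, hct⟩
    have hd := orderOf_dvd_natCard (⟨t, hmem⟩ : ↥(K ⊓ K.map (MulAut.conj c).toMonoidHom))
    rw [← Subgroup.orderOf_coe, ht] at hd
    exact (Nat.not_even_iff_odd.2 (htight c hne)) (even_iff_two_dvd.2 hd)
  have hAC : A ≤ C := fun a ha => Subgroup.mem_centralizer_iff.2 fun w hw => by
    rw [Set.mem_singleton_iff.1 hw]
    exact (Subgroup.mem_centralizer_iff.1 htA a ha).symm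
  refine ⟨hle, ?_, Layer.isQuasisimple_of_mulEquiv (Subgroup.subgroupOfEquivOfLe hAC).symm hq⟩
  exact Subgroup.Normal.isSubnormal ⟨fun n hn g => (Subgroup.mem_normalizer_iff.1 (hle g.2) n).1 hn⟩

end Cfsg.Agent.S1754
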