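import Cfsg.Statements.S1755
import Cfsg.Agent.Layer.Basic
import Mathlib.GroupTheory.SpecificGroups.Cyclic

set_option autoImplicit false
open Cfsg

namespace Cfsg.Agent.S1755

theorem aux {G : Type*} [Group G] [Finite G] (z : G) (hz : orderOf z = 2) (C : Subgroup G)
    (hCdef : C = Subgroup.centralizer ({z} : Set G)) (F : Subgroup ↥C) [hFc : F.Characteristic]
    (hfit : Cfsg.fittingSubgroup ↥C ≤ F) (hQ : Cfsg.IsOfSymplecticType ↥F) (B : Subgroup ↥F) (hBc : B.Characteristic)
    (hBa : IsMulCommutative ↥B) (g : G) :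
    ((B.map F.subtype).map C.subtype).map (MulAut.conj g).toMonoidHom = (B.map F.subtype).map C.subtype ∨
      ((B.map F.subtype).map C.subtype).map (MulAut.conj g).toMonoidHom ⊓ (B.map F.subtype).map C.subtype = ⊥ := by
  classical
  haveI : Fact (Nat.Prime 2) := ⟨Nat.prime_two⟩
  subst hCdef
  let C := Subgroup.centralizer ({z} : Set G)
  have uniq : ∀ {K : Subgroup ↥F}, IsCyclic ↥K → ∀ u ∈ K, ∀ v ∈ K, orderOf u = 2 → orderOf v = 2 → u = v := by
    intro K hK u hu v hv hu2 hv2
    by_contra hne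
    haveI : Fintype ↥K := Fintype.ofFinite _
    have one : ∀ w : ↥F, orderOf w = 2 → w ≠ 1 := fun w hw e => by rw [e, orderOf_one] at hw; omega
    have h3 : ({1, ⟨u, hu⟩, ⟨v, hv⟩} : Finset ↥K) ⊆ Finset.univ.filter fun a : ↥K => a ^ 2 = 1 := by
      intro a ha
      simp only [Finset.mem_insert, Finset.mem_singleton] at ha
      refine Finset.mem_filter.2 ⟨Finset.mem_univ _, Subtype.ext ?_⟩
      rcases ha with rfl | rfl | rfl
      · simp
      · show u ^ 2 = 1; rw [← hu2, pow_orderOf_eq_one]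
      · show v ^ 2 = 1; rw [← hv2, pow_orderOf_eq_one]
    have h4 := (Finset.card_le_card h3).trans (IsCyclic.card_pow_eq_one_le (α := ↥K) two_pos)
    rw [Finset.card_insert_of_notMem (by
        simp only [Finset.mem_insert, Finset.mem_singleton, not_or]
        exact ⟨fun e => one u hu2 (congrArg Subtype.val e).symm, fun e => one v hv2 (congrArg Subtype.val e).symm⟩),
      Finset.card_insert_of_notMem (by
        rw [Finset.mem_singleton]; exact fun e => hne (congrArg Subtype.val e)), Finset.card_singleton] at h4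
    omega
  have hzC : z ∈ C := Subgroup.mem_centralizer_iff.2 fun w hw => by rw [Set.mem_singleton_iff.1 hw]
  have hzF : (⟨z, hzC⟩ : ↥C) ∈ F := by
    have hn : (Subgroup.zpowers (⟨z, hzC⟩ : ↥C)).Normal := ⟨fun n hn g => by
      obtain ⟨i, rfl⟩ := hn
      have hc : Commute g (⟨z, hzC⟩ : ↥C) := Subtype.ext (Subgroup.mem_centralizer_iff.1 g.2 z rfl).symm
      rw [(hc.zpow_right i).eq, mul_inv_cancel_right]; exact Subgroup.zpow_mem_zpowers _ i⟩
    letI : CommGroup ↥(Subgroup.zpowers (⟨z, hzC⟩ : ↥C)) := IsCyclic.commGroup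
    haveI : IsMulCommutative ↥(Subgroup.zpowers (⟨z, hzC⟩ : ↥C)) :=
      ⟨⟨fun u v => by
        obtain ⟨_, i, rfl⟩ := u; obtain ⟨_, j, rfl⟩ := v
        exact Subtype.ext (zpow_mul_comm (⟨z, hzC⟩ : ↥C) i j)⟩⟩
    exact hfit ((le_sSup
      (show Subgroup.zpowers (⟨z, hzC⟩ : ↥C) ∈ {N : Subgroup ↥C | N.Normal ∧ Group.IsNilpotent N} from
        ⟨hn, CommGroup.isNilpotent⟩) : _ ≤ Cfsg.fittingSubgroup ↥C) (Subgroup.mem_zpowers _))
  set zF : ↥F := ⟨⟨z, hzC⟩, hzF⟩
  have hzo : orderOf zF = 2 := by rw [← Subgroup.orderOf_coe, ← Subgroup.orderOf_coe]; exact hz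
  have hzc : zF ∈ Subgroup.center ↥F := Subgroup.mem_center_iff.2 fun g =>
    Subtype.ext (Subtype.ext (Subgroup.mem_centralizer_iff.1 (g : ↥C).2 z rfl).symm)
  have hBcyc := hQ.2 B hBc hBa
  have hZcyc : IsCyclic ↥(Subgroup.center ↥F) := hQ.2 _ inferInstance ⟨⟨fun u v => Subtype.ext
    (Subgroup.mem_center_iff.1 v.2 u.1)⟩⟩
  haveI := hBc
  have hBz : ∀ b ∈ B, orderOf b = 2 → b = zF := by
    intro b hb hb2
    refine uniq hZcyc b (Subgroup.mem_center_iff.2 fun q => ?_) zF hzc hb2 hzo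
    have := uniq hBcyc (q * b * q⁻¹) ((inferInstance : B.Normal).conj_mem b hb q) b hb
      (by rw [← hb2]; exact (MulAut.conj q).orderOf_eq b) hb2
    exact mul_inv_eq_iff_eq_mul.1 this
  set BG := (B.map F.subtype).map C.subtype with hBG
  haveI hBn : (B.map F.subtype).Normal := inferInstance
  by_cases hint : BG.map (MulAut.conj g).toMonoidHom ⊓ BG = ⊥
  · exact Or.inr hint
  left
  obtain ⟨w, hw, hw1⟩ := (Subgroup.bot_or_exists_ne_one _).resolve_left hint
  have h2G : IsPGroup 2 ↥BG := ((hQ.1.to_subgroup B).map _).map _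
  obtain ⟨j, hj⟩ := IsPGroup.iff_card.1 (h2G.to_le (inf_le_right : BG.map (MulAut.conj g).toMonoidHom ⊓ BG ≤ BG))
  haveI : Nontrivial ↥(BG.map (MulAut.conj g).toMonoidHom ⊓ BG) :=
    ⟨⟨⟨w, hw⟩, 1, fun e => hw1 (congrArg Subtype.val e)⟩⟩
  have hj0 : j ≠ 0 := fun e => by
    have h1 := Finite.one_lt_card (α := ↥(BG.map (MulAut.conj g).toMonoidHom ⊓ BG))
    rw [hj, e, pow_zero] at h1; omega
  obtain ⟨⟨v, hvg, hv⟩, hv2⟩ := exists_prime_orderOf_dvd_card' 2 (hj ▸ dvd_pow_self 2 hj0)
  rw [← Subgroup.orderOf_coe] at hv2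
  have hinv : ∀ a ∈ BG, orderOf a = 2 → a = z := by
    rintro _ ⟨_, ⟨b, hb, rfl⟩, rfl⟩ ho
    have ho' : orderOf b = 2 := by rw [← Subgroup.orderOf_coe, ← Subgroup.orderOf_coe]; exact ho
    rw [hBz b hb ho']; rfl
  obtain ⟨a, ha, hav⟩ := hvg
  change g * a * g⁻¹ = v at hav
  have ha2 : orderOf a = 2 := ((MulAut.conj g).orderOf_eq a).symm.trans (by rw [show (MulAut.conj g) a = v from hav]; exact hv2)
  rw [hinv a ha ha2, hinv v hv hv2] at hav
  have hgC : g ∈ C := Subgroup.mem_centralizer_iff.2 fun y hy => by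
    rw [Set.mem_singleton_iff.1 hy]; exact (mul_inv_eq_iff_eq_mul.1 hav).symm
  refine Subgroup.eq_of_le_of_card_ge ?_ (Subgroup.card_map_of_injective (K := BG) (f := (MulAut.conj g).toMonoidHom) (MulAut.conj g).injective).ge
  rintro _ ⟨_, ⟨b, hb, rfl⟩, rfl⟩
  exact ⟨⟨g, hgC⟩ * b * ⟨g, hgC⟩⁻¹, hBn.conj_mem b hb _, rfl⟩

/-- Let G be a finite group and let z be an involution of G such that Q, the generalized Fitting subgroup of the centralizer C of z, is a 2-group of symplectic type (every characteristic abelian subgroup of Q is cyclic). Let B be a characteristic abelian subgroup of Q, viewed as a subgroup of G. Then for every g in G, the conjugate of B by g either equals B or meets B trivially. -/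
theorem result {G : Type*} [Group G] [Finite G] (z : G) (hz : orderOf z = 2) (hQ : Cfsg.IsOfSymplecticType ↥(Cfsg.generalizedFittingSubgroup ↥(Subgroup.centralizer ({z} : Set G))))
    (B : Subgroup ↥(Cfsg.generalizedFittingSubgroup ↥(Subgroup.centralizer ({z} : Set G)))) (hBc : B.Characteristic) (hBa : IsMulCommutative ↥B) (g : G) :
    ((B.map (Cfsg.generalizedFittingSubgroup ↥(Subgroup.centralizer ({z} : Set G))).subtype).map (Subgroup.centralizer ({z} : Set G)).subtype).map (MulAut.conj g).toMonoidHom =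
        (B.map (Cfsg.generalizedFittingSubgroup ↥(Subgroup.centralizer ({z} : Set G))).subtype).map (Subgroup.centralizer ({z} : Set G)).subtype ∨
      ((B.map (Cfsg.generalizedFittingSubgroup ↥(Subgroup.centralizer ({z} : Set G))).subtype).map (Subgroup.centralizer ({z} : Set G)).subtype).map (MulAut.conj g).toMonoidHom ⊓
        (B.map (Cfsg.generalizedFittingSubgroup ↥(Subgroup.centralizer ({z} : Set G))).subtype).map (Subgroup.centralizer ({z} : Set G)).subtype = ⊥ := by
  exact aux z hz _ rfl _ le_sup_right hQ B hBc hBa g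

end Cfsg.Agent.S1755
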