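import Cfsg.Statements.S1756
import Cfsg.Agent.Extraspecial.Inner

set_option autoImplicit false
open Cfsg

namespace Cfsg.Agent.S1756

/-- Let Q be an extraspecial 2-subgroup of the finite group G (special with centre of order 2) and t an involution of G normalizing Q such that the centralizer of t in Q has index at most 2 in Q. Then t lies in the product of Q with the centralizer of Q. -/
theorem result {G : Type*} [Group G] [Finite G] (Q : Subgroup G)
    (hQ : Cfsg.IsExtraspecial 2 ↥Q) (t : G) (ht : orderOf t = 2) (htN : t ∈ Subgroup.normalizer (Q : Set G))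
    (hi : (Subgroup.centralizer ({t} : Set G) ⊓ Q).relIndex Q ≤ 2) :
    t ∈ Q ⊔ Subgroup.centralizer (Q : Set G) := by
  let θ : ↥Q ≃* ↥Q := Subgroup.normalizerMonoidHom Q ⟨t, htN⟩
  have hval : ∀ x : ↥Q, ((θ x : ↥Q) : G) = t * x * t⁻¹ := fun _ => rfl
  have htt : t * t = 1 := by rw [← sq, ← ht, pow_orderOf_eq_one]
  obtain ⟨q, hq⟩ := Extraspecial.exists_inner hQ θ (fun x => Subtype.ext (by
      rw [hval, hval, show t * (t * (x : G) * t⁻¹) * t⁻¹ = (t * t) * x * (t * t)⁻¹ by group, htt]
      group))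
    ((Subgroup.centralizer ({t} : Set G) ⊓ Q).subgroupOf Q) (fun x => by
      rw [Subgroup.mem_subgroupOf, Subgroup.mem_inf, Subtype.ext_iff, hval, mul_inv_eq_iff_eq_mul]
      simp [Subgroup.mem_centralizer_iff]) hi
  have h2 : (q : G)⁻¹ * t ∈ Subgroup.centralizer (Q : Set G) := by
    refine Subgroup.mem_centralizer_iff.2 fun x hx => ?_
    have h := congrArg Subtype.val (hq ⟨x, hx⟩)
    rw [hval] at h
    simp only [Subgroup.coe_mul, Subgroup.coe_inv] at h
    calc x * ((q : G)⁻¹ * t) = (q : G)⁻¹ * ((q : G) * x * (q : G)⁻¹) * t := by group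
      _ = (q : G)⁻¹ * (t * x * t⁻¹) * t := by rw [h]
      _ = (q : G)⁻¹ * t * x := by group
  simpa using Subgroup.mul_mem _ (le_sup_left (b := Subgroup.centralizer (Q : Set G)) q.2)
    (le_sup_right (a := Q) h2)

end Cfsg.Agent.S1756
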