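import Cfsg.Statements.S1780

set_option autoImplicit false
open Cfsg

namespace Cfsg.Agent.S1780

/-- Let A be a finite abelian 2-group and t an automorphism of A whose order is a power of 2. If every element of A fixed by t² is fixed by t, then t fixes every element of A. -/
theorem result {A : Type*} [CommGroup A] [Finite A]
    (hA : IsPGroup 2 A) (t : MulAut A) (ht : ∃ k : ℕ, orderOf t = 2 ^ k) (hC : ∀ a : A, t (t a) = a → t a = a) :
    ∀ a : A, t a = a := by
  obtain ⟨n, hn⟩ := ht
  let D : A →* A :=
    { toFun := fun x => t x * x⁻¹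
      map_one' := by simp
      map_mul' := fun x y => by simp [mul_mul_mul_comm, mul_comm] }
  suffices ∀ m (a : A), a ^ 2 ^ m = 1 → t a = a by
    intro a
    obtain ⟨k, hk⟩ := hA a
    exact this k a hk
  intro m
  induction m with
  | zero =>
    intro a ha
    simp only [pow_zero, pow_one] at ha
    simp [ha]
  | succ m ih =>
    intro a ha
    rw [pow_succ', pow_mul] at ha
    have hsq : t (a ^ 2) = a ^ 2 := ih _ ha
    set d := D a with hd
    have hd2 : d ^ 2 = 1 := by
      rw [hd, ← map_pow]
      change t (a ^ 2) * (a ^ 2)⁻¹ = 1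
      rw [hsq, mul_inv_cancel]
    have hexp : ∀ j (x : A), x ^ 2 = 1 → (D^[2 ^ j]) x = (t ^ 2 ^ j) x * x ∧ ((D^[2 ^ j]) x) ^ 2 = 1 := by
      intro j
      induction j with
      | zero =>
        intro x hx
        have hinv : x⁻¹ = x := inv_eq_of_mul_eq_one_right (by rwa [← sq])
        refine ⟨by simp [D, hinv], ?_⟩
        simp only [pow_zero, Function.iterate_one]
        rw [← map_pow, hx, map_one]
      | succ j ihj =>
        intro x hx
        obtain ⟨h1, h2⟩ := ihj x hx
        obtain ⟨h3, h4⟩ := ihj _ h2
        rw [pow_succ 2 j, mul_two, Function.iterate_add_apply]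
        refine ⟨?_, h4⟩
        rw [h3, h1, map_mul, pow_add, MulAut.mul_apply]
        rw [mul_assoc, ← mul_assoc ((t ^ 2 ^ j) x), ← sq, ← map_pow, hx, map_one, one_mul]
    have h2 : ∀ x : A, x ^ 2 = 1 → D (D x) = 1 → D x = 1 := by
      intro x hx hDD
      have := (hexp 1 x hx).1
      simp only [pow_one, Function.iterate_succ, Function.iterate_zero, Function.comp_apply, id_eq] at this
      rw [hDD, sq t, MulAut.mul_apply] at this
      have hinv : x⁻¹ = x := inv_eq_of_mul_eq_one_right (by rwa [← sq])
      have htx : t x = x := hC x ((mul_eq_one_iff_eq_inv.1 this.symm).trans hinv)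
      change t x * x⁻¹ = 1
      rw [htx, mul_inv_cancel]
    have hN : (D^[2 ^ n]) d = 1 := by
      rw [(hexp n d hd2).1, ← hn, pow_orderOf_eq_one, MulAut.one_apply, ← sq, hd2]
    have hsqiter : ∀ k, ((D^[k]) d) ^ 2 = 1 := by
      intro k
      induction k with
      | zero => simpa using hd2
      | succ k ihk => rw [Function.iterate_succ_apply', ← map_pow, ihk, map_one]
    have hD1 : ∀ k, (D^[k + 1]) d = 1 → D d = 1 := by
      intro k
      induction k with
      | zero => exact fun h => h
      | succ k ihk =>
        intro h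
        rw [Function.iterate_succ_apply', Function.iterate_succ_apply'] at h
        exact ihk (by rw [Function.iterate_succ_apply']; exact h2 _ (hsqiter k) h)
    have hDd : D d = 1 := hD1 (2 ^ n) (by rw [Function.iterate_succ_apply', hN, map_one])
    have htd : t d = d := mul_inv_eq_one.1 hDd
    have hta : t a = d * a := (inv_mul_cancel_right (t a) a).symm
    refine hC a ?_
    rw [hta, map_mul, htd, hta, ← mul_assoc, ← sq, hd2, one_mul]

end Cfsg.Agent.S1780
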