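import Cfsg.Statements.S1781
import Cfsg.Agent.TwoFus.Basic
import Cfsg.Agent.S1780

set_option autoImplicit false
open Cfsg

namespace Cfsg.Agent.S1781

/-- Let A be an abelian 2-subgroup of the finite group G such that every conjugate of A equals A or meets A trivially, and let g ∈ G with g A g⁻¹ ≠ A. Then either the subgroup of those elements of A that normalize g A g⁻¹ is an elementary abelian 2-group, or A and g A g⁻¹ commute elementwise. -/
theorem result {G : Type*} [Group G] [Finite G] (A : Subgroup G)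
    (hA2 : IsPGroup 2 ↥A) (hAa : IsMulCommutative ↥A)
    (hti : ∀ h : G, A.map (MulAut.conj h).toMonoidHom = A ∨ A.map (MulAut.conj h).toMonoidHom ⊓ A = ⊥)
    (g : G) (hg : A.map (MulAut.conj g).toMonoidHom ≠ A) :
    Cfsg.IsElementaryAbelian 2 (A ⊓ Subgroup.normalizer ((A.map (MulAut.conj g).toMonoidHom : Subgroup G) : Set G)) ∨
      ⁅A, A.map (MulAut.conj g).toMonoidHom⁆ = ⊥ := by
  set B := A.map (MulAut.conj g).toMonoidHom with hB
  set N := A ⊓ Subgroup.normalizer (B : Set G) with hN
  by_cases hexp : ∀ a ∈ N, a ^ 2 = 1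
  · left
    refine ⟨⟨⟨fun x y => Subtype.ext ?_⟩⟩, hexp⟩
    simpa using congrArg Subtype.val (hAa.is_comm.comm (⟨x.1, x.2.1⟩ : ↥A) ⟨y.1, y.2.1⟩)
  · right
    push Not at hexp
    obtain ⟨a, ⟨haA, haN⟩, ha2⟩ := hexp
    have ha1 : a ≠ 1 := fun e => ha2 (by rw [e, one_pow])
    have hAB : A ⊓ B = ⊥ := by
      rw [inf_comm]; exact (hti g).resolve_left hg
    haveI : IsMulCommutative ↥B := Subgroup.map_isMulCommutative A _
    have hBti : ∀ h : G, B.map (MulAut.conj h).toMonoidHom = B ∨
        B.map (MulAut.conj h).toMonoidHom ⊓ B = ⊥ := by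
      intro h
      have e : B.map (MulAut.conj h).toMonoidHom =
          (A.map (MulAut.conj (g⁻¹ * h * g)).toMonoidHom).map (MulAut.conj g).toMonoidHom := by
        rw [hB, ← TwoFus.conjMap_mul, ← TwoFus.conjMap_mul]
        congr 3; group
      rcases hti (g⁻¹ * h * g) with h' | h'
      · left
        rw [e, h']
      · right
        rw [e, hB, ← Subgroup.map_inf_eq _ _ _ (MulAut.conj g).injective, h', Subgroup.map_bot]
    letI : CommGroup ↥B := { (inferInstance : Group ↥B) with mul_comm := mul_comm' }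
    let t : MulAut ↥B := Subgroup.normalizerMonoidHom B ⟨a, haN⟩
    have htval : ∀ x : ↥B, ((t x : ↥B) : G) = a * x * a⁻¹ := fun _ => rfl
    have hnorm : ∀ (c x : G), c ∈ A → c ≠ 1 → c * x = x * c →
        A.map (MulAut.conj x).toMonoidHom = A := by
      intro c x hc hc1 hcx
      refine (hti x).resolve_right fun e => hc1 ?_
      rw [← Subgroup.mem_bot, ← e]
      exact ⟨TwoFus.mem_conjMap.2 (by rwa [mul_assoc, hcx, inv_mul_cancel_left]), hc⟩
    have ht : ∃ k : ℕ, orderOf t = 2 ^ k := by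
      obtain ⟨k, hk⟩ := hA2 ⟨a, haA⟩
      have ha' : (⟨a, haN⟩ : ↥(Subgroup.normalizer (B : Set G))) ^ 2 ^ k = 1 :=
        Subtype.ext (by simpa using congrArg Subtype.val hk)
      have := orderOf_dvd_of_pow_eq_one (x := t) (by rw [← map_pow, ha', map_one])
      obtain ⟨i, -, hi⟩ := (Nat.dvd_prime_pow Nat.prime_two).1 this
      exact ⟨i, hi⟩
    have hC : ∀ x : ↥B, t (t x) = x → t x = x := by
      intro x hx
      have h1 : a * (a * x * a⁻¹) * a⁻¹ = (x : G) := by
        simpa [htval] using congrArg Subtype.val hx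
      have h2 : a ^ 2 * (x : G) = x * a ^ 2 :=
        calc a ^ 2 * (x : G) = a * (a * x * a⁻¹) * a⁻¹ * a ^ 2 := by rw [sq]; group
          _ = x * a ^ 2 := by rw [h1]
      have hxA := hnorm _ _ (A.pow_mem haA 2) ha2 h2
      have h3 : a * (x : G) * a⁻¹ * (x : G)⁻¹ ∈ A ⊓ B := by
        refine ⟨?_, B.mul_mem ((Subgroup.mem_normalizer_iff.1 haN x).1 x.2) (B.inv_mem x.2)⟩
        have h4 := TwoFus.conj_mem_conjMap (g := (x : G)) (A.inv_mem haA)
        rw [hxA] at h4
        simpa [mul_assoc] using A.mul_mem haA h4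
      rw [hAB, Subgroup.mem_bot, mul_inv_eq_one] at h3
      exact Subtype.ext ((htval x).trans h3)
    have hfix := S1780.result (hA2.map (MulAut.conj g).toMonoidHom : IsPGroup 2 ↥B) t ht hC
    have hBN : B ≤ Subgroup.normalizer (A : Set G) := by
      intro x hx
      have h := congrArg Subtype.val (hfix ⟨x, hx⟩)
      rw [htval] at h
      exact TwoFus.mem_normalizer_of_conjMap_eq
        (hnorm a x haA ha1 (mul_inv_eq_iff_eq_mul.1 h))
    rw [Subgroup.commutator_eq_bot_iff_le_centralizer]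
    intro c hc
    exact Subgroup.mem_centralizer_iff.2 fun b hb =>
      (TwoFus.ti_commute hA2 (hA2.map _) hBti (TwoFus.card_conjMap g A).ge hAB hBN c hc b hb).symm

end Cfsg.Agent.S1781
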