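import Cfsg.Statements.S1785
import Cfsg.Agent.ElabChain.Basic

set_option autoImplicit false
open Cfsg

namespace Cfsg.Agent.S1785

/-- Let X be a finite 2-group having a normal elementary abelian subgroup of order at least 32. Then (a) for any two elementary abelian subgroups A, B of X of order 8 there is a chain A = A₁, A₂, …, Aₙ = B of elementary abelian subgroups of order 8 in which consecutive members commute elementwise; and (b) every elementary abelian subgroup of X of order 4 is contained in an elementary abelian subgroup of order 8. -/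
theorem result {X : Type*} [Group X] [Finite X]
    (hX : IsPGroup 2 X) (E : Subgroup X) [E.Normal] (hE : Cfsg.IsElementaryAbelian 2 E) (hE32 : 32 ≤ Nat.card ↥E) :
    (∀ A B : Subgroup X, Cfsg.IsElementaryAbelian 2 A → Nat.card ↥A = 8 → Cfsg.IsElementaryAbelian 2 B → Nat.card ↥B = 8 →
        Relation.ReflTransGen
          (fun C D : Subgroup X => Cfsg.IsElementaryAbelian 2 C ∧ Nat.card ↥C = 8 ∧ Cfsg.IsElementaryAbelian 2 D ∧ Nat.card ↥D = 8 ∧ ⁅C, D⁆ = ⊥)
          A B) ∧
      (∀ V : Subgroup X, Cfsg.IsElementaryAbelian 2 V → Nat.card ↥V = 4 →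
        ∃ A : Subgroup X, V ≤ A ∧ Cfsg.IsElementaryAbelian 2 A ∧ Nat.card ↥A = 8) := by
  haveI : Fact (Nat.Prime 2) := ⟨Nat.prime_two⟩
  have hhalf : ∀ a : X, a ^ 2 = 1 → 8 ≤ Nat.card ↥(E ⊓ Subgroup.centralizer ({a} : Set X)) := by
    intro a ha
    have h := ElabChain.card_le_sq hE ha (ElabChain.norm_mem a)
    refine ElabChain.eight_le hX ?_
    by_contra hlt
    push Not at hlt
    have := Nat.pow_le_pow_left (Nat.le_of_lt_succ hlt) 2
    omega
  have hfour : ∀ a b : X, a ^ 2 = 1 → b ^ 2 = 1 → a * b = b * a →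
      4 ≤ Nat.card ↥(E ⊓ Subgroup.centralizer ({a} : Set X) ⊓ Subgroup.centralizer ({b} : Set X)) := by
    intro a b ha hb hab
    have h := ElabChain.card_le_fourth hE hb hab
    have h8 := hhalf a ha
    refine ElabChain.four_le hX ?_
    by_contra hlt
    push Not at hlt
    have := Nat.pow_le_pow_left (Nat.le_of_lt_succ hlt) 2
    omega
  have hab' : ∀ A : Subgroup X, Cfsg.IsElementaryAbelian 2 A → ∀ x ∈ A, ∀ y ∈ A, x * y = y * x :=
    fun A hA x hx y hy => ElabChain.el_comm hA hx hy
  let Rel := fun C D : Subgroup X => Cfsg.IsElementaryAbelian 2 C ∧ Nat.card ↥C = 8 ∧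
    Cfsg.IsElementaryAbelian 2 D ∧ Nat.card ↥D = 8 ∧ ⁅C, D⁆ = ⊥
  have hrel : ∀ W C D : Subgroup X, Cfsg.IsElementaryAbelian 2 W → C ≤ W → D ≤ W → Nat.card ↥C = 8 →
      Nat.card ↥D = 8 → Rel C D := by
    intro W C D hW hC hD hc hd
    refine ⟨ElabChain.el_le hW hC, hc, ElabChain.el_le hW hD, hd, ?_⟩
    rw [Subgroup.commutator_eq_bot_iff_le_centralizer]
    exact fun x hx => Subgroup.mem_centralizer_iff.2 fun y hy => hab' W hW y (hD hy) x (hC hx)
  have hrsymm : ∀ C D, Rel C D → Rel D C := fun C D ⟨h1, h2, h3, h4, h5⟩ =>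
    ⟨h3, h4, h1, h2, by rw [Subgroup.commutator_comm]; exact h5⟩
  obtain ⟨z, hzE, hz1, hz2, hzc⟩ := ElabChain.exists_central hX hE (by omega)
  refine ⟨?_, ?_⟩
  swap
  · intro V hV hV4
    obtain ⟨a, ha, ha1⟩ : ∃ a ∈ V, a ≠ 1 := by
      by_contra h
      push Not at h
      rw [(Subgroup.eq_bot_iff_forall V).2 h, Subgroup.card_bot] at hV4
      omega
    have hlt : Subgroup.zpowers a < V := by
      refine lt_of_le_of_ne (Subgroup.zpowers_le.2 ha) fun e => ?_
      have := Nat.card_zpowers a
      rw [e, hV4] at this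
      have := orderOf_le_of_pow_eq_one (by norm_num) (hV.2 a ha)
      omega
    obtain ⟨b, hb, hba⟩ := SetLike.exists_of_lt hlt
    have hVab : V = Subgroup.zpowers a ⊔ Subgroup.zpowers b := by
      have hle : Subgroup.zpowers a ⊔ Subgroup.zpowers b ≤ V :=
        sup_le (Subgroup.zpowers_le.2 ha) (Subgroup.zpowers_le.2 hb)
      have h2 : Subgroup.zpowers a < Subgroup.zpowers a ⊔ Subgroup.zpowers b :=
        lt_of_le_of_ne le_sup_left fun e => hba (e ▸ le_sup_right (a := Subgroup.zpowers a) (Subgroup.mem_zpowers b))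
      have := ElabChain.two_mul_le hX h2
      rw [Nat.card_zpowers, orderOf_eq_prime (hV.2 a ha) ha1] at this
      exact (Subgroup.eq_of_le_of_card_ge hle (by omega)).symm
    set C := E ⊓ Subgroup.centralizer ({a} : Set X) ⊓ Subgroup.centralizer ({b} : Set X) with hC
    have hC4 := hfour a b (hV.2 a ha) (hV.2 b hb) (hab' V hV a ha b hb)
    have hCE : C ≤ E := inf_le_left.trans inf_le_left
    have hVC : V ≤ Subgroup.centralizer (C : Set X) := by
      rw [hVab]
      refine sup_le (Subgroup.zpowers_le.2 (Subgroup.mem_centralizer_iff.2 fun y hy => ?_))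
        (Subgroup.zpowers_le.2 (Subgroup.mem_centralizer_iff.2 fun y hy => ?_))
      · exact (ElabChain.comm_centralized hy.1.2).symm
      · exact (ElabChain.comm_centralized hy.2).symm
    obtain ⟨W, hW, hVW, hW8⟩ : ∃ W, Cfsg.IsElementaryAbelian 2 W ∧ V ≤ W ∧ 2 ^ 3 ≤ Nat.card ↥W := by
      by_cases hCV : C ≤ V
      · exact ⟨E, hE, (Subgroup.eq_of_le_of_card_ge hCV (hV4.le.trans hC4)) ▸ hCE, by omega⟩
      · refine ⟨V ⊔ C, ElabChain.el_sup hV (ElabChain.el_le hE hCE) fun x hx y hy => ?_, le_sup_left, ?_⟩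
        · exact (Subgroup.mem_centralizer_iff.1 (hVC hx) y hy).symm
        · have := ElabChain.two_mul_le hX (lt_of_le_of_ne (le_sup_left : V ≤ V ⊔ C) fun e =>
            hCV (e ▸ le_sup_right))
          omega
    obtain ⟨A, hVA, hAW, hA⟩ := ElabChain.exists_between hX hVW (by omega) hW8
    exact ⟨A, hVA, ElabChain.el_le hW hAW, hA⟩
  · have key : ∀ A : Subgroup X, Cfsg.IsElementaryAbelian 2 A → Nat.card ↥A = 8 →
        ∃ A' ≤ E, Nat.card ↥A' = 8 ∧ Relation.ReflTransGen Rel A A' := by
      intro A hA hA8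
      -- into a subgroup containing `z`
      have hW1 : Cfsg.IsElementaryAbelian 2 (A ⊔ Subgroup.zpowers z) :=
        ElabChain.el_sup hA (ElabChain.el_zpowers hz2) fun x _ y hy => by
          obtain ⟨k, rfl⟩ := hy
          exact (Commute.zpow_left (hzc x : Commute z x) k).eq.symm
      obtain ⟨A1, hzA1, hA1W, hA1⟩ := ElabChain.exists_between hX
        (le_sup_right : Subgroup.zpowers z ≤ A ⊔ Subgroup.zpowers z) (m := 3)
        (by rw [Nat.card_zpowers, orderOf_eq_prime hz2 hz1]; norm_num)
        (by have := Subgroup.card_le_of_le (le_sup_left : A ≤ A ⊔ Subgroup.zpowers z); omega)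
      norm_num at hA1
      have hA1e := ElabChain.el_le hW1 hA1W
      have r1 : Rel A A1 := hrel _ A A1 hW1 le_sup_left hA1W hA8 hA1
      -- generators
      obtain ⟨a, ha, haz⟩ := SetLike.exists_of_lt (lt_of_le_of_ne hzA1 fun e => by
        have := Nat.card_zpowers z
        rw [e, hA1, orderOf_eq_prime hz2 hz1] at this
        omega)
      set D2 := Subgroup.zpowers z ⊔ Subgroup.zpowers a with hD2
      have hD2le : D2 ≤ A1 := sup_le hzA1 (Subgroup.zpowers_le.2 ha)
      have hD2card : Nat.card ↥D2 ≤ 4 := by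
        have h := Subgroup.card_mul_index ((Subgroup.zpowers z).subgroupOf D2)
        rw [Nat.card_congr (Subgroup.subgroupOfEquivOfLe (le_sup_left : Subgroup.zpowers z ≤ D2)).toEquiv,
          Nat.card_zpowers, orderOf_eq_prime hz2 hz1] at h
        haveI : (Subgroup.zpowers z).Normal := ⟨fun n hn g => by
          obtain ⟨k, rfl⟩ := hn
          rw [← (Commute.zpow_left (hzc g : Commute z g) k).eq, mul_inv_cancel_right]
          exact Subgroup.zpow_mem_zpowers z k⟩
        have h2 : (Subgroup.zpowers z).relIndex D2 ∣ orderOf a := by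
          rw [hD2, Subgroup.relIndex_sup_left, ← Nat.card_zpowers a]
          exact Subgroup.relIndex_dvd_card _ _
        have := Nat.le_of_dvd (orderOf_pos a) h2
        have := orderOf_le_of_pow_eq_one (by norm_num) (hA1e.2 a ha)
        change 2 * (Subgroup.zpowers z).relIndex D2 = _ at h
        omega
      obtain ⟨b, hb, hbD⟩ := SetLike.exists_of_lt (lt_of_le_of_ne hD2le fun e => by
        rw [e] at hD2card; omega)
      have hgen : A1 = D2 ⊔ Subgroup.zpowers b := by
        have h1 : Subgroup.zpowers z < D2 := lt_of_le_of_ne le_sup_left fun e =>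
          haz (e ▸ le_sup_right (a := Subgroup.zpowers z) (Subgroup.mem_zpowers a))
        have h2 : D2 < D2 ⊔ Subgroup.zpowers b := lt_of_le_of_ne le_sup_left fun e =>
          hbD (e ▸ le_sup_right (a := D2) (Subgroup.mem_zpowers b))
        have := ElabChain.two_mul_le hX h1
        have := ElabChain.two_mul_le hX h2
        rw [Nat.card_zpowers, orderOf_eq_prime hz2 hz1] at *
        exact (Subgroup.eq_of_le_of_card_ge (sup_le hD2le (Subgroup.zpowers_le.2 hb)) (by omega)).symm
      set C := E ⊓ Subgroup.centralizer ({a} : Set X) ⊓ Subgroup.centralizer ({b} : Set X) with hC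
      have hC4 := hfour a b (hA1e.2 a ha) (hA1e.2 b hb) (hab' A1 hA1e a ha b hb)
      have hA1C : A1 ≤ Subgroup.centralizer (C : Set X) := by
        rw [hgen, hD2]
        refine sup_le (sup_le ?_ ?_) ?_ <;>
          refine Subgroup.zpowers_le.2 (Subgroup.mem_centralizer_iff.2 fun y hy => ?_)
        · exact (hzc y).symm
        · exact (ElabChain.comm_centralized hy.1.2).symm
        · exact (ElabChain.comm_centralized hy.2).symm
      have hW2 : Cfsg.IsElementaryAbelian 2 (A1 ⊔ C) :=
        ElabChain.el_sup hA1e (ElabChain.el_le hE (inf_le_left.trans inf_le_left))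
          fun x hx y hy => (Subgroup.mem_centralizer_iff.1 (hA1C hx) y hy).symm
      obtain ⟨C4, -, hC4C, hC4card⟩ := ElabChain.exists_between hX (bot_le : ⊥ ≤ C) (m := 2) (by simp) (by omega)
      norm_num at hC4card
      obtain ⟨A2, hC4A2, hA2W, hA2⟩ := ElabChain.exists_between hX (hC4C.trans (le_sup_right : C ≤ A1 ⊔ C))
        (m := 3) (by omega) (by have := Subgroup.card_le_of_le (le_sup_left : A1 ≤ A1 ⊔ C); omega)
      norm_num at hA2
      have hA2e := ElabChain.el_le hW2 hA2W
      have r2 : Rel A1 A2 := hrel _ A1 A2 hW2 le_sup_left hA2W hA1 hA2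
      obtain ⟨c, hc, hcC⟩ := SetLike.exists_of_lt (lt_of_le_of_ne hC4A2 fun e => by
        rw [e] at hC4card; omega)
      have hgen2 : A2 = C4 ⊔ Subgroup.zpowers c := by
        have h2 : C4 < C4 ⊔ Subgroup.zpowers c := lt_of_le_of_ne le_sup_left fun e =>
          hcC (e ▸ le_sup_right (a := C4) (Subgroup.mem_zpowers c))
        have := ElabChain.two_mul_le hX h2
        exact (Subgroup.eq_of_le_of_card_ge (sup_le hC4A2 (Subgroup.zpowers_le.2 hc)) (by omega)).symm
      set C2 := E ⊓ Subgroup.centralizer ({c} : Set X) with hC2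
      have hC28 := hhalf c (hA2e.2 c hc)
      have hA2C : A2 ≤ Subgroup.centralizer (C2 : Set X) := by
        rw [hgen2]
        refine sup_le (fun x hx => Subgroup.mem_centralizer_iff.2 fun y hy => ?_)
          (Subgroup.zpowers_le.2 (Subgroup.mem_centralizer_iff.2 fun y hy => ?_))
        · exact hab' E hE y hy.1 x (hC4C hx).1.1
        · exact (ElabChain.comm_centralized hy.2).symm
      have hW3 : Cfsg.IsElementaryAbelian 2 (A2 ⊔ C2) :=
        ElabChain.el_sup hA2e (ElabChain.el_le hE inf_le_left)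
          fun x hx y hy => (Subgroup.mem_centralizer_iff.1 (hA2C hx) y hy).symm
      obtain ⟨A3, -, hA3C, hA3⟩ := ElabChain.exists_between hX (bot_le : ⊥ ≤ C2) (m := 3) (by simp) (by omega)
      norm_num at hA3
      have r3 : Rel A2 A3 := hrel _ A2 A3 hW3 le_sup_left (hA3C.trans le_sup_right) hA2 hA3
      exact ⟨A3, hA3C.trans inf_le_left, hA3, ((Relation.ReflTransGen.single r1).tail r2).tail r3⟩
    intro A B hA hA8 hB hB8
    obtain ⟨A', hA'E, hA'8, hAA'⟩ := key A hA hA8
    obtain ⟨B', hB'E, hB'8, hBB'⟩ := key B hB hB8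
    have hback : Relation.ReflTransGen Rel B' B := by
      clear hB'E hB'8
      induction hBB' with
      | refl => exact Relation.ReflTransGen.refl
      | tail _ h ih => exact Relation.ReflTransGen.head (hrsymm _ _ h) ih
    exact (hAA'.tail (hrel E A' B' hE hA'E hB'E hA'8 hB'8)).trans hback

end Cfsg.Agent.S1785
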