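import Cfsg.Statements.S1850
import Cfsg.Agent.CharTwo.Normalizer
import Cfsg.Agent.Solv.Fitting
import Cfsg.Agent.Layer.Decomp

set_option autoImplicit false
open Cfsg

namespace Cfsg.Agent.S1850

/-- Let G be a non-abelian finite simple QTKE-group and T a Sylow 2-subgroup of G. If U is a nontrivial 2-subgroup of G with U ∩ Z(T) ≠ 1, then F*(N_G(U)) = O₂(N_G(U)). -/
theorem result {G : Type*} [Group G] [Finite G] [IsSimpleGroup G]
    (hG : ¬ IsMulCommutative G) (hQ : Cfsg.IsQTKE G) (T : Sylow 2 G) (U : Subgroup G)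
    (hU : IsPGroup 2 ↥U) (hZ : U ⊓ ((T : Subgroup G) ⊓ Subgroup.centralizer ((T : Subgroup G) : Set G)) ≠ ⊥) :
    Subgroup.normalizer (U : Set G) ∈ Cfsg.calHe G := by
  haveI : Fact (Nat.Prime 2) := ⟨Nat.prime_two⟩
  obtain ⟨z, hz, hz1⟩ : ∃ z ∈ U ⊓ ((T : Subgroup G) ⊓ Subgroup.centralizer ((T : Subgroup G) : Set G)), z ≠ 1 := by
    by_contra h
    push Not at h
    exact hZ ((Subgroup.eq_bot_iff_forall _).2 h)
  obtain ⟨j, hj⟩ := hU ⟨z, hz.1⟩
  obtain ⟨t, htpow, ht2⟩ : ∃ t : G, t ∈ Subgroup.zpowers z ∧ orderOf t = 2 := by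
    haveI : Nontrivial ↥(Subgroup.zpowers z) :=
      (Subgroup.zpowers z).nontrivial_iff_ne_bot.2 (by simpa using hz1)
    obtain ⟨m, hm, hm'⟩ := (hU.to_le (Subgroup.zpowers_le.2 hz.1)).nontrivial_iff_card.1 ‹_›
    obtain ⟨t, ht⟩ := exists_prime_orderOf_dvd_card' (G := ↥(Subgroup.zpowers z)) 2
      (hm' ▸ dvd_pow_self 2 (by omega))
    exact ⟨t, t.2, by rw [Subgroup.orderOf_coe, ht]⟩
  have htmem := (Subgroup.zpowers_le.2 hz) htpow
  have hnorm : Subgroup.normalizer ((Subgroup.zpowers t : Subgroup G) : Set G) =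
      Subgroup.centralizer ({t} : Set G) := by
    have ht1 : t ≠ 1 := fun e => by rw [e, orderOf_one] at ht2; omega
    have hmemz : ∀ u : G, u ∈ Subgroup.zpowers t → u = 1 ∨ u = t := by
      intro u hu
      obtain ⟨k, rfl⟩ := hu
      show t ^ k = 1 ∨ t ^ k = t
      rw [← zpow_mod_orderOf, ht2]
      rcases Int.emod_two_eq_zero_or_one k with h | h <;> simp [h]
    ext g
    constructor
    · intro hg
      have h := (Subgroup.mem_normalizer_iff.1 hg t).1 (Subgroup.mem_zpowers t)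
      refine Subgroup.mem_centralizer_iff.2 fun y hy => ?_
      rw [Set.mem_singleton_iff.1 hy]
      rcases hmemz _ h with h' | h'
      · exact absurd (by simpa using h') ht1
      · exact (mul_inv_eq_iff_eq_mul.1 h').symm
    · intro hg
      refine TwoFus.mem_normalizer_of_conjMap_eq ?_
      rw [MonoidHom.map_zpowers]
      congr 1
      have := Subgroup.mem_centralizer_iff.1 hg t rfl
      simp [← this]
  have hC : Cfsg.IsOfCharacteristicTwo ↥(Subgroup.centralizer ({t} : Set G)) := by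
    have hev := hQ.2.2
    rw [← hnorm]
    refine hev _ ⟨Subgroup.zpowers t, IsPGroup.of_card (n := 1) (by rw [Nat.card_zpowers, ht2, pow_one]),
      ?_, rfl⟩ ⟨T, ?_⟩
    · intro e; rw [Subgroup.zpowers_eq_bot] at e; rw [e, orderOf_one] at ht2; omega
    · rw [hnorm]
      intro s hs
      refine Subgroup.mem_centralizer_iff.2 fun y hy => ?_
      rw [Set.mem_singleton_iff.1 hy]
      exact (Subgroup.mem_centralizer_iff.1 htmem.2.2 s hs).symm
  have hK := CharTwo.normalizer_charTwo_ge hC htmem.1 hU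
  set K := Subgroup.normalizer (U : Set G)
  have hp : Cfsg.pPrimeCore 2 ↥K = ⊥ := by
    obtain ⟨hon, hoc⟩ := Solv.pPrimeCore_mem (G := ↥K) 2
    obtain ⟨hqn, hq2⟩ := Solv.pCore_mem (G := ↥K) 2
    haveI := hon; haveI := hqn
    have hd : Disjoint (Cfsg.pPrimeCore 2 ↥K) (Cfsg.pCore 2 ↥K) := by
      obtain ⟨i, hi⟩ := IsPGroup.iff_card.1 hq2
      exact disjoint_iff.2 (Subgroup.inf_eq_bot_of_coprime (hi ▸ hoc.pow_right i))
    refine eq_bot_iff.2 (le_trans ?_ (disjoint_iff.1 hd).le)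
    refine le_inf le_rfl (le_trans ?_ hK)
    intro x hx
    exact Subgroup.mem_centralizer_iff.2 fun y hy =>
      (Subgroup.commute_of_normal_of_disjoint _ _ hon hqn hd x y hx hy).symm.eq
  have hF := Solv.fitting_eq_pCore (p := 2) hp
  show Cfsg.generalizedFittingSubgroup ↥K = Cfsg.pCore 2 ↥K
  rw [Cfsg.generalizedFittingSubgroup, Layer.centralizer_fitting_le_iff.1 (hF.symm ▸ hK), bot_sup_eq, hF]

end Cfsg.Agent.S1850
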