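import Cfsg.Statements.S1958
import Cfsg.Agent.PSolv.Balance

set_option autoImplicit false
open Cfsg

namespace Cfsg.Agent.S1958

/-- Let `G` be a finite group, `p` a prime, and `x, y` commuting elements of order `p` whose centralizers `C_G(x)` and `C_G(y)` are both solvable. Then `O_{p'}(C_G(x)) ∩ C_G(y) = O_{p'}(C_G(y)) ∩ C_G(x)` (balance). -/
theorem result {G : Type*} [Group G] [Finite G]
    (p : ℕ) [Fact p.Prime] (x y : G) (hx : orderOf x = p) (hy : orderOf y = p) (hxy : x * y = y * x)
    (hCx : Group.IsSolvable ↥(Subgroup.centralizer ({x} : Set G))) (hCy : Group.IsSolvable ↥(Subgroup.centralizer ({y} : Set G))) :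
    Cfsg.centralizerPPrimeCore p x ⊓ Subgroup.centralizer {y} = Cfsg.centralizerPPrimeCore p y ⊓ Subgroup.centralizer {x} := by
  have hxp : x ^ p = 1 := orderOf_dvd_iff_pow_eq_one.mp hx.dvd
  have hyp : y ^ p = 1 := orderOf_dvd_iff_pow_eq_one.mp hy.dvd
  refine le_antisymm
    (le_inf ?_ (inf_le_left.trans (Signalizer.centralizerPPrimeCore_le_centralizer x)))
    (le_inf ?_ (inf_le_left.trans (Signalizer.centralizerPPrimeCore_le_centralizer y)))
  · haveI := hCy
    exact PSolv.balance_of hxp hxy PSolv.selfCentralizingCore_quotient_of_solvable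
  · haveI := hCx
    exact PSolv.balance_of hyp hxy.symm PSolv.selfCentralizingCore_quotient_of_solvable

end Cfsg.Agent.S1958
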