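import Cfsg.Statements.S1959
import Cfsg.Agent.PLocal.ConjFam

set_option autoImplicit false
open Cfsg

namespace Cfsg.Agent.S1959

/-- Let p be a prime, G a finite group with Sylow p-subgroup S, and 𝓦 a set of conjugacy functors for p on G. Suppose that 𝓦 controls strong fusion in N_G(T) for every nonidentity subgroup T of S for which N_S(T) is a Sylow p-subgroup of N_G(T). Then 𝓦 controls strong fusion in G. (A set of functors controls strong fusion in a subgroup H when, for a Sylow p-subgroup T' of H, every conjugation of a tuple of elements of T' into T' by an element of H is a composite of conjugations inside the normalizers N_H(W(T')), W ∈ 𝓦, all intermediate tuples staying in T'.) -/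
theorem result {G : Type*} [Group G] [Finite G] {p : ℕ} [Fact p.Prime] (S : Sylow p G) (𝓦 : Set (Subgroup G → Subgroup G)) (h𝓦 : ∀ W ∈ 𝓦, Cfsg.IsConjugacyFunctor p W) (hloc : ∀ T : Subgroup G, T ≤ (S : Subgroup G) → T ≠ ⊥ → ¬ p ∣ ((S : Subgroup G) ⊓ Subgroup.normalizer ((T : Subgroup G) : Set G)).relIndex (Subgroup.normalizer ((T : Subgroup G) : Set G)) → Cfsg.FamilyControlsStrongFusionIn p 𝓦 (Subgroup.normalizer ((T : Subgroup G) : Set G))) : Cfsg.FamilyControlsStrongFusionIn p 𝓦 ⊤ := by
  refine ConjFam.local_to_global h𝓦 S (𝓤 := {U | U ≤ (S : Subgroup G) ∧ ConjFam.Good p (S : Subgroup G) U})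
    (fun U hU => hU.1) (fun T hT => ?_) (fun U hU hU1 _ => hloc U hU.1 hU1 hU.2)
  obtain ⟨N, hN⟩ := (S.isPGroup'.to_le hT).exists_le_sylow
  obtain ⟨R, hR⟩ := ((S.isPGroup'.to_le (inf_le_left : (S : Subgroup G) ⊓
    Subgroup.normalizer (T : Set G) ≤ _)).comap_subtype (K := Subgroup.normalizer (T : Set G))).exists_le_sylow
  set R' := (R : Subgroup ↥(Subgroup.normalizer (T : Set G))).map (Subgroup.normalizer (T : Set G)).subtype
  obtain ⟨h, -, hh⟩ := ConjFam.exists_conj_into_in (H := ⊤) (T := (S : Subgroup G)) le_top S.isPGroup'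
    (by rw [Subgroup.relIndex_top_right]; exact S.not_dvd_index) (R := R') le_top (R.isPGroup'.map _)
  have hTR : T ≤ R' := fun x hx => ⟨⟨x, Subgroup.le_normalizer hx⟩,
    hR (⟨hT hx, Subgroup.le_normalizer hx⟩ : x ∈ (S : Subgroup G) ⊓ Subgroup.normalizer (T : Set G)), rfl⟩
  have hU : T.map (MulAut.conj h).toMonoidHom ≤ (S : Subgroup G) := (Subgroup.map_mono hTR).trans hh
  refine ⟨T.map (MulAut.conj h).toMonoidHom, ⟨hU, ?_⟩, ⟨h, rfl⟩, ?_⟩
  all_goals
    intro hd
    have hle : R'.map (MulAut.conj h).toMonoidHom ≤ (S : Subgroup G) ⊓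
        Subgroup.normalizer ((T.map (MulAut.conj h).toMonoidHom : Subgroup G) : Set G) :=
      le_inf hh ((Subgroup.map_mono (Subgroup.map_subtype_le _)).trans (ConjFam.conjMap_normalizer h T).le)
    have h2 := hd.trans (Subgroup.relIndex_dvd_of_le_left _ hle)
    rw [← ConjFam.conjMap_normalizer, Subgroup.relIndex_map_map_of_injective _ _ (MulAut.conj h).injective,
      show R'.relIndex (Subgroup.normalizer (T : Set G)) = (R : Subgroup ↥(Subgroup.normalizer (T : Set G))).index from by
        rw [Subgroup.relIndex, Subgroup.subgroupOf,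
          Subgroup.comap_map_eq_self_of_injective (Subgroup.normalizer (T : Set G)).subtype_injective]] at h2
    exact R.not_dvd_index h2

end Cfsg.Agent.S1959
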