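import Cfsg.Statements.S1961
import Cfsg.Agent.PLocal.ConjFam

set_option autoImplicit false
open Cfsg

namespace Cfsg.Agent.S1961

/-- Local-to-global control of strong fusion through well-placed subgroups. Let p be a prime, G a finite group with Sylow p-subgroup S, and W a conjugacy functor for p on G. If W controls strong fusion in N_G(T) for every nonidentity subgroup T of S that is well placed in S with respect to W, then W controls strong fusion in G. -/
theorem result {G : Type*} [Group G] [Finite G] {p : ℕ} [Fact p.Prime] (S : Sylow p G) (W : Subgroup G → Subgroup G) (hW : Cfsg.IsConjugacyFunctor p W) (hloc : ∀ T : Subgroup G, T ≠ ⊥ → Cfsg.IsWellPlaced p W (S : Subgroup G) T → Cfsg.ControlsStrongFusionIn p W (Subgroup.normalizer ((T : Subgroup G) : Set G))) : Cfsg.ControlsStrongFusionIn p W ⊤ := by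
  have key : ∀ (H : Subgroup G), ControlsStrongFusionIn p W H → FamilyControlsStrongFusionIn p {W} H := by
    rintro H ⟨T, h1, h2, h3, h4⟩
    refine ⟨T, h1, h2, h3, fun A h hh hA hAh => ?_⟩
    obtain ⟨x, hx, hxa⟩ := h4 A h hh hA hAh
    refine ⟨1, ![1, x], rfl, ?_, ?_, fun a ha => by simpa using hxa a ha⟩
    · intro i
      fin_cases i
      exact ⟨W, rfl, by simpa using hx⟩
    · intro i
      fin_cases i
      · simpa using hA
      · rintro _ ⟨a, ha, rfl⟩
        have := hAh ⟨a, ha, rfl⟩
        simpa [hxa a ha] using this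
  obtain ⟨T, h1, h2, h3, h4⟩ := ConjFam.local_to_global (𝓦 := {W}) (fun V hV => by rw [hV]; exact hW) S
    (𝓤 := {U | Cfsg.IsWellPlaced p W (S : Subgroup G) U}) (fun U hU => hU.1)
    (fun T hT => by
      obtain ⟨m, hm⟩ := ConjFam.exists_wellPlaced hW S hT
      exact ⟨_, hm, ⟨m, rfl⟩, hm.2 0⟩)
    (fun U hU hU1 _ => key _ (hloc U hU1 hU))
  refine ⟨T, h1, h2, h3, fun A h hh hA hAh => ?_⟩
  obtain ⟨n, c, c0, cs, cA, cl⟩ := h4 A h hh hA hAh
  refine ⟨c (Fin.last n), ?_, cl⟩
  have : ∀ i, c i ∈ (⊤ : Subgroup G) ⊓ Subgroup.normalizer ((W T : Subgroup G) : Set G) := by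
    intro i
    induction i using Fin.induction with
    | zero => rw [c0]; exact one_mem _
    | succ i ih =>
      obtain ⟨V, hV, hm⟩ := cs i
      rw [Set.mem_singleton_iff] at hV
      subst hV
      simpa using mul_mem hm ih
  exact this _

end Cfsg.Agent.S1961
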