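import Cfsg.Statements.S1964
import Cfsg.Agent.PLocal.ConjFam

set_option autoImplicit false
open Cfsg

namespace Cfsg.Agent.S1964

/-- Let p be a prime, G a finite group with Sylow p-subgroup S and W a conjugacy functor for p on G. Then the subgroups of S that are well placed in S with respect to W form a conjugation family for S in G. -/
theorem result {G : Type*} [Group G] [Finite G] {p : ℕ} [Fact p.Prime] (S : Sylow p G) (W : Subgroup G → Subgroup G) (hW : Cfsg.IsConjugacyFunctor p W) : Cfsg.IsConjugationFamily {T : Subgroup G | Cfsg.IsWellPlaced p W (S : Subgroup G) T} (S : Subgroup G) := by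
  refine ConjFam.isConjugationFamily_of_fchain (fun T hT => hT.1) fun A g _ hA hAg => ?_
  refine ConjFam.alperin S.isPGroup' (fun T hT => hT.1) (fun T hT => ?_) A g hA hAg
  obtain ⟨m, hm⟩ := ConjFam.exists_wellPlaced hW S hT
  exact ⟨_, hm, ⟨m, rfl⟩, hm.2 0⟩

end Cfsg.Agent.S1964
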