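import Cfsg.Statements.S1966
import Cfsg.Agent.PLocal.ConjFam
import Cfsg.Agent.Solv.Cores

set_option autoImplicit false
open Cfsg

namespace Cfsg.Agent.S1966

/-- Let p be a prime, G a finite group with Sylow p-subgroup S and 𝓕 a conjugation family for S in G. Then the members of 𝓕 containing O_p(G) still form a conjugation family for S in G. -/
theorem result {G : Type*} [Group G] [Finite G] {p : ℕ} [Fact p.Prime] (S : Sylow p G) (𝓕 : Set (Subgroup G)) (h : Cfsg.IsConjugationFamily 𝓕 (S : Subgroup G)) : Cfsg.IsConjugationFamily {T : Subgroup G | T ∈ 𝓕 ∧ Cfsg.pCore p G ≤ T} (S : Subgroup G) := by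
  refine ConjFam.isConjugationFamily_of_fchain (fun T hT => h.1 T hT.1) fun A g hne hA hAg => ?_
  haveI := (Solv.pCore_mem (G := G) p).1
  have hO : Cfsg.pCore p G ≤ (S : Subgroup G) := Solv.pCore_le_sylow S
  have hcj : ∀ y : G, ConjFam.cj y (Cfsg.pCore p G : Set G) = Cfsg.pCore p G := fun y => by
    rw [← ConjFam.coe_conjMap, ConjFam.mem_normalizer_iff_conjMap.mp
      (by rw [Subgroup.normalizer_eq_top_iff.mpr inferInstance]; trivial)]
  have hA' : A ∪ (Cfsg.pCore p G : Set G) ⊆ (S : Subgroup G) := Set.union_subset hA hO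
  have hAg' : ConjFam.cj g (A ∪ (Cfsg.pCore p G : Set G)) ⊆ (S : Subgroup G) := by
    rw [ConjFam.cj, Set.image_union]
    exact Set.union_subset hAg (by rw [← ConjFam.cj, hcj g]; exact hO)
  refine ConjFam.FChain.mono (A := A ∪ (Cfsg.pCore p G : Set G)) ?_ Set.subset_union_left
  have hch := ConjFam.fchain_of_isConjugationFamily h (hne.mono Set.subset_union_left) hA' hAg'
  have hmem : (Cfsg.pCore p G : Set G) ⊆ A ∪ (Cfsg.pCore p G : Set G) := Set.subset_union_right
  revert hmem
  generalize A ∪ (Cfsg.pCore p G : Set G) = B at hch ⊢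
  clear * - hch hcj
  induction hch with
  | nil B => exact fun _ => ConjFam.FChain.nil B
  | @cons B g x T hT hBT hx _ ih =>
    intro hmem
    refine ConjFam.FChain.cons T ⟨hT, SetLike.coe_subset_coe.mp (hmem.trans hBT)⟩ hBT hx (ih ?_)
    rw [← hcj x]
    exact ConjFam.cj_mono x hmem

end Cfsg.Agent.S1966
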