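import Cfsg.Statements.S1967
import Cfsg.Agent.PLocal.ConjFam

set_option autoImplicit false
open Cfsg

namespace Cfsg.Agent.S1967

/-- Let p be a prime, G a finite group with Sylow p-subgroup S and W a conjugacy functor for p on G. Then W controls strong fusion in G if and only if, whenever T ≤ S and g ∈ G satisfy gTg⁻¹ ≤ S, one can write g = n c with n ∈ N_G(W(S)) and c ∈ C_G(T). -/
theorem result {G : Type*} [Group G] [Finite G] {p : ℕ} [Fact p.Prime] (S : Sylow p G) (W : Subgroup G → Subgroup G) (hW : Cfsg.IsConjugacyFunctor p W) : Cfsg.ControlsStrongFusionIn p W ⊤ ↔ ∀ (T : Subgroup G) (g : G), T ≤ (S : Subgroup G) → T.map (MulAut.conj g).toMonoidHom ≤ (S : Subgroup G) → ∃ n ∈ Subgroup.normalizer ((W (S : Subgroup G) : Subgroup G) : Set G), ∃ c ∈ Subgroup.centralizer (T : Set G), g = n * c := by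
  constructor
  · rintro ⟨T0, -, h2, h3, h4⟩ T g hT hTg
    obtain ⟨m, -, hm⟩ := ConjFam.exists_conj_into_in (H := ⊤) (T := T0) le_top h2 h3 (R := (S : Subgroup G)) le_top
      S.isPGroup'
    have hST : (S : Subgroup G).map (MulAut.conj m).toMonoidHom = T0 := by
      obtain ⟨m', -, hm'⟩ := ConjFam.exists_conj_into_in (H := ⊤) (T := (S : Subgroup G)) le_top S.isPGroup'
        (by rw [Subgroup.relIndex_top_right]; exact S.not_dvd_index) (R := T0) le_top h2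
      refine ConjFam.eq_of_le_of_card hm ?_
      rw [ConjFam.card_conjMap, ← ConjFam.card_conjMap m' T0]
      exact Subgroup.card_le_of_le hm'
    have hsub : ∀ B : Set G, B ⊆ (S : Subgroup G) → ConjFam.cj m B ⊆ T0 := fun B hB => by
      rw [← hST, ConjFam.coe_conjMap]; exact ConjFam.cj_mono m hB
    obtain ⟨x, hx, hxa⟩ := h4 (ConjFam.cj m T) (m * g * m⁻¹) (Subgroup.mem_top _) (hsub _ hT) (by
      show ConjFam.cj (m * g * m⁻¹) (ConjFam.cj m T) ⊆ T0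
      rw [ConjFam.cj_cj, inv_mul_cancel_right, ← ConjFam.cj_cj]
      exact hsub _ (by rw [← ConjFam.coe_conjMap]; exact hTg))
    refine ⟨m⁻¹ * x * m⁻¹⁻¹, ?_, (m⁻¹ * x * m⁻¹⁻¹)⁻¹ * g, ?_, by group⟩
    · rw [← ConjFam.conjMap_inv hST, (hW T0 h2).2.2 m⁻¹, ← ConjFam.conjMap_normalizer]
      exact ⟨x, hx.2, rfl⟩
    · rw [Subgroup.mem_centralizer_iff]
      intro a ha
      have e := hxa (m * a * m⁻¹) ⟨a, ha, rfl⟩
      have e2 : (m⁻¹ * x * m⁻¹⁻¹) * a * (m⁻¹ * x * m⁻¹⁻¹)⁻¹ = g * a * g⁻¹ := by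
        calc (m⁻¹ * x * m⁻¹⁻¹) * a * (m⁻¹ * x * m⁻¹⁻¹)⁻¹ = m⁻¹ * (x * (m * a * m⁻¹) * x⁻¹) * m := by group
          _ = m⁻¹ * (m * g * m⁻¹ * (m * a * m⁻¹) * (m * g * m⁻¹)⁻¹) * m := by rw [e]
          _ = g * a * g⁻¹ := by group
      calc a * ((m⁻¹ * x * m⁻¹⁻¹)⁻¹ * g)
          = (m⁻¹ * x * m⁻¹⁻¹)⁻¹ * ((m⁻¹ * x * m⁻¹⁻¹) * a * (m⁻¹ * x * m⁻¹⁻¹)⁻¹) * g := by group
        _ = (m⁻¹ * x * m⁻¹⁻¹)⁻¹ * (g * a * g⁻¹) * g := by rw [e2]
        _ = (m⁻¹ * x * m⁻¹⁻¹)⁻¹ * g * a := by group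
  · intro h
    refine ⟨(S : Subgroup G), le_top, S.isPGroup', by rw [Subgroup.relIndex_top_right]; exact S.not_dvd_index,
      fun A g _ hA hAg => ?_⟩
    obtain ⟨n, hn, c, hc, rfl⟩ := h (Subgroup.closure A) g ((Subgroup.closure_le _).mpr hA) (by
      rw [MonoidHom.map_closure, Subgroup.closure_le]; exact hAg)
    refine ⟨n, ⟨Subgroup.mem_top n, hn⟩, fun a ha => ?_⟩
    have e := Subgroup.mem_centralizer_iff.mp hc a (Subgroup.subset_closure ha)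
    calc n * a * n⁻¹ = n * (a * c) * c⁻¹ * n⁻¹ := by group
      _ = n * c * a * (n * c)⁻¹ := by rw [e]; group

end Cfsg.Agent.S1967
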