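import Cfsg.Statements.S1981
import Cfsg.Agent.PLocal.KInf

set_option autoImplicit false
open Cfsg

namespace Cfsg.Agent.S1981

/-- Let P be a finite p-group generated by its abelian normal subgroups. Then both K-infinity subgroups of P equal P. -/
theorem result {P : Type*} [Group P] [Finite P] {p : ℕ} [Fact p.Prime] (hP : IsPGroup p P) (hgen : ⨆ A ∈ {A : Subgroup P | A.Normal ∧ IsMulCommutative ↥A}, A = ⊤) : Cfsg.kInfLower P = ⊤ ∧ Cfsg.kInfUpper P = ⊤ := by
  constructor
  · rw [eq_top_iff, ← hgen]
    refine iSup₂_le fun A hA => ?_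
    haveI := hA.1
    exact le_trans (le_sSup (KInf.abelian_mem hA.2 _).2.1) (le_iSup (Cfsg.kSeqEven P) 0)
  · rw [eq_top_iff, ← hgen]
    refine iSup₂_le fun A hA => le_iInf fun n => ?_
    haveI := hA.1
    cases n with
    | zero => exact le_top
    | succ n => exact le_sSup (KInf.abelian_mem hA.2 _).2.2

end Cfsg.Agent.S1981
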