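import Cfsg.Statements.S2007
import Cfsg.Agent.Transfer.Basic
import Cfsg.Agent.PLocal.ConjFam

set_option autoImplicit false
open Cfsg

namespace Cfsg.Agent.S2007

/-- Let p be a prime, G a finite group with Sylow p-subgroup S, and T a normal subgroup of S containing C_S(T). If N_G(T)/C_G(T) is a p-group (every element of N_G(T) of order prime to p centralizes T), then N_G(T) has a normal p-complement. -/
theorem result {G : Type*} [Group G] [Finite G] {p : ℕ} [Fact p.Prime] (S : Sylow p G) (T : Subgroup G) (hTS : T ≤ (S : Subgroup G)) (hTn : (S : Subgroup G) ≤ Subgroup.normalizer ((T : Subgroup G) : Set G)) (hC : (S : Subgroup G) ⊓ Subgroup.centralizer ((T : Subgroup G) : Set G) ≤ T) (hN : ∀ g ∈ Subgroup.normalizer ((T : Subgroup G) : Set G), (orderOf g).Coprime p → g ∈ Subgroup.centralizer ((T : Subgroup G) : Set G)) : Cfsg.HasNormalPComplement p ↥(Subgroup.normalizer ((T : Subgroup G) : Set G)) := by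
  classical
  set N := Subgroup.normalizer (T : Set G) with hNdef
  let S' : Sylow p ↥N := S.subtype hTn
  let C : Subgroup ↥N := (Subgroup.centralizer (T : Set G)).subgroupOf N
  haveI hCn : C.Normal := by
    refine ⟨fun c hc g => ?_⟩
    rw [Subgroup.mem_subgroupOf, Subgroup.mem_centralizer_iff] at hc ⊢
    intro t ht
    have ht' : (g : G)⁻¹ * t * g ∈ T := by simpa using (Subgroup.mem_normalizer_iff.mp (inv_mem g.2) t).mp ht
    show t * ((g : G) * c * (g : G)⁻¹) = (g : G) * c * (g : G)⁻¹ * t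
    calc t * ((g : G) * c * (g : G)⁻¹) = g * (((g : G)⁻¹ * t * g) * c) * (g : G)⁻¹ := by group
      _ = g * (c * ((g : G)⁻¹ * t * g)) * (g : G)⁻¹ := by rw [hc _ ht']
      _ = (g : G) * c * (g : G)⁻¹ * t := by group
  have hidx : ∃ n, C.index = p ^ n := by
    have hq : IsPGroup p (↥N ⧸ C) := by
      intro x
      obtain ⟨g, rfl⟩ := QuotientGroup.mk'_surjective C x
      refine ⟨(orderOf g).factorization p, ?_⟩
      rw [← map_pow]
      refine (QuotientGroup.eq_one_iff _).mpr (hN _ (g ^ _ : ↥N).2 ?_)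
      rw [orderOf_injective N.subtype N.subtype_injective, orderOf_pow, Nat.gcd_eq_right (Nat.ordProj_dvd _ _)]
      exact (Nat.coprime_ordCompl (Fact.out : p.Prime) (orderOf_pos g).ne').symm
    obtain ⟨n, hn⟩ := IsPGroup.iff_card.mp hq
    exact ⟨n, hn⟩
  refine Transfer.hasNPC_of_normal_index hCn hidx ?_
  obtain ⟨P', hP'⟩ := (S'.isPGroup'.comap_subtype (K := C)).exists_le_sylow
  refine Transfer.hasNPC_of_burnside P' ?_
  have hcen : ∀ x ∈ (P' : Subgroup ↥C), x ∈ Subgroup.center ↥C := by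
    haveI : ((S' : Subgroup ↥N).subgroupOf C).Normal := by
      refine ⟨fun c hc g => ?_⟩
      rw [Subgroup.mem_subgroupOf] at hc ⊢
      have hcT : ((c : ↥N) : G) ∈ T := hC ⟨hc, c.2⟩
      have := Subgroup.mem_centralizer_iff.mp g.2 _ hcT
      have e : ((g : ↥N) * (c : ↥N) * (g : ↥N)⁻¹) = (c : ↥N) := by
        refine Subtype.ext ?_
        show ((g : ↥N) : G) * ((c : ↥N) : G) * (((g : ↥N) : G))⁻¹ = _
        rw [← (show ((c : ↥N) : G) * ((g : ↥N) : G) = ((g : ↥N) : G) * ((c : ↥N) : G) from this)]; group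
      show ((g : ↥N) * (c : ↥N) * (g : ↥N)⁻¹) ∈ (S' : Subgroup ↥N)
      rw [e]; exact hc
    have heq : (S' : Subgroup ↥N).subgroupOf C = (P' : Subgroup ↥C) := by
      refine ConjFam.eq_of_le_of_card hP' ?_
      obtain ⟨g, hg⟩ := (P'.isPGroup'.map C.subtype).exists_le_sylow
      obtain ⟨m, hm⟩ := MulAction.exists_smul_eq ↥N g S'
      let φ : ↥(P' : Subgroup ↥C) → ↥((S' : Subgroup ↥N).subgroupOf C) := fun x =>
        ⟨⟨m * (x : ↥C) * m⁻¹, hCn.conj_mem _ (x : ↥C).2 m⟩, by
          rw [Subgroup.mem_subgroupOf, ← hm, Sylow.coe_subgroup_smul]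
          exact Subgroup.smul_mem_pointwise_smul _ (MulAut.conj m) _ (hg ⟨(x : ↥C), x.2, rfl⟩)⟩
      refine Nat.card_le_card_of_injective φ fun a b hab => ?_
      have h := congrArg (fun z : ↥((S' : Subgroup ↥N).subgroupOf C) => ((z : ↥C) : ↥N)) hab
      exact Subtype.ext (Subtype.ext (mul_left_cancel (mul_right_cancel h)))
    intro x hx
    rw [← heq, Subgroup.mem_subgroupOf] at hx
    have hxT : (((x : ↥C) : ↥N) : G) ∈ T := hC ⟨hx, (x : ↥C).2⟩
    refine Subgroup.mem_center_iff.mpr fun g => Subtype.ext (Subtype.ext ?_)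
    exact (Subgroup.mem_centralizer_iff.mp g.2 _ hxT).symm
  intro g _
  exact Subgroup.mem_centralizer_iff.mpr fun x hx => (Subgroup.mem_center_iff.mp (hcen x hx) g).symm

end Cfsg.Agent.S2007
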