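import Cfsg.Statements.S2008

set_option autoImplicit false
open Cfsg

namespace Cfsg.Agent.S2008

/-- Let H be a finite group and z an involution such that every proper normal subgroup of H meets the centralizer of z trivially, and suppose z lies in a Klein four-subgroup E of H all three of whose involutions are conjugate to z in H. Then H has no non-trivial abelian normal subgroup. -/
theorem result {H : Type*} [Group H] [Finite H] (z : H) (hz : orderOf z = 2) (hN : ∀ N : Subgroup H, N.Normal → N ≠ ⊤ → N ⊓ Subgroup.centralizer ({z} : Set H) = ⊥) (E : Subgroup H) (hE : IsKleinFour ↥E) (hzE : z ∈ E) (hc : ∀ e ∈ E, e ≠ 1 → IsConj z e) (N : Subgroup H) [N.Normal] (hab : IsMulCommutative ↥N) : N = ⊥ := by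
  have hz2 : z * z = 1 := by
    rw [← pow_two]; exact hz ▸ pow_orderOf_eq_one z
  obtain ⟨e, heE, he1, hez⟩ : ∃ e ∈ E, e ≠ 1 ∧ e ≠ z := by
    by_contra hcon
    simp only [not_exists, not_and, not_not] at hcon
    have hsub : (E : Set H) ⊆ {1, z} := by
      intro e he
      by_cases h1 : e = 1
      · exact Or.inl h1
      · exact Or.inr (hcon e he h1)
    have h1 := Set.ncard_le_ncard hsub
    have h2 : (E : Set H).ncard = 4 := hE.card_four
    have h3 : ({1, z} : Set H).ncard ≤ 2 := (Set.ncard_insert_le _ _).trans (by simp)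
    omega
  have hNtop : N ≠ ⊤ := by
    intro htop
    obtain ⟨c, hc'⟩ := isConj_iff.mp (hc e heE he1)
    have hcz : c * z = z * c :=
      congrArg Subtype.val (hab.is_comm.comm (⟨c, htop ▸ Subgroup.mem_top c⟩ : N) ⟨z, htop ▸ Subgroup.mem_top z⟩)
    apply hez
    rw [← hc', hcz]; group
  have hNn : N.Normal := inferInstance
  have hfree := hN N hNn hNtop
  have hinv : ∀ t : H, IsConj z t → ∀ x ∈ N, t * x * t⁻¹ = x⁻¹ := by
    intro t ht x hx
    obtain ⟨g, hg⟩ := isConj_iff.mp ht
    set y := g⁻¹ * x * g with hy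
    have hyN : y ∈ N := by simpa using hNn.conj_mem x hx g⁻¹
    have hzy : z * y * z⁻¹ ∈ N := hNn.conj_mem y hyN z
    have hcomm : y * (z * y * z⁻¹) = (z * y * z⁻¹) * y :=
      congrArg Subtype.val (hab.is_comm.comm (⟨y, hyN⟩ : N) ⟨_, hzy⟩)
    have hzi : z⁻¹ = z := inv_eq_of_mul_eq_one_right hz2
    have hmem : y * (z * y * z⁻¹) ∈ N ⊓ Subgroup.centralizer ({z} : Set H) := by
      refine ⟨mul_mem hyN hzy, Subgroup.mem_centralizer_singleton_iff.mpr ?_⟩
      calc y * (z * y * z⁻¹) * z = y * z * y := by group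
        _ = z * (z * y * z) * y := by
              rw [show z * (z * y * z) * y = (z * z) * y * z * y by group, hz2, one_mul]
        _ = z * (z * y * z⁻¹ * y) := by rw [hzi]; group
        _ = z * (y * (z * y * z⁻¹)) := by rw [hcomm]
    rw [hfree, Subgroup.mem_bot] at hmem
    have h1 : z * y * z⁻¹ = y⁻¹ := eq_inv_of_mul_eq_one_right hmem
    calc t * x * t⁻¹ = g * (z * y * z⁻¹) * g⁻¹ := by rw [← hg, hy]; group
      _ = x⁻¹ := by rw [h1, hy]; group
  have hce : e * z ≠ 1 := fun h => hez (by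
    rw [eq_inv_of_mul_eq_one_left h, inv_eq_of_mul_eq_one_right hz2])
  rw [Subgroup.eq_bot_iff_forall]
  intro x hx
  have a1 := hinv z (IsConj.refl z) x hx
  have a2 := hinv e (hc e heE he1) x⁻¹ (inv_mem hx)
  have a3 := hinv (e * z) (hc _ (mul_mem heE hzE) hce) x hx
  have a4 : x⁻¹ = x := by
    calc x⁻¹ = e * z * x * (e * z)⁻¹ := a3.symm
      _ = e * (z * x * z⁻¹) * e⁻¹ := by group
      _ = x := by rw [a1, a2, inv_inv]
  have hxC : x ∈ N ⊓ Subgroup.centralizer ({z} : Set H) := by
    refine ⟨hx, Subgroup.mem_centralizer_singleton_iff.mpr ?_⟩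
    calc x * z = z * (z⁻¹ * x * z) := by group
      _ = z * (z * x * z⁻¹) := by rw [inv_eq_of_mul_eq_one_right hz2]
      _ = z * x := by rw [a1, a4]
  rwa [hfree, Subgroup.mem_bot] at hxC

end Cfsg.Agent.S2008
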