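import Cfsg.Statements.S2009
import Cfsg.Agent.S2008

set_option autoImplicit false
open Cfsg

namespace Cfsg.Agent.S2009

/-- Let H be a finite group and z an involution such that every proper normal subgroup of H meets the centralizer of z trivially, and suppose z lies in a Klein four-subgroup E of H all three of whose involutions are conjugate to z in H. Then H is simple. -/
theorem result {H : Type*} [Group H] [Finite H] (z : H) (hz : orderOf z = 2) (hN : ∀ N : Subgroup H, N.Normal → N ≠ ⊤ → N ⊓ Subgroup.centralizer ({z} : Set H) = ⊥) (E : Subgroup H) (hE : IsKleinFour ↥E) (hzE : z ∈ E) (hc : ∀ e ∈ E, e ≠ 1 → IsConj z e) : IsSimpleGroup H := by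
  haveI : Nontrivial H := by
    refine ⟨z, 1, fun h => ?_⟩
    rw [h, orderOf_one] at hz
    omega
  refine ⟨fun N hNn => ?_⟩
  by_cases hNtop : N = ⊤
  · exact Or.inr hNtop
  left
  have hfree := hN N hNn hNtop
  let f : N → N := fun y => ⟨(y : H)⁻¹ * (z * y * z⁻¹), mul_mem (inv_mem y.2) (hNn.conj_mem _ y.2 z)⟩
  have hinj : Function.Injective f := by
    intro a b hab
    have h1 : (a : H)⁻¹ * (z * a * z⁻¹) = (b : H)⁻¹ * (z * b * z⁻¹) := congrArg Subtype.val hab
    have hmem : (b : H) * (a : H)⁻¹ ∈ N ⊓ Subgroup.centralizer ({z} : Set H) := by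
      refine ⟨N.mul_mem b.2 (N.inv_mem a.2), Subgroup.mem_centralizer_singleton_iff.mpr ?_⟩
      calc (b : H) * (a : H)⁻¹ * z = b * ((a : H)⁻¹ * (z * a * z⁻¹)) * z * (a : H)⁻¹ := by group
        _ = z * (b * (a : H)⁻¹) := by rw [h1]; group
    rw [hfree, Subgroup.mem_bot, mul_inv_eq_one] at hmem
    exact Subtype.ext hmem.symm
  have hz2 : z * z = 1 := by rw [← pow_two]; exact hz ▸ pow_orderOf_eq_one z
  have hinv : ∀ x ∈ N, z * x * z⁻¹ = x⁻¹ := by
    intro x hx
    obtain ⟨y, hy⟩ := Finite.surjective_of_injective hinj ⟨x, hx⟩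
    have h1 : (y : H)⁻¹ * (z * y * z⁻¹) = x := congrArg Subtype.val hy
    have hzi : z⁻¹ = z := inv_eq_of_mul_eq_one_right hz2
    rw [← h1, hzi]
    calc z * ((y : H)⁻¹ * (z * y * z)) * z = z * (y : H)⁻¹ * z * y * (z * z) := by group
      _ = z * (y : H)⁻¹ * z⁻¹ * y := by rw [hz2, mul_one, hzi]
      _ = ((y : H)⁻¹ * (z * y * z⁻¹))⁻¹ := by group
      _ = ((y : H)⁻¹ * (z * y * z))⁻¹ := by rw [hzi]
  haveI := hNn
  refine Cfsg.Agent.S2008.result z hz hN E hE hzE hc N ⟨⟨fun a b => Subtype.ext ?_⟩⟩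
  apply inv_injective
  calc ((a : H) * b)⁻¹ = z * (a * b) * z⁻¹ := (hinv _ (mul_mem a.2 b.2)).symm
    _ = (z * a * z⁻¹) * (z * b * z⁻¹) := by group
    _ = ((b : H) * a)⁻¹ := by rw [hinv _ a.2, hinv _ b.2, mul_inv_rev]

end Cfsg.Agent.S2009
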