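import Cfsg.Statements.S2160
import Mathlib
import Cfsg.Agent.Chev.Borel
import Cfsg.Agent.Chev.All
import Cfsg.Prelude.Def_ChevAutomorphisms

set_option autoImplicit false
open Cfsg

namespace Cfsg.Agent.S2160
open Cfsg.Agent.Chev Cfsg.Lie

/-- In a Chevalley group of type G₂, B₂, D₄, F₄, E₆, E₇ or E₈ over a finite field, every field automorphism commutes with every graph automorphism. -/
theorem result {F : Type*} [Field F] [Finite F] (D : Cfsg.Lie.ChevalleyDatum) (hD : D ∈ [Cfsg.Lie.chevG2, Cfsg.Lie.chevB2, Cfsg.Lie.chevD4, Cfsg.Lie.chevF4, Cfsg.Lie.chevE6, Cfsg.Lie.chevE7, Cfsg.Lie.chevE8]) (f g : ↥(D.group F) ≃* ↥(D.group F))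
    (hf : D.IsFieldAut f) (hg : D.IsGraphAut g) (y : ↥(D.group F)) : f (g y) = g (f y) := by
  obtain ⟨k, g0⟩ := Cfsg.Agent.Chev.good_of_mem hD
  obtain ⟨σ, hσ⟩ := hf
  obtain ⟨π, -, hπ⟩ := hg
  let E : Subgroup (GL D.Idx F) := Subgroup.closure {x | ∃ (i : Fin D.rank) (t : F),
    (x : Matrix D.Idx D.Idx F) = D.x F (D.simple i) t ∨ (x : Matrix D.Idx D.Idx F) = D.x F (D.neg (D.simple i)) t}
  have hxG : ∀ r, ∀ hr : r < D.nroots, ∀ t : F, xG g0 r hr t ∈ D.group F := fun r hr t =>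
    Subgroup.subset_closure ⟨⟨r, hr⟩, t, x_eq hr t⟩
  have hpm : ∀ (i : ℕ) (hi : i < D.rank) (t : F), xG g0 (D.simple i) (g0.simple hi).lt t ∈ E ∧
      xG g0 (D.neg (D.simple i)) (g0.neg_lt (g0.simple hi).lt) t ∈ E := fun i hi t =>
    ⟨Subgroup.subset_closure ⟨⟨i, hi⟩, t, Or.inl rfl⟩, Subgroup.subset_closure ⟨⟨i, hi⟩, t, Or.inr rfl⟩⟩
  have hW : W0 g0 F ≤ E := by
    rw [W0, Subgroup.closure_le]
    rintro x ⟨i, hi, rfl⟩
    exact mul_mem (mul_mem (hpm i hi _).1 (hpm i hi _).2) (hpm i hi _).1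
  have hgen : D.group F ≤ E := by
    rw [ChevalleyDatum.group, Subgroup.closure_le]
    rintro x ⟨⟨r, hr⟩, t, hx⟩
    have e : x = xG g0 r hr t := Units.ext (hx.trans (x_eq hr t).symm)
    subst e
    obtain ⟨w, hw, i, hi, ε, hε, w1, -⟩ := reach (F := F) g0 hr
    have h := mul_mem (mul_mem (hW hw) (hpm i hi (ε * t)).1) (inv_mem (hW hw))
    rwa [w1, ← mul_assoc, hε, one_mul] at h
  suffices H : ∀ x ∈ E, ∀ hx : x ∈ D.group F, f (g ⟨x, hx⟩) = g (f ⟨x, hx⟩) from H y (hgen y.2) y.2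
  have hgrp : ∀ x ∈ E, x ∈ D.group F := by
    intro x hx
    induction hx using Subgroup.closure_induction with
    | mem z hz =>
      obtain ⟨i, t, hz | hz⟩ := hz
      · rw [show z = xG g0 _ (g0.simple i.2).lt t from Units.ext hz]; exact hxG _ _ _
      · rw [show z = xG g0 _ (g0.neg_lt (g0.simple i.2).lt) t from Units.ext hz]; exact hxG _ _ _
    | one => exact one_mem _
    | mul a b _ _ ha hb => exact mul_mem ha hb
    | inv a _ ha => exact inv_mem ha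
  intro x hx
  induction hx using Subgroup.closure_induction with
  | mem z hz =>
    intro hzg
    obtain ⟨i, t, hz⟩ := hz
    have hp := (g0.simple i.2).lt
    have hq := (g0.simple (π i).2).lt
    apply Subtype.ext
    apply Units.ext
    rcases hz with hz | hz
    · rw [hσ _ _ _ hq ((hπ ⟨z, hzg⟩ i t).1 hz), ((hπ _ i (σ t)).1 (hσ ⟨z, hzg⟩ _ t hp hz)), map_pow]
    · rw [hσ _ _ _ (g0.neg_lt hq) ((hπ ⟨z, hzg⟩ i t).2 hz), ((hπ _ i (σ t)).2 (hσ ⟨z, hzg⟩ _ t (g0.neg_lt hp) hz)), map_pow]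
  | one =>
    intro h
    have e : (⟨1, h⟩ : ↥(D.group F)) = 1 := rfl
    rw [e, map_one, map_one, map_one]
  | mul a b ha hb iha ihb =>
    intro h
    have e : (⟨a * b, h⟩ : ↥(D.group F)) = ⟨a, hgrp a ha⟩ * ⟨b, hgrp b hb⟩ := rfl
    rw [e, map_mul, map_mul, map_mul, map_mul, iha, ihb]
  | inv a ha iha =>
    intro h
    have e : (⟨a⁻¹, h⟩ : ↥(D.group F)) = (⟨a, hgrp a ha⟩ : ↥(D.group F))⁻¹ := rfl
    rw [e, map_inv, map_inv, map_inv, map_inv, iha]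

end Cfsg.Agent.S2160
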