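import Cfsg.Statements.S2326
import Mathlib
import Cfsg.Agent.Chev.Norm
import Cfsg.Agent.Chev.TitsAll
import Cfsg.Agent.S1043

set_option autoImplicit false
open Cfsg

namespace Cfsg.Agent.S2326
open Cfsg.Agent.Chev Cfsg.Agent.Chev.Tits Cfsg.Lie

/-- In a Chevalley group of type G₂, B₂, D₄, F₄, E₆, E₇ or E₈ over a finite field of characteristic p, the subgroup U generated by the positive root elements is a Sylow p-subgroup. -/
theorem result {F : Type*} [Field F] [Fintype F] (p : ℕ) [Fact p.Prime] [CharP F p] (D : Cfsg.Lie.ChevalleyDatum) (hD : D ∈ [Cfsg.Lie.chevG2, Cfsg.Lie.chevB2, Cfsg.Lie.chevD4, Cfsg.Lie.chevF4, Cfsg.Lie.chevE6, Cfsg.Lie.chevE7, Cfsg.Lie.chevE8]) :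
    ∃ P : Sylow p ↥(D.group F), (P : Subgroup ↥(D.group F)) = (D.posUnipotent F).subgroupOf (D.group F) := by
  obtain ⟨k, G⟩ := tgood_of_mem hD
  obtain ⟨h1, h2, h3⟩ := Cfsg.Agent.S1043.result (F := F) D hD
  have hUG : D.posUnipotent F ≤ D.group F := le_trans le_sup_left h1
  set U := (D.posUnipotent F).subgroupOf (D.group F) with hU
  have hp : IsPGroup p ↥U := (U_pgroup G p).of_equiv (Subgroup.subgroupOfEquivOfLe hUG).symm
  obtain ⟨P, hP⟩ := hp.exists_le_sylow
  refine ⟨P, le_antisymm ?_ hP⟩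
  by_contra hne
  haveI : Finite ↥(D.group F) := inferInstance
  haveI : Group.IsNilpotent ↥(P : Subgroup ↥(D.group F)) := P.isPGroup'.isNilpotent
  have hlt : U.subgroupOf P < ⊤ := by
    rw [lt_top_iff_ne_top, Ne, Subgroup.subgroupOf_eq_top]
    exact hne
  have hN := normalizerCondition_of_isNilpotent (U.subgroupOf P) hlt
  obtain ⟨y, hy, hy'⟩ := SetLike.exists_of_lt hN
  apply hy'
  have hgB : ((y : ↥(D.group F)) : GL D.Idx F) ∈ D.borelSubgroup F := by
    refine mem_B_of_conj G h1 h2 h3 (y : ↥(D.group F)).2 fun u hu => Subgroup.mem_sup_left ?_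
    have := (Subgroup.mem_normalizer_iff.1 hy ⟨⟨u, hUG hu⟩, hP hu⟩).1 hu
    exact this
  obtain ⟨u, hu, h, hh, e⟩ := (mem_B G.good).1 hgB
  obtain ⟨χ, hχ, hc⟩ := H_char G.good hh
  have hhP : (⟨h, h1 (H_mem_B G hh)⟩ : ↥(D.group F)) ∈ (P : Subgroup ↥(D.group F)) := by
    have : (⟨h, h1 (H_mem_B G hh)⟩ : ↥(D.group F)) = (⟨u, hUG hu⟩ : ↥(D.group F))⁻¹ * y := by
      apply Subtype.ext
      show h = u⁻¹ * ((y : ↥(D.group F)) : GL D.Idx F)
      rw [← e]; group
    rw [this]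
    exact mul_mem (inv_mem (hP hu)) y.2
  obtain ⟨n, hn⟩ := P.isPGroup' ⟨_, hhP⟩
  have hpow : h ^ p ^ n = 1 := by simpa using congrArg (fun z : ↥(P : Subgroup ↥(D.group F)) => ((z : ↥(D.group F)) : GL D.Idx F)) hn
  have hh1 : h = 1 := by
    apply Units.ext
    have e1 := congrArg (fun z : GL D.Idx F => (z : Matrix D.Idx D.Idx F)) hpow
    simp only [Units.val_pow_eq_pow_val, hχ, Units.val_one, dg, Matrix.diagonal_pow] at e1
    rw [hχ, Units.val_one, dg, ← Matrix.diagonal_one]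
    congr 1
    funext i
    have e2 := congrFun (congrFun e1 i) i
    rw [Matrix.diagonal_apply_eq, Matrix.one_apply_eq, Pi.pow_apply] at e2
    have e3 := iterateFrobenius_inj F p n (show iterateFrobenius F p n (Sum.elim (fun _ => (1 : F)) (fun v : Fin D.nroots => χ v.val) i) = iterateFrobenius F p n 1 by rw [iterateFrobenius_def, iterateFrobenius_def, one_pow]; exact e2)
    exact e3
  show ((y : ↥(D.group F)) : GL D.Idx F) ∈ D.posUnipotent F
  rw [← e, hh1, mul_one]
  exact hu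

end Cfsg.Agent.S2326
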