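import Cfsg.Statements.S2395
import Mathlib
import Cfsg.Agent.Chev.Cover
import Cfsg.Agent.Chev.CoverCerts
import Cfsg.Agent.Chev.TitsAll

set_option autoImplicit false
open Cfsg

namespace Cfsg.Agent.S2395
open Cfsg.Agent.Chev.Cover Cfsg.Lie

/-- The group presented by Steinberg's generators x̄_r(t) subject only to (R1) (additivity) and (R2) (the commutator formula) is perfect, for each of the types G₂, B₂, D₄, F₄, E₆, E₇, E₈ over any field (for types B₂ and G₂ the field must have more than two elements — the cases where the Chevalley group is not simple are set aside). -/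
theorem result {K : Type*} [Field K] (D : Cfsg.Lie.ChevalleyDatum) (hD : D ∈ [Cfsg.Lie.chevG2, Cfsg.Lie.chevB2, Cfsg.Lie.chevD4, Cfsg.Lie.chevF4, Cfsg.Lie.chevE6, Cfsg.Lie.chevE7, Cfsg.Lie.chevE8]) (hK : D ∈ [Cfsg.Lie.chevB2, Cfsg.Lie.chevG2] → ∃ x : K, x ≠ 0 ∧ x ≠ 1) :
    commutator (D.SteinbergCover K) = ⊤ := by
  obtain ⟨k, G⟩ := Cfsg.Agent.Chev.Tits.tgood_of_mem hD
  have hn : ∀ i < D.rank, D.simple i < D.nroots ∧ D.neg (D.simple i) < D.nroots := fun i hi =>
    ⟨(G.good.simple hi).lt, G.good.neg_lt (G.good.simple hi).lt⟩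
  refine perfect_of fun q hq t => ?_
  have key1 : coverOK D = true → T D K q t = 1 := fun h => of_ok1 hn (List.all_eq_true.1 h q (List.mem_range.2 hq)) t
  have key2 : coverOK2 D = true → (∃ x : K, x ≠ 0 ∧ x ≠ 1) → T D K q t = 1 := by
    intro h ha
    have := List.all_eq_true.1 h q (List.mem_range.2 hq)
    simp only [Bool.or_eq_true, List.any_eq_true, List.mem_range] at this
    rcases this with h | ⟨r, hr, h⟩
    · exact of_ok1 hn h t
    · exact of_hit2 hn ha hr (fun r s hr hs x hx => Cfsg.Agent.Chev.Comm.terms_lt G.good hr hs x hx) h t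
  simp only [List.mem_cons, List.not_mem_nil, or_false] at hD
  rcases hD with rfl | rfl | rfl | rfl | rfl | rfl | rfl
  · exact key2 coverG2 (hK (by simp))
  · exact key2 coverB2 (hK (by simp))
  · exact key1 coverD4
  · exact key1 coverF4
  · exact key1 coverE6
  · exact key1 coverE7
  · exact key1 coverE8

end Cfsg.Agent.S2395
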