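import Cfsg.Statements.S2416
import Mathlib
import Cfsg.Agent.Chev.ShortGen
import Cfsg.Agent.Chev.ShortGenCerts
import Cfsg.Agent.Chev.TitsAll

set_option autoImplicit false
open scoped MatrixGroups
open Cfsg

namespace Cfsg.Agent.S2416
open Cfsg.Agent.Chev Cfsg.Agent.Chev.Comm Cfsg.Agent.Chev.Tits Cfsg.Agent.Chev.ShortGen Cfsg.Lie

/-- A Chevalley group of type G₂, B₂, D₄, F₄, E₆, E₇ or E₈ over a finite field lies in (indeed equals) the subgroup generated by its monomial subgroup `N` and a single fundamental root subgroup `X_p`, where `p` is a short fundamental root if there are two root lengths (any fundamental root otherwise), provided the characteristic is not 2 for types B₂, F₄ and not 3 for type G₂ (and the field has more than two elements for B₂, G₂). -/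
theorem result {K : Type*} [Field K] [Finite K] (D : Cfsg.Lie.ChevalleyDatum) (hD : D ∈ [Cfsg.Lie.chevG2, Cfsg.Lie.chevB2, Cfsg.Lie.chevD4, Cfsg.Lie.chevF4, Cfsg.Lie.chevE6, Cfsg.Lie.chevE7, Cfsg.Lie.chevE8])
    (hK : D ∈ [Cfsg.Lie.chevB2, Cfsg.Lie.chevG2] → ∃ x : K, x ≠ 0 ∧ x ≠ 1)
    (h2 : D ∈ [Cfsg.Lie.chevB2, Cfsg.Lie.chevF4] → ringChar K ≠ 2) (h3 : D = Cfsg.Lie.chevG2 → ringChar K ≠ 3)
    (i : ℕ) (hi : i < D.rank) (hshort : D.isLong (D.simple i) = false) :
    D.group K ≤ D.monomialSubgroup K ⊔ D.rootSubgroup K (D.simple i) := by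
  obtain ⟨k, G⟩ : ∃ c, TGood D c := tgood_of_mem hD
  simp only [List.mem_cons, List.not_mem_nil, or_false] at hD
  have c2 : D ∈ [Cfsg.Lie.chevB2, Cfsg.Lie.chevF4] → (2 : K) ≠ 0 := fun h e => h2 h (CharP.ringChar_of_prime_eq_zero Nat.prime_two (by exact_mod_cast e))
  rcases hD with rfl | rfl | rfl | rfl | rfl | rfl | rfl
  · refine gen_le (c := certG2) ⟨⟨goodG2, repG2, closedG2⟩, posG2, connG2, selfG2⟩ _ _ witOKG2 ?_ hi hshort
    intro n hn
    simp at hn
    rcases hn with rfl | rfl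
    · simp
    · intro e
      exact h3 rfl (CharP.ringChar_of_prime_eq_zero Nat.prime_three e)
  · refine gen_le (c := certB2) ⟨⟨goodB2, repB2, closedB2⟩, posB2, connB2, selfB2⟩ _ _ witOKB2 ?_ hi hshort
    intro n hn
    simp at hn
    rcases hn with rfl | rfl
    · simp
    · exact_mod_cast c2 (by simp)
  · refine gen_le (c := certD4) ⟨⟨goodD4, repD4, closedD4⟩, posD4, connD4, selfD4⟩ _ _ witOKD4 ?_ hi hshort
    intro n hn
    simp at hn
    subst hn; simp
  · refine gen_le (c := certF4) ⟨⟨goodF4, repF4, closedF4⟩, posF4, connF4, selfF4⟩ _ _ witOKF4 ?_ hi hshort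
    intro n hn
    simp at hn
    rcases hn with rfl | rfl
    · simp
    · exact_mod_cast c2 (by simp)
  · refine gen_le (c := certE6) ⟨⟨goodE6, repE6, closedE6⟩, posE6, connE6, selfE6⟩ _ _ witOKE6 ?_ hi hshort
    intro n hn
    simp at hn
    subst hn; simp
  · refine gen_le (c := certE7) ⟨⟨goodE7, repE7, closedE7⟩, posE7, connE7, selfE7⟩ _ _ witOKE7 ?_ hi hshort
    intro n hn
    simp at hn
    subst hn; simp
  · refine gen_le (c := certE8) ⟨⟨goodE8, repE8, closedE8⟩, posE8, connE8, selfE8⟩ _ _ witOKE8 ?_ hi hshort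
    intro n hn
    simp at hn
    subst hn; simp

end Cfsg.Agent.S2416
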