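import Cfsg.Statements.S2417
import Mathlib
import Cfsg.Agent.Chev.OrbitGen

set_option autoImplicit false
open scoped MatrixGroups
open Cfsg

namespace Cfsg.Agent.S2417
open Cfsg.Agent.Chev Cfsg.Agent.Chev.Comm Cfsg.Agent.Chev.Tits Cfsg.Lie

/-- In the characteristics with an exceptional graph symmetry — type B₂ or F₄ in characteristic 2 (field of more than two elements for B₂) and type G₂ in characteristic 3 — the Chevalley group lies in the subgroup generated by its monomial subgroup `N` and the two fundamental root subgroups `X_a`, `X_b` of a short root `a` and a long root `b` joined in the Dynkin diagram. -/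
theorem result {K : Type*} [Field K] [Finite K] (e : Cfsg.Lie.ChevalleyDatum × ℕ)
    (he : e ∈ [(Cfsg.Lie.chevB2, 2), (Cfsg.Lie.chevF4, 2), (Cfsg.Lie.chevG2, 3)]) [CharP K e.2]
    (hK : e.1 = Cfsg.Lie.chevB2 → ∃ x : K, x ≠ 0 ∧ x ≠ 1)
    (i j : ℕ) (hi : i < e.1.rank) (hj : j < e.1.rank) (hshort : e.1.isLong (e.1.simple i) = false)
    (hlong : e.1.isLong (e.1.simple j) = true) (hbond : e.1.bonds i j ≠ 0) :
    e.1.group K ≤ e.1.monomialSubgroup K ⊔ e.1.rootSubgroup K (e.1.simple i) ⊔ e.1.rootSubgroup K (e.1.simple j) := by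
  simp only [List.mem_cons, List.not_mem_nil, or_false] at he
  rcases he with rfl | rfl | rfl
  · have chk : ∀ a < 2, ∀ b < 2, chevB2.isLong (chevB2.simple a) = false → chevB2.isLong (chevB2.simple b) = true →
        twoOrbB chevB2 certB2 a b = true := by decide +kernel
    exact group_le_of_twoOrb ⟨⟨goodB2, repB2, closedB2⟩, posB2, connB2, selfB2⟩ hi hj (chk i hi j hj hshort hlong)
  · have chk : ∀ a < 4, ∀ b < 4, chevF4.isLong (chevF4.simple a) = false → chevF4.isLong (chevF4.simple b) = true →
        twoOrbB chevF4 certF4 a b = true := by decide +kernel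
    exact group_le_of_twoOrb ⟨⟨goodF4, repF4, closedF4⟩, posF4, connF4, selfF4⟩ hi hj (chk i hi j hj hshort hlong)
  · have chk : ∀ a < 2, ∀ b < 2, chevG2.isLong (chevG2.simple a) = false → chevG2.isLong (chevG2.simple b) = true →
        twoOrbB chevG2 certG2 a b = true := by decide +kernel
    exact group_le_of_twoOrb ⟨⟨goodG2, repG2, closedG2⟩, posG2, connG2, selfG2⟩ hi hj (chk i hi j hj hshort hlong)

end Cfsg.Agent.S2417
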