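import Cfsg.Statements.S2418
import Mathlib
import Cfsg.Agent.Chev.WeylElemsAll

set_option autoImplicit false
open Cfsg

namespace Cfsg.Agent.S2418
open Cfsg.Agent.Chev Cfsg.Agent.Chev.Comm Cfsg.Agent.Chev.Tits Cfsg.Lie

/-- For the Coxeter groups of types B₂, G₂, D₄, F₄, E₇, E₈ the centre has order 2 (the element acting as −1 on the root system) and is generated by a power of the Coxeter element `s₁ s₂ ⋯ s_l`; the Coxeter group of type E₆ has trivial centre. -/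
theorem result (c : (Σ n : ℕ, CoxeterMatrix (Fin n)) × ℕ)
    (hc : c ∈ [(⟨2, CoxeterMatrix.B 2⟩, 2), (⟨2, CoxeterMatrix.G₂⟩, 2), (⟨4, Cfsg.Lie.coxeterD4⟩, 2), (⟨4, CoxeterMatrix.F₄⟩, 2),
      (⟨6, CoxeterMatrix.E₆⟩, 1), (⟨7, CoxeterMatrix.E₇⟩, 2), (⟨8, CoxeterMatrix.E₈⟩, 2)]) :
    Nat.card (Subgroup.center c.1.2.Group) = c.2 ∧
      Subgroup.center c.1.2.Group ≤ Subgroup.zpowers ((List.finRange c.1.1).map c.1.2.simple).prod := by
  simp only [List.mem_cons, List.not_mem_nil, or_false] at hc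
  rcases hc with rfl | rfl | rfl | rfl | rfl | rfl | rfl
  · exact center_two (D := chevB2) tgB2 (by simp) corSimpleB2 coxB2 wgNegB2 wgLinkB2 2 wgMinusB2
  · exact center_two (D := chevG2) tgG2 (by simp) corSimpleG2 coxG2 wgNegG2 wgLinkG2 3 wgMinusG2
  · exact center_two (D := chevD4) tgD4 (by simp) corSimpleD4 coxD4 wgNegD4 wgLinkD4 3 wgMinusD4
  · exact center_two (D := chevF4) tgF4 (by simp) corSimpleF4 coxF4 wgNegF4 wgLinkF4 6 wgMinusF4
  · have h := center_trivial (D := chevE6) tgE6 (M := CoxeterMatrix.E₆) (by simp) corSimpleE6 coxE6 wgNegE6 wgLinkE6 _ wgVecE6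
    exact ⟨Subgroup.card_eq_one.2 h, h.le.trans bot_le⟩
  · exact center_two (D := chevE7) tgE7 (by simp) corSimpleE7 coxE7 wgNegE7 wgLinkE7 9 wgMinusE7
  · exact center_two (D := chevE8) tgE8 (by simp) corSimpleE8 coxE8 wgNegE8 wgLinkE8 15 wgMinusE8

end Cfsg.Agent.S2418
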