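import Cfsg.Statements.S2552
import Mathlib

set_option autoImplicit false
open Cfsg

namespace Cfsg.Agent.S2552

/-- Let F be a finite field and n ≥ 1. For every k, the special linear group SL_n(F) acts transitively on the set of k-dimensional subspaces of F^n: any two subspaces of the same dimension are carried onto each other by some matrix of determinant 1. -/
theorem result {F : Type*} [Field F] [Fintype F] (n : ℕ) (hn : 1 ≤ n) (U₁ U₂ : Submodule F (Fin n → F)) (h : Module.finrank F U₁ = Module.finrank F U₂) : ∃ g : Matrix.SpecialLinearGroup (Fin n) F, U₁.map ((Matrix.SpecialLinearGroup.toLin' g : (Fin n → F) ≃ₗ[F] (Fin n → F)) : (Fin n → F) →ₗ[F] (Fin n → F)) = U₂ := by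
  classical
  by_cases h0 : Module.finrank F U₁ = 0
  · refine ⟨1, ?_⟩
    rw [Submodule.finrank_eq_zero.1 h0, Submodule.map_bot, (Submodule.finrank_eq_zero.1 (h ▸ h0 : Module.finrank F U₂ = 0))]
  obtain ⟨W₁, hW₁⟩ := U₁.exists_isCompl
  obtain ⟨W₂, hW₂⟩ := U₂.exists_isCompl
  have hW : Module.finrank F W₁ = Module.finrank F W₂ := by
    have a := Submodule.finrank_add_eq_of_isCompl hW₁
    have b := Submodule.finrank_add_eq_of_isCompl hW₂
    omega
  let φ := LinearEquiv.ofFinrankEq _ _ h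
  let ψ := LinearEquiv.ofFinrankEq _ _ hW
  let e₂ := Submodule.prodEquivOfIsCompl _ _ hW₂
  let T : (Fin n → F) ≃ₗ[F] (Fin n → F) := (Submodule.prodEquivOfIsCompl _ _ hW₁).symm ≪≫ₗ φ.prodCongr ψ ≪≫ₗ e₂
  let b := Module.finBasis F U₂
  have i0 : Fin (Module.finrank F U₂) := ⟨0, by omega⟩
  let s : U₂ →ₗ[F] U₂ := Matrix.toLin b b (Matrix.diagonal (Function.update 1 i0 (LinearMap.det (T : (Fin n → F) →ₗ[F] (Fin n → F)))⁻¹))
  let S : (Fin n → F) →ₗ[F] (Fin n → F) := e₂.toLinearMap ∘ₗ s.prodMap (LinearMap.id : W₂ →ₗ[F] W₂) ∘ₗ e₂.symm.toLinearMap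
  have hd : LinearMap.det (S ∘ₗ (T : _ →ₗ[F] _)) = 1 := by
    rw [LinearMap.det_comp, LinearMap.det_conj, LinearMap.det_prodMap, LinearMap.det_id, mul_one, LinearMap.det_toLin, Matrix.det_diagonal,
      Finset.prod_update_of_mem (Finset.mem_univ i0)]
    simp [T.isUnit_det'.ne_zero]
  let g : Matrix.SpecialLinearGroup (Fin n) F := ⟨LinearMap.toMatrix' (S ∘ₗ (T : _ →ₗ[F] _)), by rw [LinearMap.det_toMatrix', hd]⟩
  refine ⟨g, Submodule.eq_of_le_of_finrank_eq ?_ (by rw [LinearEquiv.finrank_map_eq, h])⟩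
  rintro _ ⟨u, hu, rfl⟩
  show Matrix.toLin' g.1 u ∈ U₂
  rw [show g.1 = LinearMap.toMatrix' (S ∘ₗ (T : _ →ₗ[F] _)) from rfl, Matrix.toLin'_toMatrix']
  have h1 : T u = (φ ⟨u, hu⟩ : Fin n → F) := by
    simp [T, e₂, Submodule.prodEquivOfIsCompl_symm_apply_left U₁ W₁ hW₁ ⟨u, hu⟩]
  show e₂ (s.prodMap LinearMap.id (e₂.symm (T u))) ∈ U₂
  rw [h1, Submodule.prodEquivOfIsCompl_symm_apply_left]
  simp [e₂]

end Cfsg.Agent.S2552
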