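import Cfsg.Statements.S2567
import Mathlib

set_option autoImplicit false
open Cfsg

namespace Cfsg.Agent.S2567

/-- Lifting elements of prime order from PGL to GL: let F be a finite field with q elements, r a prime not dividing q − 1, and x an element of order r in GL_n(F) modulo its centre (the scalar matrices). Then x has exactly one preimage in GL_n(F) of order r. -/
theorem result {F : Type*} [Field F] [Fintype F] {q n r : ℕ} (hF : Fintype.card F = q) (hr : r.Prime) (hdiv : ¬ r ∣ q - 1) (x : GL (Fin n) F ⧸ Subgroup.center (GL (Fin n) F)) (hx : orderOf x = r) : ∃! g : GL (Fin n) F, (QuotientGroup.mk g : GL (Fin n) F ⧸ Subgroup.center (GL (Fin n) F)) = x ∧ orderOf g = r := by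
  classical
  have hz : ∀ z ∈ (Subgroup.center (GL (Fin n) F)), z ^ (q - 1) = 1 := by
    intro z hz
    rw [Matrix.GeneralLinearGroup.center_eq_range_scalar] at hz
    obtain ⟨u, rfl⟩ := hz
    rw [← map_pow, ← hF, ← Fintype.card_units, pow_card_eq_one, map_one]
  have hco : Nat.Coprime r (q - 1) := hr.coprime_iff_not_dvd.2 hdiv
  have hcz : ∀ z ∈ (Subgroup.center (GL (Fin n) F)), Nat.Coprime r (orderOf z) := fun z hz' => hco.coprime_dvd_right (orderOf_dvd_of_pow_eq_one (hz z hz'))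
  have : Fact r.Prime := ⟨hr⟩
  obtain ⟨g, rfl⟩ := QuotientGroup.mk_surjective x
  have hgr : g ^ r ∈ Subgroup.center (GL (Fin n) F) := by
    rw [← QuotientGroup.eq_one_iff, QuotientGroup.mk_pow, ← hx, pow_orderOf_eq_one]
  obtain ⟨m, hm⟩ := exists_pow_eq_self_of_coprime (hcz _ hgr)
  set w := (g ^ r) ^ m with hw
  have hwZ : w ∈ Subgroup.center (GL (Fin n) F) := Subgroup.pow_mem _ hgr m
  have hwr : w ^ r = g ^ r := by rw [hw, ← pow_mul, mul_comm, pow_mul, hm]
  have hcomm : Commute g w⁻¹ := (((Commute.refl g).pow_right r).pow_right m).inv_right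
  have hmk : (QuotientGroup.mk (g * w⁻¹) : GL (Fin n) F ⧸ Subgroup.center (GL (Fin n) F)) = QuotientGroup.mk g := QuotientGroup.eq.2 (by simpa using hwZ)
  refine ⟨g * w⁻¹, ⟨hmk, ?_⟩, ?_⟩
  · refine orderOf_eq_prime ?_ fun h => ?_
    · rw [hcomm.mul_pow, inv_pow, hwr, mul_inv_cancel]
    · rw [← hmk, h, QuotientGroup.mk_one, orderOf_one] at hx
      exact hr.one_lt.ne hx
  · rintro y ⟨hy, hyr⟩
    have hd : (g * w⁻¹)⁻¹ * y ∈ Subgroup.center (GL (Fin n) F) := QuotientGroup.eq.1 (hmk.trans hy.symm)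
    set z := (g * w⁻¹)⁻¹ * y with hzdef
    have he : y = g * w⁻¹ * z := by rw [hzdef, mul_inv_cancel_left]
    have hc : Commute (g * w⁻¹) z := (Subgroup.mem_center_iff.1 hd (g * w⁻¹))
    have hzr : z ^ r = 1 := by
      have h1 : y ^ r = 1 := hyr ▸ pow_orderOf_eq_one y
      rwa [he, hc.mul_pow, hcomm.mul_pow, inv_pow, hwr, mul_inv_cancel, one_mul] at h1
    obtain ⟨k, hk⟩ := exists_pow_eq_self_of_coprime (hcz _ hd)
    rw [he, ← hk, hzr, one_pow, mul_one]

end Cfsg.Agent.S2567
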