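import Cfsg.Statements.S2575
import Mathlib

set_option autoImplicit false
open Cfsg

namespace Cfsg.Agent.S2575

/-- Which diagonal involutions of PGL_n(q) lie in PSL_n(q), q odd: for the diagonal matrix t with i entries −1 and n − i entries 1, some non-zero scalar multiple of t has determinant one if and only if i is even or the 2-part of q − 1 exceeds the 2-part of n (that is, −1 is an n-th power in the field exactly in the latter case). -/
theorem result {F : Type*} [Field F] [Fintype F] {q : ℕ} (hF : Fintype.card F = q) (hq : Odd q) {n : ℕ} (hn : 1 ≤ n) (i : ℕ) (hi : i ≤ n) : (∃ c : F, c ≠ 0 ∧ (c • Matrix.diagonal (fun j : Fin n => if (j : ℕ) < i then (-1 : F) else 1)).det = 1) ↔ (Even i ∨ padicValNat 2 n < padicValNat 2 (q - 1)) := by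
  classical
  have hdet : ∀ c : F, (c • Matrix.diagonal (fun j : Fin n => if (j : ℕ) < i then (-1 : F) else 1)).det = c ^ n * (-1) ^ i := by
    intro c
    rw [Matrix.det_smul, Fintype.card_fin, Matrix.det_diagonal, Finset.prod_ite, Finset.prod_const, Finset.prod_const_one, mul_one]
    congr 2
    rw [Fin.card_filter_val_lt, min_eq_right hi]
  simp only [hdet]
  rcases Nat.even_or_odd i with he | ho
  · exact iff_of_true ⟨1, one_ne_zero, by simp [he.neg_one_pow]⟩ (Or.inl he)
  simp only [ho.neg_one_pow, Nat.not_even_iff_odd.2 ho, false_or, mul_neg, mul_one, neg_eq_iff_eq_neg]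
  have h2F : (-1 : F) ≠ 1 := by
    intro h
    have h2 : ringChar F = 2 := by
      have : ((2 : ℕ) : F) = 0 := by push_cast; linear_combination -h
      exact CharP.ringChar_of_prime_eq_zero Nat.prime_two this
    have := FiniteField.even_card_iff_char_two.1 h2
    rw [hF] at this
    rcases hq with ⟨k, rfl⟩
    omega
  obtain ⟨a, m, hm, hnm⟩ := Nat.exists_eq_two_pow_mul_odd (show n ≠ 0 by omega)
  have hva : padicValNat 2 n = a := by
    rw [hnm, padicValNat.mul (by simp) (by obtain ⟨k, rfl⟩ := hm; omega), padicValNat.prime_pow,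
      padicValNat.eq_zero_of_not_dvd (by obtain ⟨k, rfl⟩ := hm; omega), add_zero]
  have hq1 : q - 1 ≠ 0 := by have := Fintype.one_lt_card (α := F); omega
  have hlt : padicValNat 2 n < padicValNat 2 (q - 1) ↔ 2 ^ (a + 1) ∣ q - 1 := by
    rw [padicValNat_dvd_iff_le hq1, hva]
    omega
  rw [hlt]
  constructor
  · rintro ⟨c, hc0, hc⟩
    have hcu : (Units.mk0 c hc0) ^ m ∈ (⊤ : Subgroup Fˣ) := trivial
    have h1 : ((Units.mk0 c hc0) ^ m) ^ 2 ^ a = -1 := by
      rw [← pow_mul, mul_comm, ← hnm]; ext; simpa using hc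
    have := orderOf_eq_prime_pow (x := (Units.mk0 c hc0) ^ m) (p := 2) (n := a) (by rw [h1]; intro h; exact h2F (by simpa using congrArg Units.val h))
      (by rw [pow_succ, pow_mul, h1]; simp)
    rw [← this, ← hF, ← Fintype.card_units]
    exact orderOf_dvd_card
  · intro hd
    obtain ⟨g, hg⟩ := IsCyclic.exists_ofOrder_eq_natCard (α := Fˣ)
    rw [Nat.card_eq_fintype_card, Fintype.card_units, hF] at hg
    have ho' : orderOf (g ^ ((q - 1) / 2 ^ (a + 1))) = 2 ^ (a + 1) := by
      rw [← hg] at hd hq1 ⊢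
      exact orderOf_pow_orderOf_div hq1 hd
    set c := g ^ ((q - 1) / 2 ^ (a + 1))
    have h1 : ((c : F) ^ 2 ^ a) * ((c : F) ^ 2 ^ a) = 1 := by
      rw [← pow_add, ← two_mul, ← pow_succ', ← ho', ← Units.val_pow_eq_pow_val, pow_orderOf_eq_one, Units.val_one]
    rcases mul_self_eq_one_iff.1 h1 with h | h
    · exfalso
      have : orderOf c ∣ 2 ^ a := orderOf_dvd_of_pow_eq_one (Units.ext (by simpa using h))
      rw [ho', Nat.pow_dvd_pow_iff_le_right (by norm_num)] at this
      omega
    · exact ⟨(c : F), c.ne_zero, by rw [hnm, pow_mul, h, hm.neg_one_pow]⟩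

end Cfsg.Agent.S2575
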