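import Cfsg.Statements.S2579
import Cfsg.Agent.S0839
-- import your own Cfsg.Agent.* helpers here

set_option autoImplicit false
open Cfsg

namespace Cfsg.Agent.S2579

theorem conj_std {F : Type*} [Field F] (m : ℕ) (t : Matrix.SpecialLinearGroup (Fin (m + 1 + 2)) F)
    (ht : Cfsg.IsTransvection (t : Matrix (Fin (m + 1 + 2)) (Fin (m + 1 + 2)) F)) :
    ∃ x : Matrix.SpecialLinearGroup (Fin (m + 1 + 2)) F,
      ((x⁻¹ * t * x : Matrix.SpecialLinearGroup (Fin (m + 1 + 2)) F) : Matrix (Fin (m + 1 + 2)) (Fin (m + 1 + 2)) F)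
        = 1 + Matrix.vecMulVec (Pi.single 1 1) (Pi.single 0 1) := by
  obtain ⟨g, v, hv0, hg⟩ := Cfsg.Agent.S0839.result (m + 1) t ht
  have hv : v ≠ 0 := by
    rintro rfl
    rw [Matrix.zero_vecMulVec, add_zero] at hg
    have h1 : g⁻¹ * t * g = 1 := Subtype.ext hg
    have h2 : t = 1 := by
      calc t = g * (g⁻¹ * t * g) * g⁻¹ := by group
        _ = 1 := by rw [h1]; group
    obtain ⟨hr, -⟩ := ht
    rw [h2, Matrix.SpecialLinearGroup.coe_one, sub_self, Matrix.rank_zero] at hr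
    exact zero_ne_one hr
  obtain ⟨j, hj⟩ := Function.ne_iff.1 hv
  simp only [Pi.zero_apply] at hj
  have hj0 : j ≠ 0 := fun e => hj (e ▸ hv0)
  obtain ⟨h, hdet, hcol, hrow⟩ : ∃ h : Matrix (Fin (m + 1 + 2)) (Fin (m + 1 + 2)) F,
      h.det ≠ 0 ∧ (∀ i, h i 1 = v i) ∧ h 0 = Pi.single 0 1 := by
    refine ⟨(Matrix.updateCol 1 j v).submatrix id (Equiv.swap 1 j), ?_, fun i => by simp, ?_⟩
    · rw [Matrix.det_permute']
      refine mul_ne_zero (by rcases Int.units_eq_one_or (Equiv.Perm.sign (Equiv.swap 1 j)) with h | h <;> simp [h]) ?_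
      rw [← Matrix.cramer_apply, Matrix.cramer_one]
      exact hj
    · funext i
      rw [Matrix.submatrix_apply, Matrix.updateCol_apply, id]
      split_ifs with hi
      · rw [hv0, Pi.single_apply, if_neg]
        rintro rfl
        rw [Equiv.swap_apply_of_ne_of_ne (by simp) hj0.symm] at hi
        exact hj0 hi.symm
      · rw [Matrix.one_apply, Pi.single_apply]
        have e : (0 : Fin (m + 1 + 2)) = Equiv.swap 1 j i ↔ i = 0 := by
          rw [← Equiv.apply_eq_iff_eq (Equiv.swap 1 j) (x := i) (y := 0), Equiv.swap_apply_of_ne_of_ne (by simp) hj0.symm, eq_comm]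
        simp only [e]
  have h02 : (2 : Fin (m + 1 + 2)) ≠ 0 := by simp [Fin.ext_iff, Nat.mod_eq_of_lt (show 2 < m + 1 + 2 by omega)]
  have h12 : (2 : Fin (m + 1 + 2)) ≠ 1 := by simp [Fin.ext_iff, Nat.mod_eq_of_lt (show 2 < m + 1 + 2 by omega)]
  let H : Matrix.SpecialLinearGroup (Fin (m + 1 + 2)) F :=
    ⟨Matrix.updateCol h 2 (h.det⁻¹ • fun i => h i 2), by
      rw [Matrix.det_updateCol_smul, Matrix.updateCol_eq_self, inv_mul_cancel₀ hdet]⟩
  have hH1 : (H : Matrix (Fin (m + 1 + 2)) (Fin (m + 1 + 2)) F).mulVec (Pi.single 1 1) = v := by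
    funext i
    rw [Matrix.mulVec_single_one]
    show Matrix.updateCol h 2 (h.det⁻¹ • fun k => h k 2) i 1 = v i
    rw [Matrix.updateCol_ne h12.symm, hcol]
  have hH0 : Matrix.vecMul (Pi.single 0 1) (H : Matrix (Fin (m + 1 + 2)) (Fin (m + 1 + 2)) F) = Pi.single 0 1 := by
    funext i
    rw [Matrix.single_one_vecMul]
    show Matrix.updateCol h 2 (h.det⁻¹ • fun k => h k 2) 0 i = _
    rw [Matrix.updateCol_apply, hrow]
    split_ifs with hi
    · subst hi; simp [h02, hrow]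
    · rfl
  refine ⟨g * H, ?_⟩
  have e : (g * H)⁻¹ * t * (g * H) = H⁻¹ * (g⁻¹ * t * g) * H := by group
  rw [e, Matrix.SpecialLinearGroup.coe_mul, Matrix.SpecialLinearGroup.coe_mul, hg, Matrix.mul_add, Matrix.mul_one,
    Matrix.add_mul, ← Matrix.SpecialLinearGroup.coe_mul, inv_mul_cancel, Matrix.SpecialLinearGroup.coe_one,
    Matrix.mul_vecMulVec, Matrix.vecMulVec_mul, hH0, ← hH1, Matrix.mulVec_mulVec,
    ← Matrix.SpecialLinearGroup.coe_mul, inv_mul_cancel, Matrix.SpecialLinearGroup.coe_one, Matrix.one_mulVec]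

/-- In SL_n(F) with n ≥ 3, over a finite field F, any two transvections (matrices t with t − 1 of rank one and square zero) are conjugate by an element of SL_n(F). -/
theorem result {F : Type*} [Field F] [Finite F] {n : ℕ} (hn : 3 ≤ n) (s t : Matrix.SpecialLinearGroup (Fin n) F) (hs : Cfsg.IsTransvection (s : Matrix (Fin n) (Fin n) F)) (ht : Cfsg.IsTransvection (t : Matrix (Fin n) (Fin n) F)) : IsConj s t := by
  obtain ⟨m, rfl⟩ : ∃ m, n = m + 1 + 2 := ⟨n - 3, by omega⟩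
  obtain ⟨x, hx⟩ := conj_std m s hs
  obtain ⟨y, hy⟩ := conj_std m t ht
  have e : x⁻¹ * s * x = y⁻¹ * t * y := Subtype.ext (hx.trans hy.symm)
  refine isConj_iff.2 ⟨y * x⁻¹, ?_⟩
  calc y * x⁻¹ * s * (y * x⁻¹)⁻¹ = y * (x⁻¹ * s * x) * y⁻¹ := by group
    _ = t := by rw [e]; group

end Cfsg.Agent.S2579
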