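import Cfsg.Statements.S2666
import Mathlib

set_option autoImplicit false
open Cfsg

namespace Cfsg.Agent.S2666
theorem mem_fix {X : Type*} [Group X] (f : MulAut X) (x : X) :
    x ∈ (MulEquiv.toMonoidHom f).eqLocus (MonoidHom.id X) ↔ f x = x := Iff.rfl

theorem pow_fix {X : Type*} [Group X] (σ : MulAut X) {x : X} (h : σ x = x) : ∀ n : ℕ, (σ ^ n) x = x
  | 0 => rfl
  | n + 1 => by rw [pow_succ, MulAut.mul_apply, h, pow_fix σ h n]

theorem pow_comm_apply {X : Type*} [Group X] (σ : MulAut X) (n : ℕ) (x : X) :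
    (σ ^ n) (σ x) = σ ((σ ^ n) x) := by
  rw [← MulAut.mul_apply, ← MulAut.mul_apply, ← pow_succ, ← pow_succ']

/-- Shintani descent, in an abstract form. Let `σ` be an automorphism of a group `X` such that the maps `a ↦ a·σ(a)⁻¹` and `a ↦ a·σᵉ(a)⁻¹` are surjective on `X` (the Lang–Steinberg property, which holds when `X` is a connected algebraic group and `σ` a Steinberg endomorphism), where `e ≥ 1`. Write `G` for the subgroup of fixed points of `σᵉ` and `H` for the subgroup of fixed points of `σ`. The `G`-conjugacy classes in the coset `G σ` of the semidirect product of `G` by `σ` correspond to the orbits of `G` on itself under twisted conjugation `g ↦ k g σ(k)⁻¹`, and the `e`-th power of `g σ` has `G`-part the norm `g σ(g) ⋯ σ^(e-1)(g)`. For `g` in `G` and any `a` with `g = a σ(a)⁻¹`, put `x = σᵉ(a)⁻¹ a`. Then: (1) `x` lies in `H`, and `a⁻¹ · (g σ(g) ⋯ σ^(e-1)(g)) · a = x`; (2) for `g, g'` in `G` with such elements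 `a, b` and `x, x'`, the elements `g, g'` are twisted-conjugate under `G` if and only if `x, x'` are conjugate in `H`; (3) every element of `H` arises as such an `x`. So `g ↦ x` induces a well-defined bijection from the twisted `G`-classes of `G` onto the conjugacy classes of `H` (the Shintani map). -/
theorem result {X : Type*} [Group X] (σ : MulAut X) (e : ℕ) (he : 1 ≤ e)
    (hL : ∀ g : X, ∃ a : X, g = a * (σ a)⁻¹) (hLe : ∀ g : X, ∃ a : X, g = a * ((σ ^ e) a)⁻¹) :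
    (∀ g ∈ (MulEquiv.toMonoidHom (σ ^ e)).eqLocus (MonoidHom.id X), ∀ a : X, g = a * (σ a)⁻¹ →
        ((σ ^ e) a)⁻¹ * a ∈ (MulEquiv.toMonoidHom σ).eqLocus (MonoidHom.id X) ∧
          a⁻¹ * ((List.range e).map (fun i => (σ ^ i) g)).prod * a = ((σ ^ e) a)⁻¹ * a) ∧
    (∀ g ∈ (MulEquiv.toMonoidHom (σ ^ e)).eqLocus (MonoidHom.id X), ∀ g' ∈ (MulEquiv.toMonoidHom (σ ^ e)).eqLocus (MonoidHom.id X), ∀ a b : X,
        g = a * (σ a)⁻¹ → g' = b * (σ b)⁻¹ →
          ((∃ k ∈ (MulEquiv.toMonoidHom (σ ^ e)).eqLocus (MonoidHom.id X), g' = k * g * (σ k)⁻¹) ↔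
            (∃ h ∈ (MulEquiv.toMonoidHom σ).eqLocus (MonoidHom.id X), ((σ ^ e) b)⁻¹ * b = h * (((σ ^ e) a)⁻¹ * a) * h⁻¹))) ∧
    (∀ x ∈ (MulEquiv.toMonoidHom σ).eqLocus (MonoidHom.id X), ∃ g ∈ (MulEquiv.toMonoidHom (σ ^ e)).eqLocus (MonoidHom.id X), ∃ a : X,
        g = a * (σ a)⁻¹ ∧ ((σ ^ e) a)⁻¹ * a = x) := by
  simp only [mem_fix]
  have hfix : ∀ g, (σ ^ e) g = g → ∀ a, g = a * (σ a)⁻¹ → σ (((σ ^ e) a)⁻¹ * a) = ((σ ^ e) a)⁻¹ * a := by
    intro g hg a ha
    subst ha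
    rw [map_mul, map_inv, pow_comm_apply] at hg
    simp only [map_mul, map_inv]
    calc (σ ((σ ^ e) a))⁻¹ * σ a = ((σ ^ e) a)⁻¹ * ((σ ^ e) a * (σ ((σ ^ e) a))⁻¹) * σ a := by group
      _ = _ := by rw [hg]; group
  refine ⟨fun g hg a ha => ⟨hfix g hg a ha, ?_⟩, fun g hg g' hg' a b ha hb => ⟨?_, ?_⟩, fun x hx => ?_⟩
  · subst ha
    have tel : ∀ n : ℕ, ((List.range n).map (fun i => (σ ^ i) (a * (σ a)⁻¹))).prod = a * ((σ ^ n) a)⁻¹ := by
      intro n
      induction n with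
      | zero => simp
      | succ n ih =>
        rw [List.range_succ, List.map_append, List.prod_append, ih, List.map_cons, List.map_nil,
          List.prod_cons, List.prod_nil, mul_one, map_mul, map_inv, ← MulAut.mul_apply, ← pow_succ]
        group
    rw [tel]; group
  · rintro ⟨k, hk, hkg⟩
    refine ⟨b⁻¹ * k * a, ?_, ?_⟩
    · rw [ha, hb] at hkg
      simp only [map_mul, map_inv]
      calc (σ b)⁻¹ * σ k * σ a = b⁻¹ * (b * (σ b)⁻¹) * σ k * σ a := by group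
        _ = _ := by rw [hkg]; group
    · have hs : σ (b⁻¹ * k * a) = b⁻¹ * k * a := by
        rw [ha, hb] at hkg
        simp only [map_mul, map_inv]
        calc (σ b)⁻¹ * σ k * σ a = b⁻¹ * (b * (σ b)⁻¹) * σ k * σ a := by group
          _ = _ := by rw [hkg]; group
      have h := pow_fix σ hs e
      simp only [map_mul, map_inv, hk] at h
      calc ((σ ^ e) b)⁻¹ * b = ((σ ^ e) b)⁻¹ * k * (σ ^ e) a * (((σ ^ e) a)⁻¹ * a) * (b⁻¹ * k * a)⁻¹ := by group
        _ = _ := by rw [h]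
  · rintro ⟨h, hh, hx⟩
    refine ⟨b * h * a⁻¹, ?_, ?_⟩
    · have hp := pow_fix σ hh e
      simp only [map_mul, map_inv, hp]
      calc (σ ^ e) b * h * ((σ ^ e) a)⁻¹ = b * (((σ ^ e) b)⁻¹ * b)⁻¹ * h * (((σ ^ e) a)⁻¹ * a) * a⁻¹ := by group
        _ = _ := by rw [hx]; group
    · rw [ha, hb]
      simp only [map_mul, map_inv, hh]
      group
  · obtain ⟨c, hc⟩ := hLe x⁻¹
    refine ⟨c⁻¹ * (σ c⁻¹)⁻¹, ?_, c⁻¹, rfl, ?_⟩
    · have h1 : (σ ^ e) c⁻¹ = c⁻¹ * x⁻¹ := by rw [map_inv, hc]; group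
      rw [map_mul, map_inv (σ ^ e) (σ c⁻¹), pow_comm_apply, h1, map_mul σ c⁻¹ x⁻¹, map_inv σ x, hx]
      group
    · have h2 : x = (σ ^ e) c * c⁻¹ := by rw [← inv_inv x, hc]; group
      rw [map_inv, inv_inv, h2]

end Cfsg.Agent.S2666
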