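import Cfsg.Statements.S2761
import Mathlib
import Cfsg.Agent.PLocal.Qd
import Cfsg.Agent.Classical.SL

set_option autoImplicit false
open Cfsg

namespace Cfsg.Agent.S2761

open Cfsg.Agent.QdCoord in
theorem qd_two_iso : Nonempty (↥(Cfsg.qd 2) ≃* Equiv.Perm (Fin 4)) := by
  classical
  haveI : Fact (Nat.Prime 2) := ⟨Nat.prime_two⟩
  have hmul : ∀ (M N : ↥(Cfsg.qd 2)) (x : Fin 2 → ZMod 2),
      Matrix.mulVec (blk (M * N)).1 x + vec (M * N) = Matrix.mulVec (blk M).1 (Matrix.mulVec (blk N).1 x + vec N) + vec M := by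
    intro M N x
    rw [map_mul, vec_mul, Matrix.SpecialLinearGroup.coe_mul, ← Matrix.mulVec_mulVec, Matrix.mulVec_add, add_assoc]
  have hone : ∀ x : Fin 2 → ZMod 2, Matrix.mulVec (blk (1 : ↥(Cfsg.qd 2))).1 x + vec (1 : ↥(Cfsg.qd 2)) = x := by
    intro x
    rw [map_one, vec_one, add_zero, Matrix.SpecialLinearGroup.coe_one, Matrix.one_mulVec]
  letI : MulAction ↥(Cfsg.qd 2) (Fin 2 → ZMod 2) :=
    { smul := fun M x => Matrix.mulVec (blk M).1 x + vec M, one_smul := hone, mul_smul := hmul }
  have hinj : Function.Injective (MulAction.toPermHom ↥(Cfsg.qd 2) (Fin 2 → ZMod 2)) := by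
    intro M N h
    have h0 : ∀ x : Fin 2 → ZMod 2, Matrix.mulVec (blk M).1 x + vec M = Matrix.mulVec (blk N).1 x + vec N := fun x => DFunLike.congr_fun h x
    have hv : vec M = vec N := by simpa using h0 0
    refine ext_parts (Subtype.ext (Matrix.ext fun i j => ?_)) hv
    have := h0 (Pi.single j 1)
    rw [hv, add_left_inj] at this
    simpa using congrFun this i
  let T : Type := Matrix.SpecialLinearGroup (Fin 2) (ZMod 2) × (Fin 2 → ZMod 2)
  choose f hf1 hf2 using fun c : T => exists_of_parts c.1 c.2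
  have hfi : Function.Injective f := fun a b h => Prod.ext (by rw [← hf1 a, ← hf1 b, h]) (by rw [← hf2 a, ← hf2 b, h])
  have hT : Nat.card T = 24 := by
    have h3 := Classical.card_SL_mul (F := ZMod 2) 2 (by norm_num)
    rw [ZMod.card, Fin.prod_univ_two] at h3
    norm_num [-Nat.card_eq_fintype_card] at h3
    show Nat.card (_ × _) = 24
    rw [Nat.card_prod, h3, Nat.card_fun, Nat.card_fin, Nat.card_zmod]; norm_num
  have hc1 := Nat.card_le_card_of_injective f hfi
  have hc2 := Nat.card_le_card_of_injective _ hinj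
  have hperm : Nat.card (Equiv.Perm (Fin 2 → ZMod 2)) = 24 := by
    rw [Nat.card_perm, Nat.card_fun, Nat.card_fin, Nat.card_zmod]; rfl
  let e : (Fin 2 → ZMod 2) ≃ Fin 4 := Fintype.equivFinOfCardEq (by simp)
  exact ⟨(MulEquiv.ofBijective _ ((Nat.bijective_iff_injective_and_card _).mpr ⟨hinj, by omega⟩)).trans e.permCongrHom⟩



/-- The group Qd(2), the natural semidirect product of an elementary abelian group of order 4 by SL₂(2) (realised as the affine subgroup of SL₃(2)), is isomorphic to the symmetric group of degree 4. -/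
theorem result : Nonempty (↥(Cfsg.qd 2) ≃* Equiv.Perm (Fin 4)) := by
  exact qd_two_iso

end Cfsg.Agent.S2761
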