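import Cfsg.Statements.S2781
import Mathlib.GroupTheory.GroupAction.Quotient
import Mathlib.Algebra.BigOperators.Group.Finset.Basic
import Cfsg.Agent.Transfer.Basic

set_option autoImplicit false
open Cfsg
open scoped commutatorElement

namespace Cfsg.Agent.S2781

/-- Let H act faithfully by conjugation on the elementary abelian p-subgroup V of a finite group, let O^p(H) be the subgroup of H generated by its elements of order prime to p, and T a Sylow p-subgroup of O^p(H). If V is generated by the H-conjugates of C_V(T) (V is the smallest H-invariant subgroup containing C_V(T)), then V = [V, O^p(H)]·C_V(O^p(H)). -/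
theorem result {G : Type*} [Group G] [Finite G] {p : ℕ} [Fact p.Prime] (V H : Subgroup G) (hV : Cfsg.IsElementaryAbelian p V) (hHV : H ≤ Subgroup.normalizer (V : Set G)) (hf : H ⊓ Subgroup.centralizer (V : Set G) = ⊥) (R : Subgroup G) (hR : R = (Cfsg.pResidual p ↥H).map H.subtype) (S : Sylow p ↥R) (T : Subgroup G) (hT : T = ((S : Subgroup ↥R).map R.subtype)) (hgen : ∀ W : Subgroup G, H ≤ Subgroup.normalizer (W : Set G) → (V ⊓ Subgroup.centralizer ((T : Subgroup G) : Set G)) ≤ W → V ≤ W) : ⁅V, R⁆ ⊔ (V ⊓ Subgroup.centralizer ((R : Subgroup G) : Set G)) = V := by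
  classical
  haveI := hV.1
  have hp : p.Prime := Fact.out
  have hRH : R ≤ H := by rw [hR]; exact Subgroup.map_subtype_le _
  have hTR : T ≤ R := by rw [hT]; exact Subgroup.map_subtype_le _
  set C := V ⊓ Subgroup.centralizer (R : Set G) with hC
  set D := ⁅V, R⁆ ⊔ C with hD
  have hVR : ⁅V, R⁆ ≤ V := Subgroup.le_normalizer_iff_commutator_le_left.mp (hRH.trans hHV)
  refine le_antisymm (sup_le hVR inf_le_left) ?_
  refine hgen D ?_ ?_
  · intro h hh
    have eV : V.map (MulAut.conj h).toMonoidHom = V := Subgroup.mem_normalizer_iff_map_conj_eq.mp (hHV hh)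
    haveI : (Cfsg.pResidual p ↥H).Normal := by
      refine ⟨fun x hx g => ?_⟩
      have : Cfsg.pResidual p ↥H ≤ (Cfsg.pResidual p ↥H).comap (MulAut.conj g).toMonoidHom :=
        (Subgroup.closure_le _).mpr fun y hy => Subgroup.subset_closure
          (show (orderOf (MulAut.conj g y)).Coprime p by rw [MulEquiv.orderOf_eq]; exact hy)
      exact this hx
    have eR : R.map (MulAut.conj h).toMonoidHom = R := by
      refine Subgroup.eq_of_le_of_card_ge ?_ (by rw [Subgroup.card_map_of_injective (MulAut.conj h).injective])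
      rintro _ ⟨r, hr, rfl⟩
      rw [SetLike.mem_coe, hR] at hr
      obtain ⟨r', hr', rfl⟩ := hr
      rw [hR]
      exact ⟨⟨h, hh⟩ * r' * ⟨h, hh⟩⁻¹, Subgroup.Normal.conj_mem inferInstance r' hr' _, rfl⟩
    rw [Subgroup.mem_normalizer_iff_map_conj_eq]
    refine Subgroup.eq_of_le_of_card_ge ?_ (by rw [Subgroup.card_map_of_injective (MulAut.conj h).injective])
    rw [hD, Subgroup.map_sup, Subgroup.map_commutator]
    erw [eV, eR]
    refine sup_le le_sup_left (le_trans ?_ le_sup_right)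
    rintro _ ⟨c, hc, rfl⟩
    refine ⟨eV.le ⟨c, hc.1, rfl⟩, Subgroup.mem_centralizer_iff.mpr fun r hr => ?_⟩
    obtain ⟨r', hr', rfl⟩ := eR.ge hr
    show (h * r' * h⁻¹) * (h * c * h⁻¹) = (h * c * h⁻¹) * (h * r' * h⁻¹)
    rw [show (h * r' * h⁻¹) * (h * c * h⁻¹) = h * (r' * c) * h⁻¹ by group,
      Subgroup.mem_centralizer_iff.mp hc.2 r' hr']
    group
  · rintro v ⟨hv, hvT⟩
    set S' := (S : Subgroup ↥R)
    haveI : Fintype (↥R ⧸ S') := Fintype.ofFinite _
    have hmem : ∀ r : ↥R, (r : G) * v * (r : G)⁻¹ ∈ V := fun r => (Subgroup.mem_normalizer_iff.mp (hHV (hRH r.2)) v).mp hv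
    let f : ↥R ⧸ S' → ↥V := Quotient.lift (fun r : ↥R => (⟨_, hmem r⟩ : ↥V)) (by
      intro a b hab
      have hab' : a⁻¹ * b ∈ S' := QuotientGroup.leftRel_apply.mp hab
      have h1 : ((a⁻¹ * b : ↥R) : G) ∈ T := by rw [hT]; exact ⟨_, hab', rfl⟩
      have h2 : ((a⁻¹ * b : ↥R) : G) * v = v * ((a⁻¹ * b : ↥R) : G) := Subgroup.mem_centralizer_iff.mp hvT _ h1
      refine Subtype.ext ?_
      show (a : G) * v * (a : G)⁻¹ = (b : G) * v * (b : G)⁻¹
      have h3 : (a : G)⁻¹ * b * v = v * ((a : G)⁻¹ * b) := h2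
      calc (a : G) * v * (a : G)⁻¹ = (a : G) * (v * ((a : G)⁻¹ * b)) * (b : G)⁻¹ := by group
        _ = (a : G) * ((a : G)⁻¹ * b * v) * (b : G)⁻¹ := by rw [h3]
        _ = (b : G) * v * (b : G)⁻¹ := by group)
    open scoped IsMulCommutative in
    have key : ∃ s : ↥V, (s : G) ∈ Subgroup.centralizer (R : Set G) ∧ (s : G)⁻¹ * v ^ Nat.card (↥R ⧸ S') ∈ ⁅V, R⁆ := by
      refine ⟨∏ q, f q, Subgroup.mem_centralizer_iff.mpr fun r hr => ?_, ?_⟩
      · let φ : ↥V →* ↥V :=
          { toFun := fun x => ⟨r * x * r⁻¹, (Subgroup.mem_normalizer_iff.mp (hHV (hRH hr)) x).mp x.2⟩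
            map_one' := Subtype.ext (by simp)
            map_mul' := fun x y => Subtype.ext (by
              show r * ((x : G) * y) * r⁻¹ = r * x * r⁻¹ * (r * y * r⁻¹)
              group) }
        have h1 : φ (∏ q, f q) = ∏ q, f q := by
          rw [map_prod]
          refine Fintype.prod_equiv (MulAction.toPerm (⟨r, hr⟩ : ↥R)) _ _ fun q => ?_
          induction q using Quotient.inductionOn with
          | _ a =>
            refine Subtype.ext ?_
            show r * ((a : G) * v * (a : G)⁻¹) * r⁻¹ = r * (a : G) * v * (r * (a : G))⁻¹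
            group
        have h2 : r * ((∏ q, f q : ↥V) : G) * r⁻¹ = ((∏ q, f q : ↥V) : G) := congrArg Subtype.val h1
        calc r * ((∏ q, f q : ↥V) : G) = r * ((∏ q, f q : ↥V) : G) * r⁻¹ * r := by group
          _ = _ := by rw [h2]
      · have h1 : (∏ q, f q)⁻¹ * (⟨v, hv⟩ : ↥V) ^ Nat.card (↥R ⧸ S') ∈ (⁅V, R⁆).subgroupOf V := by
          have e : (⟨v, hv⟩ : ↥V) ^ Nat.card (↥R ⧸ S') = ∏ _q : ↥R ⧸ S', (⟨v, hv⟩ : ↥V) := by
            rw [Finset.prod_const, Finset.card_univ, Nat.card_eq_fintype_card]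
          rw [e, ← Finset.prod_inv_distrib, ← Finset.prod_mul_distrib]
          refine Subgroup.prod_mem _ fun q _ => ?_
          induction q using Quotient.inductionOn with
          | _ a =>
            show ((a : G) * v * (a : G)⁻¹)⁻¹ * v ∈ ⁅V, R⁆
            have h := Subgroup.commutator_mem_commutator hv a.2
            have h' := (Subgroup.mem_normalizer_iff.mp (Subgroup.normalizer_commutator_ge_left V R (V.inv_mem hv)) _).mp h
            convert h' using 1
            rw [commutatorElement_def]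
            group
        exact h1
    obtain ⟨s, hs, hs2⟩ := key
    have hvn : v ^ Nat.card (↥R ⧸ S') ∈ D := by
      rw [show v ^ Nat.card (↥R ⧸ S') = (s : G) * ((s : G)⁻¹ * v ^ Nat.card (↥R ⧸ S')) by group]
      exact Subgroup.mul_mem _ (Subgroup.mem_sup_right ⟨s.2, hs⟩) (Subgroup.mem_sup_left hs2)
    have hn : (Nat.card (↥R ⧸ S')).Coprime (orderOf v) := by
      have h1 : ¬ p ∣ Nat.card (↥R ⧸ S') := by rw [← Subgroup.index_eq_card]; exact S.not_dvd_index
      exact ((hp.coprime_iff_not_dvd.mpr h1).symm).coprime_dvd_right (orderOf_dvd_of_pow_eq_one (hV.2 v hv))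
    obtain ⟨m, hm⟩ := exists_pow_eq_self_of_coprime hn
    rw [← hm]
    exact D.pow_mem hvn m

end Cfsg.Agent.S2781
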