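import Cfsg.Statements.S3379
import Mathlib

set_option autoImplicit false
open Cfsg

namespace Cfsg.Agent.S3379

/-- Let G be a finite group all of whose Sylow subgroups are cyclic. Then G is generated by two elements x and y of coprime orders n and m with x⁻¹yx = y^r, where gcd(r − 1, m) = 1 and r^n ≡ 1 (mod m). -/
theorem result {G : Type*} [Group G] [Finite G]
    (hZ : ∀ (p : ℕ) [Fact p.Prime] (P : Sylow p G), IsCyclic (P : Subgroup G)) :
    ∃ (x y : G) (n m r : ℕ), Subgroup.closure {x, y} = ⊤ ∧ orderOf x = n ∧ orderOf y = m ∧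
      x⁻¹ * y * x = y ^ r ∧ Nat.Coprime (r - 1) m ∧ Nat.Coprime n m ∧ 1 ≤ r ∧ r ^ n % m = 1 % m := by
  classical
  haveI : IsZGroup G := ⟨fun p hp P => @hZ p ⟨hp⟩ P⟩
  set A := commutator G with hA
  haveI : IsCyclic A := IsZGroup.isCyclic_commutator G
  obtain ⟨y', hy'⟩ := IsCyclic.exists_generator (α := A)
  set y : G := (y' : G) with hy
  have hyA : Subgroup.zpowers y = A := by
    refine le_antisymm (Subgroup.zpowers_le.mpr y'.2) fun a ha => ?_
    obtain ⟨k, hk⟩ := Subgroup.mem_zpowers_iff.mp (hy' ⟨a, ha⟩)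
    exact Subgroup.mem_zpowers_iff.mpr ⟨k, congrArg Subtype.val hk⟩
  set m := orderOf y with hm
  have hmA : Nat.card A = m := by rw [← hyA, Nat.card_zpowers]
  set n := A.index with hn
  have hcop : m.Coprime n := hmA ▸ IsZGroup.coprime_commutator_index G
  obtain ⟨q, hq⟩ := IsCyclic.exists_generator (α := Abelianization G)
  obtain ⟨x0, hx0⟩ := QuotientGroup.mk_surjective q
  set x := x0 ^ m with hx
  have hq' : orderOf q = n := by
    rw [orderOf_eq_card_of_forall_mem_zpowers hq]; exact (Subgroup.index_eq_card A).symm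
  have hxq : Abelianization.of x = q ^ m := by rw [hx, map_pow]; exact congrArg (· ^ m) hx0
  have hqm : orderOf (q ^ m) = n := by rw [Nat.Coprime.orderOf_pow (by rw [hq']; exact hcop.symm), hq']
  have hxn : orderOf x = n := by
    refine Nat.dvd_antisymm (orderOf_dvd_of_pow_eq_one ?_) ?_
    · have hmem : x0 ^ n ∈ A := A.pow_index_mem x0
      have := pow_card_eq_one' (x := (⟨x0 ^ n, hmem⟩ : A))
      rw [hmA] at this
      rw [hx, ← pow_mul, mul_comm, pow_mul]
      exact congrArg Subtype.val this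
    · rw [← hqm, ← hxq]; exact orderOf_map_dvd _ x
  have hgen : ∀ g : G, g ∈ Subgroup.closure {x, y} := by
    intro g
    have hsub : Subgroup.zpowers (q ^ m) = ⊤ := by
      apply Subgroup.eq_top_of_card_eq
      rw [Nat.card_zpowers, hqm, ← hq', orderOf_eq_card_of_forall_mem_zpowers hq]
    obtain ⟨k, hk⟩ := Subgroup.mem_zpowers_iff.mp (hsub.ge (Subgroup.mem_top (Abelianization.of g)))
    have hmem : (x ^ k)⁻¹ * g ∈ A := by
      rw [hA, ← Abelianization.ker_of, MonoidHom.mem_ker, map_mul, map_inv, map_zpow, hxq, hk, inv_mul_cancel]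
    obtain ⟨j, hj⟩ := Subgroup.mem_zpowers_iff.mp (hyA.ge hmem)
    have : g = x ^ k * y ^ j := by rw [hj, mul_inv_cancel_left]
    rw [this]
    exact Subgroup.mul_mem _ (Subgroup.zpow_mem _ (Subgroup.subset_closure (by simp)) k)
      (Subgroup.zpow_mem _ (Subgroup.subset_closure (by simp)) j)
  have hconj : ∀ g : G, ∀ a ∈ A, g * a * g⁻¹ ∈ A := fun g a ha => Subgroup.Normal.conj_mem inferInstance a ha g
  have hc : x⁻¹ * y * x ∈ Subgroup.zpowers y := by
    rw [hyA]; simpa using hconj x⁻¹ y y'.2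
  obtain ⟨r0, hr0, hr0'⟩ : ∃ r0 : ℕ, True ∧ y ^ r0 = x⁻¹ * y * x := by
    obtain ⟨r0, h⟩ := (isOfFinOrder_of_finite y).mem_powers_iff_mem_zpowers.mpr hc
    exact ⟨r0, trivial, h⟩
  have hmpos : 0 < m := orderOf_pos y
  set r := r0 + m with hr
  have hr' : x⁻¹ * y * x = y ^ r := by rw [← hr0', hr, pow_add, hm, pow_orderOf_eq_one, mul_one]
  -- the subgroup generated by the commutator
  set D := Subgroup.zpowers (y ^ (r - 1)) with hD
  have hcoord : A ≤ D := by
    have hDA : D ≤ A := by rw [hD, Subgroup.zpowers_le, ← hyA]; exact Subgroup.pow_mem _ (Subgroup.mem_zpowers y) _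
    have hxy : x⁻¹ * y * x * y⁻¹ = y ^ (r - 1) := by
      rw [hr', mul_inv_eq_iff_eq_mul, ← pow_succ, Nat.sub_add_cancel (by omega)]
    haveI : D.Normal := by
      refine ⟨fun d hd g => ?_⟩
      obtain ⟨k, rfl⟩ := Subgroup.mem_zpowers_iff.mp hd
      obtain ⟨j, hj⟩ := Subgroup.mem_zpowers_iff.mp (hyA.ge (hconj g y y'.2))
      refine Subgroup.mem_zpowers_iff.mpr ⟨k * j, ?_⟩
      rw [← conj_zpow, ← conj_pow, ← hj]
      rw [← zpow_natCast (y ^ j), ← zpow_natCast y, ← zpow_mul, ← zpow_mul, ← zpow_mul]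
      congr 1; ring
    let π := QuotientGroup.mk' D
    have hxyc : Commute (π x) (π y) := by
      have h1 : π (x⁻¹ * y * x * y⁻¹) = 1 := by rw [hxy, QuotientGroup.mk'_apply, QuotientGroup.eq_one_iff]; exact Subgroup.mem_zpowers _
      rw [map_mul, map_mul, map_mul, map_inv, map_inv, mul_inv_eq_one, mul_assoc, inv_mul_eq_iff_eq_mul] at h1
      exact h1.symm
    have hall : ∀ g, Commute (π g) (π x) ∧ Commute (π g) (π y) := by
      intro g
      induction hgen g using Subgroup.closure_induction with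
      | mem z hz =>
        rcases hz with rfl | rfl
        · exact ⟨Commute.refl _, hxyc⟩
        · exact ⟨hxyc.symm, Commute.refl _⟩
      | one => rw [map_one]; exact ⟨Commute.one_left _, Commute.one_left _⟩
      | mul a b _ _ ha hb => rw [map_mul]; exact ⟨ha.1.mul_left hb.1, ha.2.mul_left hb.2⟩
      | inv a _ ha => rw [map_inv]; exact ⟨ha.1.inv_left, ha.2.inv_left⟩
    rw [hA, commutator_def, Subgroup.commutator_le]
    intro a ha' b hb'
    clear ha' hb'
    rw [← QuotientGroup.eq_one_iff, ← QuotientGroup.mk'_apply, map_commutatorElement]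
    refine commutatorElement_eq_one_iff_commute.mpr ?_
    show Commute (π a) (π b)
    induction hgen b using Subgroup.closure_induction with
    | mem z hz =>
      rcases hz with rfl | rfl
      · exact (hall a).1
      · exact (hall a).2
    | one => rw [map_one]; exact Commute.one_right _
    | mul a' b' _ _ ha hb => rw [map_mul]; exact ha.mul_right hb
    | inv a' _ ha => rw [map_inv]; exact ha.inv_right
  refine ⟨x, y, n, m, r, eq_top_iff.mpr fun g _ => hgen g, hxn, hm.symm, hr', ?_, hcop.symm, by omega, ?_⟩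
  · have hle := Subgroup.card_dvd_of_le hcoord
    rw [hD, Nat.card_zpowers, hmA, orderOf_pow, ← hm] at hle
    have hpos : 0 < m.gcd (r - 1) := Nat.gcd_pos_of_pos_left _ hmpos
    have hle' := Nat.le_of_dvd (Nat.div_pos (Nat.gcd_le_left _ hmpos) hpos) hle
    have hone : m.gcd (r - 1) ≤ 1 := by
      by_contra hlt
      push Not at hlt
      exact absurd (lt_of_le_of_lt hle' (Nat.div_lt_self hmpos hlt)) (lt_irrefl m)
    exact Nat.Coprime.symm (le_antisymm hone hpos)
  · have key : ∀ k : ℕ, (x ^ k)⁻¹ * y * x ^ k = y ^ (r ^ k) := by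
      intro k
      induction k with
      | zero => simp
      | succ k ih =>
        have : (x ^ (k + 1))⁻¹ * y * x ^ (k + 1) = (x ^ k)⁻¹ * (x⁻¹ * y * x) * x ^ k := by
          rw [pow_succ']; group
        rw [this, hr']
        have e := conj_pow (i := r) (a := (x ^ k)⁻¹) (b := y)
        rw [inv_inv] at e
        rw [← e, ih, ← pow_mul, ← pow_succ]
    have h1 := key n
    rw [← hxn, pow_orderOf_eq_one, inv_one, one_mul, mul_one, hxn] at h1
    have h1' : y ^ (r ^ n) = y ^ 1 := by rw [← h1, pow_one]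
    exact pow_eq_pow_iff_modEq.mp h1'

end Cfsg.Agent.S3379
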