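import Cfsg.Statements.S3704
import Mathlib

set_option autoImplicit false
open Cfsg

namespace Cfsg.Agent.S3704

theorem orbit_count {G Ω : Type*} [Group G] [Fintype G] [MulAction G Ω] [Fintype Ω]
    (h2 : ∀ {a b c d : Ω}, a ≠ b → c ≠ d → ∃ g : G, g • a = c ∧ g • b = d)
    [MulAction.IsPretransitive G Ω] (H : Subgroup G) (hidx : H.index = Nat.card Ω) (x1 x2 x3 : Ω)
    (h12 : x2 ∉ MulAction.orbit H x1) (h13 : x3 ∉ MulAction.orbit H x1) (h23 : x3 ∉ MulAction.orbit H x2) : False := by
  classical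
  let B := G ⧸ H
  haveI : Fintype B := Fintype.ofFinite B
  let inc : Ω → B → Ω → ℚ := fun z q x => if q.out⁻¹ • x ∈ MulAction.orbit H z then 1 else 0
  have key : ∀ (z : Ω) (g : G) (x : Ω),
      inc z (g : B) x = if g⁻¹ • x ∈ MulAction.orbit H z then 1 else 0 := by
    intro z g x
    obtain ⟨h, hh⟩ := QuotientGroup.mk_out_eq_mul H g
    show (if ((g : B)).out⁻¹ • x ∈ MulAction.orbit H z then (1 : ℚ) else 0) = _
    rw [hh, mul_inv_rev, mul_smul]
    refine if_congr ⟨fun hm => ?_, fun hm => ?_⟩ rfl rfl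
    · obtain ⟨k, hk⟩ := hm
      refine ⟨h * k, ?_⟩
      show ((h : G) * k) • z = g⁻¹ • x
      rw [mul_smul, show (k : G) • z = (h : G)⁻¹ • g⁻¹ • x from hk, smul_inv_smul]
    · obtain ⟨k, hk⟩ := hm
      refine ⟨h⁻¹ * k, ?_⟩
      show ((h : G)⁻¹ * k) • z = _
      rw [mul_smul, show (k : G) • z = g⁻¹ • x from hk]
  have equi : ∀ (z : Ω) (g : G) (q : B) (x : Ω), inc z (g • q) (g • x) = inc z q x := by
    intro z g q x
    induction q using QuotientGroup.induction_on with
    | _ k =>
      rw [MulAction.Quotient.smul_mk, key, key, smul_eq_mul, mul_inv_rev, mul_smul, inv_smul_smul]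
  let T : Ω → (Ω → ℚ) →ₗ[ℚ] (B → ℚ) := fun z =>
    { toFun := fun f q => ∑ x, inc z q x * f x
      map_add' := fun f f' => funext fun q => by simp [mul_add, Finset.sum_add_distrib]
      map_smul' := fun c f => funext fun q => by simp [Finset.mul_sum, mul_left_comm] }
  let C : Ω → Ω → ℚ := fun x y => ∑ q, inc x1 q x * inc x1 q y
  have hC : ∀ (g : G) x y, C (g • x) (g • y) = C x y := fun g x y => by
    refine (Fintype.sum_equiv (MulAction.toPerm g) _ _ fun q => ?_).symm
    show _ = inc x1 (g • q) (g • x) * inc x1 (g • q) (g • y)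
    rw [equi, equi]
  have h12' : x1 ≠ x2 := fun h => h12 (h ▸ MulAction.mem_orbit_self x1)
  set r := C x1 x1
  set l := C x1 x2
  have hdiag : ∀ x, C x x = r := fun x => by
    obtain ⟨g, hg⟩ := MulAction.exists_smul_eq G x1 x
    rw [← hg, hC]
  have hoff : ∀ x y, x ≠ y → C x y = l := fun x y hxy => by
    obtain ⟨g, hg1, hg2⟩ := h2 h12' hxy
    rw [← hg1, ← hg2, hC]
  have q1 : ∀ z x, inc z ((1 : G) : B) x = if x ∈ MulAction.orbit H z then 1 else 0 := fun z x => by
    rw [key, inv_one, one_smul]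
  have hinc : ∀ z q x, inc z q x * inc z q x = inc z q x := fun z q x => by
    by_cases h : q.out⁻¹ • x ∈ MulAction.orbit H z <;> simp [inc, h]
  have hnn : ∀ z q x, 0 ≤ inc z q x ∧ inc z q x ≤ 1 := fun z q x => by
    by_cases h : q.out⁻¹ • x ∈ MulAction.orbit H z <;> simp [inc, h]
  have hlr : l < r ∧ 0 ≤ l := by
    refine ⟨?_, Finset.sum_nonneg fun q _ => mul_nonneg (hnn _ _ _).1 (hnn _ _ _).1⟩
    refine Finset.sum_lt_sum (fun q _ => ?_) ⟨((1 : G) : B), Finset.mem_univ _, ?_⟩
    · rw [hinc]; nlinarith [(hnn x1 q x1).1, (hnn x1 q x1).2, (hnn x1 q x2).1, (hnn x1 q x2).2]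
    · rw [q1, q1, if_neg h12, if_pos (MulAction.mem_orbit_self x1)]; norm_num
  have hinj : Function.Injective (T x1) := by
    rw [← LinearMap.ker_eq_bot, LinearMap.ker_eq_bot']
    intro f hf
    have h0 : ∑ q, (∑ x, inc x1 q x * f x) ^ 2 = 0 := Finset.sum_eq_zero fun q _ => by
      rw [show (∑ x, inc x1 q x * f x) = 0 from congrFun hf q]; norm_num
    have h1 : ∑ q, (∑ x, inc x1 q x * f x) ^ 2 = (r - l) * ∑ x, f x ^ 2 + l * (∑ x, f x) ^ 2 := by
      calc ∑ q, (∑ x, inc x1 q x * f x) ^ 2 = ∑ q, ∑ x, ∑ y, (inc x1 q x * inc x1 q y) * (f x * f y) := by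
            refine Finset.sum_congr rfl fun q _ => ?_
            rw [pow_two, Finset.sum_mul_sum]
            exact Finset.sum_congr rfl fun x _ => Finset.sum_congr rfl fun y _ => by ring
        _ = ∑ x, ∑ y, C x y * (f x * f y) := by
            rw [Finset.sum_comm]
            refine Finset.sum_congr rfl fun x _ => ?_
            rw [Finset.sum_comm]
            exact Finset.sum_congr rfl fun y _ => (Finset.sum_mul ..).symm
        _ = ∑ x, ((r - l) * (f x * f x) + ∑ y, l * (f x * f y)) := by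
            refine Finset.sum_congr rfl fun x _ => ?_
            rw [← Finset.add_sum_erase _ _ (Finset.mem_univ x), ← Finset.add_sum_erase _ (fun y => l * (f x * f y)) (Finset.mem_univ x),
              hdiag, Finset.sum_congr rfl fun y hy => by rw [hoff x y (Finset.ne_of_mem_erase hy).symm]]
            ring
        _ = _ := by
            rw [Finset.sum_add_distrib, ← Finset.mul_sum, pow_two (∑ x, f x), Finset.sum_mul_sum, Finset.mul_sum (a := l)]
            simp only [pow_two, Finset.mul_sum]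
    rw [h1] at h0
    have hs : ∑ x, f x ^ 2 = 0 := by
      have a1 : 0 ≤ ∑ x, f x ^ 2 := Finset.sum_nonneg fun x _ => sq_nonneg _
      nlinarith [hlr.1, hlr.2, sq_nonneg (∑ x, f x), mul_nonneg hlr.2 (sq_nonneg (∑ x, f x))]
    funext x
    exact pow_eq_zero_iff two_ne_zero |>.mp ((Finset.sum_eq_zero_iff_of_nonneg fun x _ => sq_nonneg _).mp hs x (Finset.mem_univ x))
  have hdim : Module.finrank ℚ (Ω → ℚ) = Module.finrank ℚ (B → ℚ) := by
    rw [Module.finrank_fintype_fun_eq_card, Module.finrank_fintype_fun_eq_card, ← Nat.card_eq_fintype_card,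
      ← Nat.card_eq_fintype_card, ← hidx]
    rfl
  let e := LinearMap.linearEquivOfInjective (T x1) hinj hdim
  have he : ∀ f, e f = T x1 f := fun f => rfl
  -- the transfer between two orbits
  let M : Ω → Ω → ℚ := fun x => e.symm (T x2 (Pi.single x 1))
  have hT : ∀ z x q, T z (Pi.single x 1) q = inc z q x := fun z x q => by
    simp [T, Pi.single_apply]
  have hM : ∀ x q, ∑ y, inc x1 q y * M x y = inc x2 q x := fun x q => by
    rw [← hT x2 x q]
    exact congrFun ((he (M x)).symm.trans (e.apply_symm_apply _)) q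
  have hMeq : ∀ (g : G) x y, M (g • x) (g • y) = M x y := by
    intro g x y
    have : (fun z => M (g • x) (g • z)) = M x := hinj (funext fun q => by
      show ∑ z, inc x1 q z * M (g • x) (g • z) = ∑ z, inc x1 q z * M x z
      rw [hM x q, ← equi x2 g q x, ← hM (g • x) (g • q)]
      refine Fintype.sum_equiv (MulAction.toPerm g) _ _ fun z => ?_
      show _ = inc x1 (g • q) (g • z) * M (g • x) (g • z)
      rw [equi])
    exact congrFun this y
  set al := M x1 x1
  set ga := M x1 x2
  have hMd : ∀ x, M x x = al := fun x => by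
    obtain ⟨g, hg⟩ := MulAction.exists_smul_eq G x1 x
    rw [← hg, hMeq]
  have hMo : ∀ x y, x ≠ y → M x y = ga := fun x y hxy => by
    obtain ⟨g, hg1, hg2⟩ := h2 h12' hxy
    rw [← hg1, ← hg2, hMeq]
  have hfin : ∀ x, inc x2 ((1 : G) : B) x = (al - ga) * inc x1 ((1 : G) : B) x + ga * ∑ y, inc x1 ((1 : G) : B) y := by
    intro x
    rw [← hM x, ← Finset.add_sum_erase _ _ (Finset.mem_univ x), ← Finset.add_sum_erase _ (fun y => inc x1 ((1 : G) : B) y) (Finset.mem_univ x),
      hMd, mul_add, Finset.mul_sum, Finset.sum_congr rfl fun y hy => by rw [hMo x y (Finset.ne_of_mem_erase hy).symm, mul_comm]]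
    ring
  have f2 := hfin x2
  have f3 := hfin x3
  rw [q1, q1, if_pos (MulAction.mem_orbit_self x2), if_neg h12] at f2
  rw [q1, q1, if_neg h23, if_neg h13] at f3
  linarith



/-- Let G be a finite group acting faithfully and 2-transitively on a finite set Ω of size n, and let H be a subgroup of index n in G which is not transitive on Ω and fixes no point of Ω. Then H has exactly two orbits on Ω. -/
theorem result {G Ω : Type*} [Group G] [Finite G] [MulAction G Ω] [FaithfulSMul G Ω] [Finite Ω] (h2 : MulAction.IsMultiplyPretransitive G Ω 2) (H : Subgroup G) (hidx : H.index = Nat.card Ω) (hnt : ¬ MulAction.IsPretransitive H Ω) (hfix : ∀ a : Ω, ∃ h : H, h • a ≠ a) : Nat.card (MulAction.orbitRel.Quotient H Ω) = 2 := by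
  classical
  haveI := Fintype.ofFinite G
  haveI := Fintype.ofFinite Ω
  have hpre : MulAction.IsPretransitive G Ω := MulAction.isPretransitive_of_is_two_pretransitive (h2 := h2)
  haveI := hpre
  set Q := MulAction.orbitRel.Quotient H Ω
  haveI : Fintype Q := Fintype.ofFinite Q
  obtain ⟨x, y, hxy⟩ : ∃ x y : Ω, y ∉ MulAction.orbit H x := by
    by_contra h
    push Not at h
    exact hnt ⟨fun x y => by obtain ⟨k, hk⟩ := h x y; exact ⟨k, hk⟩⟩
  rw [Nat.card_eq_fintype_card]
  refine le_antisymm ?_ (Fintype.one_lt_card_iff.mpr ⟨Quotient.mk _ x, Quotient.mk _ y, fun h => hxy ?_⟩)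
  · by_contra hlt
    push Not at hlt
    obtain ⟨a, b, c, hab, hac, hbc⟩ := Fintype.two_lt_card_iff.mp hlt
    have key : ∀ a b : Q, a ≠ b → b.out ∉ MulAction.orbit H a.out := fun a b hab h => hab (by
      rw [← Quotient.out_eq a, ← Quotient.out_eq b]
      exact (Quotient.sound (MulAction.orbitRel_apply.mpr h)).symm)
    exact orbit_count (fun hab hcd => MulAction.is_two_pretransitive_iff.mp h2 hab hcd) H hidx a.out b.out c.out (key a b hab) (key a c hac) (key b c hbc)
  · exact MulAction.orbitRel_apply.mp (Quotient.exact h.symm)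

end Cfsg.Agent.S3704
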