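import Cfsg.Statements.S3735
import Mathlib.Data.Set.Finite.Lemmas


set_option autoImplicit false
open Cfsg
open scoped commutatorElement

namespace Cfsg.Agent.S3735

/-- Clifford's Theorem for actions on finite abelian groups, first part. Let H and V be subgroups of a finite group with V abelian and H normalizing V, and let A be a normal subgroup of H. If every H-invariant subgroup of V has an H-invariant complement in V, then every A-invariant subgroup of V has an A-invariant complement in V. -/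
theorem result {G : Type*} [Group G] [Finite G] (H A V : Subgroup G) (hVab : IsMulCommutative V) (hHV : H ≤ Subgroup.normalizer (V : Set G)) (hAH : A ≤ H) (hAn : H ≤ Subgroup.normalizer (A : Set G)) (hss : ∀ U : Subgroup G, U ≤ V → H ≤ Subgroup.normalizer (U : Set G) → ∃ W : Subgroup G, W ≤ V ∧ H ≤ Subgroup.normalizer (W : Set G) ∧ U ⊓ W = ⊥ ∧ U ⊔ W = V) (U : Subgroup G) (hUV : U ≤ V) (hAU : A ≤ Subgroup.normalizer (U : Set G)) : ∃ W : Subgroup G, W ≤ V ∧ A ≤ Subgroup.normalizer (W : Set G) ∧ U ⊓ W = ⊥ ∧ U ⊔ W = V := by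
  classical
  haveI := hVab
  let inv : Subgroup G → Prop := fun W => W ≤ V ∧ A ≤ Subgroup.normalizer (W : Set G)
  let Irr : Set (Subgroup G) := {M | inv M ∧ M ≠ ⊥ ∧ ∀ L, inv L → L ≤ M → L ≠ ⊥ → L = M}
  have hexist : ∀ W, inv W → W ≠ ⊥ → ∃ M ∈ Irr, M ≤ W := by
    intro W hW hW1
    obtain ⟨M, hM, hmin⟩ := Set.exists_min_image {L | inv L ∧ L ≤ W ∧ L ≠ ⊥} (fun L => Nat.card ↥L) (Set.toFinite _) ⟨W, hW, le_rfl, hW1⟩
    refine ⟨M, ⟨hM.1, hM.2.2, fun L hL hLM hL1 => ?_⟩, hM.2.1⟩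
    exact Subgroup.eq_of_le_of_card_ge hLM (hmin L ⟨hL, hLM.trans hM.2.1, hL1⟩)
  have hcl : ∀ a ∈ A, ∀ W : Subgroup G, A ≤ Subgroup.normalizer (W : Set G) → W.map (MulAut.conj a).toMonoidHom = W :=
    fun a ha W hW => Subgroup.mem_normalizer_iff_map_conj_eq.mp (hW ha)
  have hinf : ∀ W L : Subgroup G, inv W → inv L → inv (W ⊓ L) := by
    intro W L hW hL
    refine ⟨inf_le_left.trans hW.1, fun g hg => ?_⟩
    rw [Subgroup.mem_normalizer_iff]
    intro x
    exact and_congr (Subgroup.mem_normalizer_iff.mp (hW.2 hg) x) (Subgroup.mem_normalizer_iff.mp (hL.2 hg) x)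
  have hsup : ∀ W L : Subgroup G, inv W → inv L → inv (W ⊔ L) := by
    intro W L hW hL
    refine ⟨sup_le hW.1 hL.1, fun g hg => ?_⟩
    rw [Subgroup.mem_normalizer_iff_map_conj_eq, Subgroup.map_sup]
    erw [hcl g hg W hW.2, hcl g hg L hL.2]
  set Sg := sSup Irr with hSgdef
  have hSgV : Sg ≤ V := sSup_le fun M hM => hM.1.1
  have hHmap : ∀ h ∈ H, ∀ M ∈ Irr, M.map (MulAut.conj h).toMonoidHom ∈ Irr := by
    intro h hh M hM
    have key : ∀ g ∈ H, ∀ W, inv W → inv (W.map (MulAut.conj g).toMonoidHom) := by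
      intro g hg W hW
      constructor
      · calc W.map (MulAut.conj g).toMonoidHom ≤ V.map (MulAut.conj g).toMonoidHom := Subgroup.map_mono hW.1
          _ = V := Subgroup.mem_normalizer_iff_map_conj_eq.mp (hHV hg)
      · calc A = A.map (MulAut.conj g).toMonoidHom := (Subgroup.mem_normalizer_iff_map_conj_eq.mp (hAn hg)).symm
          _ ≤ (Subgroup.normalizer (W : Set G)).map (MulAut.conj g).toMonoidHom := Subgroup.map_mono hW.2
          _ ≤ _ := Subgroup.le_normalizer_map _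
    have hback : ∀ (g : G) (W : Subgroup G), (W.map (MulAut.conj g).toMonoidHom).map (MulAut.conj g⁻¹).toMonoidHom = W := by
      intro g W
      ext x
      constructor
      · rintro ⟨_, ⟨w, hw, rfl⟩, rfl⟩
        show g⁻¹ * (g * w * g⁻¹) * g⁻¹⁻¹ ∈ W
        rwa [show g⁻¹ * (g * w * g⁻¹) * g⁻¹⁻¹ = w by group]
      · intro hx
        exact ⟨g * x * g⁻¹, ⟨x, hx, rfl⟩, by show g⁻¹ * (g * x * g⁻¹) * g⁻¹⁻¹ = x; group⟩
    refine ⟨key h hh M hM.1, ?_, fun L hL hLM hL1 => ?_⟩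
    · rw [Ne, Subgroup.map_eq_bot_iff_of_injective _ (MulAut.conj h).injective]; exact hM.2.1
    · have h1 := hM.2.2 _ (key h⁻¹ (H.inv_mem hh) L hL) ((Subgroup.map_mono hLM).trans (hback h M).le)
        (by rw [Ne, Subgroup.map_eq_bot_iff_of_injective _ (MulAut.conj h⁻¹).injective]; exact hL1)
      have h2 := hback h⁻¹ L
      rw [inv_inv] at h2
      rw [← h2, h1]
  have hSgH : H ≤ Subgroup.normalizer (Sg : Set G) := by
    intro h hh
    rw [Subgroup.mem_normalizer_iff_map_conj_eq]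
    refine Subgroup.eq_of_le_of_card_ge ?_ (by rw [Subgroup.card_map_of_injective (MulAut.conj h).injective])
    rw [Subgroup.map_le_iff_le_comap]
    exact sSup_le fun M hM => Subgroup.map_le_iff_le_comap.mp (le_sSup (hHmap h hh M hM))
  have hSg : Sg = V := by
    obtain ⟨W, hWV, hWH, hdis, hjoin⟩ := hss Sg hSgV hSgH
    by_cases hW1 : W = ⊥
    · rwa [hW1, sup_bot_eq] at hjoin
    · obtain ⟨M, hM, hMW⟩ := hexist W ⟨hWV, hAH.trans hWH⟩ hW1
      exact absurd (le_bot_iff.mp (hdis ▸ le_inf (le_sSup hM) hMW)) hM.2.1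
  obtain ⟨W, hW, hmax⟩ := Set.exists_max_image {W | inv W ∧ U ⊓ W = ⊥} (fun L => Nat.card ↥L) (Set.toFinite _)
    ⟨⊥, ⟨bot_le, fun g _ => Subgroup.mem_normalizer_iff.mpr fun x => by simp⟩, inf_bot_eq U⟩
  refine ⟨W, hW.1.1, hW.1.2, hW.2, le_antisymm (sup_le hUV hW.1.1) ?_⟩
  conv_lhs => rw [← hSg]
  refine sSup_le fun M hM => ?_
  by_contra hMle
  have hUW := hsup U W ⟨hUV, hAU⟩ hW.1
  have hMdis : M ⊓ (U ⊔ W) = ⊥ := by
    by_contra hne
    exact hMle (inf_eq_left.mp (hM.2.2 _ (hinf M _ hM.1 hUW) inf_le_left hne))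
  have hnew : U ⊓ (W ⊔ M) = ⊥ := by
    rw [eq_bot_iff]
    intro x hxUWM
    obtain ⟨hxU, hx⟩ : x ∈ U ∧ x ∈ W ⊔ M := hxUWM
    rw [← SetLike.mem_coe, Subgroup.coe_mul_of_left_le_normalizer_right W M (by
      intro w hw
      rw [Subgroup.mem_normalizer_iff]
      intro y
      constructor
      · intro hy
        rwa [setLike_mul_comm (hW.1.1 hw) (hM.1.1 hy), mul_inv_cancel_right]
      · intro hy
        have h2 := setLike_mul_comm (hW.1.1 hw) (hM.1.1 hy)
        have hy' := setLike_mul_comm (V.inv_mem (hW.1.1 hw)) (hM.1.1 hy)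
        have : y = w * y * w⁻¹ := by
          calc y = w⁻¹ * (w * y * w⁻¹) * w := by group
            _ = (w * y * w⁻¹) * w⁻¹ * w := by rw [hy']
            _ = w * y * w⁻¹ := by group
        rwa [← this] at hy)] at hx
    obtain ⟨w, hw, m, hm, rfl⟩ := hx
    have hm1 : m ∈ M ⊓ (U ⊔ W) := ⟨hm, by
      rw [show m = w⁻¹ * (w * m) by group]
      exact Subgroup.mul_mem _ (Subgroup.mem_sup_right (W.inv_mem hw)) (Subgroup.mem_sup_left hxU)⟩
    rw [hMdis, Subgroup.mem_bot] at hm1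
    subst hm1
    have : w * 1 ∈ U ⊓ W := ⟨hxU, by rwa [mul_one]⟩
    rwa [hW.2] at this
  have hbig := Subgroup.eq_of_le_of_card_ge (le_sup_left : W ≤ W ⊔ M) (hmax _ ⟨hsup W M hW.1 hM.1, hnew⟩)
  exact hMle (le_trans (le_sup_right.trans hbig.ge) le_sup_right)

end Cfsg.Agent.S3735
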