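import Cfsg.Statements.S3743
import Cfsg.Agent.Solv.Fitting

set_option autoImplicit false
set_option linter.style.haveILetI false
open Cfsg

namespace Cfsg.Agent.S3743

/-- In a finite group G, every subnormal nilpotent subgroup lies in the Fitting subgroup F(G), and, for a set of primes π, every subnormal subgroup all of whose prime divisors lie in π lies in O_π(G). -/
theorem result {G : Type*} [Group G] [Finite G] (A : Subgroup G) (hA : A.IsSubnormal) : (Group.IsNilpotent A → A ≤ Cfsg.fittingSubgroup G) ∧ ∀ π : Set ℕ, (∀ p : ℕ, p.Prime → p ∣ Nat.card A → p ∈ π) → A ≤ Cfsg.piCore π G := by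
  refine ⟨fun hn => ?_, fun π hπ => ?_⟩
  · haveI := hn
    intro x hx
    have hle : A ≤ Cfsg.fittingSubgroup G := by
      rw [← Subgroup.subgroupOf_eq_top]
      apply Subgroup.eq_top_of_le_card
      refine Nat.le_of_dvd Nat.card_pos ?_
      rw [← Nat.factorization_prime_le_iff_dvd Nat.card_pos.ne' Nat.card_pos.ne']
      intro q hq
      haveI := Fact.mk hq
      obtain ⟨P⟩ : Nonempty (Sylow q A) := inferInstance
      have hPn : (P : Subgroup A).Normal :=
        Sylow.normal_of_normalizerCondition Group.normalizerCondition_of_isNilpotent P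
      have h1 : (P : Subgroup A).map A.subtype ≤ Cfsg.fittingSubgroup G :=
        (Solv.le_pCore_of_isSubnormal (hPn.isSubnormal.trans' hA) (P.isPGroup'.map _)).trans
          (Solv.pCore_le_fittingSubgroup q)
      have h2 := (Nat.factorization_prime_le_iff_dvd Nat.card_pos.ne' Nat.card_pos.ne').mpr
        (Subgroup.card_dvd_of_le (Subgroup.map_le_iff_le_comap.mp h1)) q hq
      rw [P.card_eq_multiplicity, Nat.Prime.factorization_pow hq, Finsupp.single_eq_same] at h2
      exact h2
    exact hle hx
  · suffices h : ∀ K : Subgroup G, K.IsSubnormal → ∀ L ≤ K, K ≤ Subgroup.normalizer (L : Set G) →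
        (∀ p : ℕ, p.Prime → p ∣ Nat.card L → p ∈ π) → L ≤ Cfsg.piCore π G from
      h A hA A le_rfl Subgroup.le_normalizer hπ
    intro K hK
    induction hK with
    | top =>
      intro L _ hnorm hL
      exact le_sSup ⟨Subgroup.normalizer_eq_top_iff.mp (eq_top_iff.mpr hnorm), hL⟩
    | step H K h_le _ hN ih =>
      intro L hLH hnorm hL
      let M : Subgroup ↥(H.subgroupOf K) := (L.subgroupOf K).subgroupOf (H.subgroupOf K)
      have hMn : M.Normal := ⟨fun x hx g => by
        simp only [M, Subgroup.mem_subgroupOf] at hx ⊢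
        simpa using (Subgroup.mem_normalizer_iff.mp (hnorm g.2) _).mp hx⟩
      obtain ⟨C0, hC0⟩ : ∃ C0, C0 = Cfsg.piCore π ↥(H.subgroupOf K) := ⟨_, rfl⟩
      have hmem : C0.Normal ∧ ∀ p : ℕ, p.Prime → p ∣ Nat.card C0 → p ∈ π := by
        rw [hC0]
        exact Solv.sSup_mem_of_sup_closed
          (S := {N : Subgroup ↥(H.subgroupOf K) | N.Normal ∧ ∀ p : ℕ, p.Prime → p ∣ Nat.card N → p ∈ π})
          ⟨inferInstance, fun p hp h => absurd (by simpa using h) hp.one_lt.ne'⟩
          (fun U hU V hV => by
            haveI := hU.1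
            haveI := hV.1
            refine ⟨inferInstance, fun p hp h => ?_⟩
            have h1 : Nat.card U * U.relIndex (U ⊔ V) = Nat.card ↥(U ⊔ V) := by
              rw [← Subgroup.relIndex_bot_left, ← Subgroup.relIndex_bot_left]
              exact Subgroup.relIndex_mul_relIndex _ _ _ bot_le le_sup_left
            rw [Subgroup.relIndex_sup_left] at h1
            rw [← h1] at h
            rcases hp.dvd_mul.mp h with h' | h'
            · exact hU.2 p hp h'
            · exact hV.2 p hp (h'.trans (Subgroup.relIndex_dvd_card _ _)))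
      haveI hchar : C0.Characteristic := by
        rw [hC0]
        refine Solv.sSup_characteristic fun φ U hU => ⟨hU.1.map _ φ.surjective, ?_⟩
        exact (Nat.card_congr (φ.subgroupMap U).toEquiv) ▸ hU.2
      let C : Subgroup K := C0.map (H.subgroupOf K).subtype
      have hC1 : C.map K.subtype ≤ Cfsg.piCore π G := by
        refine ih _ (Subgroup.map_subtype_le _) ?_ ?_
        · have hCn : C.Normal := inferInstance
          have := Subgroup.le_normalizer_map (H := C) K.subtype
          rwa [Subgroup.normalizer_eq_top_iff.mpr hCn, ← MonoidHom.range_eq_map,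
            Subgroup.range_subtype] at this
        · intro p hp h
          rw [Subgroup.card_map_of_injective K.subtype_injective,
            Subgroup.card_map_of_injective (H.subgroupOf K).subtype_injective] at h
          exact hmem.2 p hp h
      refine le_trans (fun x hx => ?_) hC1
      refine ⟨⟨x, h_le (hLH hx)⟩, ⟨⟨⟨x, h_le (hLH hx)⟩, hLH hx⟩, ?_, rfl⟩, rfl⟩
      rw [hC0]
      have hMπ : ∀ p : ℕ, p.Prime → p ∣ Nat.card M → p ∈ π := fun p hp h => hL p hp
        ((h.trans (Subgroup.card_comap_dvd_of_injective _ _ (H.subgroupOf K).subtype_injective)).trans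
          (Subgroup.card_comap_dvd_of_injective _ _ K.subtype_injective))
      have hMle : M ≤ Cfsg.piCore π ↥(H.subgroupOf K) := le_sSup ⟨hMn, hMπ⟩
      exact hMle hx

end Cfsg.Agent.S3743
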