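import Cfsg.Statements.S3744
import Mathlib
import Cfsg.Agent.PSolv.Basic
import Cfsg.Agent.Solv.SchurZassenhaus

set_option autoImplicit false
set_option linter.style.haveILetI false
open Cfsg

open scoped Pointwise

namespace Cfsg.Agent.S3744

universe u

theorem complement_aux {p : ℕ} [Fact p.Prime] : ∀ (n : ℕ) (G : Type u) [Group G] [Finite G], Nat.card G = n →
    Cfsg.IsPSolvable p G → ∃ H : Subgroup G, (Nat.card H).Coprime p ∧ (∃ k : ℕ, H.index = p ^ k) ∧
      ∀ U : Subgroup G, (Nat.card U).Coprime p → ∃ g : G, U.map (MulAut.conj g).toMonoidHom ≤ H := by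
  intro n
  induction n using Nat.strong_induction_on with
  | _ n ih =>
  intro G _ _ hn hG
  have hp : p.Prime := Fact.out
  rcases subsingleton_or_nontrivial G with hs | hnt
  · refine ⟨⊥, by simp, ⟨0, ?_⟩, fun U _ => ⟨1, fun z _ => Subgroup.mem_bot.mpr (Subsingleton.elim _ _)⟩⟩
    rw [Subgroup.index_bot, pow_zero, Nat.card_eq_one_iff_unique]
    exact ⟨hs, inferInstance⟩
  obtain ⟨M, hM, hM0, hMc⟩ : ∃ M : Subgroup G, M.Normal ∧ M ≠ ⊥ ∧ ((∃ m, Nat.card M = p ^ m) ∨ (Nat.card M).Coprime p) := by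
    obtain ⟨r, C, h0, hl, hmono, hnorm, hstep⟩ := hG
    by_contra hcon
    have hall : ∀ (i : ℕ) (hi : i < r + 1), C ⟨i, hi⟩ = ⊥ := by
      intro i
      induction i with
      | zero => intro hi; exact h0
      | succ i ihi =>
        intro hi
        by_contra hne
        refine hcon ⟨_, hnorm _, hne, ?_⟩
        have hs := hstep ⟨i, by omega⟩
        rw [show C (Fin.castSucc (⟨i, by omega⟩ : Fin r)) = ⊥ from ihi (by omega), Subgroup.relIndex_bot_left] at hs
        exact hs
    have := hall r (Nat.lt_succ_self r)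
    rw [show (⟨r, Nat.lt_succ_self r⟩ : Fin (r + 1)) = Fin.last r from rfl, hl] at this
    exact top_ne_bot this
  haveI := hM
  let f := QuotientGroup.mk' M
  have hf : Function.Surjective f := QuotientGroup.mk'_surjective M
  have hcardG := Subgroup.card_eq_card_quotient_mul_card_subgroup M
  have hlt : Nat.card (G ⧸ M) < n := by
    rw [← hn, hcardG]
    haveI := (Subgroup.nontrivial_iff_ne_bot M).mpr hM0
    exact lt_mul_of_one_lt_right Nat.card_pos Finite.one_lt_card
  obtain ⟨H₀, hH₀, ⟨k, hk⟩, hdom⟩ := ih _ hlt (G ⧸ M) rfl (PSolv.isPSolvable_of_surjective hf hG)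
  let L := H₀.comap f
  have hLi : L.index = p ^ k := by rw [Subgroup.index_comap_of_surjective _ hf, hk]
  have hML : M ≤ L := fun m hm => by
    rw [Subgroup.mem_comap, show f m = 1 from (QuotientGroup.eq_one_iff m).mpr hm]; exact one_mem _
  have hLU : ∀ U : Subgroup G, (Nat.card U).Coprime p → ∃ g : G, U.map (MulAut.conj g).toMonoidHom ≤ L := by
    intro U hU
    obtain ⟨g, hg⟩ := hdom (U.map f) (hU.coprime_dvd_left (Subgroup.card_map_dvd _ _))
    obtain ⟨g, rfl⟩ := hf g
    refine ⟨g, ?_⟩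
    rintro _ ⟨u, hu, rfl⟩
    exact hg ⟨f u, Subgroup.mem_map_of_mem f hu, by simp⟩
  have hLM : (M.subgroupOf L).index = Nat.card H₀ := by
    have e : L.map f = H₀ := Subgroup.map_comap_eq_self_of_surjective hf H₀
    show M.relIndex L = _
    rw [← e, ← Subgroup.relIndex_bot_left, ← Subgroup.map_bot f, Subgroup.relIndex_map_map, QuotientGroup.ker_mk', bot_sup_eq,
      sup_eq_left.mpr hML]
  rcases hMc with ⟨m, hm⟩ | hMc
  · have hcop : (Nat.card (M.subgroupOf L)).Coprime (M.subgroupOf L).index := by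
      rw [Nat.card_congr (Subgroup.subgroupOfEquivOfLe hML).toEquiv, hLM, hm]
      exact (hH₀.pow_right m).symm
    obtain ⟨K, hK⟩ := Subgroup.exists_right_complement'_of_coprime hcop
    have hKc : Nat.card K = Nat.card H₀ := by rw [← hK.symm.index_eq_card, hLM]
    refine ⟨K.map L.subtype, ?_, ?_, fun U hU => ?_⟩
    · rw [Subgroup.card_map_of_injective L.subtype_injective, hKc]; exact hH₀
    · refine ⟨m + k, ?_⟩
      rw [Subgroup.index_map_subtype, hK.index_eq_card, Nat.card_congr (Subgroup.subgroupOfEquivOfLe hML).toEquiv, hm, hLi, pow_add]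
    · obtain ⟨g, hg⟩ := hLU U hU
      obtain ⟨U', hU', hU'c⟩ : ∃ U' : Subgroup L, U'.map L.subtype = U.map (MulAut.conj g).toMonoidHom ∧ Nat.card U' = Nat.card U :=
        ⟨(U.map (MulAut.conj g).toMonoidHom).subgroupOf L, Subgroup.map_subgroupOf_eq_of_le hg, by
          rw [Nat.card_congr (Subgroup.subgroupOfEquivOfLe hg).toEquiv, Subgroup.card_map_of_injective (MulEquiv.injective (MulAut.conj g))]⟩
      let M' := M.subgroupOf L
      let W := U' ⊔ M'
      have hWe : K ⊓ W ⊔ M' = W := by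
        refine le_antisymm (sup_le inf_le_right le_sup_right) fun w hw => ?_
        have hw' : w ∈ K ⊔ M' := hK.symm.sup_eq_top ▸ Subgroup.mem_top w
        obtain ⟨a, ha, b, hb, rfl⟩ := Subgroup.mem_sup_of_normal_right.mp hw'
        exact Subgroup.mul_mem_sup ⟨ha, (Subgroup.mul_mem_cancel_right W (Subgroup.mem_sup_right hb)).mp hw⟩ hb
      have hp' : IsPGroup p M' := (IsPGroup.of_card hm).comap_subtype
      haveI : Group.IsNilpotent ↥(M'.subgroupOf W) := (hp'.comap_subtype).isNilpotent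
      have hWM : Nat.card (M'.subgroupOf W) = p ^ m := by
        rw [Nat.card_congr (Subgroup.subgroupOfEquivOfLe (le_sup_right : M' ≤ W)).toEquiv,
          Nat.card_congr (Subgroup.subgroupOfEquivOfLe hML).toEquiv, hm]
      have hWi : (M'.subgroupOf W).index ∣ Nat.card H₀ := hLM ▸ Subgroup.relIndex_dvd_index_of_normal M' W
      obtain ⟨w, -, hw⟩ := Solv.sz_conj (M'.subgroupOf W)
        (by rw [hWM]; exact ((hH₀.pow_right m).coprime_dvd_left hWi).symm) (Or.inl inferInstance)
        (H := U'.subgroupOf W) (K := (K ⊓ W).subgroupOf W)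
        (by rw [← Subgroup.subgroupOf_sup le_sup_left le_sup_right, Subgroup.subgroupOf_self])
        (by
          rw [hWM, Nat.card_congr (Subgroup.subgroupOfEquivOfLe (le_sup_left : U' ≤ W)).toEquiv, hU'c]
          exact hU.pow_right m)
        (by rw [← Subgroup.subgroupOf_sup inf_le_right le_sup_right, hWe, Subgroup.subgroupOf_self])
        (by
          rw [hWM, Nat.card_congr (Subgroup.subgroupOfEquivOfLe (inf_le_right : K ⊓ W ≤ W)).toEquiv]
          exact (hKc ▸ hH₀).coprime_dvd_left (Subgroup.card_dvd_of_le inf_le_left) |>.pow_right m)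
      refine ⟨((w : L) : G) * g, ?_⟩
      rintro _ ⟨u, hu, rfl⟩
      obtain ⟨v, hv, hve⟩ : g * u * g⁻¹ ∈ U'.map L.subtype := hU' ▸ ⟨u, hu, by simp⟩
      have hmem : MulAut.conj w • (⟨v, Subgroup.mem_sup_left hv⟩ : W) ∈ MulAut.conj w • U'.subgroupOf W :=
        Subgroup.smul_mem_pointwise_smul _ _ _ hv
      rw [hw] at hmem
      refine ⟨_, (Subgroup.mem_inf.mp (Subgroup.mem_subgroupOf.mp hmem)).1, ?_⟩
      simp only [Subgroup.subtype_apply] at hve
      simp [hve, mul_assoc]
  · refine ⟨L, ?_, ⟨k, hLi⟩, hLU⟩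
    have := Subgroup.card_mul_index (M.subgroupOf L)
    rw [hLM, Nat.card_congr (Subgroup.subgroupOfEquivOfLe hML).toEquiv] at this
    rw [← this]
    exact hMc.mul_left hH₀

/-- A finite p-soluble group has a p-complement, all its p-complements are conjugate, and every subgroup of order prime to p lies in one of them. Here a p-complement is a subgroup of order prime to p whose index is a power of p. -/
theorem result {G : Type*} [Group G] [Finite G] {p : ℕ} [Fact p.Prime] (hG : Cfsg.IsPSolvable p G) : (∃ H : Subgroup G, (Nat.card H).Coprime p ∧ ∃ n : ℕ, H.index = p ^ n) ∧ (∀ H₁ H₂ : Subgroup G, (Nat.card H₁).Coprime p → (∃ n : ℕ, H₁.index = p ^ n) → (Nat.card H₂).Coprime p → (∃ n : ℕ, H₂.index = p ^ n) → ∃ g : G, H₂ = H₁.map (MulAut.conj g).toMonoidHom) ∧ (∀ U : Subgroup G, (Nat.card U).Coprime p → ∃ H : Subgroup G, (Nat.card H).Coprime p ∧ (∃ n : ℕ, H.index = p ^ n) ∧ ∃ g : G, U.map (MulAut.conj g).toMonoidHom ≤ H) := by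
  obtain ⟨H, hH, hi, hdom⟩ := complement_aux _ G rfl hG
  refine ⟨⟨H, hH, hi⟩, fun H₁ H₂ h1 h1i h2 h2i => ?_, fun U hU => ⟨H, hH, hi, hdom U hU⟩⟩
  have hcard : ∀ K : Subgroup G, (Nat.card K).Coprime p → (∃ n : ℕ, K.index = p ^ n) → Nat.card K = Nat.card H := by
    rintro K hK ⟨i, hKi⟩
    obtain ⟨j, hHj⟩ := hi
    have e1 := K.index_mul_card
    have e2 := H.index_mul_card
    rw [hKi] at e1; rw [hHj] at e2
    refine Nat.dvd_antisymm ?_ ?_
    · exact (hK.pow_right j).dvd_of_dvd_mul_left (e2.trans e1.symm ▸ dvd_mul_left _ _)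
    · exact (hH.pow_right i).dvd_of_dvd_mul_left (e1.trans e2.symm ▸ dvd_mul_left _ _)
  obtain ⟨a, ha⟩ := hdom H₁ h1
  obtain ⟨b, hb⟩ := hdom H₂ h2
  have ha' : H₁.map (MulAut.conj a).toMonoidHom = H := Subgroup.eq_of_le_of_card_ge ha (by
    rw [Subgroup.card_map_of_injective (MulEquiv.injective (MulAut.conj a)), hcard H₁ h1 h1i])
  have hb' : H₂.map (MulAut.conj b).toMonoidHom = H := Subgroup.eq_of_le_of_card_ge hb (by
    rw [Subgroup.card_map_of_injective (MulEquiv.injective (MulAut.conj b)), hcard H₂ h2 h2i])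
  refine ⟨b⁻¹ * a, ?_⟩
  apply Subgroup.map_injective (f := (MulAut.conj b).toMonoidHom) (MulEquiv.injective (MulAut.conj b))
  rw [hb', Subgroup.map_map, ← ha']
  congr 1; ext z; simp [mul_assoc]

end Cfsg.Agent.S3744
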