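import Cfsg.Statements.S3746
import Cfsg.Agent.Layer.Basic

set_option autoImplicit false
open Cfsg
open scoped commutatorElement

namespace Cfsg.Agent.S3746

/-- Let Z ≤ Z(G) be a central subgroup of a finite group G and E a subgroup of G containing Z whose image E/Z is a component of G/Z (subnormal and quasisimple). Then the derived subgroup [E, E] is a component of G. -/
theorem result {G : Type*} [Group G] [Finite G] (Z : Subgroup G) (hZ : Z ≤ Subgroup.center G) [Z.Normal] (E : Subgroup G) (hZE : Z ≤ E) (hE : Cfsg.IsComponent (E.map (QuotientGroup.mk' Z))) : Cfsg.IsComponent ⁅E, E⁆ := by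
  set π := QuotientGroup.mk' Z with hπ
  have hEsn : E.IsSubnormal := by
    have := hE.1.comap π
    rwa [Subgroup.comap_map_eq_self (by rw [hπ, QuotientGroup.ker_mk']; exact hZE)] at this
  have hE'E : ⁅E, E⁆ ≤ E := Subgroup.commutator_le_self E
  have himg : (⁅E, E⁆).map π = E.map π := by
    rw [Subgroup.map_commutator]; exact Layer.component_perfect hE
  have hsplit : E ≤ ⁅E, E⁆ ⊔ Z := by
    have h := (Subgroup.comap_map_eq π ⁅E, E⁆)
    rw [himg, hπ, QuotientGroup.ker_mk'] at h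
    rw [← h]
    exact Subgroup.le_comap_map _ _
  have hperf : ⁅⁅E, E⁆, ⁅E, E⁆⁆ = ⁅E, E⁆ := by
    refine le_antisymm (Subgroup.commutator_le_self _) ?_
    rw [Subgroup.commutator_le]
    intro a ha b hb
    haveI : Z.Normal := inferInstance
    obtain ⟨a', ha', z, hz, rfl⟩ := Subgroup.mem_sup_of_normal_right.mp (hsplit ha)
    obtain ⟨b', hb', w, hw, rfl⟩ := Subgroup.mem_sup_of_normal_right.mp (hsplit hb)
    have cz : ∀ g, g * z = z * g := Subgroup.mem_center_iff.mp (hZ hz)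
    have cw : ∀ g, g * w = w * g := Subgroup.mem_center_iff.mp (hZ hw)
    have e : ⁅a' * z, b' * w⁆ = ⁅a', b'⁆ := by
      rw [commutatorElement_def, commutatorElement_def]
      calc a' * z * (b' * w) * (a' * z)⁻¹ * (b' * w)⁻¹ = a' * (z * (b' * w)) * z⁻¹ * a'⁻¹ * (b' * w)⁻¹ := by group
        _ = a' * ((b' * w) * z) * z⁻¹ * a'⁻¹ * (b' * w)⁻¹ := by rw [cz]
        _ = a' * b' * (w * a'⁻¹) * w⁻¹ * b'⁻¹ := by group
        _ = a' * b' * (a'⁻¹ * w) * w⁻¹ * b'⁻¹ := by rw [cw]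
        _ = a' * b' * a'⁻¹ * b'⁻¹ := by group
    rw [e]
    exact Subgroup.commutator_mem_commutator ha' hb'
  refine ⟨Subgroup.IsSubnormal.step _ _ hE'E hEsn ((Subgroup.normal_subgroupOf_iff_le_normalizer hE'E).mpr
    (Subgroup.normalizer_commutator_ge_left E E)), ?_⟩
  have hne : Nontrivial ↥⁅E, E⁆ := (Subgroup.nontrivial_iff_ne_bot _).mpr fun h => by
    rw [h, Subgroup.map_bot] at himg
    exact Layer.component_ne_bot hE himg.symm
  refine Layer.isQuasisimple_of (Subgroup.isPerfect_iff.mpr hperf) hne fun N hN hNne => ?_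
  let f : ↥⁅E, E⁆ →* ↥(E.map π) := (π.comp (Subgroup.subtype ⁅E, E⁆)).codRestrict (E.map π) fun x => himg ▸ ⟨x, x.2, rfl⟩
  have hf : Function.Surjective f := by
    rintro ⟨y, hy⟩
    rw [← himg] at hy
    obtain ⟨x, hx, rfl⟩ := hy
    exact ⟨⟨x, hx⟩, rfl⟩
  have hker : ∀ x, f x = 1 → (x : G) ∈ Z := fun x hx => (QuotientGroup.eq_one_iff (x : G)).mp (congrArg Subtype.val hx)
  rcases Layer.eq_top_or_le_center hE.2 (hN.map f hf) with htop | hcen
  · exfalso
    apply hNne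
    have hNZ : ∀ x : ↥⁅E, E⁆, ∃ n ∈ N, ((n⁻¹ * x : ↥⁅E, E⁆) : G) ∈ Z := by
      intro x
      obtain ⟨n, hn, he⟩ := htop ▸ Subgroup.mem_top (f x)
      exact ⟨n, hn, hker _ (by rw [map_mul, map_inv, he, inv_mul_cancel])⟩
    rw [eq_top_iff]
    intro x _
    have hle : ⁅⁅E, E⁆, ⁅E, E⁆⁆ ≤ N.map (Subgroup.subtype ⁅E, E⁆) := by
      rw [Subgroup.commutator_le]
      intro a ha b hb
      obtain ⟨n, hn, hnz⟩ := hNZ ⟨a, ha⟩
      obtain ⟨m, hm, hmz⟩ := hNZ ⟨b, hb⟩
      refine ⟨n * m * n⁻¹ * m⁻¹, N.mul_mem (N.mul_mem (N.mul_mem hn hm) (N.inv_mem hn)) (N.inv_mem hm), ?_⟩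
      have cz := Subgroup.mem_center_iff.mp (hZ hnz)
      have cw := Subgroup.mem_center_iff.mp (hZ hmz)
      show (n : G) * m * (n : G)⁻¹ * (m : G)⁻¹ = a * b * a⁻¹ * b⁻¹
      have ea : a = (n : G) * ((n : G)⁻¹ * a) := by group
      have eb : b = (m : G) * ((m : G)⁻¹ * b) := by group
      obtain ⟨z, hzdef⟩ : ∃ z, z = (n : G)⁻¹ * a := ⟨_, rfl⟩
      obtain ⟨w, hwdef⟩ : ∃ w, w = (m : G)⁻¹ * b := ⟨_, rfl⟩
      have cz' : ∀ g, g * z = z * g := fun g => by rw [hzdef]; exact cz g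
      have cw' : ∀ g, g * w = w * g := fun g => by rw [hwdef]; exact cw g
      rw [ea, eb, ← hzdef, ← hwdef]
      symm
      calc (n : G) * z * ((m : G) * w) * ((n : G) * z)⁻¹ * ((m : G) * w)⁻¹
            = n * (z * (m * w)) * z⁻¹ * (n : G)⁻¹ * ((m : G) * w)⁻¹ := by group
        _ = n * ((m * w) * z) * z⁻¹ * (n : G)⁻¹ * ((m : G) * w)⁻¹ := by rw [cz']
        _ = n * m * (w * (n : G)⁻¹) * w⁻¹ * (m : G)⁻¹ := by group
        _ = n * m * ((n : G)⁻¹ * w) * w⁻¹ * (m : G)⁻¹ := by rw [cw']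
        _ = _ := by group
    obtain ⟨y, hy, he⟩ := hle (hperf.ge x.2)
    rwa [Subtype.ext he] at hy
  · intro x hx
    have hxc : ∀ y : ↥⁅E, E⁆, ((⁅x, y⁆ : ↥⁅E, E⁆) : G) ∈ Z := fun y => hker _ (by
      rw [map_commutatorElement, commutatorElement_eq_one_iff_mul_comm]
      exact (Subgroup.mem_center_iff.mp (hcen ⟨x, hx, rfl⟩) (f y)).symm)
    have h1 : ⁅Subgroup.zpowers (x : G), ⁅E, E⁆⁆ ≤ Z := by
      rw [Subgroup.commutator_le]
      rintro g ⟨i, rfl⟩ b hb
      have hb' : QuotientGroup.mk' Z (x : G) * QuotientGroup.mk' Z b = QuotientGroup.mk' Z b * QuotientGroup.mk' Z (x : G) := by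
        rw [← commutatorElement_eq_one_iff_mul_comm, ← map_commutatorElement]
        exact (QuotientGroup.eq_one_iff _).mpr (hxc ⟨b, hb⟩)
      refine (QuotientGroup.eq_one_iff (N := Z) _).mp ?_
      show QuotientGroup.mk' Z ⁅(x : G) ^ i, b⁆ = 1
      rw [map_commutatorElement, commutatorElement_eq_one_iff_mul_comm, map_zpow]
      exact (Commute.zpow_left hb' i).eq
    have h2 : ⁅⁅Subgroup.zpowers (x : G), ⁅E, E⁆⁆, ⁅E, E⁆⁆ = ⊥ := by
      rw [eq_bot_iff, Subgroup.commutator_le]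
      intro z hz b _
      rw [Subgroup.mem_bot, commutatorElement_eq_one_iff_mul_comm]
      exact (Subgroup.mem_center_iff.mp (hZ (h1 hz)) b).symm
    have h3 := Layer.commutator_eq_bot_of_perfect hperf h2
    rw [Subgroup.mem_center_iff]
    intro y
    have h4 : ⁅(x : G), (y : G)⁆ ∈ (⊥ : Subgroup G) := h3 ▸ Subgroup.commutator_mem_commutator (Subgroup.mem_zpowers _) y.2
    exact Subtype.ext (commutatorElement_eq_one_iff_mul_comm.mp (Subgroup.mem_bot.mp h4)).symm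

end Cfsg.Agent.S3746
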