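import Cfsg.Statements.S3760
import Mathlib

set_option autoImplicit false
set_option linter.style.haveILetI false
open Cfsg

namespace Cfsg.Agent.S3760

/-- Let the group G act transitively on a set X, let x ∈ X with stabilizer H = G_x, and let K ≤ H. Then N_G(K) acts transitively on the set of fixed points of K if and only if every G-conjugate of K contained in H is already an H-conjugate of K. -/
theorem result {G : Type*} [Group G] {X : Type*} [MulAction G X] (htrans : ∀ a b : X, ∃ g : G, g • a = b) (x : X) (K : Subgroup G) (hK : K ≤ MulAction.stabilizer G x) : (∀ a b : X, (∀ k ∈ K, k • a = a) → (∀ k ∈ K, k • b = b) → ∃ g ∈ Subgroup.normalizer (K : Set G), g • a = b) ↔ ∀ g : G, K.map (MulAut.conj g).toMonoidHom ≤ MulAction.stabilizer G x → ∃ h ∈ MulAction.stabilizer G x, K.map (MulAut.conj g).toMonoidHom = K.map (MulAut.conj h).toMonoidHom := by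
  constructor
  · intro h g hg
    have h1 : ∀ k ∈ K, k • (g⁻¹ • x) = g⁻¹ • x := by
      intro k hk
      have := hg (Subgroup.mem_map_of_mem _ hk)
      rw [MulAction.mem_stabilizer_iff] at this
      have h2 : (g * k * g⁻¹) • x = x := this
      rw [mul_smul, mul_smul] at h2
      exact eq_inv_smul_iff.mpr h2
    obtain ⟨n, hn, hnx⟩ := h x (g⁻¹ • x) (fun k hk => hK hk) h1
    refine ⟨g * n, ?_, ?_⟩
    · rw [MulAction.mem_stabilizer_iff, mul_smul, hnx, smul_inv_smul]
    · ext y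
      simp only [Subgroup.mem_map]
      constructor
      · rintro ⟨k, hk, rfl⟩
        refine ⟨n⁻¹ * k * n, (Subgroup.mem_normalizer_iff''.1 hn k).1 hk, ?_⟩
        simp [MulAut.conj_apply, mul_assoc]
      · rintro ⟨k, hk, rfl⟩
        refine ⟨n * k * n⁻¹, (Subgroup.mem_normalizer_iff.1 hn k).1 hk, ?_⟩
        simp [MulAut.conj_apply, mul_assoc]
  · intro h a b ha hb
    have key : ∀ c : X, (∀ k ∈ K, k • c = c) → ∃ n ∈ Subgroup.normalizer (K : Set G), n • c = x := by
      intro c hc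
      obtain ⟨g, hg⟩ := htrans c x
      obtain ⟨u, hu, hgu⟩ := h g (by
        rintro _ ⟨k, hk, rfl⟩
        rw [MulAction.mem_stabilizer_iff]
        show (g * k * g⁻¹) • x = x
        rw [← hg, mul_smul, mul_smul, inv_smul_smul, hc k hk])
      refine ⟨u⁻¹ * g, ?_, by rw [mul_smul, hg]; exact inv_smul_eq_iff.2 hu.symm⟩
      refine Subgroup.mem_normalizer_iff.2 fun y => ⟨fun hy => ?_, fun hy => ?_⟩
      · have h1 : g * y * g⁻¹ ∈ K.map (MulAut.conj u).toMonoidHom := hgu ▸ Subgroup.mem_map_of_mem _ hy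
        obtain ⟨k, hk, hkk⟩ := h1
        have h2 : u * k * u⁻¹ = g * y * g⁻¹ := hkk
        rw [show u⁻¹ * g * y * (u⁻¹ * g)⁻¹ = u⁻¹ * (g * y * g⁻¹) * u by group, ← h2,
          show u⁻¹ * (u * k * u⁻¹) * u = k by group]
        exact hk
      · have h1 : u * (u⁻¹ * g * y * (u⁻¹ * g)⁻¹) * u⁻¹ ∈ K.map (MulAut.conj g).toMonoidHom :=
          hgu.symm ▸ Subgroup.mem_map_of_mem _ hy
        obtain ⟨k, hk, hkk⟩ := h1
        have h2 : g * k * g⁻¹ = g * y * g⁻¹ := by rw [show g * y * g⁻¹ = u * (u⁻¹ * g * y * (u⁻¹ * g)⁻¹) * u⁻¹ by group]; exact hkk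
        rwa [← mul_left_cancel (mul_right_cancel h2)]
    obtain ⟨na, hna, hax⟩ := key a ha
    obtain ⟨nb, hnb, hbx⟩ := key b hb
    exact ⟨nb⁻¹ * na, mul_mem (inv_mem hnb) hna, by rw [mul_smul, hax, ← hbx, inv_smul_smul]⟩

end Cfsg.Agent.S3760
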