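import Cfsg.Statements.S3766
import Mathlib
import Cfsg.Agent.Solv.Nilpotent

set_option autoImplicit false
set_option linter.style.haveILetI false
open Cfsg

open scoped commutatorElement

namespace Cfsg.Agent.S3766

/-- Let G be a finite solvable group and N a normal subgroup of G. Call a pair V < U of normal subgroups of G a chief factor of G when no normal subgroup of G lies strictly between them; an element g centralizes the chief factor U/V when u g u⁻¹ g⁻¹ ∈ V for all u ∈ U. Then an element of G lies in the Fitting subgroup F(N) if and only if it lies in N and centralizes every chief factor of G; and also if and only if it lies in N and centralizes every chief factor U/V of G with U ≤ F(N). -/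
theorem result {G : Type*} [Group G] [Finite G] (hG : Group.IsSolvable G) (N : Subgroup G) [N.Normal] (g : G) : (g ∈ (Cfsg.fittingSubgroup ↥N).map N.subtype ↔ g ∈ N ∧ ∀ U V : Subgroup G, (U.Normal ∧ V.Normal ∧ V < U ∧ ∀ W : Subgroup G, W.Normal → V ≤ W → W ≤ U → W = V ∨ W = U) → ∀ u ∈ U, u * g * u⁻¹ * g⁻¹ ∈ V) ∧ (g ∈ (Cfsg.fittingSubgroup ↥N).map N.subtype ↔ g ∈ N ∧ ∀ U V : Subgroup G, (U.Normal ∧ V.Normal ∧ V < U ∧ ∀ W : Subgroup G, W.Normal → V ≤ W → W ≤ U → W = V ∨ W = U) → U ≤ (Cfsg.fittingSubgroup ↥N).map N.subtype → ∀ u ∈ U, u * g * u⁻¹ * g⁻¹ ∈ V) := by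
  haveI := hG
  obtain ⟨F, hF⟩ : ∃ F, F = (fittingSubgroup ↥N).map N.subtype := ⟨_, rfl⟩
  haveI hFn : F.Normal := hF ▸ inferInstance
  have hFN : F ≤ N := hF ▸ Subgroup.map_subtype_le _
  haveI hFnil : Group.IsNilpotent F := by
    haveI := Solv.fittingSubgroup_isNilpotent (G := N)
    rw [hF]
    exact Group.nilpotent_of_mulEquiv (Subgroup.equivMapOfInjective _ _ N.subtype_injective)
  have hfwd : g ∈ F → ∀ U V : Subgroup G, (U.Normal ∧ V.Normal ∧ V < U ∧ ∀ W : Subgroup G, W.Normal → V ≤ W → W ≤ U → W = V ∨ W = U) → ∀ u ∈ U, u * g * u⁻¹ * g⁻¹ ∈ V := by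
    rintro hg U V ⟨hU, hV, hlt, hchief⟩ u hu
    haveI := hU; haveI := hV
    rcases hchief (V ⊔ ⁅U, F⁆) inferInstance le_sup_left (sup_le hlt.le (Subgroup.commutator_le_left _ _)) with h | h
    · have : ⁅u, g⁆ ∈ V := h ▸ Subgroup.mem_sup_right (Subgroup.commutator_mem_commutator hu hg)
      simpa [commutatorElement_def] using this
    · exfalso
      apply hlt.not_ge
      let f := QuotientGroup.mk' V
      haveI : Group.IsNilpotent (F.map f) :=
        Group.nilpotent_of_surjective (f.subgroupMap F) (f.subgroupMap_surjective F)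
      have he : U.map f = ⁅U.map f, F.map f⁆ := by
        rw [← Subgroup.map_commutator]
        conv_lhs => rw [← h]
        rw [Subgroup.map_sup, (Subgroup.map_eq_bot_iff V).mpr (QuotientGroup.ker_mk' V).ge, bot_sup_eq]
      haveI : (F.map f).Normal := hFn.map f (QuotientGroup.mk'_surjective V)
      have hUF : U.map f ≤ F.map f := he.le.trans (Subgroup.commutator_le_right _ _)
      have hb := Solv.eq_bot_of_le_commutator hUF he.le
      rwa [Subgroup.map_eq_bot_iff, QuotientGroup.ker_mk'] at hb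
  have hback : g ∈ N → (∀ U V : Subgroup G, (U.Normal ∧ V.Normal ∧ V < U ∧ ∀ W : Subgroup G, W.Normal → V ≤ W → W ≤ U → W = V ∨ W = U) → U ≤ F → ∀ u ∈ U, u * g * u⁻¹ * g⁻¹ ∈ V) → g ∈ F := by
    intro hgN hg
    by_contra hgF
    let K : Subgroup G := ⨅ (U : Subgroup G) (V : Subgroup G) (_ : (U.Normal ∧ V.Normal ∧ V < U ∧ ∀ W : Subgroup G, W.Normal → V ≤ W → W ≤ U → W = V ∨ W = U) ∧ U ≤ F),
      ((Subgroup.centralizer ((U.map (QuotientGroup.mk' (Subgroup.normalCore V)) : Subgroup _) : Set (G ⧸ Subgroup.normalCore V))).comap (QuotientGroup.mk' (Subgroup.normalCore V)))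
    haveI hKn : K.Normal := by
      refine Subgroup.normal_iInf_normal fun U => Subgroup.normal_iInf_normal fun V => Subgroup.normal_iInf_normal fun hUV => ?_
      haveI := hUV.1.1
      haveI : (U.map (QuotientGroup.mk' (Subgroup.normalCore V))).Normal :=
        hUV.1.1.map _ (QuotientGroup.mk'_surjective _)
      infer_instance
    have hcomm : ∀ (U V : Subgroup G), V.Normal → ∀ u a : G, u * a * u⁻¹ * a⁻¹ ∈ V ↔
        QuotientGroup.mk' (Subgroup.normalCore V) u * QuotientGroup.mk' _ a = QuotientGroup.mk' _ a * QuotientGroup.mk' _ u := by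
      intro U V hV u a
      haveI := hV
      rw [← commutatorElement_eq_one_iff_mul_comm, ← map_commutatorElement, QuotientGroup.mk'_apply, QuotientGroup.eq_one_iff,
        Subgroup.normalCore_eq_self, commutatorElement_def]
    have hgK : g ∈ K := by
      simp only [K, Subgroup.mem_iInf, Subgroup.mem_comap, Subgroup.mem_centralizer_iff]
      rintro U V ⟨hUV, hUF⟩ _ ⟨u, hu, rfl⟩
      exact (hcomm U V hUV.2.1 u g).mp (hg U V hUV hUF u hu)
    let f := QuotientGroup.mk' F
    have hne : (K ⊓ N).map f ≠ ⊥ := fun hb => hgF (by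
      rw [Subgroup.map_eq_bot_iff, QuotientGroup.ker_mk'] at hb
      exact hb ⟨hgK, hgN⟩)
    obtain ⟨M, hMn, hM0, hMle, hMmin⟩ := Solv.exists_minimal_normal ((inferInstance : (K ⊓ N).Normal).map f (QuotientGroup.mk'_surjective F)) hne
    obtain ⟨hMc, -⟩ := Solv.minimal_normal_solvable hMn hM0 hMmin
    haveI := hMn
    let L : Subgroup G := M.comap f ⊓ (K ⊓ N)
    haveI : L.Normal := inferInstance
    have hLL : ⁅L, L⁆ ≤ F := by
      rw [Subgroup.commutator_le]
      intro a ha b hb
      rw [← QuotientGroup.eq_one_iff]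
      show f ⁅a, b⁆ = 1
      rw [map_commutatorElement, commutatorElement_eq_one_iff_mul_comm]
      exact congrArg Subtype.val (mul_comm' (⟨f a, ha.1⟩ : M) ⟨f b, hb.1⟩)
    have key : ∀ (n : ℕ) (U : Subgroup G), Nat.card U = n → U.Normal → U ≤ F → ∃ k, (fun X : Subgroup G => ⁅X, L⁆)^[k] U = ⊥ := by
      intro n
      induction n using Nat.strong_induction_on with
      | _ n ih =>
      intro U hn hU hUF
      by_cases hU0 : U = ⊥
      · exact ⟨0, hU0⟩
      obtain ⟨V, ⟨hV, hVU⟩, hVmax⟩ := (Set.toFinite {V : Subgroup G | V.Normal ∧ V < U}).exists_maximal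
        ⟨⊥, inferInstance, bot_lt_iff_ne_bot.mpr hU0⟩
      have hle : ⁅U, L⁆ ≤ V := by
        rw [Subgroup.commutator_le]
        intro u hu a ha
        have haK : a ∈ K := ha.2.1
        simp only [K, Subgroup.mem_iInf, Subgroup.mem_comap, Subgroup.mem_centralizer_iff] at haK
        have h2 := haK U V ⟨⟨hU, hV, hVU, fun W hW h1 h2 => by
          rcases eq_or_lt_of_le h2 with h3 | h3
          · exact Or.inr h3
          · exact Or.inl (le_antisymm (hVmax ⟨hW, h3⟩ h1) h1)⟩, hUF⟩ _ ⟨u, hu, rfl⟩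
        rw [commutatorElement_def]
        exact (hcomm U V hV u a).mpr h2
      haveI := hU
      obtain ⟨k, hk⟩ := ih _ (hn ▸ Set.ncard_lt_ncard (SetLike.coe_ssubset_coe.mpr (lt_of_le_of_lt hle hVU))) ⁅U, L⁆ rfl
        inferInstance ((hle.trans hVU.le).trans hUF)
      exact ⟨k + 1, by rw [Function.iterate_succ_apply]; exact hk⟩
    haveI : (⁅L, L⁆).Normal := inferInstance
    obtain ⟨k, hk⟩ := key _ ⁅L, L⁆ rfl inferInstance hLL
    have hLnil : Group.IsNilpotent L := by
      rw [nilpotent_iff_lowerCentralSeries]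
      refine ⟨k + 1, ?_⟩
      have : ∀ j, (Subgroup.lowerCentralSeries (⊤ : Subgroup L) (j + 1)).map L.subtype = (fun X : Subgroup G => ⁅X, L⁆)^[j] ⁅L, L⁆ := by
        intro j
        induction j with
        | zero => rw [Subgroup.lowerCentralSeries_succ, Subgroup.lowerCentralSeries_zero, Subgroup.map_commutator, ← MonoidHom.range_eq_map, Subgroup.range_subtype, Function.iterate_zero_apply]
        | succ j ihj => rw [Subgroup.lowerCentralSeries_succ, Subgroup.map_commutator, ihj, ← MonoidHom.range_eq_map, Subgroup.range_subtype, Function.iterate_succ_apply']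
      rw [← Subgroup.map_eq_bot_iff_of_injective _ L.subtype_injective, this, hk]
    have hLF : L ≤ F := by
      have hLN : L ≤ N := inf_le_right.trans inf_le_right
      haveI := hLnil
      have : L.subgroupOf N ≤ fittingSubgroup ↥N :=
        Solv.le_fittingSubgroup inferInstance (Group.nilpotent_of_mulEquiv (Subgroup.subgroupOfEquivOfLe hLN).symm)
      rw [hF, ← Subgroup.map_subgroupOf_eq_of_le hLN]
      exact Subgroup.map_mono this
    apply hM0
    rw [eq_bot_iff]
    intro m hm
    obtain ⟨x, hx, rfl⟩ := hMle hm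
    exact (QuotientGroup.eq_one_iff x).mpr (hLF ⟨hm, hx⟩)
  subst hF
  exact ⟨⟨fun h => ⟨hFN h, hfwd h⟩, fun h => hback h.1 fun U V hUV _ => h.2 U V hUV⟩,
    ⟨fun h => ⟨hFN h, fun U V hUV _ => hfwd h U V hUV⟩, fun h => hback h.1 h.2⟩⟩

end Cfsg.Agent.S3766
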