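import Cfsg.Statements.S3768
import Cfsg.Agent.Frob.Basic

set_option autoImplicit false
set_option linter.style.haveILetI false
open Cfsg

namespace Cfsg.Agent.S3768

/-- Let G be a finite Frobenius group with Frobenius complement R and Frobenius kernel K (the identity together with the elements in no conjugate of R), and let N be a normal subgroup of G not containing K. Then G/N is a Frobenius group with Frobenius complement RN/N whose Frobenius kernel is the image of K. -/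
theorem result {G : Type*} [Group G] [Finite G] (R : Subgroup G) (hR : Cfsg.IsFrobeniusComplement R) (N : Subgroup G) [N.Normal] (hKN : ¬ Cfsg.frobeniusKernel R ⊆ N) : Cfsg.IsFrobeniusComplement (R.map (QuotientGroup.mk' N)) ∧ Cfsg.frobeniusKernel (R.map (QuotientGroup.mk' N)) = QuotientGroup.mk' N '' Cfsg.frobeniusKernel R := by
  obtain ⟨K, hK, hKn, hc⟩ := Cfsg.Agent.Frob.kernel_theorem hR
  haveI := hKn
  rw [← hK] at hKN ⊢
  have hfp : ∀ r ∈ R, r ≠ 1 → K ⊓ Subgroup.centralizer {r} = ⊥ := fun r hr h1 =>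
    Cfsg.Agent.Frob.fpf_of_isFrobeniusComplement hc.disjoint.eq_bot hR hr h1
  have hsurj : ∀ r ∈ R, r ≠ 1 → ∀ y ∈ K, ∃ k ∈ K, y = k⁻¹ * (r * k * r⁻¹) := by
    intro r hr h1 y hy
    let f : K → K := fun k => ⟨(k : G)⁻¹ * (r * k * r⁻¹), K.mul_mem (K.inv_mem k.2) (hKn.conj_mem _ k.2 r)⟩
    have hinj : Function.Injective f := by
      intro a b e
      have e1 : (a : G)⁻¹ * (r * a * r⁻¹) = (b : G)⁻¹ * (r * b * r⁻¹) := congrArg Subtype.val e
      have h2 : (b : G) * (a : G)⁻¹ ∈ K ⊓ Subgroup.centralizer {r} := by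
        refine ⟨K.mul_mem b.2 (K.inv_mem a.2), Subgroup.mem_centralizer_singleton_iff.2 ?_⟩
        calc (b : G) * (a : G)⁻¹ * r = (b : G) * ((a : G)⁻¹ * (r * a * r⁻¹)) * r * (a : G)⁻¹ := by group
          _ = r * ((b : G) * (a : G)⁻¹) := by rw [e1]; group
      rw [hfp r hr h1, Subgroup.mem_bot, mul_inv_eq_one] at h2
      exact (Subtype.ext h2).symm
    obtain ⟨k, hk⟩ := Finite.surjective_of_injective hinj ⟨y, hy⟩
    exact ⟨k, k.2, (congrArg Subtype.val hk).symm⟩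
  have hNK : N ≤ K := by
    intro n hn
    by_contra hnK
    rw [← SetLike.mem_coe, hK] at hnK
    obtain ⟨hn1, x, hx⟩ := Cfsg.Agent.Frob.not_mem_kernel hnK
    have hrN : x⁻¹ * n * x ∈ N := by simpa using ‹N.Normal›.conj_mem n hn x⁻¹
    refine hKN fun y hy => ?_
    obtain ⟨k, hk, rfl⟩ := hsurj _ hx (fun e => hn1 (calc n = x * (x⁻¹ * n * x) * x⁻¹ := by group
      _ = 1 := by rw [e, mul_one, mul_inv_cancel])) y hy
    rw [show k⁻¹ * (x⁻¹ * n * x * k * (x⁻¹ * n * x)⁻¹) = (k⁻¹ * (x⁻¹ * n * x) * k) * (x⁻¹ * n * x)⁻¹ by group]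
    exact N.mul_mem (by simpa using ‹N.Normal›.conj_mem _ hrN k⁻¹) (N.inv_mem hrN)
  let q := QuotientGroup.mk' N
  have hq : Function.Surjective q := QuotientGroup.mk'_surjective N
  haveI : (K.map q).Normal := hKn.map q hq
  have hRN : R ⊓ N = ⊥ := by rw [eq_bot_iff, ← hc.disjoint.eq_bot]; exact fun y hy => ⟨hNK hy.2, hy.1⟩
  have hc' : Subgroup.IsComplement' (K.map q) (R.map q) := by
    refine Subgroup.isComplement'_of_disjoint_and_mul_eq_univ (disjoint_iff.2 ?_) ?_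
    · rw [eq_bot_iff]
      rintro _ ⟨⟨k, hk, rfl⟩, ⟨r, hr, hkr⟩⟩
      have h1 : r⁻¹ * k ∈ N := QuotientGroup.eq.1 hkr
      have h2 : r ∈ K ⊓ R := ⟨by simpa using K.mul_mem hk (K.inv_mem (hNK h1)), hr⟩
      rw [hc.disjoint.eq_bot, Subgroup.mem_bot] at h2
      rw [Subgroup.mem_bot, ← hkr, h2, map_one]
    · rw [← Subgroup.normal_mul, ← Subgroup.map_sup, hc.sup_eq_top, Subgroup.map_top_of_surjective q hq, Subgroup.coe_top]
  have hK' : K.map q ≠ ⊥ := fun e => hKN fun y hy => (QuotientGroup.eq_one_iff y).1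
    (Subgroup.mem_bot.1 (e ▸ Subgroup.mem_map_of_mem q hy : q y ∈ (⊥ : Subgroup (G ⧸ N))))
  have hR' : R.map q ≠ ⊥ := fun e => hR.1 (by
    rw [eq_bot_iff, ← hRN]
    exact fun y hy => ⟨hy, (QuotientGroup.eq_one_iff y).1
      (Subgroup.mem_bot.1 (e ▸ Subgroup.mem_map_of_mem q hy : q y ∈ (⊥ : Subgroup (G ⧸ N))))⟩)
  have hF : Cfsg.IsFrobeniusComplement (R.map q) := by
    refine Cfsg.Agent.Frob.isFrobeniusComplement_of_fpf hc' hK' hR' ?_
    rintro _ ⟨r, hr, rfl⟩ h1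
    let f : K.map q → K.map q := fun k => ⟨(k : G ⧸ N)⁻¹ * (q r * k * (q r)⁻¹),
      (K.map q).mul_mem ((K.map q).inv_mem k.2) (Subgroup.Normal.conj_mem inferInstance _ k.2 _)⟩
    have hfs : Function.Surjective f := by
      rintro ⟨_, y, hy, rfl⟩
      obtain ⟨k, hk, rfl⟩ := hsurj r hr (fun e => h1 (by rw [e, map_one])) y hy
      exact ⟨⟨q k, Subgroup.mem_map_of_mem q hk⟩, Subtype.ext (by simp [f])⟩
    have hfi := Finite.injective_iff_surjective.2 hfs
    rw [eq_bot_iff]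
    rintro y ⟨hy, hyc⟩
    have h2 : f ⟨y, hy⟩ = f 1 := Subtype.ext (by
      show y⁻¹ * (q r * y * (q r)⁻¹) = 1⁻¹ * (q r * 1 * (q r)⁻¹)
      rw [show q r * y = y * q r from (Subgroup.mem_centralizer_singleton_iff.1 hyc).symm, mul_inv_cancel_right]
      simp)
    exact Subgroup.mem_bot.2 (congrArg Subtype.val (hfi h2))
  refine ⟨hF, ?_⟩
  rw [← Cfsg.Agent.Frob.eq_kernel_of_isComplement inferInstance hc' hF, Subgroup.coe_map]

end Cfsg.Agent.S3768
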