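import Cfsg.Statements.S3774
import Mathlib

set_option autoImplicit false
set_option linter.style.haveILetI false
open Cfsg

namespace Cfsg.Agent.S3774

/-- Let G be a nontrivial finite 2-group whose automorphism group permutes the involutions of G transitively. Then every involution of G is central, so that the involutions together with 1 form the subgroup Ω₁(Z(G)), and if this subgroup has order q then |G| is a power of q. -/
theorem result {G : Type*} [Group G] [Finite G] [Nontrivial G] (hG : IsPGroup 2 G) (htrans : ∀ x y : G, x ≠ 1 → x ^ 2 = 1 → y ≠ 1 → y ^ 2 = 1 → ∃ a : MulAut G, a x = y) : (∀ x : G, x ^ 2 = 1 → x ∈ Subgroup.center G) ∧ ∃ m : ℕ, Nat.card G = Nat.card {z : G // z ^ 2 = 1} ^ m := by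
  classical
  haveI := hG.center_nontrivial
  have hcen : ∀ x : G, x ^ 2 = 1 → x ∈ Subgroup.center G := by
    intro x hx
    by_cases hx1 : x = 1
    · rw [hx1]; exact one_mem _
    haveI : Fact (Nat.Prime 2) := ⟨Nat.prime_two⟩
    have hd : 2 ∣ Nat.card (Subgroup.center G) := by
      obtain ⟨k, hk⟩ := (hG.to_subgroup (Subgroup.center G)).exists_card_eq
      rw [hk]
      refine dvd_pow_self 2 fun h => ?_
      rw [h, pow_zero] at hk
      exact (Finite.one_lt_card (α := Subgroup.center G)).ne' hk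
    obtain ⟨z, hz⟩ := exists_prime_orderOf_dvd_card' 2 hd
    have hz2 : (z : G) ^ 2 = 1 := by rw [← hz, ← Subgroup.orderOf_coe]; exact pow_orderOf_eq_one _
    have hz1 : (z : G) ≠ 1 := fun h => by rw [← Subgroup.orderOf_coe, h, orderOf_one] at hz; omega
    obtain ⟨a, rfl⟩ := htrans z x hz1 hz2 hx1 hx
    rw [Subgroup.mem_center_iff]
    intro y
    obtain ⟨y, rfl⟩ := a.surjective y
    rw [← map_mul, ← map_mul, Subgroup.mem_center_iff.mp z.2 y]
  refine ⟨hcen, ?_⟩
  let W : Subgroup G :=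
    { carrier := {z | z ^ 2 = 1}
      one_mem' := one_pow _
      mul_mem' := fun {a b} ha hb => by
        simp only [Set.mem_setOf_eq] at ha hb ⊢
        rw [Commute.mul_pow (Subgroup.mem_center_iff.mp (hcen b hb) a : Commute a b), ha, hb, one_mul]
      inv_mem' := fun {a} ha => by
        simp only [Set.mem_setOf_eq] at ha ⊢
        rw [inv_pow, ha, inv_one] }
  obtain ⟨r, hr⟩ := (hG.to_subgroup W).exists_card_eq
  obtain ⟨n, hn⟩ := hG.exists_card_eq
  have hq : Nat.card {z : G // z ^ 2 = 1} = 2 ^ r := hr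
  -- the involution attached to an element
  have hex : ∀ x : {x : G // x ≠ 1}, ∃ w : {z : G // z ^ 2 = 1 ∧ z ≠ 1}, ∃ j : ℕ, (x : G) ^ 2 ^ j = (w : G) := by
    rintro ⟨x, hx⟩
    obtain ⟨k, hk⟩ := hG x
    let j := Nat.find (p := fun j => x ^ 2 ^ j = 1) ⟨k, hk⟩
    have hj : x ^ 2 ^ j = 1 := Nat.find_spec (p := fun j => x ^ 2 ^ j = 1) ⟨k, hk⟩
    obtain ⟨i, hi⟩ : ∃ i, j = i + 1 := Nat.exists_eq_succ_of_ne_zero fun h => hx (by simpa [h] using hj)
    exact ⟨⟨x ^ 2 ^ i, by rw [← pow_mul, ← pow_succ, ← hi]; exact hj,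
      Nat.find_min (p := fun j => x ^ 2 ^ j = 1) ⟨k, hk⟩ (by omega : i < j)⟩, i, rfl⟩
  choose f hf using hex
  have huniq : ∀ (x : {x : G // x ≠ 1}) (w : {z : G // z ^ 2 = 1 ∧ z ≠ 1}) (j : ℕ), (x : G) ^ 2 ^ j = (w : G) → f x = w := by
    intro x w j hj
    obtain ⟨i, hi⟩ := hf x
    have key : ∀ (u v : ℕ) (a b : {z : G // z ^ 2 = 1 ∧ z ≠ 1}), (x : G) ^ 2 ^ u = (a : G) → (x : G) ^ 2 ^ v = (b : G) → u < v → False := by
      intro u v a b ha hb huv
      obtain ⟨d, rfl⟩ : ∃ d, v = u + 1 + d := ⟨v - u - 1, by omega⟩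
      rw [pow_add, pow_mul, pow_succ, pow_mul, ha, a.2.1, one_pow] at hb
      exact b.2.2 hb.symm
    rcases lt_trichotomy i j with h | h | h
    · exact (key i j _ _ hi hj h).elim
    · subst h; exact Subtype.ext (hi.symm.trans hj)
    · exact (key j i _ _ hj hi h).elim
  have hfib : ∀ w w' : {z : G // z ^ 2 = 1 ∧ z ≠ 1}, Nat.card {x // f x = w} = Nat.card {x // f x = w'} := by
    intro w w'
    obtain ⟨a, ha⟩ := htrans w w' w.2.2 w.2.1 w'.2.2 w'.2.1
    refine Nat.card_congr ((a.toEquiv.subtypeEquiv (p := fun x : G => x ≠ 1) (q := fun x : G => x ≠ 1)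
      fun x => (map_ne_one_iff a a.injective).symm).subtypeEquiv fun x => ?_)
    constructor
    · intro hx
      obtain ⟨j, hj⟩ := hf x
      refine huniq _ _ j ?_
      show (a (x : G)) ^ 2 ^ j = _
      rw [← map_pow, hj, hx, ha]
    · intro hx
      obtain ⟨j, hj⟩ := hf ((a.toEquiv.subtypeEquiv (p := fun x : G => x ≠ 1) (q := fun x : G => x ≠ 1)
        fun x => (map_ne_one_iff a a.injective).symm) x)
      rw [hx] at hj
      refine huniq _ _ j (a.injective ?_)
      rw [map_pow, ha]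
      exact hj
  have hne : ∀ {α : Type _} [Finite α] (a : α), Nat.card {x : α // x ≠ a} = Nat.card α - 1 := by
    intro α _ a
    haveI := Fintype.ofFinite α
    simp [Nat.card_eq_fintype_card, Fintype.card_subtype_compl]
  have hdvd : 2 ^ r - 1 ∣ 2 ^ n - 1 := by
    have h1 : Nat.card {x : G // x ≠ 1} = 2 ^ n - 1 := by rw [hne, hn]
    have h2 : Nat.card {z : G // z ^ 2 = 1 ∧ z ≠ 1} = 2 ^ r - 1 := by
      rw [← hq, ← hne (⟨1, one_pow 2⟩ : {z : G // z ^ 2 = 1})]
      refine Nat.card_congr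
        { toFun := fun z => ⟨⟨z.1, z.2.1⟩, fun h => z.2.2 (congrArg Subtype.val h)⟩
          invFun := fun z => ⟨z.1.1, z.1.2, fun h => z.2 (Subtype.ext h)⟩
          left_inv := fun _ => rfl
          right_inv := fun _ => rfl }
    haveI := Fintype.ofFinite {z : G // z ^ 2 = 1 ∧ z ≠ 1}
    rw [← h1, ← h2, ← Nat.card_congr (Equiv.sigmaFiberEquiv f), Nat.card_sigma]
    rcases isEmpty_or_nonempty {z : G // z ^ 2 = 1 ∧ z ≠ 1} with he | ⟨⟨w⟩⟩
    · simp
    · rw [Finset.sum_congr rfl fun w' _ => hfib w' w, Finset.sum_const, Finset.card_univ, smul_eq_mul,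
        Nat.card_eq_fintype_card]
      exact dvd_mul_right _ _
  have hrn : r ∣ n := by
    have h := Nat.gcd_eq_left hdvd
    rw [Nat.pow_sub_one_gcd_pow_sub_one] at h
    have h1 := Nat.one_le_pow r 2 (by omega)
    have h2 := Nat.one_le_pow (r.gcd n) 2 (by omega)
    exact (Nat.pow_right_injective le_rfl (show 2 ^ r.gcd n = 2 ^ r by omega)).symm ▸ Nat.gcd_dvd_right r n
  obtain ⟨m, rfl⟩ := hrn
  exact ⟨m, by rw [hq, hn, pow_mul]⟩

end Cfsg.Agent.S3774
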