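import Cfsg.Statements.S3780
import Mathlib
import Cfsg.Agent.Solv.Nilpotent

set_option autoImplicit false
set_option linter.style.haveILetI false
open Cfsg

namespace Cfsg.Agent.S3780

/-- Let V be a finite abelian p-group and α an automorphism of V of order p whose fixed-point subgroup has order p^n. Then V can be generated by pn elements: some subset of V with at most pn elements generates V. -/
theorem result {V : Type*} [CommGroup V] [Finite V] {p : ℕ} [Fact p.Prime] (hV : IsPGroup p V) (α : MulAut V) (hα : orderOf α = p) (n : ℕ) (hfix : Nat.card {v : V // α v = v} = p ^ n) : ∃ S : Finset V, S.card ≤ p * n ∧ Subgroup.closure (S : Set V) = ⊤ := by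
  classical
  have hp : p.Prime := Fact.out
  let a : AddMonoid.End (Additive V) := MonoidHom.toAdditive α.toMonoidHom
  let d : AddMonoid.End (Additive V) := a - 1
  have ha : ∀ (k : ℕ) (v : Additive V), (a ^ k) v = Additive.ofMul ((α ^ k) v.toMul) := by
    intro k
    induction k with
    | zero => intro v; rfl
    | succ k ih =>
      intro v
      rw [pow_succ, AddMonoid.End.coe_mul, Function.comp_apply, ih, pow_succ, MulAut.mul_apply]
      rfl
  have hap : a ^ p = 1 := DFunLike.ext _ _ fun v => by
    rw [ha, ← hα, pow_orderOf_eq_one]; rfl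
  obtain ⟨r, hr⟩ := (Commute.one_right d).exists_add_pow_prime_eq hp
  have hker : ∀ w : Additive V, p • w = 0 → (d ^ p) w = 0 := by
    intro w hw
    rw [show d + 1 = a from sub_add_cancel a 1, hap, one_pow, add_right_comm] at hr
    have h1 : d ^ p + (p : AddMonoid.End (Additive V)) * d * 1 * r = 0 := add_eq_right.mp hr.symm
    have h2 := congrArg (fun f : AddMonoid.End (Additive V) => f w) h1
    have h3 : ((p : AddMonoid.End (Additive V)) * d * 1 * r) w = 0 := by
      simp only [AddMonoid.End.coe_mul, Function.comp_apply, mul_one, AddMonoid.End.natCast_apply]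
      rw [← map_nsmul, ← map_nsmul, hw, map_zero, map_zero]
    change (d ^ p) w + ((p : AddMonoid.End (Additive V)) * d * 1 * r) w = 0 at h2
    rwa [h3, add_zero] at h2
  let kr : ℕ → AddSubgroup (Additive V) := fun k => (d ^ k : Additive V →+ Additive V).ker
  have hmem : ∀ k v, v ∈ kr k ↔ (d ^ k) v = 0 := fun k v => Iff.rfl
  have hfixc : Nat.card (kr 1) = p ^ n := by
    rw [← hfix]
    refine Nat.card_congr (Equiv.subtypeEquiv Additive.toMul fun v => ?_)
    rw [hmem, pow_one]
    show a v - v = 0 ↔ _
    rw [sub_eq_zero]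
    exact Iff.rfl
  have hk : ∀ k, Nat.card (kr k) ≤ (p ^ n) ^ k := by
    intro k
    induction k with
    | zero =>
      have : kr 0 = ⊥ := by ext v; rw [hmem]; rfl
      rw [this, AddSubgroup.card_bot, pow_zero]
    | succ k ih =>
      let f : kr (k + 1) →+ kr 1 :=
        ((d ^ k : Additive V →+ Additive V).comp (kr (k + 1)).subtype).codRestrict _ fun v => by
          rw [hmem, pow_one]
          show d ((d ^ k) (v : Additive V)) = 0
          have := (hmem _ _).mp v.2
          rwa [pow_succ'] at this
      have h1 : Nat.card f.ker ≤ Nat.card (kr k) :=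
        Nat.card_le_card_of_injective (fun v => (⟨(v : kr (k + 1)).1, congrArg Subtype.val v.2⟩ : kr k))
          fun v w hvw => Subtype.ext (Subtype.ext (congrArg Subtype.val hvw :))
      calc Nat.card (kr (k + 1)) = f.ker.index * Nat.card f.ker := (AddSubgroup.index_mul_card _).symm
        _ = Nat.card f.range * Nat.card f.ker := by rw [AddSubgroup.index_ker]
        _ ≤ p ^ n * (p ^ n) ^ k := Nat.mul_le_mul ((AddSubgroup.card_le_card_addGroup _).trans hfixc.le) (h1.trans ih)
        _ = (p ^ n) ^ (k + 1) := by rw [pow_succ']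
  let P : Subgroup V := (powMonoidHom p : V →* V).range
  have hP' : P.index ≤ p ^ (p * n) := by
    have h1 : P.index * Nat.card P = (powMonoidHom p : V →* V).ker.index * Nat.card (powMonoidHom p : V →* V).ker := by
      rw [Subgroup.index_mul_card, Subgroup.index_mul_card]
    rw [Subgroup.index_ker, mul_comm (Nat.card ↥(powMonoidHom p : V →* V).range)] at h1
    rw [Nat.eq_of_mul_eq_mul_right Nat.card_pos h1, mul_comm p n, pow_mul]
    refine le_trans ?_ (hk p)
    exact Nat.card_le_card_of_injective (fun v => (⟨Additive.ofMul (v : V), hker _ v.2⟩ : kr p))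
      fun v w hvw => Subtype.ext (congrArg Subtype.val hvw :)
  have key : ∀ (m : ℕ) (B : Subgroup V), B.index = m → ∃ S : Finset V, p ^ S.card ≤ m ∧ Subgroup.closure (S : Set V) ⊔ B = ⊤ := by
    intro m
    induction m using Nat.strong_induction_on with
    | _ m ih =>
    intro B hB
    by_cases hBt : B = ⊤
    · refine ⟨∅, ?_, by rw [hBt, sup_top_eq]⟩
      rw [← hB, hBt, Subgroup.index_top, Finset.card_empty, pow_zero]
    obtain ⟨v, -, hv⟩ := SetLike.exists_of_lt (lt_top_iff_ne_top.mpr hBt)
    obtain ⟨j, hj⟩ := hV.index (B ⊔ Subgroup.zpowers v)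
    obtain ⟨i, hi⟩ := hV.index B
    have hne : B ⊔ Subgroup.zpowers v ≠ B := fun e => hv (e ▸ Subgroup.mem_sup_right (Subgroup.mem_zpowers v))
    have hlt : (B ⊔ Subgroup.zpowers v).index < B.index :=
      Subgroup.index_strictAnti (lt_of_le_of_ne le_sup_left hne.symm)
    obtain ⟨S, hS, hSB⟩ := ih _ (hB ▸ hlt) _ rfl
    refine ⟨insert v S, ?_, ?_⟩
    · rw [hi, hj] at hlt
      have hji := (Nat.pow_lt_pow_iff_right hp.one_lt).mp hlt
      calc p ^ (insert v S).card ≤ p ^ (S.card + 1) := Nat.pow_le_pow_right hp.pos (Finset.card_insert_le _ _)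
        _ = p * p ^ S.card := pow_succ' p _
        _ ≤ p * p ^ j := Nat.mul_le_mul_left _ (hj ▸ hS)
        _ = p ^ (j + 1) := (pow_succ' p _).symm
        _ ≤ p ^ i := Nat.pow_le_pow_right hp.pos hji
        _ = m := by rw [← hi, hB]
    · rw [eq_top_iff, ← hSB, Finset.coe_insert, Set.insert_eq, Subgroup.closure_union, ← Subgroup.zpowers_eq_closure]
      exact le_of_eq (by ac_rfl)
  obtain ⟨S, hS, hSB⟩ := key _ P rfl
  refine ⟨S, (Nat.pow_le_pow_iff_right hp.one_lt).mp (hS.trans hP'), frattini_nongenerating ?_⟩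
  refine top_le_iff.mp (hSB ▸ sup_le_sup_left ?_ _)
  rintro _ ⟨v, rfl⟩
  simp only [frattini, Order.radical, Subgroup.mem_iInf]
  exact fun M hM => (Solv.pGroup_coatom hV hM).2 v

end Cfsg.Agent.S3780
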