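import Cfsg.Statements.S3785
import Mathlib
import Cfsg.Agent.Solv.Fitting
import Cfsg.Agent.Solv.Nilpotent
import Cfsg.Agent.Transfer.OmegaFour

set_option autoImplicit false
set_option linter.style.haveILetI false
open Cfsg

namespace Cfsg.Agent.S3785

/-- Let G be a finite solvable group whose Fitting subgroup F(G) has odd order. If an element g of G commutes with every element of prime order of F(G), then g ∈ F(G). -/
theorem result {G : Type*} [Group G] [Finite G] (hG : Group.IsSolvable G) (hodd : Odd (Nat.card (Cfsg.fittingSubgroup G))) (g : G) (hg : ∀ x ∈ Cfsg.fittingSubgroup G, (orderOf x).Prime → g * x = x * g) : g ∈ Cfsg.fittingSubgroup G := by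
  haveI := hG
  haveI hFn := Solv.fittingSubgroup_normal (G := G)
  haveI hFnil := Solv.fittingSubgroup_isNilpotent (G := G)
  let F := fittingSubgroup G
  let W : Set G := {x | x ∈ F ∧ (orderOf x).Prime}
  let K := Subgroup.centralizer W
  haveI hKn : K.Normal := ⟨fun z hz c => by
    rw [Subgroup.mem_centralizer_iff] at hz ⊢
    intro y hy
    have hy' : c⁻¹ * y * c ∈ W := by
      refine ⟨by simpa using hFn.conj_mem y hy.1 c⁻¹, ?_⟩
      have := orderOf_injective (MulAut.conj c⁻¹).toMonoidHom (MulEquiv.injective _) y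
      simp only [MulEquiv.toMonoidHom_eq_coe, MonoidHom.coe_coe, MulAut.conj_apply, inv_inv] at this
      rw [this]; exact hy.2
    have := hz _ hy'
    calc y * (c * z * c⁻¹) = c * ((c⁻¹ * y * c) * z) * c⁻¹ := by group
      _ = c * (z * (c⁻¹ * y * c)) * c⁻¹ := by rw [this]
      _ = c * z * c⁻¹ * y := by group⟩
  -- elements of `r`-power order in `F`
  have hcore : ∀ (r : ℕ) [Fact r.Prime], ∀ z ∈ F, (∃ i, orderOf z = r ^ i) → z ∈ pCore r G := by
    intro r _ z hz hzo
    obtain ⟨i, hi⟩ := hzo
    refine Solv.le_pCore_of_isSubnormal ?_ (IsPGroup.of_card (n := i) (by rw [Nat.card_zpowers, hi]))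
      (Subgroup.mem_zpowers z)
    refine Subgroup.IsSubnormal.trans (Subgroup.zpowers_le.mpr hz) ?_ hFn.isSubnormal
    exact Solv.isSubnormal_of_isNilpotent _
  -- elements of `K` of order prime to `r` centralize `pCore r`
  have hcent : ∀ (r : ℕ) [Fact r.Prime], ∀ y ∈ K, (orderOf y).Coprime r →
      y ∈ Subgroup.centralizer (pCore r G : Set G) := by
    intro r _ y hy hyr
    have hle : pCore r G ≤ F := Solv.pCore_le_fittingSubgroup r
    haveI := (Solv.pCore_mem (G := G) r).1
    refine Transfer.mem_centralizer_of_smallOrder hyr (pCore r G) (Solv.pCore_mem r).2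
      (Subgroup.le_normalizer_of_normal (Subgroup.mem_top y)) fun a ha hs => ?_
    by_cases ha1 : a = 1
    · rw [ha1, one_mul, mul_one]
    have hao : orderOf a = r := by
      rcases hs with hs | ⟨h2, -⟩
      · exact orderOf_eq_prime hs ha1
      · exfalso
        obtain ⟨i, hi⟩ := (Solv.pCore_mem (G := G) r).2 ⟨a, ha⟩
        have h1 : orderOf a ∣ r ^ i := orderOf_dvd_of_pow_eq_one (congrArg Subtype.val hi)
        have h3 : Odd (orderOf a) := hodd.of_dvd_nat (Subgroup.orderOf_dvd_natCard _ (hle ha))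
        subst h2
        exact ha1 (orderOf_eq_one_iff.mp (Nat.eq_one_of_dvd_coprimes
          ((Nat.coprime_two_left.mpr h3).pow_left i).symm dvd_rfl h1))
    exact Subgroup.mem_centralizer_iff.mp hy a ⟨hle ha, hao ▸ Fact.out⟩
  have hgK : g ∈ K := Subgroup.mem_centralizer_iff.mpr fun x hx => (hg x hx.1 hx.2).symm
  refine Transfer.mem_of_prime_parts _ g fun a ha hpp => ?_
  obtain ⟨q, i, hq, -, hqi⟩ := (isPrimePow_nat_iff _).mp hpp
  haveI := Fact.mk hq
  have haK : a ∈ K := (Subgroup.zpowers_le.mpr hgK) ha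
  let L : Subgroup G := K ⊓ ⨅ (r : Nat.Primes) (_ : (r : ℕ) ≠ q), Subgroup.centralizer (pCore (r : ℕ) G : Set G)
  haveI hLn : L.Normal := by
    have : ∀ (r : Nat.Primes), (Subgroup.centralizer (pCore (r : ℕ) G : Set G)).Normal := fun r => by
      haveI := Fact.mk r.2
      haveI := (Solv.pCore_mem (G := G) (r : ℕ)).1
      infer_instance
    haveI := Subgroup.normal_iInf_normal fun r : Nat.Primes => Subgroup.normal_iInf_normal fun _ : (r : ℕ) ≠ q => this r
    infer_instance
  have haL : a ∈ L := by
    refine Subgroup.mem_inf.mpr ⟨haK, ?_⟩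
    simp only [Subgroup.mem_iInf]
    intro r hr
    haveI := Fact.mk r.2
    refine hcent r a haK ?_
    rw [← hqi]
    exact Nat.Coprime.pow_left i ((Nat.coprime_primes hq r.2).mpr (Ne.symm hr))
  -- elements of `L` of order prime to `q` are central in `L`
  have hcz : ∀ y ∈ L, (orderOf y).Coprime q → ∀ l ∈ L, l * y = y * l := by
    intro y hy hyq l hl
    obtain ⟨hyK, hy2⟩ := Subgroup.mem_inf.mp hy
    simp only [Subgroup.mem_iInf] at hy2
    have hyF : y ∈ F := by
      apply Solv.centralizer_fitting_le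
      have : F ≤ Subgroup.centralizer ({y} : Set G) := by
        show fittingSubgroup G ≤ _
        rw [Solv.fittingSubgroup_eq_iSup]
        refine iSup_le fun r z hz => Subgroup.mem_centralizer_singleton_iff.mpr ?_
        haveI := Fact.mk r.2
        by_cases hr : (r : ℕ) = q
        · exact Subgroup.mem_centralizer_iff.mp (hcent r y hyK (hr ▸ hyq)) z hz
        · exact Subgroup.mem_centralizer_iff.mp (hy2 r hr) z hz
      exact Subgroup.mem_centralizer_iff.mpr fun z hz => Subgroup.mem_centralizer_singleton_iff.mp (this hz)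
    suffices y ∈ Subgroup.centralizer ({l} : Set G) from (Subgroup.mem_centralizer_singleton_iff.mp this).symm
    refine Transfer.mem_of_prime_parts _ y fun b hb hbp => ?_
    obtain ⟨r, j, hr, hj0, hrj⟩ := (isPrimePow_nat_iff _).mp hbp
    haveI := Fact.mk hr
    have hbd : orderOf b ∣ orderOf y := by
      rw [← Nat.card_zpowers y]; exact Subgroup.orderOf_dvd_natCard _ hb
    have hrq : r ≠ q := by
      rintro rfl
      rw [← hrj] at hbd
      exact hr.one_lt.ne' (Nat.eq_one_of_dvd_coprimes hyq ((dvd_pow_self r hj0.ne').trans hbd) dvd_rfl)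
    have hbC : b ∈ pCore r G := hcore r b ((Subgroup.zpowers_le.mpr hyF) hb) ⟨j, hrj.symm⟩
    obtain ⟨-, hl2⟩ := Subgroup.mem_inf.mp hl
    simp only [Subgroup.mem_iInf] at hl2
    exact Subgroup.mem_centralizer_singleton_iff.mpr (Subgroup.mem_centralizer_iff.mp (hl2 ⟨r, hr⟩ hrq) b hbC)
  have hLnil : Group.IsNilpotent L := by
    refine Group.of_quotient_center_nilpotent (IsPGroup.isNilpotent (p := q) ?_)
    intro u
    induction u using QuotientGroup.induction_on with
    | H u =>
    obtain ⟨e, m, hm, he⟩ := Nat.exists_eq_pow_mul_and_not_dvd (orderOf_pos u).ne' q hq.ne_one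
    refine ⟨e, ?_⟩
    rw [← QuotientGroup.mk_pow, QuotientGroup.eq_one_iff, Subgroup.mem_center_iff]
    intro v
    apply Subtype.ext
    refine hcz _ (u ^ q ^ e).2 ?_ v v.2
    rw [Subgroup.coe_pow, orderOf_pow' _ (pow_ne_zero _ hq.ne_zero), Subgroup.orderOf_coe, he,
      Nat.gcd_mul_right_left, Nat.mul_div_cancel_left _ (pow_pos hq.pos e)]
    exact (hq.coprime_iff_not_dvd.mpr hm).symm
  exact Solv.le_fittingSubgroup hLn hLnil haL

end Cfsg.Agent.S3785
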