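import Cfsg.Statements.S3950
import Cfsg.Agent.Solv.Stem

set_option autoImplicit false
set_option linter.style.haveILetI false
open Cfsg

namespace Cfsg.Agent.S3950

/-- A finite abelian group has trivial Schur multiplier if and only if it is cyclic. -/
theorem result {G : Type*} [CommGroup G] [Finite G] : Cfsg.HasCyclicSchurMultiplier G 1 ↔ IsCyclic G := by
  constructor
  · intro h
    by_contra hnc
    obtain ⟨Γ, iΓ, iF, σ, hσ, hne⟩ := Solv.exists_stem_of_not_cyclic hnc
    obtain ⟨π, hπ⟩ := h.2 Γ σ hσ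
    apply hne
    rw [Subgroup.eq_bot_iff_forall]
    intro x hx
    obtain ⟨u, hu⟩ := hπ ⟨x, hx⟩
    rw [Subsingleton.elim u 1, map_one] at hu
    exact (congrArg Subtype.val hu).symm
  · intro h
    exact Solv.hasTrivialMultiplier_of fun Γ _ _ σ hσ => Solv.stem_ker_bot_of_cyclic σ hσ

end Cfsg.Agent.S3950
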