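import Cfsg.Statements.S3964
import Cfsg.Agent.Solv.Stem

set_option autoImplicit false
set_option linter.style.haveILetI false
open Cfsg

namespace Cfsg.Agent.S3964

/-- For odd `n` the dihedral group of order `2 n` has trivial Schur multiplier. -/
theorem result (n : ℕ) (hn : Odd n) : Cfsg.HasCyclicSchurMultiplier (DihedralGroup n) 1 := by
  haveI : NeZero n := ⟨fun h => by subst h; simp at hn⟩
  refine Solv.hasTrivialMultiplier_of fun Γ _ _ σ hσ => ?_
  obtain ⟨d, hker, hdn, hdvd⟩ := Solv.stem_dihedral n σ hσ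
  rw [Subgroup.eq_bot_iff_forall]
  intro x hx
  obtain ⟨k, rfl⟩ := Subgroup.mem_zpowers_iff.mp (hker hx)
  obtain ⟨t, rfl⟩ : (n : ℤ) ∣ k := by
    refine Int.dvd_of_dvd_mul_right_of_gcd_one (hdvd k hx) ?_
    rw [show (2 : ℤ) = ((2 : ℕ) : ℤ) from rfl, Int.gcd_natCast_natCast]
    exact Nat.coprime_two_right.mpr hn
  rw [zpow_mul, zpow_natCast, hdn, one_zpow]

end Cfsg.Agent.S3964
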