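import Cfsg.Statements.S3965
import Cfsg.Agent.Solv.Stem

set_option autoImplicit false
set_option linter.style.haveILetI false
open Cfsg

namespace Cfsg.Agent.S3965

/-- For even `n ≥ 2` the dihedral group of order `2 n` has Schur multiplier cyclic of order `2`. -/
theorem result (n : ℕ) [NeZero n] (hn : Even n) : Cfsg.HasCyclicSchurMultiplier (DihedralGroup n) 2 := by
  obtain ⟨σ₀, hσ₀, hc₀⟩ := Solv.exists_quaternion_cover n hn
  refine ⟨⟨QuaternionGroup n, inferInstance, inferInstance, σ₀, hσ₀, ?_⟩, ?_⟩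
  · haveI : Fact (Nat.Prime 2) := ⟨Nat.prime_two⟩
    haveI := isCyclic_of_prime_card hc₀
    exact ⟨mulEquivOfCyclicCardEq (hc₀.trans (Nat.card_zmod 2).symm)⟩
  · intro Γ _ _ σ hσ
    obtain ⟨d, hker, hdn, hdvd⟩ := Solv.stem_dihedral n σ hσ
    obtain ⟨m, hm⟩ := hn
    have hker2 : σ.ker ≤ Subgroup.zpowers (d ^ m) := by
      intro x hx
      obtain ⟨k, rfl⟩ := Subgroup.mem_zpowers_iff.mp (hker hx)
      obtain ⟨t, rfl⟩ : (m : ℤ) ∣ k := by
        have h := hdvd k hx
        rw [hm] at h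
        push_cast at h
        rw [← two_mul] at h
        exact (mul_dvd_mul_iff_left two_ne_zero).mp h
      exact Subgroup.mem_zpowers_iff.mpr ⟨t, by rw [zpow_mul, zpow_natCast]⟩
    have hcard : Nat.card σ.ker ∣ 2 := by
      refine (Subgroup.card_dvd_of_le hker2).trans ?_
      rw [Nat.card_zpowers]
      exact orderOf_dvd_of_pow_eq_one (by rw [← pow_mul, mul_two, ← hm, hdn])
    rcases (Nat.dvd_prime Nat.prime_two).mp hcard with h1 | h2
    · refine ⟨1, fun y => ⟨1, ?_⟩⟩
      haveI : Subsingleton σ.ker := (Nat.card_eq_one_iff_unique.mp h1).1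
      exact Subsingleton.elim _ _
    · haveI : Fact (Nat.Prime 2) := ⟨Nat.prime_two⟩
      haveI := isCyclic_of_prime_card h2
      have e : Multiplicative (ZMod 2) ≃* σ.ker := mulEquivOfCyclicCardEq ((Nat.card_zmod 2).trans h2.symm)
      exact ⟨e.toMonoidHom, e.surjective⟩

end Cfsg.Agent.S3965
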