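import Cfsg.Statements.S3968
import Cfsg.Agent.Char.Integral
import Cfsg.Agent.CharLead.Kernel
import Cfsg.Agent.Char.Irr
-- import your own Cfsg.Agent.* helpers here

set_option autoImplicit false
open Cfsg

namespace Cfsg.Agent.S3968

/-- Let `p` be a prime and `G` a finite group with a faithful irreducible complex character of degree `p` (so `G` is an irreducible linear group in `p` variables). If `p ^ 2` divides the order of `G`, then the centre of `G` is nontrivial. -/
theorem result {G : Type*} [Group G] [Finite G] (p : ℕ) (hp : p.Prime) (χ : Cfsg.IrrCharacter G) (hdeg : χ.1 1 = p) (hfaith : ∀ g : G, χ.1 g = χ.1 1 → g = 1) (hdiv : p ^ 2 ∣ Nat.card G) : Subgroup.center G ≠ ⊥ := by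
  classical
  haveI : Fact p.Prime := ⟨hp⟩
  intro hbot
  obtain ⟨χ, n, ρ, hρ, rfl⟩ := χ
  haveI := hρ
  simp only at hdeg hfaith
  have hn : Module.finrank ℂ (Fin n → ℂ) = p := by
    rw [Representation.char_one] at hdeg
    exact_mod_cast hdeg
  have hinj : ∀ g, ρ g = 1 → g = 1 := fun g hg =>
    hfaith g ((Cfsg.Agent.CharLead.rep_eq_one_iff_char ρ g).2 hg)
  obtain ⟨P⟩ : Nonempty (Sylow p G) := inferInstance
  -- central elements of the Sylow subgroup have character value zero
  have hzero : ∀ z ∈ P, (∀ y ∈ P, y * z = z * y) → z ≠ 1 → ρ.character z = 0 := by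
    intro z hz hzc hz1
    have hcop : Nat.Coprime (Module.finrank ℂ (Fin n → ℂ)) (Subgroup.centralizer ({z} : Set G)).index := by
      rw [hn]
      refine hp.coprime_iff_not_dvd.2 fun hd => P.not_dvd_index ?_
      refine hd.trans (Subgroup.index_dvd_of_le ?_)
      intro y hy
      rw [Subgroup.mem_centralizer_singleton_iff]
      exact hzc y hy
    rcases Cfsg.Agent.Char.char_eq_zero_or_norm_eq ρ z hcop with h | h
    · exact h
    · exfalso
      obtain ⟨c, hc⟩ := (Cfsg.Agent.Char.norm_char_eq_iff ρ z).1 h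
      have hmem : z ∈ Subgroup.center G := by
        rw [Subgroup.mem_center_iff]
        intro y
        have e : ρ (y * z * y⁻¹ * z⁻¹) = 1 := by
          have h2 : ρ y * ρ z = ρ z * ρ y := by rw [hc]; exact LinearMap.ext fun v => by simp
          rw [map_mul, map_mul, map_mul, h2, mul_assoc (ρ z), ← map_mul ρ y, mul_inv_cancel, map_one, mul_one,
            ← map_mul, mul_inv_cancel, map_one]
        have := hinj _ e
        calc y * z = y * z * y⁻¹ * z⁻¹ * (z * y) := by group
          _ = z * y := by rw [this, one_mul]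
      exact hz1 (Subgroup.mem_bot.1 (hbot ▸ hmem))
  have hpP : p ^ 2 ∣ Nat.card (P : Subgroup G) := P.pow_dvd_card_of_pow_dvd_card hdiv
  haveI : Nontrivial (P : Subgroup G) := by
    rw [← Finite.one_lt_card_iff_nontrivial]
    have := Nat.le_of_dvd Nat.card_pos hpP
    have h2 := Nat.le_self_pow (two_ne_zero) p
    have := hp.two_le
    omega
  haveI := P.isPGroup'.center_nontrivial
  obtain ⟨k, hk⟩ := IsPGroup.iff_card.1 (P.isPGroup'.to_subgroup (Subgroup.center (P : Subgroup G)))
  have hdvd : p ∣ Nat.card (Subgroup.center (P : Subgroup G)) := by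
    rw [hk]
    refine dvd_pow_self p fun h0 => ?_
    rw [h0, pow_zero] at hk
    exact absurd hk (Finite.one_lt_card_iff_nontrivial.2 inferInstance).ne'
  obtain ⟨w, hw⟩ := exists_prime_orderOf_dvd_card' p hdvd
  set z : G := ((w : (P : Subgroup G)) : G) with hzdef
  have hzP : z ∈ (P : Subgroup G) := (w : (P : Subgroup G)).2
  have hzc : ∀ y ∈ P, y * z = z * y := fun y hy =>
    congrArg Subtype.val (Subgroup.mem_center_iff.1 w.2 ⟨y, hy⟩)
  have hord : orderOf z = p := by
    rw [hzdef, Subgroup.orderOf_coe, Subgroup.orderOf_coe, hw]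
  obtain ⟨b, ω, hb, hω⟩ := Cfsg.Agent.Char.exists_eigenbasis ρ z (isOfFinOrder_of_finite z)
  rw [hord] at hω
  have hpow : ∀ (m : ℕ) i, ρ (z ^ m) (b i) = ω i ^ m • b i := by
    intro m i
    induction m with
    | zero => simp
    | succ m ih => rw [pow_succ', map_mul, Module.End.mul_apply, ih, map_smul, hb, smul_smul, ← pow_succ]
  have htr : ∀ m, m < p → ∑ i, ω i ^ m = if m = 0 then (p : ℂ) else 0 := by
    intro m hm
    rw [← Cfsg.Agent.Char.trace_of_eigenbasis _ b _ (hpow m)]
    split_ifs with h0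
    · subst h0; rw [pow_zero, map_one, LinearMap.trace_one, hn]
    · refine hzero _ (pow_mem hzP m) (fun y hy => (Commute.pow_right (hzc y hy) m)) ?_
      intro e
      have hd := orderOf_dvd_of_pow_eq_one e
      rw [hord] at hd
      exact absurd (Nat.le_of_dvd (Nat.pos_of_ne_zero h0) hd) (not_le.2 hm)
  have hω0 : ∀ i, ω i ≠ 0 := fun i h => by
    have := hω i; rw [h, zero_pow hp.ne_zero] at this; exact zero_ne_one this
  have huniq : ∀ i j, ω i = ω j → i = j := by
    intro i j hij
    have hS : ∑ m ∈ Finset.range p, ∑ l, (ω l * (ω j)⁻¹) ^ m = (p : ℂ) := by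
      rw [Finset.sum_eq_single 0]
      · simpa using htr 0 hp.pos
      · intro m hm hm0
        simp only [mul_pow]
        rw [← Finset.sum_mul, htr m (Finset.mem_range.1 hm), if_neg hm0, zero_mul]
      · simp [hp.pos]
    have hT : ∀ l, ∑ m ∈ Finset.range p, (ω l * (ω j)⁻¹) ^ m = if ω l = ω j then (p : ℂ) else 0 := by
      intro l
      split_ifs with h
      · simp [h, hω0 j]
      · have hne : ω l * (ω j)⁻¹ ≠ 1 := fun e => h ((mul_inv_eq_one₀ (hω0 j)).1 e)
        rw [geom_sum_eq hne, mul_pow, inv_pow, hω, hω, inv_one, mul_one, sub_self, zero_div]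
    rw [Finset.sum_comm, Finset.sum_congr rfl (fun l _ => hT l), Finset.sum_ite, Finset.sum_const_zero,
      add_zero, Finset.sum_const, nsmul_eq_mul] at hS
    have hc1 : (Finset.univ.filter fun l => ω l = ω j).card = 1 := by
      have hp0 : (p : ℂ) ≠ 0 := by exact_mod_cast hp.ne_zero
      exact_mod_cast (mul_eq_right₀ hp0).1 hS
    exact Finset.card_le_one.1 hc1.le i (by simp [hij]) j (by simp)
  -- so the Sylow subgroup is abelian
  have hdiag : ∀ u ∈ P, ∀ i, ρ u (b i) = (b.repr (ρ u (b i)) i) • b i := by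
    intro u hu i
    have h1 : ρ z (ρ u (b i)) = ω i • ρ u (b i) := by
      rw [← Module.End.mul_apply, ← map_mul, ← hzc u hu, map_mul, Module.End.mul_apply, hb, map_smul]
    have h2 : ∀ l, ω l * b.repr (ρ u (b i)) l = ω i * b.repr (ρ u (b i)) l := by
      intro l
      have h3 := congrArg (fun v => b.repr v l) h1
      rw [show ρ z (ρ u (b i)) = ∑ x, (b.repr (ρ u (b i)) x) • (ω x • b x) from by
        conv_lhs => rw [← b.sum_repr (ρ u (b i)), map_sum]
        simp only [map_smul, hb]] at h3
      simpa [Finsupp.single_apply, mul_comm, smul_smul] using h3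
    conv_lhs => rw [← b.sum_repr (ρ u (b i))]
    refine Finset.sum_eq_single i (fun l _ hl => ?_) (by simp)
    rw [(mul_eq_mul_right_iff.1 (h2 l)).resolve_left (fun e => hl (huniq _ _ e)), zero_smul]
  have hab : ∀ u ∈ P, ∀ v ∈ P, u * v = v * u := by
    intro u hu v hv
    have e : ρ (u * v) = ρ (v * u) := b.ext fun i => by
      obtain ⟨cu, hcu⟩ : ∃ c : ℂ, ρ u (b i) = c • b i := ⟨_, hdiag u hu i⟩
      obtain ⟨cv, hcv⟩ : ∃ c : ℂ, ρ v (b i) = c • b i := ⟨_, hdiag v hv i⟩
      rw [map_mul, map_mul, Module.End.mul_apply, Module.End.mul_apply, hcv, map_smul,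
        hcu, map_smul, hcv, smul_smul, smul_smul, mul_comm]
    have e2 : ρ (u * v * (v * u)⁻¹) = 1 := by rw [map_mul, e, ← map_mul, mul_inv_cancel, map_one]
    exact mul_inv_eq_one.1 (hinj _ e2)
  haveI := Fintype.ofFinite (P : Subgroup G)
  have hres : Cfsg.IsCharacter (P : Subgroup G) (fun x : (P : Subgroup G) => ρ.character x) :=
    Cfsg.Agent.Char.isCharacter_comp (χ := ρ.character) ⟨n, ρ, rfl⟩ (P : Subgroup G).subtype
  obtain ⟨m, hm⟩ := Cfsg.Agent.Char.exists_nat_classInner hres (Cfsg.Agent.Char.oneIrr (P : Subgroup G))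
  simp only [Cfsg.classInner, Cfsg.Agent.Char.oneIrr_apply, map_one, mul_one] at hm
  have hother : ∀ x : (P : Subgroup G), x ∈ Finset.univ → x ≠ 1 → ρ.character (x : G) = 0 :=
    fun x _ hx => hzero x x.2 (fun y hy => hab y hy x x.2) (fun e => hx (Subtype.ext e))
  rw [Finset.sum_eq_single (1 : (P : Subgroup G)) hother (by simp), Subgroup.coe_one, Representation.char_one, hn] at hm
  have hm' : p = Nat.card (P : Subgroup G) * m := by
    have h0 : (Nat.card (P : Subgroup G) : ℂ) ≠ 0 := by exact_mod_cast Nat.card_pos.ne'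
    rw [inv_mul_eq_iff_eq_mul₀ h0] at hm
    exact_mod_cast hm
  have hfin : p ^ 2 ∣ p := hpP.trans (Dvd.intro m hm'.symm)
  have := Nat.le_of_dvd hp.pos hfin
  have := hp.two_le
  nlinarith

end Cfsg.Agent.S3968
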