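import Cfsg.Statements.S3969
import Cfsg.Agent.Transfer.Abelian
import Cfsg.Agent.Transfer.OmegaFour

set_option autoImplicit false
open Cfsg
open scoped IsMulCommutative
open Cfsg.Agent.Transfer

namespace Cfsg.Agent.S3969

/-- Let `P` be an abelian Sylow `p`-subgroup of the finite group `G`, generated by `d` elements (`d` its minimal number of generators). If the order of `G` is coprime to `(p - 1)(p ^ 2 - 1) ⋯ (p ^ d - 1)`, then `G` has a normal `p`-complement. (The classical statement needs only the largest number of cyclic factors of `P` of equal order in place of `d`; the form here follows from it.) -/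
theorem result {G : Type*} [Group G] [Finite G] (p : ℕ) [Fact p.Prime] (P : Sylow p G) (hab : IsMulCommutative (P : Subgroup G)) (hcop : Nat.Coprime (Nat.card G) (∏ i ∈ Finset.Icc 1 (Group.rank (P : Subgroup G)), (p ^ i - 1))) : Cfsg.HasNormalPComplement p G := by
  haveI := hab
  refine hasNPC_of_burnside P (normalizer_le_centralizer_of P hab ?_)
  intro q hq hqp g hg hgq
  by_cases hg1 : g = 1
  · subst hg1; exact one_mem _
  haveI : Fact q.Prime := ⟨hq⟩
  obtain ⟨k, hk⟩ := hgq
  have hqG : q ∣ Nat.card G := by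
    have : k ≠ 0 := fun e => hg1 (orderOf_eq_one_iff.mp (by rw [hk, e, pow_zero]))
    exact ((dvd_pow_self q this).trans (dvd_of_eq hk.symm)).trans (orderOf_dvd_natCard g)
  have hgc : Nat.Coprime (orderOf g) p := by
    rw [hk]; exact ((Nat.coprime_primes hq Fact.out).mpr hqp).pow_left k
  -- the elements of order dividing `p`
  obtain ⟨W, hW⟩ : ∃ W : Subgroup ↥(P : Subgroup G), W = (powMonoidHom p).ker := ⟨_, rfl⟩
  have hWcard : Nat.card W ∣ p ^ Group.rank ↥(P : Subgroup G) := by
    set R := (powMonoidHom p : ↥(P : Subgroup G) →* ↥(P : Subgroup G)).range with hR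
    have h1 : Nat.card W = Nat.card (↥(P : Subgroup G) ⧸ R) := by
      have e1 := W.card_mul_index
      have e2 := R.card_mul_index
      have e3 : Nat.card R = W.index := by
        rw [hW, Subgroup.index_ker]
      rw [← e2, e3, mul_comm W.index] at e1
      exact Nat.eq_of_mul_eq_mul_right (Nat.pos_of_ne_zero W.index_ne_zero_of_finite) e1
    rw [h1]
    have h2 : ∀ v : ↥(P : Subgroup G) ⧸ R, v ^ p = 1 := by
      intro v
      obtain ⟨u, rfl⟩ := QuotientGroup.mk_surjective v
      rw [← QuotientGroup.mk_pow, QuotientGroup.eq_one_iff]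
      exact ⟨u, rfl⟩
    exact (card_dvd_exponent_pow_rank' _ h2).trans
      (pow_dvd_pow p (Group.rank_le_of_surjective (QuotientGroup.mk' R) (QuotientGroup.mk'_surjective R)))
  set W' := W.map (P : Subgroup G).subtype with hW'
  have hW'mem : ∀ a, a ∈ W' ↔ a ∈ (P : Subgroup G) ∧ a ^ p = 1 := by
    intro a
    constructor
    · rintro ⟨u, hu, rfl⟩
      rw [hW, SetLike.mem_coe, MonoidHom.mem_ker, powMonoidHom_apply] at hu
      exact ⟨u.2, congrArg Subtype.val hu⟩
    · rintro ⟨ha, hap⟩
      refine ⟨⟨a, ha⟩, ?_, rfl⟩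
      rw [hW, SetLike.mem_coe, MonoidHom.mem_ker, powMonoidHom_apply]
      exact Subtype.ext hap
  have hgW : g ∈ Subgroup.normalizer (W' : Set G) := by
    refine Subgroup.mem_normalizer_iff.mpr fun a => ?_
    rw [hW'mem, hW'mem, (Subgroup.mem_normalizer_iff.mp hg a)]
    exact and_congr_right fun _ => by rw [conj_pow, mul_inv_eq_one, mul_eq_left]
  have hWfix : ∀ a ∈ W', a * g = g * a := by
    set Z := Subgroup.zpowers g with hZ
    have hz : IsPGroup q Z := IsPGroup.of_card (by rw [Nat.card_zpowers, hk])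
    letI act : MulAction ↥Z ↥W' :=
      { smul := fun z x => ⟨(z : G) * x * (z : G)⁻¹,
          (Subgroup.mem_normalizer_iff.mp ((Subgroup.zpowers_le.mpr hgW) z.2) x).mp x.2⟩
        one_smul := fun x => Subtype.ext (show ((1 : ↥Z) : G) * x * ((1 : ↥Z) : G)⁻¹ = x by simp)
        mul_smul := fun a b x => Subtype.ext (show ((a * b : ↥Z) : G) * x * ((a * b : ↥Z) : G)⁻¹ =
            (a : G) * ((b : G) * x * (b : G)⁻¹) * (a : G)⁻¹ by simp [mul_assoc]) }
    have hmod := hz.card_modEq_card_fixedPoints ↥W'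
    let C : Subgroup ↥W' := (Subgroup.centralizer (Z : Set G)).subgroupOf W'
    have hC : Nat.card (MulAction.fixedPoints ↥Z ↥W') = Nat.card C := by
      refine Nat.card_congr (Equiv.setCongr ?_)
      ext x
      constructor
      · intro hx
        exact Subgroup.mem_centralizer_iff.mpr fun z hz' => mul_inv_eq_iff_eq_mul.mp
          (congrArg Subtype.val (hx ⟨z, hz'⟩))
      · intro hx z
        exact Subtype.ext (mul_inv_eq_iff_eq_mul.mpr (Subgroup.mem_centralizer_iff.mp hx z z.2))
    rw [hC] at hmod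
    have hcardW : Nat.card W' = Nat.card W :=
      (Nat.card_congr (W.equivMapOfInjective _ (P : Subgroup G).subtype_injective).toEquiv).symm
    rw [← hcardW] at hWcard
    obtain ⟨i, hid, hi⟩ := (Nat.dvd_prime_pow Fact.out).mp hWcard
    have hd := Subgroup.card_subgroup_dvd_card C
    rw [hi] at hd hmod
    obtain ⟨j, hji, hj⟩ := (Nat.dvd_prime_pow Fact.out).mp hd
    rw [hj] at hmod
    rcases hji.lt_or_eq with hlt | heq
    · exfalso
      have h1 : q ∣ p ^ i - p ^ j :=
        (Nat.modEq_iff_dvd' (Nat.pow_le_pow_right (Fact.out : p.Prime).pos hji)).mp hmod.symm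
      rw [show p ^ i - p ^ j = p ^ j * (p ^ (i - j) - 1) by
        rw [Nat.mul_sub, mul_one, ← pow_add, Nat.add_sub_cancel' hji]] at h1
      have h2 : q ∣ p ^ (i - j) - 1 :=
        Nat.Coprime.dvd_of_dvd_mul_left (((Nat.coprime_primes hq Fact.out).mpr hqp).pow_right j) h1
      have h3 : q ∣ ∏ l ∈ Finset.Icc 1 (Group.rank ↥(P : Subgroup G)), (p ^ l - 1) :=
        h2.trans (Finset.dvd_prod_of_mem _ (Finset.mem_Icc.mpr ⟨by omega, by omega⟩))
      exact hq.ne_one (Nat.eq_one_of_dvd_coprimes hcop hqG h3)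
    · have htop := (Subgroup.card_eq_iff_eq_top C).mp (by rw [hj, hi, heq])
      intro a ha
      have h1 : (⟨a, ha⟩ : ↥W') ∈ C := htop ▸ Subgroup.mem_top _
      exact (Subgroup.mem_centralizer_iff.mp h1 g (Subgroup.mem_zpowers g)).symm
  -- lift from `W'` to `P`
  refine Subgroup.mem_centralizer_iff.mpr ?_
  suffices ∀ n : ℕ, ∀ a ∈ (P : Subgroup G), a ^ p ^ n = 1 → a * g = g * a by
    intro a ha
    obtain ⟨n, hn⟩ := P.isPGroup' ⟨a, ha⟩
    exact this n a ha (congrArg Subtype.val hn)
  intro n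
  induction n with
  | zero =>
    intro a _ ha
    rw [pow_zero, pow_one] at ha
    simp [ha]
  | succ n ih =>
    intro a ha han
    obtain ⟨z, hz⟩ : ∃ z, z = a⁻¹ * (g * a * g⁻¹) := ⟨_, rfl⟩
    have hga : g * a * g⁻¹ ∈ (P : Subgroup G) := (Subgroup.mem_normalizer_iff.mp hg a).mp ha
    have hzP : z ∈ (P : Subgroup G) := hz ▸ mul_mem (inv_mem ha) hga
    have hzp : z ^ p = 1 := by
      have hc : Commute a⁻¹ (g * a * g⁻¹) :=
        congrArg Subtype.val (mul_comm' (⟨a⁻¹, inv_mem ha⟩ : ↥(P : Subgroup G)) ⟨_, hga⟩)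
      rw [hz, hc.mul_pow, conj_pow,
        ← ih (a ^ p) (pow_mem ha p) (by rw [← pow_mul, ← pow_succ', han]), mul_inv_cancel_right,
        inv_pow, inv_mul_cancel]
    have hfix := hWfix z ((hW'mem z).mpr ⟨hzP, hzp⟩)
    have h1 := eq_one_of_shift P.isPGroup' hgc hzP
      (by rw [hz]; group : g * a * g⁻¹ = a * z) (by rw [← hfix, mul_inv_cancel_right])
    calc a * g = a * (a⁻¹ * (g * a * g⁻¹)) * g := by rw [← hz, h1, mul_one]
      _ = g * a := by group

end Cfsg.Agent.S3969
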