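import Cfsg.Statements.S3976
import Cfsg.Agent.Solv.Counting

set_option autoImplicit false
set_option linter.style.haveILetI false
open Cfsg

namespace Cfsg.Agent.S3976

/-- Let `p` be a prime and `G` a group of order `p ^ m`. For every `s ≤ m` the number of normal subgroups of `G` of order `p ^ s` is congruent to `1` modulo `p`. -/
theorem result {G : Type*} [Group G] [Finite G] (p m s : ℕ) (hp : p.Prime) (hG : Nat.card G = p ^ m) (hs : s ≤ m) : Nat.card {H : Subgroup G // H.Normal ∧ Nat.card H = p ^ s} ≡ 1 [MOD p] := by
  classical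
  haveI := Fact.mk hp
  letI : MulAction G {H : Subgroup G // Nat.card H = p ^ s} :=
    { smul := fun g H => ⟨H.1.map (MulAut.conj g).toMonoidHom, by
        rw [Subgroup.card_map_of_injective (MulEquiv.injective _)]; exact H.2⟩
      one_smul := fun H => Subtype.ext (by
        show H.1.map (MulAut.conj (1 : G)).toMonoidHom = H.1
        rw [map_one]; exact Subgroup.map_id _)
      mul_smul := fun g h H => Subtype.ext (by
        show H.1.map (MulAut.conj (g * h)).toMonoidHom =
          (H.1.map (MulAut.conj h).toMonoidHom).map (MulAut.conj g).toMonoidHom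
        rw [Subgroup.map_map, map_mul]; rfl) }
  have h1 := (IsPGroup.of_card hG).card_modEq_card_fixedPoints {H : Subgroup G // Nat.card H = p ^ s}
  have h2 := Solv.card_subgroups_modEq_one (G := G) hp (β := s) (hG ▸ pow_dvd_pow p hs)
  refine Nat.ModEq.trans ?_ (h1.symm.trans h2)
  have hfix : ∀ H : {H : Subgroup G // Nat.card H = p ^ s},
      H ∈ MulAction.fixedPoints G {H : Subgroup G // Nat.card H = p ^ s} ↔ H.1.Normal := by
    intro H
    rw [← Subgroup.normalizer_eq_top_iff, eq_top_iff]
    constructor
    · intro h g _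
      rw [Subgroup.mem_normalizer_iff_map_conj_eq]
      exact congrArg Subtype.val (h g)
    · intro h g
      exact Subtype.ext (Subgroup.mem_normalizer_iff_map_conj_eq.mp (h (Subgroup.mem_top g)))
  exact congrArg (· % p) (Nat.card_congr
    { toFun := fun H => ⟨⟨H.1, H.2.2⟩, (hfix ⟨H.1, H.2.2⟩).mpr H.2.1⟩
      invFun := fun H => ⟨H.1.1, (hfix H.1).mp H.2, H.1.2⟩
      left_inv := fun _ => rfl
      right_inv := fun _ => rfl })

end Cfsg.Agent.S3976
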