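import Cfsg.Statements.S3979
import Cfsg.Agent.Solv.Stem

set_option autoImplicit false
set_option linter.style.haveILetI false
open Cfsg

namespace Cfsg.Agent.S3979

/-- A finite cyclic group has trivial Schur multiplier: every finite stem extension of it is an isomorphism, said through `HasCyclicSchurMultiplier G 1`. -/
theorem result {G : Type*} [Group G] [Finite G] [IsCyclic G] : Cfsg.HasCyclicSchurMultiplier G 1 := by
  exact Solv.hasTrivialMultiplier_of fun Γ _ _ σ hσ => Solv.stem_ker_bot_of_cyclic σ hσ

end Cfsg.Agent.S3979
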