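import Cfsg.Statements.S3994
import Mathlib
import Cfsg.Agent.Solv.Counting

set_option autoImplicit false
set_option linter.style.haveILetI false
open Cfsg

namespace Cfsg.Agent.S3994

/-- Let G be a finite group and n a positive integer. The number of elements of G whose order is divisible by n is either 0 or divisible by the largest divisor of the order of G that is coprime to n. -/
theorem result {G : Type*} [Group G] [Finite G] (n : ℕ) (hn : 0 < n) :
    Nat.card {g : G // n ∣ orderOf g} = 0 ∨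
      (Nat.card G / Nat.gcd (Nat.card G) (n ^ Nat.card G)) ∣ Nat.card {g : G // n ∣ orderOf g} := by
  classical
  right
  set N := Nat.card G with hN
  set a := Nat.gcd N (n ^ N) with ha
  set A := N / a with hA
  have hNpos : 0 < N := Nat.card_pos
  have haA : a * A = N := Nat.mul_div_cancel' (Nat.gcd_dvd_left _ _)
  have hapos : 0 < a := Nat.gcd_pos_of_pos_left _ hNpos
  -- the two parts are coprime
  have hexp : ∀ q : ℕ, q.Prime → q ∣ n → ¬ q ∣ A := by
    intro q hq hqn hqA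
    have h1 : q ^ N.factorization q ∣ a := Nat.dvd_gcd (Nat.ordProj_dvd N q)
      ((pow_dvd_pow q (Nat.factorization_le_of_le_pow (Nat.le_of_lt (Nat.lt_pow_self hq.one_lt)))).trans (pow_dvd_pow_of_dvd hqn N))
    have h2 : q ^ (N.factorization q + 1) ∣ N := by
      rw [pow_succ]; exact (mul_dvd_mul h1 hqA).trans (dvd_of_eq haA)
    exact Nat.pow_succ_factorization_not_dvd hNpos.ne' hq h2
  have hcop : a.Coprime A := Nat.coprime_of_dvd fun q hq hqa hqA =>
    hexp q hq (hq.dvd_of_dvd_pow (hqa.trans (Nat.gcd_dvd_right _ _))) hqA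
  obtain ⟨e, he1, he0⟩ := Nat.chineseRemainder hcop 1 0
  have hpow : ∀ g : G, g ^ N = 1 := fun g => pow_card_eq_one'
  have hna : ∀ g : G, n ∣ orderOf g → n ∣ a := fun g hg => Nat.dvd_gcd (hg.trans (orderOf_dvd_natCard g))
    (dvd_pow_self n hNpos.ne')
  have hxa : ∀ g : G, (g ^ e) ^ a = 1 := fun g => by
    obtain ⟨j, hj⟩ := Nat.modEq_zero_iff_dvd.1 he0
    rw [← pow_mul, hj, show A * j * a = (a * A) * j by ring, haA, pow_mul, hpow, one_pow]
  have hxid : ∀ x : G, x ^ a = 1 → x ^ e = x := fun x hx => by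
    conv_rhs => rw [← pow_one x]
    exact pow_eq_pow_iff_modEq.2 (Nat.ModEq.of_dvd (orderOf_dvd_of_pow_eq_one hx) he1)
  have hyid : ∀ y : G, y ^ A = 1 → y ^ e = 1 := fun y hy => by
    obtain ⟨j, hj⟩ := Nat.modEq_zero_iff_dvd.1 he0
    rw [hj, pow_mul, hy, one_pow]
  have hdiv : ∀ g : G, n ∣ orderOf g → n ∣ orderOf (g ^ e) := by
    intro g hg
    refine Nat.Coprime.dvd_of_dvd_mul_right (k := n) (n := A) ?_ (hg.trans ?_)
    · exact Nat.coprime_of_dvd fun q hq hqn hqA => hexp q hq hqn hqA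
    · refine orderOf_dvd_of_pow_eq_one ?_
      -- `g ^ (o(g^e) * A) = 1`
      have h1 : (g ^ e) ^ orderOf (g ^ e) = 1 := pow_orderOf_eq_one _
      have hh : g * (g ^ e)⁻¹ = g * (g ^ e)⁻¹ := rfl
      have h2 : (g * (g ^ e)⁻¹) ^ A = 1 := by
        have hmod : A * 1 ≡ A * e [MOD N] := by
          rw [← haA, mul_comm a]; exact (he1.symm).mul_left' A
        rw [((Commute.refl g).pow_right e).inv_right.mul_pow, inv_pow, ← pow_mul, mul_inv_eq_one]
        refine pow_eq_pow_iff_modEq.2 (Nat.ModEq.of_dvd (orderOf_dvd_natCard g) ?_)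
        rwa [mul_one, mul_comm A e] at hmod
      have hgg : g = (g * (g ^ e)⁻¹) * g ^ e := by group
      have hc : Commute (g * (g ^ e)⁻¹) (g ^ e) :=
        ((Commute.refl g).pow_right e).mul_left (Commute.refl _).inv_left
      have h3 : (g * (g ^ e)⁻¹ * g ^ e) ^ (orderOf (g ^ e) * A) = 1 := by
        rw [hc.mul_pow, pow_mul (g ^ e), h1, one_pow, mul_one, mul_comm (orderOf (g ^ e)), pow_mul, h2, one_pow]
      rwa [← hgg] at h3
  refine Cfsg.Agent.Solv.dvd_card_of_fibers (fun g : {g : G // n ∣ orderOf g} => ConjClasses.mk (g.1 ^ e)) ?_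
  intro g₀
  set x := g₀.1 ^ e with hx
  set C := Subgroup.centralizer ({x} : Set G) with hC
  let Cl := {x' : G // IsConj x x'}
  have hch : ∀ x' : Cl, ∃ c : G, c * x * c⁻¹ = x'.1 := fun x' => isConj_iff.1 x'.2
  choose c hc using hch
  let F := {y : C // y ^ A = 1}
  have hxfix : x ^ a = 1 := hxa g₀.1
  have hFe : ∀ y : F, ((x * (y.1 : G)) ^ e) = x ∧ n ∣ orderOf (x * (y.1 : G)) := by
    intro y
    have hcm : Commute x (y.1 : G) := (Subgroup.mem_centralizer_singleton_iff.1 y.1.2).symm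
    have hyA : (y.1 : G) ^ A = 1 := congrArg Subtype.val y.2
    refine ⟨by rw [hcm.mul_pow, hxid x hxfix, hyid _ hyA, mul_one], ?_⟩
    rw [hcm.orderOf_mul_eq_mul_orderOf_of_coprime ((hcop.coprime_dvd_left (orderOf_dvd_of_pow_eq_one hxfix)).coprime_dvd_right (orderOf_dvd_of_pow_eq_one hyA))]
    exact (hdiv g₀.1 g₀.2).mul_right _
  have key : Nat.card {g' : {g : G // n ∣ orderOf g} // ConjClasses.mk (g'.1 ^ e) = ConjClasses.mk x} =
      Nat.card Cl * Nat.card F := by
    rw [← Nat.card_prod]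
    refine (Nat.card_congr (Equiv.ofBijective (fun xy : Cl × F =>
      (⟨⟨c xy.1 * (x * (xy.2.1 : G)) * (c xy.1)⁻¹, ?_⟩, ?_⟩ :
        {g' : {g : G // n ∣ orderOf g} // ConjClasses.mk (g'.1 ^ e) = ConjClasses.mk x})) ⟨?_, ?_⟩)).symm
    · have h1 : orderOf (c xy.1 * (x * (xy.2.1 : G)) * (c xy.1)⁻¹) = orderOf (x * (xy.2.1 : G)) :=
        MulEquiv.orderOf_eq (MulAut.conj (c xy.1)) _
      rw [h1]; exact (hFe xy.2).2
    · show ConjClasses.mk ((c xy.1 * (x * (xy.2.1 : G)) * (c xy.1)⁻¹) ^ e) = _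
      rw [conj_pow, (hFe xy.2).1, ConjClasses.mk_eq_mk_iff_isConj, hc]
      exact xy.1.2.symm
    · rintro ⟨u, y⟩ ⟨u', y'⟩ heq
      have h1 : c u * (x * (y.1 : G)) * (c u)⁻¹ = c u' * (x * (y'.1 : G)) * (c u')⁻¹ :=
        congrArg (fun z => z.1.1) heq
      have h2 := congrArg (fun z => z ^ e) h1
      simp only [conj_pow, (hFe y).1, (hFe y').1, hc] at h2
      have hu : u = u' := Subtype.ext h2
      subst hu
      have h3 : (y.1 : G) = (y'.1 : G) := mul_left_cancel (mul_left_cancel (mul_right_cancel h1))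
      exact Prod.ext rfl (Subtype.ext (Subtype.ext h3))
    · rintro ⟨⟨g, hg⟩, hcl⟩
      let u : Cl := ⟨g ^ e, (ConjClasses.mk_eq_mk_iff_isConj.1 hcl).symm⟩
      set h := (c u)⁻¹ * g * c u with hh
      have hhe : h ^ e = x := by
        have h1 : h ^ e = (c u)⁻¹ * g ^ e * c u := by
          have := conj_pow (i := e) (a := (c u)⁻¹) (b := g)
          simpa [hh] using this
        rw [h1, ← show c u * x * (c u)⁻¹ = g ^ e from hc u]; group
      have hxy : x⁻¹ * h ∈ C := by
        rw [hC, Subgroup.mem_centralizer_singleton_iff, ← hhe]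
        exact ((Commute.refl (h ^ e)).inv_left.mul_left ((Commute.refl h).pow_right e)).eq
      have hyA : (x⁻¹ * h) ^ A = 1 := by
        rw [← hhe, ((Commute.refl h).pow_left e).inv_left.mul_pow, inv_pow, ← pow_mul, inv_mul_eq_one]
        refine pow_eq_pow_iff_modEq.2 (Nat.ModEq.of_dvd (orderOf_dvd_natCard h) ?_)
        have hmod : A * e ≡ A * 1 [MOD N] := by rw [← haA, mul_comm a]; exact he1.mul_left' A
        rwa [mul_one, mul_comm A e] at hmod
      refine ⟨(u, ⟨⟨_, hxy⟩, Subtype.ext hyA⟩), Subtype.ext (Subtype.ext ?_)⟩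
      show c u * (x * (x⁻¹ * h)) * (c u)⁻¹ = g
      rw [hh]; group
  rw [key]
  have hF : Nat.gcd A (Nat.card C) ∣ Nat.card F := by
    have h1 := Cfsg.Agent.Solv.frobenius_solutions _ C rfl (Nat.gcd A (Nat.card C)) (Nat.gcd_dvd_right _ _)
    refine h1.trans (dvd_of_eq (Nat.card_congr (Equiv.subtypeEquivRight fun y => ?_)))
    constructor
    · intro hy
      obtain ⟨j, hj⟩ := Nat.gcd_dvd_left A (Nat.card C)
      rw [hj, pow_mul, hy, one_pow]
    · intro hy
      exact orderOf_dvd_iff_pow_eq_one.1 (Nat.dvd_gcd (orderOf_dvd_of_pow_eq_one hy) (orderOf_dvd_natCard y))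
  have hcl : Nat.card Cl * Nat.card C = N := by
    have h1 := MulAction.index_stabilizer (ConjAct G) x
    have h2 : Nat.card Cl = C.index := by
      rw [Subgroup.index_eq_card]
      refine Nat.card_congr (Equiv.ofBijective (fun u : Cl => ((c u : G) : G ⧸ C)) ⟨fun u u' hu => ?_, fun q => ?_⟩)
      · have h3 := QuotientGroup.eq.1 hu
        rw [hC, Subgroup.mem_centralizer_singleton_iff] at h3
        apply Subtype.ext
        rw [← hc u, ← hc u']
        calc c u * x * (c u)⁻¹ = c u * (x * ((c u)⁻¹ * c u')) * (c u')⁻¹ := by group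
          _ = c u * (((c u)⁻¹ * c u') * x) * (c u')⁻¹ := by rw [h3]
          _ = c u' * x * (c u')⁻¹ := by group
      · induction q using QuotientGroup.induction_on with
        | _ g =>
          refine ⟨⟨g * x * g⁻¹, isConj_iff.2 ⟨g, rfl⟩⟩, QuotientGroup.eq.2 ?_⟩
          rw [hC, Subgroup.mem_centralizer_singleton_iff]
          have h3 : c ⟨g * x * g⁻¹, isConj_iff.2 ⟨g, rfl⟩⟩ * x * (c ⟨g * x * g⁻¹, isConj_iff.2 ⟨g, rfl⟩⟩)⁻¹ = g * x * g⁻¹ := hc _
          generalize c ⟨g * x * g⁻¹, isConj_iff.2 ⟨g, rfl⟩⟩ = d at h3 ⊢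
          calc d⁻¹ * g * x = d⁻¹ * (g * x * g⁻¹) * g := by group
            _ = x * (d⁻¹ * g) := by rw [← h3]; group
    rw [h2, mul_comm, C.card_mul_index]
  refine dvd_trans ?_ (Nat.mul_dvd_mul_left _ hF)
  rw [← Nat.gcd_mul_left, hcl]
  exact Nat.dvd_gcd (dvd_mul_left A _) ⟨a, by rw [← haA, mul_comm]⟩

end Cfsg.Agent.S3994
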