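import Cfsg.Statements.S3997
import Mathlib

set_option autoImplicit false
set_option linter.style.haveILetI false
open Cfsg

namespace Cfsg.Agent.S3997

/-- Let G and H be finite groups with the same order type: for every m they have the same number of elements of order m. If G is nilpotent then so is H. -/
theorem result {G H : Type*} [Group G] [Finite G] [Group H] [Finite H] (hT : (∀ m : ℕ, Nat.card {g : G // orderOf g = m} = Nat.card {h : H // orderOf h = m})) (hG : Group.IsNilpotent G) :
    Group.IsNilpotent H := by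
  classical
  have key : ∀ s : Set ℕ, Nat.card {g : G // orderOf g ∈ s} = Nat.card {h : H // orderOf h ∈ s} := by
    intro s
    have e : ∀ m : ↥s, Nonempty ({g : G // orderOf g = (m : ℕ)} ≃ {h : H // orderOf h = (m : ℕ)}) := fun m => ⟨(Finite.card_eq.mp (hT m)).some⟩
    exact Nat.card_congr (((Equiv.sigmaSubtypeFiberEquivSubtype (fun g : G => orderOf g) (fun _ => Iff.rfl)).symm.trans
      (Equiv.sigmaCongrRight fun m => (e m).some)).trans (Equiv.sigmaSubtypeFiberEquivSubtype (fun h : H => orderOf h) (fun _ => Iff.rfl)))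
  have hcard : Nat.card G = Nat.card H := by
    have := key Set.univ
    rwa [Nat.card_congr (Equiv.subtypeUnivEquiv fun g => Set.mem_univ _), Nat.card_congr (Equiv.subtypeUnivEquiv fun g => Set.mem_univ _)] at this
  haveI := hG
  refine (Group.isNilpotent_of_finite_tfae.out 0 3).mpr ?_
  intro p hp Q
  haveI := hp
  obtain ⟨P⟩ : Nonempty (Sylow p G) := inferInstance
  have h4 : ∀ (p : ℕ) (_ : Fact p.Prime) (P : Sylow p G), (P : Subgroup G).Normal := ((Group.isNilpotent_of_finite_tfae (G := G)).out 0 3).mp hG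
  haveI hPn : (P : Subgroup G).Normal := h4 p hp P
  have hQs : ((Q : Subgroup H) : Set H) ⊆ {h : H | orderOf h ∈ Set.range (p ^ ·)} := fun h hh => by
    obtain ⟨k, hk⟩ := Q.isPGroup' ⟨h, hh⟩
    obtain ⟨j, -, hj⟩ := (Nat.dvd_prime_pow hp.out).mp (orderOf_dvd_of_pow_eq_one (congrArg Subtype.val hk : h ^ p ^ k = 1))
    exact ⟨j, hj.symm⟩
  have hPs : {g : G | orderOf g ∈ Set.range (p ^ ·)} = ((P : Subgroup G) : Set G) := by
    ext g
    constructor
    · rintro ⟨j, hj⟩
      have hj' : p ^ j = orderOf g := hj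
      exact (P.is_maximal' ((IsPGroup.of_card (n := j) (by rw [Nat.card_zpowers, ← hj'])).to_sup_of_normal_right P.isPGroup') le_sup_right).le
        (Subgroup.mem_sup_left (Subgroup.mem_zpowers g))
    · intro hg
      obtain ⟨k, hk⟩ := P.isPGroup' ⟨g, hg⟩
      obtain ⟨j, -, hj⟩ := (Nat.dvd_prime_pow hp.out).mp (orderOf_dvd_of_pow_eq_one (congrArg Subtype.val hk : g ^ p ^ k = 1))
      exact ⟨j, hj.symm⟩
  have heq : ((Q : Subgroup H) : Set H) = {h : H | orderOf h ∈ Set.range (p ^ ·)} := by
    refine Set.eq_of_subset_of_ncard_le hQs (le_of_eq ?_)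
    rw [← Nat.card_coe_set_eq, ← Nat.card_coe_set_eq]
    refine (key (Set.range (p ^ ·))).symm.trans ?_
    show Nat.card {g : G | orderOf g ∈ Set.range (p ^ ·)} = Nat.card (Q : Subgroup H)
    rw [hPs]
    show Nat.card (P : Subgroup G) = _
    rw [P.card_eq_multiplicity, Q.card_eq_multiplicity, hcard]
  refine ⟨fun h hh c => ?_⟩
  have h' : h ∈ ((Q : Subgroup H) : Set H) := hh
  rw [← SetLike.mem_coe, heq]
  rw [heq] at h'
  simp only [Set.mem_setOf_eq] at h' ⊢
  have := orderOf_injective (MulAut.conj c).toMonoidHom (MulEquiv.injective _) h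
  simp only [MulEquiv.toMonoidHom_eq_coe, MonoidHom.coe_coe, MulAut.conj_apply] at this
  rw [this]
  exact h'

end Cfsg.Agent.S3997
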