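import Cfsg.Statements.S4005
import Mathlib
import Cfsg.Agent.Solv.AbelianAction
import Cfsg.Agent.Solv.Fitting
import Cfsg.Agent.Char.Integral

set_option autoImplicit false
set_option linter.style.haveILetI false
open Cfsg

namespace Cfsg.Agent.S4005

/-- A finite group whose set of element orders is exactly {1, 2, 3} has either a normal elementary abelian 3-subgroup of index 2 or a normal elementary abelian 2-subgroup of index 3. -/
theorem result {G : Type*} [Group G] [Finite G] (h : Set.range (orderOf : G → ℕ) = {k : ℕ | 1 ≤ k ∧ k ≤ 3}) :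
    (∃ N : Subgroup G, N.Normal ∧ Cfsg.IsElementaryAbelian 3 N ∧ N.index = 2) ∨
      (∃ N : Subgroup G, N.Normal ∧ Cfsg.IsElementaryAbelian 2 N ∧ N.index = 3) := by
  have hord : ∀ x : G, 1 ≤ orderOf x ∧ orderOf x ≤ 3 := fun x => by
    have := h ▸ Set.mem_range_self (f := (orderOf : G → ℕ)) x
    exact this
  have hexp : ∀ (p : ℕ) [Fact p.Prime], (p = 2 ∨ p = 3) → ∀ (R : Subgroup G), IsPGroup p R → ∀ x ∈ R, x ^ p = 1 := by
    intro p _ hp23 R hR x hx
    obtain ⟨k, hk⟩ := hR ⟨x, hx⟩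
    obtain ⟨j, -, hj⟩ := (Nat.dvd_prime_pow Fact.out).mp (orderOf_dvd_of_pow_eq_one (congrArg Subtype.val hk : x ^ p ^ k = 1))
    rcases Nat.lt_or_ge j 2 with hj2 | hj2
    · rw [← orderOf_dvd_iff_pow_eq_one, hj]
      exact (pow_dvd_pow p (by omega : j ≤ 1)).trans (pow_one p).dvd
    · exfalso
      have := (hord x).2
      have h4 : 2 ^ 2 ≤ p ^ j := (Nat.pow_le_pow_left (Fact.out : p.Prime).two_le 2).trans (Nat.pow_le_pow_right (Fact.out : p.Prime).pos hj2)
      rw [hj] at this; omega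
  have hno6 : ∀ x y : G, orderOf x = 2 → orderOf y = 3 → ¬ Commute x y := fun x y hx hy hc => by
    have h6 := hc.orderOf_mul_eq_mul_orderOf_of_coprime (by rw [hx, hy]; decide)
    have := (hord (x * y)).2
    rw [h6, hx, hy] at this
    omega
  have hno : ∀ (p q : ℕ), (p = 2 ∧ q = 3 ∨ p = 3 ∧ q = 2) → ∀ x y : G, orderOf x = p → orderOf y = q → ¬ Commute x y := by
    rintro p q (⟨rfl, rfl⟩ | ⟨rfl, rfl⟩) x y hx hy hc
    · exact hno6 x y hx hy hc
    · exact hno6 y x hy hx hc.symm
  have hdiv : ∀ p : ℕ, p.Prime → p ∣ Nat.card G → p = 2 ∨ p = 3 := fun p hp hpd => by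
    haveI := Fact.mk hp
    obtain ⟨x, hx⟩ := exists_prime_orderOf_dvd_card' p hpd
    have := (hord x).2
    have := hp.two_le
    omega
  haveI : Group.IsSolvable G := by
    obtain ⟨a, m, hm, he⟩ := Nat.exists_eq_pow_mul_and_not_dvd (Nat.card_pos (α := G)).ne' 2 (by decide)
    have hm3 : ∀ r, r.Prime → r ∣ m → r = 3 := fun r hr hrm =>
      (hdiv r hr (he ▸ hrm.mul_left _)).resolve_left fun h2 => hm (h2 ▸ hrm)
    have hm0 : m ≠ 0 := fun h0 => by rw [h0, mul_zero] at he; exact (Nat.card_pos (α := G)).ne' he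
    exact Char.isSolvable_of_card_eq_pow_mul_pow G Nat.prime_two Nat.prime_three
      (he.trans (congrArg _ (Nat.eq_prime_pow_of_unique_prime_dvd hm0 fun {r} hr hrm => hm3 r hr hrm)))
  -- `q`-Sylows have order `q`
  have key : ∀ (p q : ℕ) [Fact p.Prime] [Fact q.Prime], (p = 2 ∧ q = 3 ∨ p = 3 ∧ q = 2) → pCore p G ≠ ⊥ →
      ∀ Q : Sylow q G, Nat.card (Q : Subgroup G) ∣ q := by
    intro p q _ _ hpq hne Q
    have hp23 : p = 2 ∨ p = 3 := hpq.imp And.left And.left
    have hq23 : q = 2 ∨ q = 3 := (hpq.imp And.right And.right).symm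
    have hNp := (Solv.pCore_mem (G := G) p).2
    haveI := (Solv.pCore_mem (G := G) p).1
    haveI : Nontrivial ↥(pCore p G) := (Subgroup.nontrivial_iff_ne_bot _).mpr hne
    haveI := hNp.center_nontrivial
    let V : Subgroup G := (Subgroup.center ↥(pCore p G)).map (pCore p G).subtype
    haveI : Nontrivial V := (Subgroup.nontrivial_iff_ne_bot _).mpr fun hb => by
      rw [Subgroup.map_eq_bot_iff_of_injective _ (pCore p G).subtype_injective] at hb
      exact (Subgroup.nontrivial_iff_ne_bot _).mp (inferInstance : Nontrivial (Subgroup.center ↥(pCore p G))) hb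
    haveI hVn : V.Normal := inferInstance
    letI : CommGroup V := { (inferInstance : Group V) with
      mul_comm := fun a b => Subtype.ext (by
        obtain ⟨a', ha', hae⟩ := a.2
        obtain ⟨b', hb', hbe⟩ := b.2
        show (a : G) * b = b * a
        rw [← hae, ← hbe, ← map_mul, ← map_mul, Subgroup.mem_center_iff.mp hb' a']) }
    have hcyc : ∀ R : Subgroup G, IsPGroup q R → IsMulCommutative R → IsCyclic R := by
      intro R hR hRc
      refine Solv.isCyclic_of_fpf (V := V) ((MulAut.conjNormal : G →* MulAut V).comp R.subtype) ?_ (Or.inl hRc)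
      intro r hr v hv
      by_contra hv1
      have hv' : (r : G) * v * (r : G)⁻¹ = v := congrArg Subtype.val hv
      obtain ⟨v', -, hve⟩ := v.2
      have h1 : (v : G) ^ p = 1 := hexp p hp23 _ hNp _ (hve ▸ v'.2)
      refine hno p q hpq v r (orderOf_eq_prime h1 fun e => hv1 (Subtype.ext e))
        (orderOf_eq_prime (hexp q hq23 R hR r r.2) fun e => hr (Subtype.ext e)) ?_
      show (v : G) * r = r * v
      exact (mul_inv_eq_iff_eq_mul.mp hv').symm
    by_cases hQ : (Q : Subgroup G) = ⊥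
    · rw [hQ, Subgroup.card_bot]; exact one_dvd q
    haveI : Nontrivial ↥(Q : Subgroup G) := (Subgroup.nontrivial_iff_ne_bot _).mpr hQ
    haveI := Q.isPGroup'.center_nontrivial
    obtain ⟨z, hz⟩ := exists_ne (1 : Subgroup.center ↥(Q : Subgroup G))
    have hall : ∀ x : ↥(Q : Subgroup G), (x : G) ∈ Subgroup.zpowers ((z.1 : ↥(Q : Subgroup G)) : G) := by
      intro x
      let S : Set G := {((z.1 : ↥(Q : Subgroup G)) : G), (x : G)}
      have hzx : (x : G) * z.1.1 = z.1.1 * x := congrArg Subtype.val (Subgroup.mem_center_iff.mp z.2 x)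
      have hS : ∀ a ∈ S, ∀ b ∈ S, a * b = b * a := by
        rintro a (rfl | rfl) b (rfl | rfl) <;> first | rfl | exact hzx | exact hzx.symm
      haveI := Subgroup.isMulCommutative_closure hS
      have hle : Subgroup.closure S ≤ (Q : Subgroup G) := by
        rw [Subgroup.closure_le, Set.insert_subset_iff, Set.singleton_subset_iff]
        exact ⟨z.1.2, x.2⟩
      obtain ⟨c, hc⟩ := (isCyclic_iff_exists_zpowers_eq_top.mp (hcyc _ (Q.isPGroup'.to_le hle) inferInstance))
      have hzc : Nat.card (Subgroup.closure S) ∣ q := by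
        rw [← Subgroup.card_top (G := Subgroup.closure S), ← hc, Nat.card_zpowers]
        exact orderOf_dvd_of_pow_eq_one (Subtype.ext (hexp q hq23 _ Q.isPGroup' _ (hle c.2)))
      have hz1 : orderOf ((z.1 : ↥(Q : Subgroup G)) : G) = q :=
        orderOf_eq_prime (hexp q hq23 _ Q.isPGroup' _ z.1.2) fun e => hz (Subtype.ext (Subtype.ext e))
      have heq : Subgroup.zpowers ((z.1 : ↥(Q : Subgroup G)) : G) = Subgroup.closure S :=
        Subgroup.eq_of_le_of_card_ge (Subgroup.zpowers_le.mpr (Subgroup.subset_closure (Set.mem_insert _ _)))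
          (by rw [Nat.card_zpowers, hz1]; exact Nat.le_of_dvd (Fact.out : q.Prime).pos hzc)
      rw [heq]
      exact Subgroup.subset_closure (Set.mem_insert_of_mem _ rfl)
    refine (Subgroup.card_dvd_of_le (K := Subgroup.zpowers ((z.1 : ↥(Q : Subgroup G)) : G)) fun x hx => hall ⟨x, hx⟩).trans ?_
    rw [Nat.card_zpowers]
    exact orderOf_dvd_of_pow_eq_one (hexp q hq23 _ Q.isPGroup' _ z.1.2)
  have hidx : ∀ (p q : ℕ) [Fact p.Prime] [Fact q.Prime], (p = 2 ∧ q = 3 ∨ p = 3 ∧ q = 2) → pCore p G ≠ ⊥ →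
      ∀ P : Sylow p G, (P : Subgroup G).index = q := by
    intro p q _ _ hpq hne P
    have hpne : q ≠ p := by omega
    obtain ⟨Q⟩ : Nonempty (Sylow q G) := inferInstance
    have hq0 : (P : Subgroup G).index ≠ 0 := Subgroup.index_ne_zero_of_finite
    have hp := Nat.eq_prime_pow_of_unique_prime_dvd (p := q) hq0 fun {r} hr hrd => by
      have := hdiv r hr (hrd.trans (Subgroup.index_dvd_card _))
      have hrp : r ≠ p := fun e => P.not_dvd_index (e ▸ hrd)
      omega
    obtain ⟨k, hk⟩ : ∃ k, (P : Subgroup G).index = q ^ k := ⟨_, hp⟩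
    have hdvd : q ^ k ∣ Nat.card G := hk ▸ Subgroup.index_dvd_card _
    rw [← Subgroup.index_mul_card (Q : Subgroup G)] at hdvd
    have h1 : q ^ k ∣ q :=
      (((Nat.Prime.coprime_iff_not_dvd (Fact.out : q.Prime)).mpr Q.not_dvd_index).pow_left k |>.dvd_of_dvd_mul_left hdvd).trans
        (key p q hpq hne Q)
    rw [hk]
    obtain ⟨x, hx⟩ : ∃ x : G, orderOf x = q := by
      have : q ∈ Set.range (orderOf : G → ℕ) := by rw [h]; exact ⟨by omega, by omega⟩
      exact this
    rcases Nat.eq_zero_or_pos k with rfl | hk0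
    · exfalso
      have : (P : Subgroup G) = ⊤ := Subgroup.index_eq_one.mp (by rw [hk, pow_zero])
      obtain ⟨j, hj⟩ := P.isPGroup' ⟨x, this ▸ Subgroup.mem_top x⟩
      have h2 := orderOf_dvd_of_pow_eq_one (congrArg Subtype.val hj : x ^ p ^ j = 1)
      rw [hx] at h2
      exact hpne ((Nat.prime_dvd_prime_iff_eq Fact.out Fact.out).mp ((Fact.out : q.Prime).dvd_of_dvd_pow h2))
    · exact Nat.dvd_antisymm h1 (dvd_pow_self q hk0.ne')
  by_cases h2 : pCore 2 G ≠ ⊥
  · right
    haveI : Fact (Nat.Prime 2) := ⟨Nat.prime_two⟩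
    haveI : Fact (Nat.Prime 3) := ⟨Nat.prime_three⟩
    haveI := (Solv.pCore_mem (G := G) 2).1
    obtain ⟨P⟩ : Nonempty (Sylow 2 G) := inferInstance
    have hab : ∀ R : Subgroup G, IsPGroup 2 R → ∀ a ∈ R, ∀ b ∈ R, a * b = b * a := by
      intro R hR a ha b hb
      have e : ∀ c ∈ R, c⁻¹ = c := fun c hc => inv_eq_of_mul_eq_one_left (by rw [← pow_two]; exact hexp 2 (Or.inl rfl) R hR c hc)
      calc a * b = (a * b)⁻¹ := (e _ (mul_mem ha hb)).symm
        _ = b * a := by rw [mul_inv_rev, e a ha, e b hb]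
    let C := Subgroup.centralizer (pCore 2 G : Set G)
    have hPC : (P : Subgroup G) ≤ C := by
      intro y hy
      have hle : pCore 2 G ≤ (P : Subgroup G) := by
        rw [← P.is_maximal' ((Solv.pCore_mem 2).2.to_sup_of_normal_left P.isPGroup') le_sup_right]
        exact le_sup_left
      exact Subgroup.mem_centralizer_iff.mpr fun z hz => hab _ P.isPGroup' z (hle hz) y hy
    have hCp : IsPGroup 2 C := by
      refine IsPGroup.of_card (n := (Nat.card C).primeFactorsList.length) (Nat.eq_prime_pow_of_unique_prime_dvd Nat.card_pos.ne' fun {r} hr hrd => ?_)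
      refine (hdiv r hr (hrd.trans (Subgroup.card_subgroup_dvd_card C))).resolve_right fun h3 => ?_
      subst h3
      obtain ⟨y, hy⟩ := exists_prime_orderOf_dvd_card' 3 hrd
      obtain ⟨v, hv, hv1⟩ := (pCore 2 G).bot_or_exists_ne_one.resolve_left h2
      exact hno6 v y (orderOf_eq_prime (hexp 2 (Or.inl rfl) _ (Solv.pCore_mem 2).2 v hv) hv1)
        (by rw [Subgroup.orderOf_coe, hy]) (Subgroup.mem_centralizer_iff.mp y.2 v hv)
    have hCP : C = (P : Subgroup G) := P.is_maximal' hCp hPC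
    haveI : C.Normal := inferInstance
    refine ⟨C, inferInstance, ⟨⟨⟨fun a b => Subtype.ext (hab C hCp a a.2 b b.2)⟩⟩, fun a ha => hexp 2 (Or.inl rfl) C hCp a ha⟩, ?_⟩
    rw [hCP]
    exact hidx 2 3 (Or.inl ⟨rfl, rfl⟩) h2 P
  · left
    haveI : Fact (Nat.Prime 2) := ⟨Nat.prime_two⟩
    haveI : Fact (Nat.Prime 3) := ⟨Nat.prime_three⟩
    have h3 : pCore 3 G ≠ ⊥ := by
      intro h3
      have hF : fittingSubgroup G = ⊥ := by
        rw [Solv.fittingSubgroup_eq_iSup, iSup_eq_bot]
        intro r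
        by_contra hr
        obtain ⟨v, hv, hv1⟩ := (pCore (r : ℕ) G).bot_or_exists_ne_one.resolve_left hr
        haveI := Fact.mk r.2
        obtain ⟨k, hk⟩ := (Solv.pCore_mem (G := G) (r : ℕ)).2 ⟨v, hv⟩
        obtain ⟨j, -, hj⟩ := (Nat.dvd_prime_pow r.2).mp (orderOf_dvd_of_pow_eq_one (congrArg Subtype.val hk : v ^ (r : ℕ) ^ k = 1))
        have hj0 : j ≠ 0 := fun e => hv1 (orderOf_eq_one_iff.mp (by rw [hj, e, pow_zero]))
        rcases hdiv r r.2 ((dvd_pow_self (r : ℕ) hj0).trans (hj ▸ orderOf_dvd_natCard v)) with e | e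
        · exact hr (e ▸ not_not.mp h2)
        · exact hr (e ▸ h3)
      obtain ⟨x, hx⟩ : ∃ x : G, orderOf x = 2 := by
        have : 2 ∈ Set.range (orderOf : G → ℕ) := by rw [h]; exact ⟨by omega, by omega⟩
        exact this
      have hmem : x ∈ fittingSubgroup G := Solv.centralizer_fitting_le (Subgroup.mem_centralizer_iff.mpr fun y hy => by
        rw [hF] at hy; simp only [Subgroup.coe_bot, Set.mem_singleton_iff] at hy; rw [hy, one_mul, mul_one])
      rw [hF, Subgroup.mem_bot] at hmem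
      rw [hmem, orderOf_one] at hx
      omega
    obtain ⟨P⟩ : Nonempty (Sylow 3 G) := inferInstance
    have hPi := hidx 3 2 (Or.inr ⟨rfl, rfl⟩) h3 P
    haveI hPn : (P : Subgroup G).Normal := Subgroup.normal_of_index_eq_two hPi
    obtain ⟨t, ht⟩ : ∃ t : G, orderOf t = 2 := by
      have : 2 ∈ Set.range (orderOf : G → ℕ) := by rw [h]; exact ⟨by omega, by omega⟩
      exact this
    let φ : ↥(P : Subgroup G) →* ↥(P : Subgroup G) := (MulAut.conjNormal t).toMonoidHom
    have hfpf : MonoidHom.FixedPointFree φ := by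
      intro u hu
      by_contra hu1
      have hu' : t * u * t⁻¹ = u := congrArg Subtype.val hu
      exact hno6 t u ht (orderOf_eq_prime (hexp 3 (Or.inr rfl) _ P.isPGroup' u u.2) fun e => hu1 (Subtype.ext e))
        (mul_inv_eq_iff_eq_mul.mp hu')
    have ht2 : t * t = 1 := by rw [← pow_two, ← ht, pow_orderOf_eq_one]
    have hinv : Function.Involutive φ := fun u => Subtype.ext (by
      show t * (t * u * t⁻¹) * t⁻¹ = u
      rw [show t⁻¹ = t from inv_eq_of_mul_eq_one_left ht2]
      calc t * (t * (u : G) * t) * t = (t * t) * u * (t * t) := by group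
        _ = u := by rw [ht2, one_mul, mul_one])
    exact ⟨P, hPn, ⟨⟨⟨fun a b => (hfpf.commute_all_of_involutive hinv a b).eq⟩⟩, fun a ha => hexp 3 (Or.inr rfl) _ P.isPGroup' a ha⟩, hPi⟩

end Cfsg.Agent.S4005
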