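import Cfsg.Statements.S4203
import Mathlib
import Cfsg.Agent.Char.Integral

set_option autoImplicit false
set_option linter.style.haveILetI false
open Cfsg

namespace Cfsg.Agent.S4203

universe u

theorem hall_index_aux : ∀ (n : ℕ) (G : Type u) [Group G] [Finite G], Nat.card G = n →
    (∀ M : Subgroup G, IsCoatom M → ∃ p : ℕ, p.Prime ∧ (M.index = p ∨ M.index = p ^ 2)) → Group.IsSolvable G := by
  intro n
  induction n using Nat.strong_induction_on with
  | _ n ih =>
  intro G _ _ hn h
  rcases Nat.lt_or_ge (Nat.card G) 2 with h1 | h1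
  · haveI : Subsingleton G := Finite.card_le_one_iff_subsingleton.mp (by omega)
    infer_instance
  have hne : (Nat.card G).primeFactors.Nonempty := Nat.nonempty_primeFactors.mpr (by omega)
  let p := (Nat.card G).primeFactors.max' hne
  have hpm := Finset.max'_mem _ hne
  have hp : p.Prime := Nat.prime_of_mem_primeFactors hpm
  have hpd : p ∣ Nat.card G := Nat.dvd_of_mem_primeFactors hpm
  have hmax : ∀ r : ℕ, r.Prime → r ∣ Nat.card G → r ≤ p := fun r hr hrd =>
    Finset.le_max' _ r (Nat.mem_primeFactors.mpr ⟨hr, hrd, by omega⟩)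
  haveI := Fact.mk hp
  obtain ⟨P⟩ : Nonempty (Sylow p G) := inferInstance
  by_cases hP : (P : Subgroup G).Normal
  · haveI := hP
    haveI : Group.IsNilpotent ↥(P : Subgroup G) := P.isPGroup'.isNilpotent
    have hlt : Nat.card (G ⧸ (P : Subgroup G)) < n := by
      have := Subgroup.card_eq_card_quotient_mul_card_subgroup (P : Subgroup G)
      have hP1 : 1 < Nat.card (P : Subgroup G) :=
        lt_of_lt_of_le hp.one_lt (Nat.le_of_dvd Nat.card_pos (P.dvd_card_of_dvd_card hpd))
      rw [← hn, this]
      exact lt_mul_of_one_lt_right Nat.card_pos hP1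
    haveI : Group.IsSolvable (G ⧸ (P : Subgroup G)) := by
      refine ih _ hlt _ rfl fun M hM => ?_
      obtain ⟨r, hr, hi⟩ := h _ (Subgroup.isCoatom_comap_of_surjective (QuotientGroup.mk'_surjective _) hM)
      rw [Subgroup.index_comap_of_surjective _ (QuotientGroup.mk'_surjective _)] at hi
      exact ⟨r, hr, hi⟩
    exact solvable_of_ker_le_range (P : Subgroup G).subtype (QuotientGroup.mk' (P : Subgroup G))
      (by rw [QuotientGroup.ker_mk', Subgroup.range_subtype])
  · have hN : Subgroup.normalizer ((P : Subgroup G) : Set G) ≠ ⊤ := fun e => hP (Subgroup.normalizer_eq_top_iff.mp e)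
    obtain ⟨M, hM, hNM⟩ := (eq_top_or_exists_le_coatom _).resolve_left hN
    obtain ⟨q, hq, hqi⟩ := h M hM
    have hPM : (P : Subgroup G) ≤ M := Subgroup.le_normalizer.trans hNM
    have hmod : M.index ≡ 1 [MOD p] := by
      have h1 := card_sylow_modEq_one p G
      rw [show Nat.card (Sylow p G) = (Subgroup.normalizer ((P : Subgroup G) : Set G)).index from Sylow.card_eq_index_normalizer P,
        ← Subgroup.relIndex_mul_index hNM] at h1
      have h2 := card_sylow_modEq_one p M
      rw [show Nat.card (Sylow p M) = (Subgroup.normalizer (((P.subtype hPM : Sylow p M) : Subgroup M) : Set M)).index from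
        Sylow.card_eq_index_normalizer (P.subtype hPM)] at h2
      have e : (Subgroup.normalizer (((P.subtype hPM : Sylow p M) : Subgroup M) : Set M)).index =
          (Subgroup.normalizer ((P : Subgroup G) : Set G)).relIndex M := by
        rw [Sylow.coe_subtype]
        exact congrArg Subgroup.index (Subgroup.subgroupOf_normalizer_eq hPM).symm
      rw [e] at h2
      exact ((Nat.ModEq.mul_right _ h2).symm.trans h1 |> fun h3 => by simpa using h3)
    have hqd : q ∣ Nat.card G := (by
      rcases hqi with e | e <;> rw [e]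
      exact dvd_pow_self q two_ne_zero : q ∣ M.index).trans (Subgroup.index_dvd_card M)
    have hqp := hmax q hq hqd
    have hqne : q ≠ p := by
      rintro rfl
      rcases hqi with e | e <;> rw [e, Nat.ModEq] at hmod
      · rw [Nat.mod_self, Nat.mod_eq_of_lt hp.one_lt] at hmod; omega
      · rw [pow_two, Nat.mul_mod_right, Nat.mod_eq_of_lt hp.one_lt] at hmod; omega
    have hp3 : p = 3 := by
      rcases hqi with e | e <;> rw [e] at hmod
      · exfalso
        rw [Nat.ModEq, Nat.mod_eq_of_lt (by omega), Nat.mod_eq_of_lt hp.one_lt] at hmod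
        exact hq.one_lt.ne' hmod
      · have h2 : p ∣ q ^ 2 - 1 := (Nat.modEq_iff_dvd' (Nat.one_le_pow _ _ hq.pos)).mp hmod.symm
        rw [show q ^ 2 - 1 = (q + 1) * (q - 1) by simpa using Nat.sq_sub_sq q 1] at h2
        rcases hp.dvd_mul.mp h2 with h3 | h3
        · have h4 := Nat.le_of_dvd (by omega) h3
          have h5 : p = q + 1 := by omega
          rcases hq.eq_two_or_odd with h6 | h6
          · omega
          · have := hq.two_le
            rcases hp.eq_two_or_odd with h7 | h7 <;> omega
        · have := hq.two_le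
          have h4 := Nat.le_of_dvd (by omega) h3
          omega
    obtain ⟨a, m, hm, he⟩ := Nat.exists_eq_pow_mul_and_not_dvd (Nat.card_pos (α := G)).ne' 2 (by decide)
    have hm0 : m ≠ 0 := fun h0 => by rw [h0, mul_zero] at he; omega
    refine Cfsg.Agent.Char.isSolvable_of_card_eq_pow_mul_pow G Nat.prime_two Nat.prime_three
      (he.trans (congrArg _ (Nat.eq_prime_pow_of_unique_prime_dvd hm0 fun {r} hr hrm => ?_)))
    have h3 := hmax r hr (he ▸ hrm.mul_left _)
    have h4 : r ≠ 2 := fun e => hm (e ▸ hrm)
    have := hr.two_le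
    omega

/-- A finite group in which every maximal subgroup has index a prime or the square of a prime is solvable. -/
theorem result {G : Type*} [Group G] [Finite G] (h : ∀ M : Subgroup G, IsCoatom M → ∃ p : ℕ, p.Prime ∧ (M.index = p ∨ M.index = p ^ 2)) : Group.IsSolvable G := by
  exact hall_index_aux _ G rfl h

end Cfsg.Agent.S4203
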