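import Cfsg.Statements.S4204

set_option autoImplicit false
open Cfsg

namespace Cfsg.Agent.S4204

/-- If `H` and `K` are normal subgroups of a finite group with `H` nilpotent of class at most `c` and `K` nilpotent of class at most `d` (the terms with index `c`, respectively `d`, of their lower central series are trivial, indices starting at `0`), then `HK` is nilpotent of class at most `c + d`. -/
theorem result {G : Type*} [Group G] [Finite G] (H K : Subgroup G) [H.Normal] [K.Normal] (c d : ℕ) (hH : H.lowerCentralSeries c = ⊥) (hK : K.lowerCentralSeries d = ⊥) : (H ⊔ K).lowerCentralSeries (c + d) = ⊥ := by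
  have key : ∀ (A B X : Subgroup G) [X.Normal], ⁅A, B⁆ ≤ X ↔
      A ≤ (Subgroup.centralizer ((B.map (QuotientGroup.mk' X) : Subgroup (G ⧸ X)) : Set (G ⧸ X))).comap
        (QuotientGroup.mk' X) := by
    intro A B X _
    rw [← Subgroup.map_le_iff_le_comap, ← Subgroup.commutator_eq_bot_iff_le_centralizer,
      ← Subgroup.map_commutator, Subgroup.map_eq_bot_iff, QuotientGroup.ker_mk']
  have ksupR : ∀ (A B C X : Subgroup G) [X.Normal], ⁅A, B⁆ ≤ X → ⁅A, C⁆ ≤ X → ⁅A, B ⊔ C⁆ ≤ X := by
    intro A B C X _ h1 h2
    rw [Subgroup.commutator_comm] at h1 h2 ⊢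
    rw [key] at h1 h2 ⊢
    exact sup_le h1 h2
  have hN : ∀ (S : Subgroup G) [S.Normal] (n : ℕ), (S.lowerCentralSeries n).Normal := by
    intro S _ n
    induction n with
    | zero => exact ‹S.Normal›
    | succ n ih =>
      haveI := ih
      rw [Subgroup.lowerCentralSeries_succ]; infer_instance
  let A : ℕ → Subgroup G := fun i => match i with | 0 => ⊤ | i + 1 => H.lowerCentralSeries i
  let B : ℕ → Subgroup G := fun i => match i with | 0 => ⊤ | i + 1 => K.lowerCentralSeries i
  have hA : ∀ i, (A i).Normal := fun i => by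
    cases i with
    | zero => exact inferInstanceAs (⊤ : Subgroup G).Normal
    | succ i => exact hN H i
  have hB : ∀ i, (B i).Normal := fun i => by
    cases i with
    | zero => exact inferInstanceAs (⊤ : Subgroup G).Normal
    | succ i => exact hN K i
  have hAH : ∀ i, ⁅A i, H⁆ ≤ A (i + 1) := fun i => by
    cases i with
    | zero => exact Subgroup.commutator_le_right _ _
    | succ i => exact le_of_eq (Subgroup.lowerCentralSeries_succ H i).symm
  have hBK : ∀ i, ⁅B i, K⁆ ≤ B (i + 1) := fun i => by
    cases i with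
    | zero => exact Subgroup.commutator_le_right _ _
    | succ i => exact le_of_eq (Subgroup.lowerCentralSeries_succ K i).symm
  let X : ℕ → Subgroup G := fun n => ⨆ i : Fin (n + 1), A i.val ⊓ B (n - i.val)
  have hX : ∀ n, (X n).Normal := by
    intro n
    refine ⟨fun x hx g => ?_⟩
    revert g
    refine Subgroup.iSup_induction (C := fun x => ∀ g, g * x * g⁻¹ ∈ X n)
      (fun i : Fin (n + 1) => A i.val ⊓ B (n - i.val)) hx ?_ ?_ ?_
    · intro i y hy g
      exact Subgroup.mem_iSup_of_mem i ⟨(hA _).conj_mem y hy.1 g, (hB _).conj_mem y hy.2 g⟩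
    · intro g; simp
    · intro y z hy hz g
      have : g * (y * z) * g⁻¹ = (g * y * g⁻¹) * (g * z * g⁻¹) := by group
      rw [this]; exact (X n).mul_mem (hy g) (hz g)
  have main : ∀ n, (H ⊔ K).lowerCentralSeries n ≤ X (n + 1) := by
    intro n
    induction n with
    | zero =>
      refine sup_le ?_ ?_
      · show H ≤ X 1
        refine le_trans ?_ (le_iSup (fun i : Fin (1 + 1) => A i.val ⊓ B (1 - i.val)) ⟨1, by omega⟩)
        exact le_inf (show H ≤ A 1 from le_refl H) (show H ≤ B 0 from le_top)
      · show K ≤ X 1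
        refine le_trans ?_ (le_iSup (fun i : Fin (1 + 1) => A i.val ⊓ B (1 - i.val)) ⟨0, by omega⟩)
        exact le_inf (show K ≤ A 0 from le_top) (show K ≤ B 1 from le_refl K)
    | succ n ih =>
      haveI := hX (n + 2)
      rw [Subgroup.lowerCentralSeries_succ]
      refine (Subgroup.commutator_mono ih le_rfl).trans ?_
      rw [key]
      refine iSup_le fun i => ?_
      rw [← key]
      haveI := hA i.val
      haveI := hB (n + 1 - i.val)
      refine ksupR _ _ _ _ ?_ ?_
      · refine le_trans (le_inf ((Subgroup.commutator_mono inf_le_left le_rfl).trans (hAH _))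
          ((Subgroup.commutator_mono inf_le_right le_rfl).trans
            (Subgroup.commutator_le_left (B (n + 1 - i.val)) H))) ?_
        refine le_trans (le_of_eq ?_)
          (le_iSup (fun j : Fin (n + 2 + 1) => A j.val ⊓ B (n + 2 - j.val)) ⟨i.val + 1, by omega⟩)
        show A (i.val + 1) ⊓ B (n + 1 - i.val) = A (i.val + 1) ⊓ B (n + 2 - (i.val + 1))
        rw [show n + 2 - (i.val + 1) = n + 1 - i.val by omega]
      · refine le_trans (le_inf ((Subgroup.commutator_mono inf_le_left le_rfl).trans
          (Subgroup.commutator_le_left (A i.val) K))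
          ((Subgroup.commutator_mono inf_le_right le_rfl).trans (hBK _))) ?_
        refine le_trans (le_of_eq ?_)
          (le_iSup (fun j : Fin (n + 2 + 1) => A j.val ⊓ B (n + 2 - j.val)) ⟨i.val, by omega⟩)
        show A i.val ⊓ B (n + 1 - i.val + 1) = A i.val ⊓ B (n + 2 - i.val)
        rw [show n + 2 - i.val = n + 1 - i.val + 1 by omega]
  rw [eq_bot_iff]
  refine (main (c + d)).trans (iSup_le fun i => ?_)
  by_cases hi : c + 1 ≤ i.val
  · refine inf_le_left.trans ?_
    obtain ⟨k, hk⟩ : ∃ k, i.val = k + 1 := ⟨i.val - 1, by omega⟩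
    rw [hk, ← hH]
    exact H.lowerCentralSeries_antitone (by omega)
  · refine inf_le_right.trans ?_
    obtain ⟨k, hk⟩ : ∃ k, c + d + 1 - i.val = k + 1 := ⟨c + d - i.val, by omega⟩
    rw [hk, ← hK]
    exact K.lowerCentralSeries_antitone (by omega)

end Cfsg.Agent.S4204
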