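import Cfsg.Statements.S4205
import Mathlib.GroupTheory.Nilpotent
import Mathlib.Tactic.Group

set_option autoImplicit false
open Cfsg
open scoped commutatorElement

namespace Cfsg.Agent.S4205

/-- In a finite group whose upper central series reaches the whole group at step `c` (nilpotent of class at most `c`), starting from any subgroup and taking normalizers `c` times reaches the whole group. -/
theorem result {G : Type*} [Group G] [Finite G] (c : ℕ) (hG : Subgroup.upperCentralSeries G c = ⊤) (H : Subgroup G) : (fun K : Subgroup G => Subgroup.normalizer (K : Set G))^[c] H = ⊤ := by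
  suffices h : ∀ i, Subgroup.upperCentralSeries G i ≤ (fun K : Subgroup G => Subgroup.normalizer (K : Set G))^[i] H from
    top_le_iff.mp (hG ▸ h c)
  intro i
  induction i with
  | zero => simp
  | succ i ih =>
    rw [Function.iterate_succ_apply']
    intro x hx
    rw [Subgroup.mem_upperCentralSeries_succ_iff] at hx
    set K := (fun K : Subgroup G => Subgroup.normalizer (K : Set G))^[i] H
    show x ∈ Subgroup.normalizer (K : Set G)
    rw [Subgroup.mem_normalizer_iff]
    intro y
    have h1 : x * y * x⁻¹ * y⁻¹ ∈ K := ih (hx y)
    constructor
    · intro hy
      simpa [mul_assoc] using K.mul_mem h1 hy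
    · intro hy
      have := K.mul_mem (K.inv_mem h1) hy
      simpa [mul_assoc] using this

end Cfsg.Agent.S4205
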