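import Cfsg.Statements.S4207
import Cfsg.Agent.H7.Burnside

set_option autoImplicit false
open Cfsg

namespace Cfsg.Agent.S4207

/-- Let `P` be a group of order `p^n` whose Frattini subgroup has index `p^r`. Then any group of automorphisms of `P` each of which induces the identity on the Frattini quotient has order dividing `p^(r(n-r))`; in particular it is a `p`-group. -/
theorem result {P : Type*} [Group P] [Finite P] {p n r : ℕ} [Fact p.Prime] (hP : Nat.card P = p ^ n) (hr : (frattini P).index = p ^ r) (A : Subgroup (MulAut P)) (hA : ∀ α ∈ A, ∀ x : P, α x * x⁻¹ ∈ frattini P) : Nat.card A ∣ p ^ (r * (n - r)) := by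
  classical
  have hPp : IsPGroup p P := IsPGroup.of_card hP
  have hne : Nonempty (Cfsg.Agent.H7.Indep p P r r) := by
    refine (Nat.card_pos_iff.mp ?_).1
    rw [Cfsg.Agent.H7.card_indep_self hPp hP hr]
    refine Nat.mul_pos (pow_pos (Fact.out : p.Prime).pos _) (Finset.prod_pos fun i hi => ?_)
    exact Nat.sub_pos_of_lt (Nat.pow_lt_pow_right (Fact.out : p.Prime).one_lt (Finset.mem_range.mp hi))
  obtain ⟨s₀⟩ := hne
  have hs₀ : Cfsg.Agent.H7.span P s₀.1 = ⊤ :=
    Subgroup.index_eq_one.mp (by rw [s₀.2, Nat.sub_self, pow_zero])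
  let F := {s : Fin r → P // ∀ i, s i * (s₀.1 i)⁻¹ ∈ frattini P}
  letI : MulAction A F :=
    { smul := fun α s => ⟨fun i => (α : MulAut P) (s.1 i), fun i => by
        have e : (α : MulAut P) (s.1 i) * (s₀.1 i)⁻¹ =
            ((α : MulAut P) (s.1 i) * (s.1 i)⁻¹) * (s.1 i * (s₀.1 i)⁻¹) := by group
        rw [e]
        exact mul_mem (hA _ α.2 _) (s.2 i)⟩
      one_smul := fun s => Subtype.ext rfl
      mul_smul := fun α β s => Subtype.ext rfl }
  have hF : Nat.card F = p ^ (r * (n - r)) := by
    let e : F ≃ (Fin r → frattini P) :=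
      { toFun := fun s i => ⟨s.1 i * (s₀.1 i)⁻¹, s.2 i⟩
        invFun := fun u => ⟨fun i => (u i : P) * s₀.1 i, fun i => by simp⟩
        left_inv := fun s => Subtype.ext (funext fun i => by simp)
        right_inv := fun u => funext fun i => Subtype.ext (by simp) }
    have hcard : Nat.card (frattini P) = p ^ (n - r) := by
      have h := (frattini P).card_mul_index
      rw [hr, hP] at h
      have hle : r ≤ n := by
        have := (frattini P).index_dvd_card
        rw [hP, hr] at this
        exact (Nat.pow_dvd_pow_iff_le_right (Fact.out : p.Prime).one_lt).mp this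
      refine Nat.eq_of_mul_eq_mul_right (pow_pos (Fact.out : p.Prime).pos r) ?_
      rw [h, ← pow_add, Nat.sub_add_cancel hle]
    rw [Nat.card_congr e, Nat.card_fun, hcard, Nat.card_fin, ← pow_mul, mul_comm]
  rw [← hF]
  refine Cfsg.Agent.H7.card_dvd_of_free fun s => ?_
  have htop : Cfsg.Agent.H7.span P s.1 = ⊤ := by
    rw [eq_top_iff, ← hs₀]
    refine sup_le le_sup_left ((Subgroup.closure_le _).mpr ?_)
    rintro _ ⟨i, rfl⟩
    rw [show s₀.1 i = (s.1 i * (s₀.1 i)⁻¹)⁻¹ * s.1 i by group]
    exact mul_mem (Subgroup.mem_sup_left (inv_mem (s.2 i)))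
      (Subgroup.mem_sup_right (Subgroup.subset_closure ⟨i, rfl⟩))
  rw [eq_bot_iff]
  intro α hα
  exact Subtype.ext (Cfsg.Agent.H7.eq_one_of_fix s.1 htop _ (congrFun (congrArg Subtype.val hα)))

end Cfsg.Agent.S4207
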