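import Cfsg.Statements.S4208
import Cfsg.Agent.H7.Burnside

set_option autoImplicit false
open Cfsg

namespace Cfsg.Agent.S4208

/-- Let `P` be a group of order `p^n` whose Frattini subgroup has index `p^r`. Then the order of the automorphism group of `P` divides `p^(r(n-r)) · (p^r - 1)(p^r - p) ⋯ (p^r - p^(r-1))`. -/
theorem result {P : Type*} [Group P] [Finite P] {p n r : ℕ} [Fact p.Prime] (hP : Nat.card P = p ^ n) (hr : (frattini P).index = p ^ r) : Nat.card (MulAut P) ∣ p ^ (r * (n - r)) * ∏ i ∈ Finset.range r, (p ^ r - p ^ i) := by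
  classical
  have hPp : IsPGroup p P := IsPGroup.of_card hP
  rw [← Cfsg.Agent.H7.card_indep_self hPp hP hr]
  have hmove : ∀ (α : MulAut P) (s : Fin r → P),
      Cfsg.Agent.H7.span P s = ⊤ → Cfsg.Agent.H7.span P (fun i => α (s i)) = ⊤ := by
    intro α s hs
    have h1 := congrArg (Subgroup.map α.toMonoidHom) hs
    rw [Subgroup.map_top_of_surjective α.toMonoidHom α.surjective] at h1
    rw [← h1]
    simp only [Cfsg.Agent.H7.span]
    rw [Subgroup.map_sup, MonoidHom.map_closure, ← Set.range_comp,
      Subgroup.characteristic_iff_map_eq.mp inferInstance α]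
    rfl
  have htop : ∀ s : Cfsg.Agent.H7.Indep p P r r, Cfsg.Agent.H7.span P s.1 = ⊤ := fun s =>
    Subgroup.index_eq_one.mp (by rw [s.2, Nat.sub_self, pow_zero])
  letI : MulAction (MulAut P) (Cfsg.Agent.H7.Indep p P r r) :=
    { smul := fun α s => ⟨fun i => α (s.1 i), by
        rw [hmove α s.1 (htop s), Subgroup.index_top, Nat.sub_self, pow_zero]⟩
      one_smul := fun s => Subtype.ext rfl
      mul_smul := fun α β s => Subtype.ext rfl }
  refine Cfsg.Agent.H7.card_dvd_of_free fun s => ?_
  rw [eq_bot_iff]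
  intro α hα
  exact Cfsg.Agent.H7.eq_one_of_fix s.1 (htop s) α (congrFun (congrArg Subtype.val hα))

end Cfsg.Agent.S4208
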