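import Cfsg.Statements.S4216
import Cfsg.Agent.H7.FocalTame

set_option autoImplicit false
open Cfsg
open scoped commutatorElement
set_option maxHeartbeats 100000

namespace Cfsg.Agent.S4216

/-- Grün's first Theorem: if `P` is a Sylow `p`-subgroup of the finite group `G`, then `P ∩ G'` is the subgroup generated by `P ∩ N_G(P)'` together with the subgroups `P ∩ z P' z⁻¹` for all `z ∈ G`, where `'` denotes the derived subgroup and `N_G(P)` the normalizer of `P`. -/
theorem result {G : Type*} [Group G] [Finite G] {p : ℕ} [Fact p.Prime] (P : Sylow p G) : (P : Subgroup G) ⊓ commutator G = ((P : Subgroup G) ⊓ ⁅Subgroup.normalizer ((P : Subgroup G) : Set G), Subgroup.normalizer ((P : Subgroup G) : Set G)⁆) ⊔ ⨆ z : G, (P : Subgroup G) ⊓ (⁅(P : Subgroup G), (P : Subgroup G)⁆).map (MulAut.conj z).toMonoidHom := by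
  refine le_antisymm ?_ (sup_le (le_inf inf_le_left (inf_le_right.trans (Subgroup.commutator_mono le_top le_top)))
    (iSup_le fun z => le_inf inf_le_left (inf_le_right.trans ?_)))
  · rw [inf_comm, Subgroup.commutator_inf_eq_focalSubgroup, Subgroup.focalSubgroup_def, Subgroup.closure_le]
    rintro _ ⟨hmem, y, hy, u, rfl⟩
    set F := ((P : Subgroup G) ⊓ ⁅Subgroup.normalizer ((P : Subgroup G) : Set G), Subgroup.normalizer ((P : Subgroup G) : Set G)⁆) ⊔
      ⨆ z : G, (P : Subgroup G) ⊓ (⁅(P : Subgroup G), (P : Subgroup G)⁆).map (MulAut.conj z).toMonoidHom with hF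
    have hu : u * y⁻¹ * u⁻¹ ∈ (P : Subgroup G) := by
      have := (P : Subgroup G).mul_mem ((P : Subgroup G).inv_mem hy) hmem
      simpa [commutatorElement_def, mul_assoc] using this
    have key := Cfsg.Agent.H7.rel_of_fusion P F
      (fun a ha g hg => by
        have h1 : ⁅a⁻¹, g⁆ ∈ (P : Subgroup G) := by
          have := (P : Subgroup G).mul_mem ((P : Subgroup G).inv_mem ha) ((Subgroup.mem_normalizer_iff.mp hg a).mp ha)
          simpa [commutatorElement_def, mul_assoc] using this
        have h2 : ⁅a⁻¹, g⁆ ∈ F := Subgroup.mem_sup_left ⟨h1,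
          Subgroup.commutator_mem_commutator (Subgroup.le_normalizer ((P : Subgroup G).inv_mem ha)) hg⟩
        simpa [Cfsg.Agent.H7.Rel, commutatorElement_def, mul_assoc] using h2)
      (fun Q _ x hx hxo t ht => by
        set W := (P : Subgroup G) ⊓ (Q : Subgroup G) with hW
        obtain ⟨k, hk⟩ := hxo
        have hJ : IsPGroup p ↥(W ⊔ Subgroup.zpowers x) :=
          (P.isPGroup'.to_le inf_le_left).to_sup_of_normal_left'
            (IsPGroup.of_card (n := k) (by rw [Nat.card_zpowers, hk])) (Subgroup.zpowers_le.mpr hx)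
        obtain ⟨R, hR⟩ := hJ.exists_le_sylow
        obtain ⟨z, hz⟩ := MulAction.exists_smul_eq G P R
        have h1 : ⁅t⁻¹, x⁆ ∈ (P : Subgroup G) := by
          have := (P : Subgroup G).mul_mem ((P : Subgroup G).inv_mem ht.1)
            ((Subgroup.mem_normalizer_iff.mp hx t).mp ht).1
          simpa [commutatorElement_def, mul_assoc] using this
        have h2 : ⁅t⁻¹, x⁆ ∈ (⁅(P : Subgroup G), (P : Subgroup G)⁆).map (MulAut.conj z).toMonoidHom := by
          rw [Subgroup.map_commutator]
          have hRe : (R : Subgroup G) = (P : Subgroup G).map (MulAut.conj z).toMonoidHom := by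
            rw [← hz]; rfl
          rw [← hRe]
          exact Subgroup.commutator_mem_commutator
            ((R : Subgroup G).inv_mem (hR (Subgroup.mem_sup_left ht)))
            (hR (Subgroup.mem_sup_right (Subgroup.mem_zpowers x)))
        have h3 : ⁅t⁻¹, x⁆ ∈ F := Subgroup.mem_sup_right (Subgroup.mem_iSup_of_mem z ⟨h1, h2⟩)
        simpa [Cfsg.Agent.H7.Rel, commutatorElement_def, mul_assoc] using h3)
      _ (Subgroup.zpowers y⁻¹) u rfl
      (Subgroup.zpowers_le.mpr ((P : Subgroup G).inv_mem hy))
      (by rw [MonoidHom.map_zpowers, Subgroup.zpowers_le]; exact hu)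
      y⁻¹ (Subgroup.mem_zpowers _)
    simpa [Cfsg.Agent.H7.Rel, commutatorElement_def, mul_assoc] using key
  · rw [Subgroup.map_commutator]
    exact Subgroup.commutator_mono le_top le_top

end Cfsg.Agent.S4216
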