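import Cfsg.Statements.S4217
import Cfsg.Agent.H7.GaschutzLocal

set_option autoImplicit false
open Cfsg

namespace Cfsg.Agent.S4217

/-- Let `A` be an abelian normal subgroup of the finite group `G`. Then `A` has a complement in `G` if and only if, for every prime `p` dividing the index of `A`, there are a Sylow `p`-subgroup `S` of `G/A` and a subgroup `K` of `G` with `K ∩ A = 1` and `KA` equal to the preimage of `S` (that is, `A` has a complement in the preimage of a Sylow `p`-subgroup of `G/A`). -/
theorem result {G : Type*} [Group G] [Finite G] (A : Subgroup G) [A.Normal] (hA : IsMulCommutative A) : (∃ K : Subgroup G, K.IsComplement' A) ↔ ∀ p : ℕ, p.Prime → p ∣ A.index → ∃ (S : Sylow p (G ⧸ A)) (K : Subgroup G), K ⊓ A = ⊥ ∧ K ⊔ A = (S : Subgroup (G ⧸ A)).comap (QuotientGroup.mk' A) := by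
  constructor
  · rintro ⟨K, hK⟩ p hp hpd
    haveI := Fact.mk hp
    let S : Sylow p (G ⧸ A) := default
    refine ⟨S, K ⊓ (S : Subgroup (G ⧸ A)).comap (QuotientGroup.mk' A), ?_, ?_⟩
    · rw [eq_bot_iff, ← hK.disjoint.eq_bot]
      exact inf_le_inf_right _ inf_le_left
    · have hAU : A ≤ (S : Subgroup (G ⧸ A)).comap (QuotientGroup.mk' A) := by
        intro a ha
        rw [Subgroup.mem_comap, QuotientGroup.mk'_apply, (QuotientGroup.eq_one_iff a).mpr ha]
        exact Subgroup.one_mem _
      refine le_antisymm (sup_le inf_le_right hAU) ?_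
      intro u hu
      have : u ∈ K ⊔ A := by rw [hK.sup_eq_top]; exact Subgroup.mem_top u
      obtain ⟨k, hk, a, ha, rfl⟩ := Subgroup.mem_sup_of_normal_right.mp this
      exact Subgroup.mul_mem_sup ⟨hk, (Subgroup.mul_mem_cancel_right _ (hAU ha)).mp hu⟩ ha
  · intro h
    haveI := hA
    obtain ⟨H, hH⟩ := Cfsg.Agent.H7.complement_of_local (K := A) fun p hp hpd => by
      haveI := Fact.mk hp
      obtain ⟨S, K, h1, h2⟩ := h p hp hpd
      refine ⟨_, K, h2 ▸ le_sup_right, h1, (sup_comm _ _).trans h2, ?_⟩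
      rw [Subgroup.index_comap_of_surjective _ (QuotientGroup.mk'_surjective A)]
      exact S.not_dvd_index
    exact ⟨H, hH.symm⟩

end Cfsg.Agent.S4217
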