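import Cfsg.Statements.S4222
import Mathlib.GroupTheory.Complement
import Mathlib.Tactic.Group

set_option autoImplicit false
open Cfsg

namespace Cfsg.Agent.S4222

/-- If a normal subgroup `N` of a finite group is complete (its centre is trivial and every automorphism of `N` is inner), then the group is the internal direct product of `N` and the centralizer of `N`: the centralizer is a complement to `N`. -/
theorem result {T : Type*} [Group T] [Finite T] (N : Subgroup T) [N.Normal] (hz : Subgroup.center ↥N = ⊥) (ha : Function.Surjective (MulAut.conj : ↥N →* MulAut ↥N)) : (Subgroup.centralizer (N : Set T)).IsComplement' N := by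
  refine Subgroup.isComplement'_of_disjoint_and_mul_eq_univ ?_ ?_
  · rw [disjoint_iff, eq_bot_iff]
    rintro x ⟨hxc, hxN⟩
    have : (⟨x, hxN⟩ : ↥N) ∈ Subgroup.center ↥N :=
      Subgroup.mem_center_iff.mpr fun y => Subtype.ext (Subgroup.mem_centralizer_iff.mp hxc y y.2)
    rw [hz, Subgroup.mem_bot] at this
    exact Subgroup.mem_bot.mpr (congrArg Subtype.val this)
  · refine Set.eq_univ_of_forall fun t => ?_
    obtain ⟨n, hn⟩ := ha (MulAut.conjNormal t)
    have key : ∀ y ∈ N, (n : T) * y * (n : T)⁻¹ = t * y * t⁻¹ := fun y hy => by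
      have := congrArg (fun f : MulAut ↥N => ((f ⟨y, hy⟩ : ↥N) : T)) hn
      simpa using this
    refine ⟨t * (n : T)⁻¹, ?_, n, n.2, by group⟩
    refine Subgroup.mem_centralizer_iff.mpr fun y hy => ?_
    have h1 := key ((n : T)⁻¹ * y * n) (by simpa using (inferInstance : N.Normal).conj_mem y hy (n : T)⁻¹)
    have h2 : y = t * ((n : T)⁻¹ * y * n) * t⁻¹ := by rw [← h1]; group
    calc y * (t * (n : T)⁻¹) = t * ((n : T)⁻¹ * y * n) * t⁻¹ * (t * (n : T)⁻¹) := by rw [← h2]
      _ = t * (n : T)⁻¹ * y := by group

end Cfsg.Agent.S4222
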