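import Cfsg.Statements.S4299
import Mathlib

set_option autoImplicit false
open Cfsg

namespace Cfsg.Agent.S4299

/-- Every nontrivial finite cyclic group occurs as a Frobenius complement of some finite Frobenius group. -/
theorem result {C : Type*} [Group C] [Finite C] [IsCyclic C] [Nontrivial C] :
    ∃ (L : Type) (_ : Group L) (_ : Finite L) (H : Subgroup L), Cfsg.IsFrobeniusComplement H ∧ Nonempty (C ≃* H) := by
  classical
  have hn : Nat.card C ≠ 0 := Nat.card_pos.ne'
  obtain ⟨r, hr, -, hmod⟩ := Nat.exists_prime_gt_modEq_one 0 hn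
  haveI : Fact r.Prime := ⟨hr⟩
  obtain ⟨g, hg⟩ := IsCyclic.exists_ofOrder_eq_natCard (α := (ZMod r)ˣ)
  have hdvd : Nat.card C ∣ orderOf g := by
    rw [hg, Nat.card_eq_fintype_card (α := (ZMod r)ˣ), ZMod.card_units]
    exact (Nat.modEq_iff_dvd' hr.one_le).mp hmod.symm
  let D : Subgroup (ZMod r)ˣ := Subgroup.zpowers (g ^ (orderOf g / Nat.card C))
  have hD : Nat.card D = Nat.card C := by
    rw [Nat.card_zpowers, orderOf_pow_orderOf_div (orderOf_pos g).ne' hdvd]
  let φ : D →* MulAut (Multiplicative (ZMod r)) :=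
    MonoidHom.mk' (fun u => AddEquiv.toMultiplicative (DistribMulAction.toAddEquiv (ZMod r) (u : (ZMod r)ˣ)))
      (fun u v => by ext x; exact congrArg Multiplicative.ofAdd (mul_smul (u : (ZMod r)ˣ) (v : (ZMod r)ˣ) (Multiplicative.toAdd x)))
  haveI : Finite (Multiplicative (ZMod r) ⋊[φ] D) := Finite.of_equiv _ SemidirectProduct.equivProd.symm
  refine ⟨_, inferInstance, this, (SemidirectProduct.inr : D →* _).range, ⟨?_, ?_, ?_⟩,
    ⟨(mulEquivOfCyclicCardEq hD.symm).trans (MonoidHom.ofInjective SemidirectProduct.inr_injective)⟩⟩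
  · intro h
    haveI : Nontrivial D := Finite.one_lt_card_iff_nontrivial.mp (hD ▸ Finite.one_lt_card)
    obtain ⟨u, hu⟩ := exists_ne (1 : D)
    have hm : SemidirectProduct.inr u ∈ (SemidirectProduct.inr : D →* Multiplicative (ZMod r) ⋊[φ] D).range := ⟨u, rfl⟩
    rw [h, Subgroup.mem_bot] at hm
    exact hu (SemidirectProduct.inr_injective (by rw [map_one]; exact hm))
  · intro h
    obtain ⟨u, hu⟩ := (h ▸ Subgroup.mem_top (SemidirectProduct.inl (Multiplicative.ofAdd (1 : ZMod r)) : Multiplicative (ZMod r) ⋊[φ] D) :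
      SemidirectProduct.inl (Multiplicative.ofAdd (1 : ZMod r)) ∈ (SemidirectProduct.inr : D →* Multiplicative (ZMod r) ⋊[φ] D).range)
    have := congrArg SemidirectProduct.left hu
    simp only [SemidirectProduct.left_inr, SemidirectProduct.left_inl] at this
    exact zero_ne_one (α := ZMod r) (congrArg Multiplicative.toAdd this : (0 : ZMod r) = 1)
  · intro x hx
    rw [eq_bot_iff]
    rintro _ ⟨⟨a, rfl⟩, hb⟩
    obtain ⟨_, ⟨b, rfl⟩, hb⟩ := hb
    have hb' : x * SemidirectProduct.inr b = SemidirectProduct.inr a * x := eq_mul_inv_iff_mul_eq.mp hb.symm |>.symm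
    have h1 : x.left = φ a x.left := by
      have := congrArg SemidirectProduct.left hb'
      simpa using this
    rw [Subgroup.mem_bot]
    by_contra ha
    apply hx
    refine ⟨x.right, ?_⟩
    have hx0 : Multiplicative.toAdd x.left = 0 := by
      have h2 : Multiplicative.toAdd x.left = ((a : (ZMod r)ˣ) : ZMod r) * Multiplicative.toAdd x.left := congrArg Multiplicative.toAdd h1
      by_contra h0
      refine ha ?_
      have h3 : ((a : (ZMod r)ˣ) : ZMod r) = 1 := mul_right_cancel₀ h0 (h2.symm.trans (one_mul _).symm)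
      rw [show a = 1 from Subtype.ext (Units.ext h3), map_one]
    apply SemidirectProduct.ext
    · rw [SemidirectProduct.left_inr]; exact (Multiplicative.toAdd.injective (hx0.trans toAdd_one.symm)).symm
    · rw [SemidirectProduct.right_inr]

end Cfsg.Agent.S4299
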