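import Cfsg.Statements.S4305
import Cfsg.Agent.FpfSymThree.Group

set_option autoImplicit false
open Cfsg

namespace Cfsg.Agent.S4305

/-- Let the symmetric group of degree 3 act by automorphisms on a finite solvable group `G` of order prime to 6, so that only the identity of `G` is fixed by all of it. Then the derived subgroup of `G` is nilpotent. -/
theorem result {G : Type*} [Group G] [Finite G] [Group.IsSolvable G]
    [MulDistribMulAction (Equiv.Perm (Fin 3)) G] (hcop : (Nat.card G).Coprime 6)
    (hfpf : ∀ g : G, (∀ a : Equiv.Perm (Fin 3), a • g = g) → g = 1) :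
    Group.IsNilpotent ↥(commutator G) := by
  let σ : MulAut G := MulDistribMulAction.toMulAut (Equiv.Perm (Fin 3)) G (finRotate 3)
  let τ : MulAut G := MulDistribMulAction.toMulAut (Equiv.Perm (Fin 3)) G (Equiv.swap 0 1)
  have hσ : ∀ g, σ g = finRotate 3 • g := fun g => rfl
  have hτ : ∀ g, τ g = Equiv.swap (0 : Fin 3) 1 • g := fun g => rfl
  refine Cfsg.Agent.FpfSymThree.nilpotent_commutator_aux _ G σ τ rfl ⟨hcop, fun g => ?_, fun g => ?_,
    fun g => ?_, fun g h1 h2 => hfpf g fun a => ?_⟩
  · rw [hσ, hσ, hσ, smul_smul, smul_smul]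
    exact (congrArg (· • g) (show finRotate 3 * finRotate 3 * finRotate 3 = 1 by decide)).trans (one_smul _ g)
  · rw [hτ, hτ, smul_smul, Equiv.swap_mul_self, one_smul]
  · rw [hσ, hσ, hσ, hτ, hτ, smul_smul, smul_smul, smul_smul]
    exact congrArg (· • g) (by decide)
  · have hmem : ∀ a : Equiv.Perm (Fin 3), a = 1 ∨ a = finRotate 3 ∨ a = finRotate 3 * finRotate 3 ∨
        a = Equiv.swap 0 1 ∨ a = finRotate 3 * Equiv.swap 0 1 ∨
        a = finRotate 3 * (finRotate 3 * Equiv.swap 0 1) := by decide
    rw [hσ] at h1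
    rw [hτ] at h2
    rcases hmem a with rfl | rfl | rfl | rfl | rfl | rfl <;> simp [mul_smul, h1, h2]

end Cfsg.Agent.S4305
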