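import Cfsg.Statements.S4422
import Mathlib

set_option autoImplicit false
open Cfsg

namespace Cfsg.Agent.S4422

/-- Primitive divisors of `q^e - 1` are congruent to 1 modulo `e`. Let `q ≥ 2` and `e ≥ 1` be natural numbers and let `m` be a divisor of `q^e - 1` that is coprime to `q^i - 1` for every `1 ≤ i < e` (so `m` divides the primitive part of `q^e - 1`, the largest such divisor). Then `m ≡ 1 (mod e)`. -/
theorem result (q e m : ℕ) (hq : 2 ≤ q) (he : 1 ≤ e)
    (hm : m ∣ q ^ e - 1) (hcop : ∀ i : ℕ, 1 ≤ i → i < e → Nat.Coprime m (q ^ i - 1)) :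
    m % e = 1 % e := by
  have hqe : 1 ≤ q ^ e := Nat.one_le_pow _ _ (by omega)
  have hpos : 0 < q ^ e - 1 := by
    have := Nat.one_lt_pow (show e ≠ 0 by omega) (show 1 < q by omega)
    omega
  suffices h : ∀ d : ℕ, d ∣ m → d % e = 1 % e from h m dvd_rfl
  intro d
  induction d using Nat.recOnMul with
  | zero =>
    intro h
    rw [zero_dvd_iff] at h
    subst h
    rw [zero_dvd_iff] at hm
    omega
  | one => intro _; rfl
  | prime r hr =>
    intro h
    haveI : Fact r.Prime := ⟨hr⟩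
    have h1 : ∀ k : ℕ, (r ∣ q ^ k - 1) ↔ ((q : ZMod r) ^ k = 1) := by
      intro k
      rw [← ZMod.natCast_eq_zero_iff, Nat.cast_sub (Nat.one_le_pow _ _ (by omega)), sub_eq_zero, Nat.cast_pow, Nat.cast_one]
    have h2 : (q : ZMod r) ^ e = 1 := (h1 e).mp (h.trans hm)
    have h3 : orderOf (q : ZMod r) = e := by
      rw [orderOf_eq_iff (by omega)]
      refine ⟨h2, fun i hi hi0 hcon => ?_⟩
      exact hr.not_dvd_one ((hcop i hi0 hi) ▸ Nat.dvd_gcd h ((h1 i).mpr hcon))
    have hne : (q : ZMod r) ≠ 0 := by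
      intro h0; rw [h0, zero_pow (by omega)] at h2; exact zero_ne_one h2
    have h4 : e ∣ r - 1 := h3 ▸ ZMod.orderOf_dvd_card_sub_one hne
    exact ((Nat.modEq_iff_dvd' hr.one_le).mpr h4).symm
  | mul a b iha ihb =>
    intro h
    rw [Nat.mul_mod, iha ((dvd_mul_right a b).trans h), ihb ((dvd_mul_left b a).trans h), ← Nat.mul_mod]

end Cfsg.Agent.S4422
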