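import Cfsg.Statements.S4425
import Cfsg.Agent.Blocks.RegSpan
import Cfsg.Agent.Blocks.BlockKernel

set_option autoImplicit false
set_option linter.all false
open Cfsg

namespace Cfsg.Agent.S4425

/-- Let χ be an irreducible character of the finite group G, p a prime, p^a the p-part of the order of G and p^b the p-part of the degree χ(1). Let χ̃ be the class function equal to p^a · χ on p-regular elements and zero on p-singular elements. Then p^(−b) · χ̃ is a generalized character of G, while p^(−(b+1)) · χ̃ is not. -/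
theorem result {G : Type*} [Group G] [Finite G] (p : ℕ) [Fact p.Prime] (χ : Cfsg.IrrCharacter G) : Cfsg.IsGeneralizedCharacter G (fun x : G => if p ∣ orderOf x then (0 : ℂ) else ((p ^ ((Nat.card G).factorization p - (Cfsg.charDegree (χ : G → ℂ)).factorization p) : ℕ) : ℂ) * (χ : G → ℂ) x) ∧ ¬ Cfsg.IsGeneralizedCharacter G (fun x : G => if p ∣ orderOf x then (0 : ℂ) else ((p ^ (Nat.card G).factorization p : ℕ) : ℂ) / ((p ^ ((Cfsg.charDegree (χ : G → ℂ)).factorization p + 1) : ℕ) : ℂ) * (χ : G → ℂ) x) := by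
  classical
  haveI := Fintype.ofFinite G
  obtain ⟨M, hM⟩ := Cfsg.Agent.Blocks.exists_modularIdeal (Fact.out (p := p.Prime))
  have hp0 : (p : ℂ) ≠ 0 := by exact_mod_cast hM.1.ne_zero
  set a := (Nat.card G).factorization p with ha
  set v := (Cfsg.charDegree (χ : G → ℂ)).factorization p with hv
  have hva : v ≤ a := Cfsg.Agent.Blocks.degree_factorization_le χ p
  have hcl : ∀ z : ℂ, Cfsg.IsClassFunction G
      (fun x => if p ∣ orderOf x then (0 : ℂ) else z * (χ : G → ℂ) x) := by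
    intro z g x
    show (if p ∣ orderOf (x * g * x⁻¹) then (0 : ℂ) else z * (χ : G → ℂ) (x * g * x⁻¹)) = _
    rw [Cfsg.Agent.Char.irr_isClassFunction χ g x, ← MulAut.conj_apply, MulEquiv.orderOf_eq]
  have hinner : ∀ (z : ℂ) (ψ : Cfsg.IrrCharacter G), (p : ℂ) ^ a * Cfsg.classInner
      (fun x => if p ∣ orderOf x then (0 : ℂ) else z * (χ : G → ℂ) x) (ψ : G → ℂ)
      = z * (Cfsg.Agent.Blocks.regVal p χ ψ : ℂ) := by
    intro z ψ
    rw [← Cfsg.Agent.Blocks.regVal_spec hM.1, ← Cfsg.Agent.Char.classInner_smul_left,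
      ← Cfsg.Agent.Char.classInner_smul_left]
    congr 1
    funext x
    simp only [Pi.smul_apply, smul_eq_mul, Cfsg.Agent.Blocks.regFun, ← ha, Nat.cast_pow]
    split_ifs <;> ring
  refine ⟨Cfsg.Agent.Char.isGeneralizedCharacter_iff_inner_int.2 ⟨hcl _, fun ψ => ?_⟩, fun hgen => ?_⟩
  · obtain ⟨c, hc⟩ := Cfsg.Agent.Blocks.pow_dvd_regVal hM χ ψ
    refine ⟨c, mul_left_cancel₀ (pow_ne_zero a hp0) ?_⟩
    rw [hinner, hc, Int.cast_mul, Int.cast_pow, Int.cast_natCast, Nat.cast_pow, ← mul_assoc,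
      ← pow_add, ← hv, Nat.sub_add_cancel hva]
  · have hB : Cfsg.IsPBlock M (Cfsg.blockOf M (χ : G → ℂ)) := ⟨χ, rfl⟩
    have hχB := Cfsg.Agent.Blocks.self_mem_blockOf hM χ
    obtain ⟨ψ, hψ, h0⟩ := Cfsg.Agent.Blocks.exists_height_zero (p := p) ⟨χ, hχB⟩
    obtain ⟨n, hn⟩ := (Cfsg.Agent.Char.isGeneralizedCharacter_iff_inner_int.1 hgen).2 ψ
    have h1 := hinner (((p ^ a : ℕ) : ℂ) / ((p ^ (v + 1) : ℕ) : ℂ)) ψ
    rw [hn, Nat.cast_pow, Nat.cast_pow, div_mul_eq_mul_div,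
      eq_div_iff (pow_ne_zero _ hp0), mul_assoc] at h1
    have h2 := mul_left_cancel₀ (pow_ne_zero a hp0) h1
    have h3 : Cfsg.Agent.Blocks.regVal p χ ψ = n * (p : ℤ) ^ (v + 1) := by
      exact_mod_cast h2.symm
    have h4 := Cfsg.Agent.Blocks.regVal_eq_omega hM.1 χ ψ
    rw [h3, Int.cast_mul, Int.cast_pow, Int.cast_natCast] at h4
    refine Cfsg.Agent.Blocks.not_li_omega_regElt hM hB hψ h0 hχB ?_
    set m := Cfsg.charDegree (χ : G → ℂ) / p ^ v with hm
    have hd : (χ : G → ℂ) 1 = (p : ℂ) ^ v * (m : ℂ) := by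
      rw [(Cfsg.Agent.Blocks.irr_charDegree χ).1]
      exact_mod_cast (Nat.ordProj_mul_ordCompl_eq_self _ p).symm
    have hm' : ¬ p ∣ m := Nat.not_dvd_ordCompl hM.1 (Cfsg.Agent.Blocks.irr_charDegree χ).2
    have hm0 : (m : ℂ) ≠ 0 := by
      intro h; exact hm' (by rw [show m = 0 from by exact_mod_cast h]; exact dvd_zero p)
    set q := Nat.card G / p ^ (Nat.card G).factorization p
    rw [hd, pow_succ] at h4
    have h5 : (m : ℂ) * Cfsg.Agent.Blocks.omega (χ : G → ℂ)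
        (Cfsg.Agent.Blocks.regElt p (ψ : G → ℂ)) = (n : ℂ) * (p : ℂ) * (q : ℂ) :=
      mul_left_cancel₀ (pow_ne_zero v hp0) (by linear_combination -h4)
    rw [show Cfsg.Agent.Blocks.omega (χ : G → ℂ) (Cfsg.Agent.Blocks.regElt p (ψ : G → ℂ))
      = (m : ℂ)⁻¹ * ((p : ℂ) * (((n * q : ℤ)) : ℂ)) by
        push_cast
        rw [show (p : ℂ) * ((n : ℂ) * (q : ℂ)) = (n : ℂ) * (p : ℂ) * (q : ℂ) by ring, ← h5,
          ← mul_assoc, inv_mul_cancel₀ hm0, one_mul]]
    refine Cfsg.Agent.Blocks.li_mul_left hM (Cfsg.Agent.Blocks.inv_natCast_lr hM hm') ?_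
    refine Cfsg.Agent.Blocks.li_mul hM ((Cfsg.Agent.Blocks.li_natCast_iff hM p).2 dvd_rfl) ?_
    exact (Cfsg.Agent.Blocks.mem_locRing hM).1 (intCast_mem _ _)

end Cfsg.Agent.S4425
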