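import Cfsg.Statements.S4426
import Cfsg.Agent.Blocks.RegSpan

set_option autoImplicit false
set_option linter.all false
open Cfsg

namespace Cfsg.Agent.S4426

/-- Let χ be an irreducible character in the p-block B of the finite group G (relative to a maximal ideal M of the algebraic integers containing p), let p^a be the p-part of the order of G, and let χ̃ be the class function equal to p^a · χ on p-regular elements and zero elsewhere. For ξ ∈ B the inner product [χ̃, ξ] is an integer. The following are equivalent: (a) χ has height zero in B; (b) for some ξ ∈ B the integer [χ̃, ξ] is nonzero and the exact power of p dividing it equals the exact power of p dividing ξ(1); (c) the same holds for every ξ ∈ B. -/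
theorem result {G : Type*} [Group G] [Fintype G] (p : ℕ) [Fact p.Prime] (M : Ideal Cfsg.AlgInt) (hM : Cfsg.IsPModular p M) (B : Set (Cfsg.IrrCharacter G)) (hB : Cfsg.IsPBlock M B) (χ : Cfsg.IrrCharacter G) (hχ : χ ∈ B) : (Cfsg.blockHeight p B (χ : G → ℂ) = 0 ↔ ∃ ξ ∈ B, ∃ n : ℤ, Cfsg.classInner (fun x : G => if p ∣ orderOf x then (0 : ℂ) else ((p ^ (Nat.card G).factorization p : ℕ) : ℂ) * (χ : G → ℂ) x) (ξ : G → ℂ) = (n : ℂ) ∧ n ≠ 0 ∧ padicValInt p n = (Cfsg.charDegree (ξ : G → ℂ)).factorization p) ∧ (Cfsg.blockHeight p B (χ : G → ℂ) = 0 ↔ ∀ ξ ∈ B, ∃ n : ℤ, Cfsg.classInner (fun x : G => if p ∣ orderOf x then (0 : ℂ) else ((p ^ (Nat.card G).factorization p : ℕ) : ℂ) * (χ : G → ℂ) x) (ξ : G → ℂ) = (n : ℂ) ∧ n ≠ 0 ∧ padicValInt p n = (Cfsg.charDegree (ξ : G → ℂ)).factorization p) := by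
  classical
  have hinner : ∀ ξ : Cfsg.IrrCharacter G, Cfsg.classInner (fun x : G =>
      if p ∣ orderOf x then (0 : ℂ) else ((p ^ (Nat.card G).factorization p : ℕ) : ℂ) * (χ : G → ℂ) x)
      (ξ : G → ℂ) = (Cfsg.Agent.Blocks.regVal p χ ξ : ℂ) :=
    fun ξ => Cfsg.Agent.Blocks.regVal_spec hM.1 χ ξ
  have hfwd : Cfsg.blockHeight p B (χ : G → ℂ) = 0 → ∀ ξ ∈ B,
      Cfsg.Agent.Blocks.regVal p χ ξ ≠ 0 ∧ padicValInt p (Cfsg.Agent.Blocks.regVal p χ ξ)
        = (Cfsg.charDegree (ξ : G → ℂ)).factorization p := by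
    intro h0 ξ hξ
    rw [Cfsg.Agent.Blocks.regVal_comm hM.1]
    have hne := Cfsg.Agent.Blocks.regVal_ne_zero hM hB hξ hχ h0
    refine ⟨hne, ?_⟩
    set v := (Cfsg.charDegree (ξ : G → ℂ)).factorization p with hv
    obtain ⟨c, hc⟩ := Cfsg.Agent.Blocks.pow_dvd_regVal hM ξ χ
    have hpc : ¬ (p : ℤ) ∣ c := by
      intro hdvd
      refine Cfsg.Agent.Blocks.not_li_omega_regElt hM hB hχ h0 hξ ?_
      have h1 := Cfsg.Agent.Blocks.regVal_eq_omega hM.1 ξ χ
      set q := Nat.card G / p ^ (Nat.card G).factorization p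
      set m := Cfsg.charDegree (ξ : G → ℂ) / p ^ v with hm
      have hd : (ξ : G → ℂ) 1 = (p : ℂ) ^ v * (m : ℂ) := by
        rw [(Cfsg.Agent.Blocks.irr_charDegree ξ).1]
        exact_mod_cast (Nat.ordProj_mul_ordCompl_eq_self _ p).symm
      rw [hc, hd, Int.cast_mul, Int.cast_pow, Int.cast_natCast, mul_assoc, mul_assoc] at h1
      have h2 := mul_left_cancel₀ (pow_ne_zero v (by exact_mod_cast hM.1.ne_zero)) h1
      have hm' : ¬ p ∣ m := Nat.not_dvd_ordCompl hM.1 (Cfsg.Agent.Blocks.irr_charDegree ξ).2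
      have hm0 : (m : ℂ) ≠ 0 := by
        intro h; exact hm' (by rw [show m = 0 from by exact_mod_cast h]; exact dvd_zero p)
      rw [show Cfsg.Agent.Blocks.omega (ξ : G → ℂ) (Cfsg.Agent.Blocks.regElt p (χ : G → ℂ))
        = (m : ℂ)⁻¹ * ((c : ℂ) * (q : ℂ)) by rw [h2, ← mul_assoc, inv_mul_cancel₀ hm0, one_mul]]
      refine Cfsg.Agent.Blocks.li_mul_left hM (Cfsg.Agent.Blocks.inv_natCast_lr hM hm') ?_
      exact Cfsg.Agent.Blocks.li_mul hM ((Cfsg.Agent.Blocks.li_intCast_iff hM c).2 hdvd)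
        ((Cfsg.Agent.Blocks.mem_locRing hM).1 (natCast_mem _ _))
    rw [hc, padicValInt.mul (pow_ne_zero _ (by exact_mod_cast hM.1.ne_zero))
      (fun h => hne (by rw [hc, h, mul_zero])), padicValInt.eq_zero_of_not_dvd hpc, add_zero]
    simp [padicValInt, Int.natAbs_pow, hv]
  have hback : ∀ ξ ∈ B, (Cfsg.Agent.Blocks.regVal p χ ξ ≠ 0 ∧
      padicValInt p (Cfsg.Agent.Blocks.regVal p χ ξ)
        = (Cfsg.charDegree (ξ : G → ℂ)).factorization p) → Cfsg.blockHeight p B (χ : G → ℂ) = 0 := by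
    rintro ξ hξ ⟨hne, hv⟩
    by_contra h0
    have h := Cfsg.Agent.Blocks.pow_succ_dvd_regVal hM hB hξ hχ h0
    rw [Cfsg.Agent.Blocks.regVal_comm hM.1, padicValInt_dvd_iff] at h
    rcases h with h | h
    · exact hne h
    · omega
  have key : ∀ ξ : Cfsg.IrrCharacter G, (∃ n : ℤ, Cfsg.classInner (fun x : G =>
      if p ∣ orderOf x then (0 : ℂ) else ((p ^ (Nat.card G).factorization p : ℕ) : ℂ) * (χ : G → ℂ) x)
      (ξ : G → ℂ) = (n : ℂ) ∧ n ≠ 0 ∧ padicValInt p n = (Cfsg.charDegree (ξ : G → ℂ)).factorization p)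
      ↔ (Cfsg.Agent.Blocks.regVal p χ ξ ≠ 0 ∧ padicValInt p (Cfsg.Agent.Blocks.regVal p χ ξ)
        = (Cfsg.charDegree (ξ : G → ℂ)).factorization p) := by
    intro ξ
    constructor
    · rintro ⟨n, h1, h2, h3⟩
      rw [hinner] at h1
      have h4 : Cfsg.Agent.Blocks.regVal p χ ξ = n := by exact_mod_cast h1
      rw [h4]; exact ⟨h2, h3⟩
    · exact fun h => ⟨_, hinner ξ, h⟩
  simp only [key]
  exact ⟨⟨fun h => ⟨χ, hχ, hfwd h χ hχ⟩, fun ⟨ξ, hξ, h⟩ => hback ξ hξ h⟩,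
    ⟨hfwd, fun h => hback χ hχ (h χ hχ)⟩⟩

end Cfsg.Agent.S4426
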