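import Cfsg.Statements.S4430
import Cfsg.Agent.Blocks.HeightZero

set_option autoImplicit false
set_option linter.all false
open Cfsg

namespace Cfsg.Agent.S4430

/-- Let H be a subgroup of the finite group G, b a block of H whose induced block B₀ in G is defined (relative to a maximal ideal M of the algebraic integers containing p), and ξ ∈ b. For a block B of G let n_B be the value at 1 of the B-part of the induced character ξ^G (a natural number: the sum over χ ∈ B of the multiplicity of χ in ξ^G times χ(1)). Then for B = B₀ the exact power of p dividing n_B equals the exact power of p dividing ξ^G(1), while for every other block B either n_B = 0 or n_B is divisible by a strictly higher power of p than ξ^G(1). -/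
theorem result {G : Type*} [Group G] [Fintype G] (p : ℕ) [Fact p.Prime] (M : Ideal Cfsg.AlgInt) (hM : Cfsg.IsPModular p M) (H : Subgroup G) [Fintype H] (b : Set (Cfsg.IrrCharacter H)) (B₀ : Set (Cfsg.IrrCharacter G)) (hind : Cfsg.IsInducedBlock M H b B₀) (ξ : Cfsg.IrrCharacter H) (hξ : ξ ∈ b) : (∃ n : ℕ, Cfsg.blockPart B₀ (Cfsg.indFun H (ξ : H → ℂ)) 1 = (n : ℂ) ∧ n ≠ 0 ∧ n.factorization p = (Cfsg.charDegree (Cfsg.indFun H (ξ : H → ℂ))).factorization p) ∧ ∀ B : Set (Cfsg.IrrCharacter G), Cfsg.IsPBlock M B → B ≠ B₀ → ∃ n : ℕ, Cfsg.blockPart B (Cfsg.indFun H (ξ : H → ℂ)) 1 = (n : ℂ) ∧ (n = 0 ∨ (Cfsg.charDegree (Cfsg.indFun H (ξ : H → ℂ))).factorization p < n.factorization p) := by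
  classical
  set φ := Cfsg.indFun H (ξ : H → ℂ) with hφdef
  have hφ : Cfsg.IsCharacter G φ := Char.indFun_isCharacter H (Char.isCharacter_of_isIrrCharacter ξ.2)
  have h1 : φ 1 = ((H.index * Cfsg.charDegree (ξ : H → ℂ) : ℕ) : ℂ) := by
    rw [hφdef, Char.indFun_apply_one, (Blocks.irr_charDegree ξ).1]; push_cast; rfl
  have hd : Cfsg.charDegree φ = H.index * Cfsg.charDegree (ξ : H → ℂ) := by
    rw [Cfsg.charDegree, h1, Complex.natCast_re, Nat.floor_natCast]
  have hd0 : Cfsg.charDegree φ ≠ 0 := by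
    rw [hd]; exact mul_ne_zero H.index_ne_zero_of_finite (Blocks.irr_charDegree ξ).2
  have key : ∀ B : Set (Cfsg.IrrCharacter G), ∃ n : ℕ, Cfsg.blockPart B φ 1 = (n : ℂ) ∧
      (n : ℂ) / (Cfsg.charDegree φ : ℂ)
        = Blocks.omega (ξ : H → ℂ) (Blocks.trunc H Set.univ (Blocks.idem B)) := by
    intro B
    choose m hm using fun χ : Cfsg.IrrCharacter G => Char.exists_nat_classInner hφ χ
    refine ⟨∑ χ ∈ B.toFinite.toFinset, m χ * Cfsg.charDegree (χ : G → ℂ), ?_, ?_⟩
    · rw [Cfsg.blockPart, finsum_mem_eq_finite_toFinset_sum _ B.toFinite]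
      push_cast
      refine Finset.sum_congr rfl fun χ _ => ?_
      rw [← (Blocks.irr_charDegree χ).1]
      congr 1
      rw [← hm χ]
      congr!
    · have h3 : ∀ h : H, (Blocks.trunc H Set.univ (Blocks.idem B)).coeff h = (Nat.card G : ℂ)⁻¹ *
          ∑ η ∈ B.toFinite.toFinset, (η : G → ℂ) 1 * starRingEnd ℂ ((η : G → ℂ) h) := fun h => by
        rw [Blocks.trunc_coeff, if_pos (Set.mem_univ _)]
        show Cfsg.blockCoeff B (h : G) = _
        rw [Cfsg.blockCoeff, finsum_mem_eq_finite_toFinset_sum _ B.toFinite]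
      rw [Blocks.omega, Blocks.ev]
      simp only [h3, Finset.mul_sum, Finset.sum_mul]
      rw [Finset.sum_comm]
      push_cast
      rw [hd, Nat.cast_mul, ← (Blocks.irr_charDegree ξ).1, Finset.sum_div, Finset.sum_div]
      refine Finset.sum_congr rfl fun η _ => ?_
      rw [← hm η, ← (Blocks.irr_charDegree η).1, hφdef,
        Char.classInner_indFun H _ (Char.irr_isClassFunction η), Cfsg.classInner, Finset.mul_sum,
        Finset.sum_mul, Finset.sum_div, Finset.sum_div]
      refine Finset.sum_congr rfl fun h _ => ?_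
      rw [← H.card_mul_index, Nat.cast_mul, mul_inv]
      field_simp
  refine ⟨?_, fun B hB hne => ?_⟩
  · obtain ⟨n, hn, hω⟩ := key B₀
    obtain ⟨χ₀, hχ₀⟩ := Blocks.block_nonempty hM hind.2.1
    have h2 := Blocks.li_trunc_sub_omega hM hind hξ hχ₀ (Blocks.isCentral_idem B₀)
      (Blocks.idem_block_mem hM hind.2.1)
    rw [Blocks.omega_idem, if_pos hχ₀, ← hω] at h2
    have hu : ¬ Cfsg.MemLocalIdeal M ((n : ℂ) / (Cfsg.charDegree φ : ℂ)) := fun h => Blocks.not_li_one hM (by
      simpa using Blocks.li_sub hM h h2)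
    have hn0 : n ≠ 0 := by rintro rfl; simp [Blocks.li_zero hM] at hu
    refine ⟨n, hn, hn0, le_antisymm ?_ ?_⟩
    · by_contra hlt
      exact hu (Blocks.natCast_div_li hM hn0 hd0 (not_le.1 hlt))
    · by_contra hlt
      have hlr : Cfsg.MemLocalRing M ((n : ℂ) / (Cfsg.charDegree φ : ℂ)) := by
        rw [hω]
        exact Blocks.omega_lr hM ξ (Blocks.isCentral_trunc_univ H (Blocks.isCentral_idem B₀))
          (Blocks.trunc_mem hM H _ (Blocks.idem_block_mem hM hind.2.1))
      have h3 := Blocks.li_mul hM (Blocks.natCast_div_li hM hd0 hn0 (not_le.1 hlt)) hlr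
      rw [div_mul_div_cancel₀ (by exact_mod_cast hn0), div_self (by exact_mod_cast hd0)] at h3
      exact Blocks.not_li_one hM h3
  · obtain ⟨n, hn, hω⟩ := key B
    obtain ⟨χ₀, hχ₀⟩ := Blocks.block_nonempty hM hind.2.1
    have h2 := Blocks.li_trunc_sub_omega hM hind hξ hχ₀ (Blocks.isCentral_idem B)
      (Blocks.idem_block_mem hM hB)
    rw [Blocks.omega_idem, if_neg (Set.disjoint_left.1 (Blocks.disjoint_blocks hM hind.2.1 hB (Ne.symm hne)) hχ₀),
      sub_zero, ← hω] at h2
    refine ⟨n, hn, ?_⟩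
    by_cases hn0 : n = 0
    · exact Or.inl hn0
    refine Or.inr ?_
    by_contra hle
    have h3 := Blocks.li_mul_left hM (Blocks.natCast_div_lr hM hd0 hn0 (not_lt.1 hle)) h2
    rw [div_mul_div_cancel₀ (by exact_mod_cast hn0), div_self (by exact_mod_cast hd0)] at h3
    exact Blocks.not_li_one hM h3

end Cfsg.Agent.S4430
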