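import Cfsg.Statements.S4431
import Cfsg.Agent.Blocks.HeightZero

set_option autoImplicit false
set_option linter.all false
open Cfsg

namespace Cfsg.Agent.S4431

/-- Let H be a subgroup of the finite group G and b a block of H whose induced block B₀ in G is defined (relative to a maximal ideal M of the algebraic integers containing p). Let χ be an irreducible character of G, ψ ∈ b, and let η be the class function on H equal to p^a · χ on the p-regular elements of H and zero elsewhere, p^a being the p-part of the order of H. Then (a) if χ ∉ B₀, the number [η, ψ]/ψ(1) lies in the local ideal at M; (b) if χ ∈ B₀ has height zero, it does not. -/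
theorem result {G : Type*} [Group G] [Fintype G] (p : ℕ) [Fact p.Prime] (M : Ideal Cfsg.AlgInt) (hM : Cfsg.IsPModular p M) (H : Subgroup G) [Fintype H] (b : Set (Cfsg.IrrCharacter H)) (B₀ : Set (Cfsg.IrrCharacter G)) (hind : Cfsg.IsInducedBlock M H b B₀) (χ : Cfsg.IrrCharacter G) (ψ : Cfsg.IrrCharacter H) (hψ : ψ ∈ b) : (χ ∉ B₀ → Cfsg.MemLocalIdeal M (Cfsg.classInner (fun h : H => if p ∣ orderOf h then (0 : ℂ) else ((p ^ (Nat.card H).factorization p : ℕ) : ℂ) * (χ : G → ℂ) h) (ψ : H → ℂ) / (ψ : H → ℂ) 1)) ∧ (χ ∈ B₀ → Cfsg.blockHeight p B₀ (χ : G → ℂ) = 0 → ¬ Cfsg.MemLocalIdeal M (Cfsg.classInner (fun h : H => if p ∣ orderOf h then (0 : ℂ) else ((p ^ (Nat.card H).factorization p : ℕ) : ℂ) * (χ : G → ℂ) h) (ψ : H → ℂ) / (ψ : H → ℂ) 1)) := by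
  classical
  haveI := Fact.mk hM.1
  obtain ⟨χ₀, hχ₀⟩ := Blocks.block_nonempty hM hind.2.1
  have hc := Blocks.isCentral_regElt p (Char.irr_isClassFunction χ)
  have hi := Blocks.regElt_mem hM (p := p) (Char.isCharacter_of_isIrrCharacter χ.2)
  have h1 := Blocks.li_trunc_sub_omega hM hind hψ hχ₀ hc hi
  rw [Blocks.trunc_regElt] at h1
  have hX : Cfsg.classInner (fun h : H => if p ∣ orderOf h then (0 : ℂ) else
        ((p ^ (Nat.card H).factorization p : ℕ) : ℂ) * (χ : G → ℂ) h) (ψ : H → ℂ) / (ψ : H → ℂ) 1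
      = (((p ^ (Nat.card H).factorization p : ℕ) : ℂ) / (Nat.card H : ℂ))
        * Blocks.omega (ψ : H → ℂ) (Blocks.regElt p fun h : H => (χ : G → ℂ) h) := by
    simp only [Blocks.omega, Blocks.ev_regElt_symm p (fun h : H => (χ : G → ℂ) h) (ψ : H → ℂ)]
    simp only [Cfsg.classInner, Blocks.ev, Blocks.regElt, Blocks.coeff_ga, Finset.mul_sum, Finset.sum_div]
    refine Finset.sum_congr rfl fun h _ => ?_
    split_ifs
    · simp
    · rw [Char.irr_apply_inv]; ring
  rw [hX]
  have hd : (p ^ (Nat.card H).factorization p).factorization p = (Nat.card H).factorization p := by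
    rw [hM.1.factorization_pow, Finsupp.single_eq_same]
  have hp0 : p ^ (Nat.card H).factorization p ≠ 0 := pow_ne_zero _ hM.1.ne_zero
  have hu := Blocks.natCast_div_lr (p := p) hM hp0 (Nat.card_pos (α := H)).ne' hd.ge
  refine ⟨fun hχ => ?_, fun hχ h0 hl => ?_⟩
  · rw [Blocks.omega_regElt_eq_zero hM (η := χ) (ξ := χ₀) fun h => hχ (by
      rw [Blocks.block_eq_blockOf hM hind.2.1 hχ₀]; exact Blocks.sameBlock_symm h), sub_zero] at h1
    exact Blocks.li_mul_left hM hu h1
  · have hv := Blocks.natCast_div_lr (p := p) hM (Nat.card_pos (α := H)).ne' hp0 hd.le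
    have h2 := Blocks.li_mul_left hM hv hl
    rw [← mul_assoc, div_mul_div_cancel₀ (by exact_mod_cast hp0),
      div_self (by exact_mod_cast (Nat.card_pos (α := H)).ne'), one_mul] at h2
    have h3 := Blocks.li_sub hM h2 h1
    rw [sub_sub_cancel] at h3
    exact Blocks.not_li_omega_regElt hM hind.2.1 hχ h0 hχ₀ h3

end Cfsg.Agent.S4431
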