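import Cfsg.Statements.S4494
import Cfsg.Agent.Blocks.BrauerFeit

set_option autoImplicit false
set_option linter.all false
open Cfsg

namespace Cfsg.Agent.S4494

/-- The Brauer–Feit bound. Let B be a p-block of the finite group G (relative to a maximal ideal M of the algebraic integers containing p) and let d be its defect. Then the number k(B) of irreducible characters in B satisfies k(B) ≤ p^(2d)/4 + 1, stated here as 4·k(B) ≤ p^(2d) + 4. -/
theorem result {G : Type*} [Group G] [Finite G] (p : ℕ) [Fact p.Prime] (M : Ideal Cfsg.AlgInt) (hM : Cfsg.IsPModular p M) (B : Set (Cfsg.IrrCharacter G)) (hB : Cfsg.IsPBlock M B) : 4 * Nat.card B ≤ p ^ (2 * Cfsg.blockDefect p B) + 4 := by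
  classical
  haveI := Fintype.ofFinite G
  obtain ⟨χ, hχ, h0⟩ := Cfsg.Agent.Blocks.exists_height_zero (p := p)
    (Cfsg.Agent.Blocks.block_nonempty hM hB)
  have h := Cfsg.Agent.Blocks.sum_height_le hM hB hχ h0
  have h2 : (B.toFinite.toFinset.erase χ).card
      ≤ ∑ ψ ∈ B.toFinite.toFinset.erase χ, p ^ (2 * Cfsg.blockHeight p B (ψ : G → ℂ)) := by
    rw [Finset.card_eq_sum_ones]
    exact Finset.sum_le_sum fun ψ _ => Nat.one_le_pow _ _ hM.1.pos
  have h3 : (B.toFinite.toFinset.erase χ).card + 1 = Nat.card B := by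
    rw [Finset.card_erase_add_one (B.toFinite.mem_toFinset.2 hχ), Nat.card_coe_set_eq,
      Set.ncard_eq_toFinset_card]
  omega

end Cfsg.Agent.S4494
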