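import Cfsg.Statements.S4499
import Cfsg.Agent.Blocks.RegMat

set_option autoImplicit false
set_option linter.all false
open Cfsg

namespace Cfsg.Agent.S4499

/-- Let G be a finite group whose order has p-part p^a (a ≥ 1), and fix a maximal ideal M of the algebraic integers containing p. If the degree of one irreducible character of a p-block B is divisible by p^(a−1), then the degree of every irreducible character in B is divisible by p^(a−1) (so B has defect at most 1). -/
theorem result {G : Type*} [Group G] [Finite G] (p : ℕ) [Fact p.Prime] (M : Ideal Cfsg.AlgInt) (hM : Cfsg.IsPModular p M) (hpa : p ∣ Nat.card G) (B : Set (Cfsg.IrrCharacter G)) (hB : Cfsg.IsPBlock M B) (χ : Cfsg.IrrCharacter G) (hχ : χ ∈ B) (hdiv : p ^ ((Nat.card G).factorization p - 1) ∣ Cfsg.charDegree (χ : G → ℂ)) (ψ : Cfsg.IrrCharacter G) (hψ : ψ ∈ B) : p ^ ((Nat.card G).factorization p - 1) ∣ Cfsg.charDegree (ψ : G → ℂ) := by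
  classical
  haveI := Fintype.ofFinite G
  have hchar : ∀ η : Cfsg.IrrCharacter G, p ^ ((Nat.card G).factorization p - 1) ∣
      Cfsg.charDegree (η : G → ℂ) ↔ (Nat.card G).factorization p - 1
        ≤ (Cfsg.charDegree (η : G → ℂ)).factorization p := fun η =>
    hM.1.pow_dvd_iff_le_factorization (Cfsg.Agent.Blocks.irr_charDegree η).2
  rw [hchar] at hdiv ⊢
  obtain ⟨w, hw⟩ := Cfsg.Agent.Blocks.exists_defectClass hM hB
  have hle := Cfsg.Agent.Blocks.degree_factorization_le χ p
  rcases hle.eq_or_lt with heq | hlt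
  · have hs := (Cfsg.Agent.Blocks.singleton_block_iff hM χ).2 heq
    rw [Cfsg.Agent.Blocks.block_eq_blockOf hM hB hχ, hs, Set.mem_singleton_iff] at hψ
    rw [hψ]; exact hdiv
  · have h0 : Cfsg.blockHeight p B (χ : G → ℂ) = 0 := by
      by_contra h
      have := Cfsg.Agent.Blocks.add_two_le_of_height hM hB hχ h hlt
      omega
    have h1 := (Cfsg.Agent.Blocks.blockHeight_zero_iff hM hB hw hχ).1 h0
    have h2 := Cfsg.Agent.Blocks.le_degree_factorization hM hw hψ
    omega

end Cfsg.Agent.S4499
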