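import Cfsg.Statements.S4636
-- no helpers

set_option autoImplicit false
open scoped Pointwise
open Cfsg

namespace Cfsg.Agent.S4636

/-- Let P be a nontrivial cyclic p-subgroup of the finite group G and Z its subgroup of order p. For every x outside N_G(Z), P meets its conjugate xPx⁻¹ trivially; consequently N_G(Q) ≤ N_G(Z) for every nontrivial subgroup Q of P. -/
theorem result {G : Type*} [Group G] [Finite G] (p : ℕ) [Fact p.Prime] (P : Subgroup G) (hP : IsPGroup p P) (hP1 : P ≠ ⊥) (hcyc : IsCyclic P) (Z : Subgroup G) (hZ : Z ≤ P) (hZcard : Nat.card Z = p) : (∀ x : G, x ∉ Subgroup.normalizer (Z : Set G) → P ⊓ MulAut.conj x • P = ⊥) ∧ ∀ Q : Subgroup G, Q ≤ P → Q ≠ ⊥ → Subgroup.normalizer (Q : Set G) ≤ Subgroup.normalizer (Z : Set G) := by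
  classical
  have huniq : ∀ w ∈ P, w ^ p = 1 → w ∈ Z := by
    intro w hw hwp
    haveI := Fintype.ofFinite P
    let S := Finset.univ.filter (fun a : P => a ^ p = 1)
    let T := Finset.univ.filter (fun a : P => (a : G) ∈ Z)
    have hTS : T ⊆ S := by
      intro a ha
      simp only [T, Finset.mem_filter_univ] at ha
      simp only [S, Finset.mem_filter_univ]
      apply Subtype.ext
      have := congrArg Subtype.val (pow_card_eq_one' : (⟨(a : G), ha⟩ : Z) ^ Nat.card Z = 1)
      simpa [hZcard] using this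
    have hS : S.card ≤ p := IsCyclic.card_pow_eq_one_le (Fact.out : p.Prime).pos
    have hT : T.card = p := by
      rw [← Fintype.card_subtype, ← Nat.card_eq_fintype_card, ← hZcard]
      exact Nat.card_congr (Subgroup.subgroupOfEquivOfLe hZ).toEquiv
    have hST : S ⊆ T := (Finset.eq_of_subset_of_card_le hTS (by omega)).ge
    have hwS : (⟨w, hw⟩ : P) ∈ S := by
      simp only [S, Finset.mem_filter_univ]
      exact Subtype.ext (by simpa using hwp)
    simpa [T] using hST hwS
  have hsub : ∀ Q : Subgroup G, Q ≤ P → Q ≠ ⊥ → Z ≤ Q := by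
    intro Q hQ hQ1
    obtain ⟨k, hk⟩ := (hP.to_le hQ).exists_card_eq
    have hk0 : k ≠ 0 := fun e => hQ1 (by rw [← Subgroup.card_eq_one, hk, e, pow_zero])
    obtain ⟨w, hw⟩ := exists_prime_orderOf_dvd_card' p (G := Q) (by rw [hk]; exact dvd_pow_self p hk0)
    have hwZ : (w : G) ∈ Z := huniq _ (hQ w.2) (by
      have := congrArg Subtype.val (hw ▸ pow_orderOf_eq_one w : w ^ p = 1)
      simpa using this)
    have hle : Subgroup.zpowers (w : G) ≤ Z := (Subgroup.zpowers_le).2 hwZ
    have heq : Subgroup.zpowers (w : G) = Z := Subgroup.eq_of_le_of_card_ge hle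
      (by rw [hZcard, Nat.card_zpowers, Subgroup.orderOf_coe, hw])
    rw [← heq, Subgroup.zpowers_le]
    exact w.2
  have hnorm : ∀ x : G, Z ≤ MulAut.conj x • P → x ∈ Subgroup.normalizer (Z : Set G) := by
    intro x hx
    have hfwd : ∀ z ∈ Z, x⁻¹ * z * x ∈ Z := by
      intro z hz
      apply huniq
      · have := hx hz
        rw [Subgroup.mem_pointwise_smul_iff_inv_smul_mem] at this
        simpa [MulAut.smul_def] using this
      · have h1 : z ^ p = 1 := by
          simpa [hZcard] using congrArg Subtype.val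
            (pow_card_eq_one' : (⟨z, hz⟩ : Z) ^ Nat.card Z = 1)
        have := conj_pow (i := p) (a := x⁻¹) (b := z)
        rw [inv_inv] at this
        rw [this, h1]
        simp
    rw [Subgroup.mem_set_normalizer_iff'']
    intro y
    refine ⟨hfwd y, fun hy => ?_⟩
    let f : Z → Z := fun z => ⟨x⁻¹ * (z : G) * x, hfwd z z.2⟩
    have hf : Function.Surjective f :=
      Finite.surjective_of_injective fun a b e => Subtype.ext
        (mul_left_cancel (mul_right_cancel (congrArg Subtype.val e)))
    obtain ⟨z, hz⟩ := hf ⟨_, hy⟩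
    have := mul_left_cancel (mul_right_cancel (congrArg Subtype.val hz))
    exact this ▸ z.2
  refine ⟨fun x hx => ?_, fun Q hQ hQ1 x hx => ?_⟩
  · by_contra h
    exact hx (hnorm x ((hsub _ inf_le_left h).trans inf_le_right))
  · refine hnorm x fun z hz => ?_
    rw [Subgroup.mem_pointwise_smul_iff_inv_smul_mem]
    have := (Subgroup.mem_set_normalizer_iff''.1 hx z).1 (hsub Q hQ hQ1 hz)
    simpa [MulAut.smul_def] using hQ this

end Cfsg.Agent.S4636
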