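import Cfsg.Statements.S4650
import Cfsg.Agent.Blocks.LocalFree

set_option autoImplicit false
set_option linter.all false
open Cfsg

namespace Cfsg.Agent.S4650

/-- Let B be a block of the finite group G relative to a maximal ideal M of the algebraic integers containing the prime p, with a nontrivial commutative defect group P; let c be a block of C_G(P) inducing B and T the stabilizer of c in N_G(P). Then T/C_G(P) acts freely on the non-identity elements of P (an element of T fixing a non-identity element of P under conjugation lies in C_G(P)) if and only if, for every nontrivial subgroup Q of P, the block of C_G(Q) induced by c inside C_G(Q) is a nilpotent block of C_G(Q). -/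
theorem result {G : Type*} [Group G] [Finite G] (p : ℕ) [Fact p.Prime] (M : Ideal Cfsg.AlgInt) (hM : Cfsg.IsPModular p M) (B : Set (Cfsg.IrrCharacter G)) (hB : Cfsg.IsPBlock M B) (P : Subgroup G) (hPD : Cfsg.IsDefectGroup p M B P) (hPab : ∀ x ∈ P, ∀ y ∈ P, x * y = y * x) (hP1 : P ≠ ⊥) (c : Set (Cfsg.IrrCharacter (Subgroup.centralizer (P : Set G)))) (hc : Cfsg.IsInducedBlock M (Subgroup.centralizer (P : Set G)) c B) (T : Subgroup G) (hT : ∀ g : G, g ∈ T ↔ (g ∈ Subgroup.normalizer (P : Set G) ∧ Cfsg.StabilizesBlock (Subgroup.centralizer (P : Set G)) c g)) : (∀ g ∈ T, ∀ x ∈ P, x ≠ 1 → g * x * g⁻¹ = x → g ∈ Subgroup.centralizer (P : Set G)) ↔ ∀ Q : Subgroup G, Q ≤ P → Q ≠ ⊥ → ∀ f : Set (Cfsg.IrrCharacter (Subgroup.centralizer (Q : Set G))), Cfsg.IsInducedBlockIn M (Subgroup.centralizer (Q : Set G)) (Subgroup.centralizer (P : Set G)) c f → Cfsg.IsNilpotentBlock p M f := by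
  classical
  haveI := Fintype.ofFinite G
  have hmax := Agent.Blocks.maximal_of_inducing hM hPD hPab hc
  have hTs : ∀ g, g ∈ T ↔ g ∈ Agent.Blocks.stab P c := fun g =>
    (hT g).trans (Agent.Blocks.mem_stab hM hmax.1.1.2 g).symm
  constructor
  · intro h Q hQP hQ1 f hf
    refine (Agent.Blocks.local_nilpotent_iff hM hmax hPab
      (Agent.Blocks.below_of_inducedIn hM hmax hPab hQP hf)).2 fun y hy hyC => ?_
    obtain ⟨⟨x, hxQ⟩, hx1⟩ := Subgroup.ne_bot_iff_exists_ne_one.1 hQ1
    refine h y ((hTs y).2 hy) x (hQP hxQ) (fun he => hx1 (Subtype.ext he)) ?_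
    rw [← Subgroup.mem_centralizer_iff.1 hyC x hxQ, mul_inv_cancel_right]
  · intro h g hg x hx hx1 hfix
    have hQP : Subgroup.zpowers x ≤ P := Subgroup.zpowers_le.2 hx
    obtain ⟨f, hf⟩ := Agent.Blocks.exists_inducedIn hM hmax hPab hQP
    refine (Agent.Blocks.local_nilpotent_iff hM hmax hPab
      (Agent.Blocks.below_of_inducedIn hM hmax hPab hQP hf)).1
      (h _ hQP (by rwa [ne_eq, Subgroup.zpowers_eq_bot]) f hf) g ((hTs g).1 hg) ?_
    rw [Agent.Blocks.centralizer_zpowers, Subgroup.mem_centralizer_singleton_iff]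
    exact mul_inv_eq_iff_eq_mul.1 hfix

end Cfsg.Agent.S4650
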