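import Cfsg.Statements.S4652
import Cfsg.Agent.Blocks.DefectNumber

set_option autoImplicit false
set_option linter.all false
open Cfsg

namespace Cfsg.Agent.S4652

/-- Fix a prime p and a maximal ideal M of the algebraic integers containing p. The defect groups of the principal p-block of a finite group G are exactly the Sylow p-subgroups of G: a subgroup D is a defect group of the principal block if and only if D is a Sylow p-subgroup. -/
theorem result {G : Type*} [Group G] [Fintype G] (p : ℕ) [Fact p.Prime] (M : Ideal Cfsg.AlgInt) (hM : Cfsg.IsPModular p M) (D : Subgroup G) : Cfsg.IsDefectGroup p M (Cfsg.principalBlock M G) D ↔ ∃ S : Sylow p G, (S : Subgroup G) = D := by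
  classical
  let one : Cfsg.IrrCharacter G := Cfsg.Agent.Char.oneIrr G
  have hfun : (one : G → ℂ) = fun _ => (1 : ℂ) := funext fun g => Cfsg.Agent.Char.oneIrr_apply g
  have hB : Cfsg.IsPBlock M (Cfsg.principalBlock M G) := ⟨one, by rw [hfun]; rfl⟩
  have hmem : one ∈ Cfsg.principalBlock M G := by
    have := Cfsg.Agent.Blocks.self_mem_blockOf hM one
    rwa [hfun] at this
  have hd : Cfsg.blockDefect p (Cfsg.principalBlock M G) = (Nat.card G).factorization p := by
    have h1 : (Cfsg.charDegree (one : G → ℂ)).factorization p = 0 := by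
      have : Cfsg.charDegree (one : G → ℂ) = 1 := by simp [Cfsg.charDegree, hfun]
      rw [this]; simp
    have h2 : sInf ((fun χ : Cfsg.IrrCharacter G => (Cfsg.charDegree (χ : G → ℂ)).factorization p) ''
        Cfsg.principalBlock M G) = 0 :=
      Nat.le_zero.1 (Nat.sInf_le ⟨one, hmem, h1⟩)
    rw [Cfsg.blockDefect, h2, Nat.sub_zero]
  have hsyl : ∀ E, Cfsg.IsDefectGroup p M (Cfsg.principalBlock M G) E →
      ∃ S : Sylow p G, (S : Subgroup G) = E := by
    intro E hE
    have hc := Cfsg.Agent.Blocks.card_defectGroup hM hB hE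
    rw [hd] at hc
    obtain ⟨S, hS⟩ := (Cfsg.Agent.Blocks.defectGroup_isPGroup hE).exists_le_sylow
    refine ⟨S, (Cfsg.Agent.Blocks.eq_of_le_of_card_le' hS ?_).symm⟩
    rw [hc, S.card_eq_multiplicity]
  refine ⟨hsyl D, ?_⟩
  rintro ⟨S, rfl⟩
  obtain ⟨E, hE⟩ := Cfsg.Agent.Blocks.exists_defectGroup hM hB
  obtain ⟨T, hT⟩ := hsyl E hE
  obtain ⟨g, hg⟩ := MulAction.exists_smul_eq G T S
  have : (S : Subgroup G) = Cfsg.Agent.Blocks.cj g E := by
    rw [← hg, ← hT, Sylow.coe_subgroup_smul]
    rfl
  rw [this]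
  exact Cfsg.Agent.Blocks.isDefectGroup_cj hE g

end Cfsg.Agent.S4652
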