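import Cfsg.Statements.S4653
import Cfsg.Agent.Blocks.HeightZero

set_option autoImplicit false
set_option linter.all false
open Cfsg

namespace Cfsg.Agent.S4653

/-- Fix a prime p and a maximal ideal M of the algebraic integers containing p. Let P be a normal p-subgroup of the finite group G and B a p-block of G. Then the idempotent of B is supported on C_G(P): its coefficient at every element of G outside C_G(P) is zero. -/
theorem result {G : Type*} [Group G] [Fintype G] (p : ℕ) [Fact p.Prime] (M : Ideal Cfsg.AlgInt) (hM : Cfsg.IsPModular p M) (P : Subgroup G) [P.Normal] (hP : IsPGroup p P) (B : Set (Cfsg.IrrCharacter G)) (hB : Cfsg.IsPBlock M B) (g : G) (hg : g ∉ Subgroup.centralizer (P : Set G)) : Cfsg.blockCoeff B g = 0 := by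
  classical
  haveI := Fintype.ofFinite ↥(Subgroup.centralizer (P : Set G))
  have hfi := Blocks.idem_block_mem hM hB
  have hfc := Blocks.isCentral_idem B
  set t := Blocks.trunc (Subgroup.centralizer (P : Set G)) Set.univ (Blocks.idem B) with ht
  set F := Blocks.emb (Subgroup.centralizer (P : Set G)) t with hF
  have hnor : (Subgroup.centralizer (P : Set G)).Normal := Subgroup.Normal.mk fun c hc x =>
    Blocks.centralizer_conj_of_le_normalizer (P := P) (H := ⊤)
      (by intro y _; exact (Subgroup.normalizer_eq_top (H := P)) ▸ Subgroup.mem_top y)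
      x (Subgroup.mem_top x) c hc
  have hFc : Blocks.IsCentral F := Blocks.isCentral_emb_of_invariant _ (Blocks.invariant_trunc _ hfc)
  have hFi : F ∈ Blocks.intAlg hM G := Blocks.emb_mem hM _ (Blocks.trunc_mem hM _ _ hfi)
  let A : Set (Cfsg.IrrCharacter ↥(Subgroup.centralizer (P : Set G))) :=
    {ψ | ¬ Cfsg.MemLocalIdeal M (Blocks.omega (ψ : _ → ℂ) t)}
  have htc := Blocks.isCentral_trunc_univ (Subgroup.centralizer (P : Set G)) hfc
  have hti : t ∈ Blocks.intAlg hM ↥(Subgroup.centralizer (P : Set G)) := Blocks.trunc_mem hM _ _ hfi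
  have hA : Blocks.ConjClosed (Subgroup.centralizer (P : Set G)) A := by
    intro η hη x hl
    refine hη ?_
    have : Blocks.omega (Char.conjIrr (Subgroup.centralizer (P : Set G)) η x : _ → ℂ) t
        = Blocks.omega (η : _ → ℂ) t := by
      rw [Blocks.omega, Blocks.omega, Blocks.conjIrr_apply, map_one]
      congr 1
      refine Fintype.sum_equiv (Char.conjEquiv (Subgroup.centralizer (P : Set G)) x).toEquiv _ _ fun n => ?_
      show _ = t.coeff (Char.conjEquiv (Subgroup.centralizer (P : Set G)) x n) * _
      rw [Blocks.invariant_trunc _ hfc x n, Blocks.conjIrr_apply]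
      rfl
    rwa [← this]
  have hAu : Blocks.IsBlockUnion M A := fun ψ hψ ψ' hψ' hl => hψ (by
    have h := Blocks.li_omega_sub hM hψ' htc hti
    have h2 := Blocks.li_add hM h hl
    rwa [sub_add_cancel] at h2)
  have hkey : Blocks.idem B = Blocks.emb (Subgroup.centralizer (P : Set G)) (Blocks.idem A) := by
    refine hfc.eq_of_omega (Blocks.isCentral_emb_of_invariant _ (Blocks.invariant_idem _ hA)) fun χ => ?_
    obtain ⟨θ, hθ⟩ := Blocks.exists_constituent (Subgroup.centralizer (P : Set G)) χ
    have h1 := Blocks.li_omega_of_vanish hM hP χ (hfc.sub hFc) (sub_mem hfi hFi) (fun x hx => by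
      rw [MonoidAlgebra.coeff_sub, Finsupp.sub_apply, hF, Blocks.emb_of_mem _ _ hx, ht,
        Blocks.trunc_coeff, if_pos (Set.mem_univ _), sub_self]
      exact Blocks.li_zero hM)
    rw [Blocks.omega_sub, hF, Blocks.omega_emb_eq _ χ θ hθ (Blocks.invariant_trunc _ hfc),
      Blocks.omega_idem] at h1
    rw [Blocks.omega_idem, Blocks.omega_emb_idem _ χ θ hθ hA]
    by_cases hB' : χ ∈ B
    · rw [if_pos hB'] at h1 ⊢
      rw [if_pos (show θ ∈ A from fun hl => Blocks.not_li_one hM (by
        have h3 := Blocks.li_add hM h1 hl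
        rwa [sub_add_cancel] at h3))]
    · rw [if_neg hB', zero_sub] at h1
      rw [if_neg hB', if_neg (show θ ∉ A from fun h => h (by simpa using Blocks.li_neg h1))]
  show (Blocks.idem B).coeff g = 0
  rw [hkey, Blocks.emb_of_not_mem _ _ hg]

end Cfsg.Agent.S4653
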