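import Cfsg.Statements.S4657
import Cfsg.Agent.Blocks.HeightZero

set_option autoImplicit false
set_option linter.all false
open Cfsg

namespace Cfsg.Agent.S4657

/-- Fix a prime p and a maximal ideal M of the algebraic integers containing p. Every Brauer pair (P, e) of the finite group G is a Brauer pair of exactly one p-block B of G. -/
theorem result {G : Type*} [Group G] [Fintype G] (p : ℕ) [Fact p.Prime] (M : Ideal Cfsg.AlgInt) (hM : Cfsg.IsPModular p M) (P : Subgroup G) (e : Set (Cfsg.IrrCharacter (Subgroup.centralizer (P : Set G)))) (hPe : Cfsg.IsBrauerPair p M P e) : ∃! B : Set (Cfsg.IrrCharacter G), Cfsg.IsBrauerPairOf p M B P e := by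
  classical
  haveI := Fintype.ofFinite ↥(Subgroup.centralizer (P : Set G))
  obtain ⟨ξ₀, hξ₀⟩ := Blocks.block_nonempty hM hPe.2
  obtain ⟨B', hB', hBφ⟩ := (Blocks.isModHom_trunc hM hPe.1 (H := Subgroup.centralizer (P : Set G)) le_rfl
    (Blocks.centralizer_conj_mem _) ξ₀).exists_block
  obtain ⟨χ', hχ'⟩ := Blocks.block_nonempty hM hB'
  have hω : ∀ (B : Set (Cfsg.IrrCharacter G)) (ξ : Cfsg.IrrCharacter ↥(Subgroup.centralizer (P : Set G))),
      Cfsg.brauerOmega P (Cfsg.blockCoeff B) (ξ : _ → ℂ)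
        = Blocks.omega (ξ : _ → ℂ) (Blocks.trunc (Subgroup.centralizer (P : Set G))
          ((Subgroup.centralizer (P : Set G)) : Set G) (Blocks.idem B)) := by
    intro B ξ
    rw [Cfsg.brauerOmega, finsum_eq_sum_of_fintype, Blocks.omega, Blocks.ev, Finset.sum_div]
    refine Finset.sum_congr rfl fun x _ => ?_
    rw [Blocks.trunc_coeff, if_pos (SetLike.mem_coe.2 x.2)]
    rfl
  refine ⟨B', ⟨hPe, hB', fun ξ hξ => ?_⟩, ?_⟩
  · have h1 := hBφ χ' hχ' _ (Blocks.isCentral_idem B') (Blocks.idem_block_mem hM hB')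
    rw [Blocks.omega_idem, if_pos hχ'] at h1
    have h2 := Blocks.li_omega_sub hM (Blocks.sameBlock_of_mem hM hPe.2 hξ hξ₀)
      (Blocks.isCentral_trunc (Blocks.centralizer_conj_mem _) (Blocks.isCentral_idem B'))
      (Blocks.trunc_mem hM (Subgroup.centralizer (P : Set G)) ((Subgroup.centralizer (P : Set G)) : Set G)
        (Blocks.idem_block_mem hM hB'))
    rw [hω]
    simpa using Blocks.li_add hM h2 h1
  · rintro B ⟨-, hB, h⟩
    by_contra hne
    have h1 := hBφ χ' hχ' _ (Blocks.isCentral_idem B) (Blocks.idem_block_mem hM hB)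
    rw [Blocks.omega_idem, if_neg (Set.disjoint_left.1 (Blocks.disjoint_blocks hM hB' hB (Ne.symm hne)) hχ'),
      sub_zero] at h1
    have h2 := h ξ₀ hξ₀
    rw [hω] at h2
    exact Blocks.not_li_one hM (by simpa using Blocks.li_sub hM h1 h2)

end Cfsg.Agent.S4657
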