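import Cfsg.Statements.S4661
import Cfsg.Agent.Blocks.PairLocal

set_option autoImplicit false
set_option linter.all false
open Cfsg

namespace Cfsg.Agent.S4661

/-- Fix a prime p and a maximal ideal M of the algebraic integers containing p. Let (P, e) be a maximal Brauer pair of the p-block B of the finite group G, Q ≤ P, and f the p-block of C_G(Q) with (Q, f) ≤ (P, e). Then C_P(Q) is contained in a defect group of f (as a block of the group C_G(Q)); and for some x in G the conjugate pair (x Q x⁻¹, conjugate of f) again lies below (P, e) and C_P(x Q x⁻¹) is a defect group of the conjugate of f in C_G(x Q x⁻¹). -/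
theorem result {G : Type*} [Group G] [Fintype G] (p : ℕ) [Fact p.Prime] (M : Ideal Cfsg.AlgInt) (hM : Cfsg.IsPModular p M) (B : Set (Cfsg.IrrCharacter G)) (P Q : Subgroup G) (e : Set (Cfsg.IrrCharacter (Subgroup.centralizer (P : Set G)))) (f : Set (Cfsg.IrrCharacter (Subgroup.centralizer (Q : Set G)))) (hmax : Cfsg.IsMaximalBrauerPair p M B P e) (hQP : Q ≤ P) (hf : Cfsg.IsPBlock M f) (hle : Cfsg.SubpairLE p M Q f P e) : (∃ D : Subgroup (Subgroup.centralizer (Q : Set G)), Cfsg.IsDefectGroup p M f D ∧ (P ⊓ Subgroup.centralizer (Q : Set G)).subgroupOf (Subgroup.centralizer (Q : Set G)) ≤ D) ∧ ∃ x : G, Cfsg.SubpairLE p M (Q.map (MulAut.conj x).toMonoidHom) (Cfsg.conjBlock Q x f) P e ∧ Cfsg.IsDefectGroup p M (Cfsg.conjBlock Q x f) ((P ⊓ Subgroup.centralizer ((Q.map (MulAut.conj x).toMonoidHom) : Set G)).subgroupOf (Subgroup.centralizer ((Q.map (MulAut.conj x).toMonoidHom) : Set G))) := by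
  classical
  haveI := Fintype.ofFinite (Subgroup.centralizer (Q : Set G))
  refine ⟨?_, ?_⟩
  · obtain ⟨g, hg, -⟩ := Cfsg.Agent.Blocks.exists_above hM hmax.1.1 hle
    obtain ⟨D, hD, hle0⟩ := Cfsg.Agent.Blocks.exists_le_defect hM le_rfl hf rfl hg
    exact ⟨D, hD, fun u hu =>
      hle0 ⟨⟨hu.1, Subgroup.centralizer_le_normalizer _ hu.2⟩, hu.2⟩⟩
  · obtain ⟨x, hx, hxmax⟩ := Finset.exists_max_image
      (Finset.univ.filter fun x : G => Cfsg.SubpairLE p M (Cfsg.Agent.Blocks.cj x Q)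
        (Cfsg.Agent.Blocks.imgSet (Cfsg.Agent.Blocks.cjC x Q) f) P e)
      (fun x => Nat.card (P ⊓ Subgroup.centralizer
        ((Cfsg.Agent.Blocks.cj x Q : Subgroup G) : Set G) : Subgroup G))
      ⟨1, Finset.mem_filter.2 ⟨Finset.mem_univ _, by
        have h : Cfsg.SubpairLE p M (Cfsg.Agent.Blocks.cp 1 ⟨Q, f⟩).1
            (Cfsg.Agent.Blocks.cp 1 ⟨Q, f⟩).2 P e := by
          rw [Cfsg.Agent.Blocks.cp_one]; exact hle
        exact h⟩⟩
    rw [Finset.mem_filter] at hx
    refine ⟨x, ?_, ?_⟩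
    · rw [Cfsg.Agent.Blocks.conjBlock_eq]; exact hx.2
    · rw [Cfsg.Agent.Blocks.conjBlock_eq]
      show Cfsg.IsDefectGroup p M (Cfsg.Agent.Blocks.imgSet (Cfsg.Agent.Blocks.cjC x Q) f)
        ((P ⊓ Subgroup.centralizer ((Cfsg.Agent.Blocks.cj x Q : Subgroup G) : Set G)).subgroupOf
          (Subgroup.centralizer ((Cfsg.Agent.Blocks.cj x Q : Subgroup G) : Set G)))
      haveI := Fintype.ofFinite
        (Subgroup.centralizer ((Cfsg.Agent.Blocks.cj x Q : Subgroup G) : Set G))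
      refine (Cfsg.Agent.Blocks.isDefectGroup_iff_max hM le_rfl
        (Subgroup.centralizer_le_normalizer _) (Cfsg.Agent.Blocks.centralizer_local _)
        (Cfsg.Agent.Blocks.isPBlock_imgSet _ hf) rfl hmax hx.2).2 fun y hy => ?_
      rw [Cfsg.Agent.Blocks.card_cent_conj, Cfsg.Agent.Blocks.cj_cj]
      refine hxmax (y * x) (Finset.mem_filter.2 ⟨Finset.mem_univ _, ?_⟩)
      have h : Cfsg.SubpairLE p M
          (Cfsg.Agent.Blocks.cp y (Cfsg.Agent.Blocks.cp x ⟨Q, f⟩)).1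
          (Cfsg.Agent.Blocks.cp y (Cfsg.Agent.Blocks.cp x ⟨Q, f⟩)).2 P e := hy
      rw [Cfsg.Agent.Blocks.cp_cp] at h
      exact h

end Cfsg.Agent.S4661
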