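import Cfsg.Statements.S4662
import Cfsg.Agent.Blocks.PairLocal

set_option autoImplicit false
set_option linter.all false
open Cfsg

namespace Cfsg.Agent.S4662

/-- Fix a prime p and a maximal ideal M of the algebraic integers containing p. Let (P, e) be a maximal Brauer pair of the p-block B of the finite group G, Q ≤ P, and f the p-block of C_G(Q) with (Q, f) ≤ (P, e). Let T be the stabilizer of f in N_G(Q). Then the idempotent of f is a block idempotent of T, and N_P(Q) is contained in a defect group of that block of T; moreover for some x in G the conjugate pair (x Q x⁻¹, conjugate of f) again lies below (P, e) and, with T' the stabilizer of the conjugate of f in N_G(x Q x⁻¹), N_P(x Q x⁻¹) is a defect group of the block of T' whose idempotent is that of the conjugate of f. -/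
theorem result {G : Type*} [Group G] [Fintype G] (p : ℕ) [Fact p.Prime] (M : Ideal Cfsg.AlgInt) (hM : Cfsg.IsPModular p M) (B : Set (Cfsg.IrrCharacter G)) (P Q : Subgroup G) (e : Set (Cfsg.IrrCharacter (Subgroup.centralizer (P : Set G)))) (f : Set (Cfsg.IrrCharacter (Subgroup.centralizer (Q : Set G)))) (hmax : Cfsg.IsMaximalBrauerPair p M B P e) (hQP : Q ≤ P) (hf : Cfsg.IsPBlock M f) (hle : Cfsg.SubpairLE p M Q f P e) (T : Subgroup G) (hT : ∀ y : G, y ∈ T ↔ y ∈ Subgroup.normalizer (Q : Set G) ∧ Cfsg.StabilizesBlock (Subgroup.centralizer (Q : Set G)) f y) : (∃ F : Set (Cfsg.IrrCharacter T), Cfsg.IsPBlock M F ∧ (∀ t : T, Cfsg.blockCoeff F t = Cfsg.subgroupBlockCoeff (Subgroup.centralizer (Q : Set G)) f (t : G)) ∧ ∃ D : Subgroup T, Cfsg.IsDefectGroup p M F D ∧ (P ⊓ Subgroup.normalizer (Q : Set G)).subgroupOf T ≤ D) ∧ ∃ x : G, Cfsg.SubpairLE p M (Q.map (MulAut.conj x).toMonoidHom) (Cfsg.conjBlock Q x f) P e ∧ ∀ (T' :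 Subgroup G), (∀ y : G, y ∈ T' ↔ y ∈ Subgroup.normalizer ((Q.map (MulAut.conj x).toMonoidHom) : Set G) ∧ Cfsg.StabilizesBlock (Subgroup.centralizer ((Q.map (MulAut.conj x).toMonoidHom) : Set G)) (Cfsg.conjBlock Q x f) y) → ∃ F' : Set (Cfsg.IrrCharacter T'), Cfsg.IsPBlock M F' ∧ (∀ t : T', Cfsg.blockCoeff F' t = Cfsg.subgroupBlockCoeff (Subgroup.centralizer ((Q.map (MulAut.conj x).toMonoidHom) : Set G)) (Cfsg.conjBlock Q x f) (t : G)) ∧ Cfsg.IsDefectGroup p M F' ((P ⊓ Subgroup.normalizer ((Q.map (MulAut.conj x).toMonoidHom) : Set G)).subgroupOf T') := by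
  classical
  haveI := Fintype.ofFinite T
  obtain ⟨hCT, hQT, hTN, hTf, -⟩ := Cfsg.Agent.Blocks.stabilizer_local hM hf hT
  have hQf := Cfsg.Agent.Blocks.isBrauerPair_of_le hM hmax.1.1 hle
  refine ⟨?_, ?_⟩
  · obtain ⟨F, hF, hFe⟩ := Cfsg.Agent.Blocks.exists_local_block hM hQf hCT hQT hTN hTf
    obtain ⟨g, hg, -⟩ := Cfsg.Agent.Blocks.exists_above hM hmax.1.1 hle
    obtain ⟨D, hD, hle0⟩ := Cfsg.Agent.Blocks.exists_le_defect hM hCT hF hFe hg
    exact ⟨F, hF, (Cfsg.Agent.Blocks.emb_eq_iff hCT F).2 hFe, D, hD, fun u hu => hle0 ⟨hu, u.2⟩⟩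
  · obtain ⟨x, hx, hxmax⟩ := Finset.exists_max_image
      (Finset.univ.filter fun x : G => Cfsg.SubpairLE p M (Cfsg.Agent.Blocks.cj x Q)
        (Cfsg.Agent.Blocks.imgSet (Cfsg.Agent.Blocks.cjC x Q) f) P e)
      (fun x => Nat.card (P ⊓ Subgroup.normalizer
        ((Cfsg.Agent.Blocks.cj x Q : Subgroup G) : Set G) : Subgroup G))
      ⟨1, Finset.mem_filter.2 ⟨Finset.mem_univ _, by
        have h : Cfsg.SubpairLE p M (Cfsg.Agent.Blocks.cp 1 ⟨Q, f⟩).1
            (Cfsg.Agent.Blocks.cp 1 ⟨Q, f⟩).2 P e := by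
          rw [Cfsg.Agent.Blocks.cp_one]; exact hle
        exact h⟩⟩
    rw [Finset.mem_filter] at hx
    refine ⟨x, ?_, ?_⟩
    · rw [Cfsg.Agent.Blocks.conjBlock_eq]; exact hx.2
    · rw [Cfsg.Agent.Blocks.conjBlock_eq]
      show ∀ (T' : Subgroup G),
        (∀ y : G, y ∈ T' ↔ y ∈ Subgroup.normalizer ((Cfsg.Agent.Blocks.cj x Q : Subgroup G) : Set G) ∧
          Cfsg.StabilizesBlock (Subgroup.centralizer ((Cfsg.Agent.Blocks.cj x Q : Subgroup G) : Set G))
            (Cfsg.Agent.Blocks.imgSet (Cfsg.Agent.Blocks.cjC x Q) f) y) →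
        ∃ F' : Set (Cfsg.IrrCharacter T'), Cfsg.IsPBlock M F' ∧
          (∀ t : T', Cfsg.blockCoeff F' t = Cfsg.subgroupBlockCoeff
            (Subgroup.centralizer ((Cfsg.Agent.Blocks.cj x Q : Subgroup G) : Set G))
            (Cfsg.Agent.Blocks.imgSet (Cfsg.Agent.Blocks.cjC x Q) f) (t : G)) ∧
          Cfsg.IsDefectGroup p M F'
            ((P ⊓ Subgroup.normalizer ((Cfsg.Agent.Blocks.cj x Q : Subgroup G) : Set G)).subgroupOf T')
      intro T' hT'
      haveI := Fintype.ofFinite T'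
      have hf' := Cfsg.Agent.Blocks.isPBlock_imgSet (Cfsg.Agent.Blocks.cjC x Q) hf
      obtain ⟨hC', hQ', hN', hf2, -⟩ := Cfsg.Agent.Blocks.stabilizer_local hM hf' hT'
      obtain ⟨F, hF, hFe⟩ := Cfsg.Agent.Blocks.exists_local_block hM
        (Cfsg.Agent.Blocks.isBrauerPair_of_le hM hmax.1.1 hx.2) hC' hQ' hN' hf2
      refine ⟨F, hF, (Cfsg.Agent.Blocks.emb_eq_iff hC' F).2 hFe, ?_⟩
      rw [← Cfsg.Agent.Blocks.inf_stab hM hf' hT' hmax.1.1 hx.2]
      refine (Cfsg.Agent.Blocks.isDefectGroup_iff_max hM hC' hN' hf2 hF hFe hmax hx.2).2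
        fun y hy => ?_
      rw [Cfsg.Agent.Blocks.conj_inf_stab hM hf' hT' hmax.1.1 hy, Cfsg.Agent.Blocks.card_cj,
        Cfsg.Agent.Blocks.inf_stab hM hf' hT' hmax.1.1 hx.2, Cfsg.Agent.Blocks.cj_cj]
      refine hxmax (y * x) (Finset.mem_filter.2 ⟨Finset.mem_univ _, ?_⟩)
      have h : Cfsg.SubpairLE p M
          (Cfsg.Agent.Blocks.cp y (Cfsg.Agent.Blocks.cp x ⟨Q, f⟩)).1
          (Cfsg.Agent.Blocks.cp y (Cfsg.Agent.Blocks.cp x ⟨Q, f⟩)).2 P e := hy
      rw [Cfsg.Agent.Blocks.cp_cp] at h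
      exact h

end Cfsg.Agent.S4662
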