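import Cfsg.Statements.S4665
import Cfsg.Agent.Blocks.RegSpan

set_option autoImplicit false
set_option linter.all false
open Cfsg

namespace Cfsg.Agent.S4665

/-- Fix a prime p, a maximal ideal M of the algebraic integers containing p, and a p-block B of the finite group G, and let p^a be the p-part of the order of G. Let χ be an integer combination of the irreducible characters in B. If the function that agrees with χ on p-regular elements and vanishes on p-singular elements is again an integer combination of the irreducible characters in B, then p^a divides χ(1). -/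
theorem result {G : Type*} [Group G] [Fintype G] (p : ℕ) [Fact p.Prime] (M : Ideal Cfsg.AlgInt) (hM : Cfsg.IsPModular p M) (B : Set (Cfsg.IrrCharacter G)) (hB : Cfsg.IsPBlock M B) (χ : G → ℂ) (hχ : (∃ n : Cfsg.IrrCharacter G → ℤ, ∀ g : G, χ g = ∑ᶠ ψ ∈ B, (n ψ : ℂ) * (ψ : G → ℂ) g)) (h0 : (∃ n : Cfsg.IrrCharacter G → ℤ, ∀ g : G, Cfsg.pRegularPart p χ g = ∑ᶠ ψ ∈ B, (n ψ : ℂ) * (ψ : G → ℂ) g)) : ∃ k : ℤ, χ 1 = (p ^ (Nat.card G).factorization p : ℂ) * k := by
  classical
  obtain ⟨n, hn⟩ := h0
  obtain ⟨P⟩ : Nonempty (Sylow p G) := inferInstance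
  haveI := Fintype.ofFinite (P : Subgroup G)
  let one : Cfsg.IrrCharacter (P : Subgroup G) := Cfsg.Agent.Char.oneIrr (P : Subgroup G)
  choose k hk using fun ψ : Cfsg.IrrCharacter G => Cfsg.Agent.Char.exists_nat_classInner
    (Cfsg.Agent.Char.isCharacter_comp (Cfsg.Agent.Char.isCharacter_of_isIrrCharacter ψ.2)
      (P : Subgroup G).subtype) one
  refine ⟨∑ ψ ∈ B.toFinite.toFinset, n ψ * (k ψ : ℤ), ?_⟩
  have h1 : ∑ y : (P : Subgroup G), Cfsg.pRegularPart p χ (y : G) = χ 1 := by
    rw [Finset.sum_eq_single (1 : (P : Subgroup G))]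
    · rw [Cfsg.Agent.Blocks.pRegularPart_apply, OneMemClass.coe_one, orderOf_one,
        if_neg hM.1.not_dvd_one]
    · intro b _ hb
      rw [Cfsg.Agent.Blocks.pRegularPart_apply, if_pos]
      obtain ⟨j, hj⟩ := IsPGroup.iff_orderOf.1 P.2 b
      rw [Subgroup.orderOf_coe, hj]
      refine dvd_pow_self p ?_
      rintro rfl
      exact hb (orderOf_eq_one_iff.1 (by simpa using hj))
    · intro hno; exact absurd (Finset.mem_univ _) hno
  have hcard : ((p : ℂ) ^ (Nat.card G).factorization p) = (Nat.card (P : Subgroup G) : ℂ) := by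
    rw [P.card_eq_multiplicity, Nat.cast_pow]
  rw [← h1, hcard]
  simp only [hn, finsum_mem_eq_finite_toFinset_sum _ B.toFinite]
  rw [Finset.sum_comm]
  push_cast
  rw [Finset.mul_sum]
  refine Finset.sum_congr rfl fun ψ _ => ?_
  rw [← Finset.mul_sum, ← hk ψ, Cfsg.classInner]
  simp only [one, Cfsg.Agent.Char.oneIrr_apply, map_one, mul_one, Subgroup.coe_subtype]
  rw [← mul_assoc, mul_comm (Nat.card (P : Subgroup G) : ℂ), mul_assoc, ← mul_assoc (Nat.card _ : ℂ),
    mul_inv_cancel₀ (by exact_mod_cast Nat.card_pos.ne'), one_mul]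

end Cfsg.Agent.S4665
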