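import Cfsg.Statements.S4666
import Cfsg.Agent.Blocks.RegSpan

set_option autoImplicit false
set_option linter.all false
open Cfsg

namespace Cfsg.Agent.S4666

/-- Fix a prime p and a maximal ideal M of the algebraic integers containing p, and a p-block B of the finite group G of defect d. For every integer combination χ of the irreducible characters in B, p^d times the function that agrees with χ on p-regular elements and vanishes elsewhere is again an integer combination of the irreducible characters in B. -/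
theorem result {G : Type*} [Group G] [Fintype G] (p : ℕ) [Fact p.Prime] (M : Ideal Cfsg.AlgInt) (hM : Cfsg.IsPModular p M) (B : Set (Cfsg.IrrCharacter G)) (hB : Cfsg.IsPBlock M B) (χ : G → ℂ) (hχ : (∃ n : Cfsg.IrrCharacter G → ℤ, ∀ g : G, χ g = ∑ᶠ ψ ∈ B, (n ψ : ℂ) * (ψ : G → ℂ) g)) : (∃ n : Cfsg.IrrCharacter G → ℤ, ∀ g : G, (p ^ Cfsg.blockDefect p B : ℂ) * Cfsg.pRegularPart p χ g = ∑ᶠ ψ ∈ B, (n ψ : ℂ) * (ψ : G → ℂ) g) := by
  classical
  obtain ⟨n, hn⟩ := hχ
  set F := B.toFinite.toFinset with hF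
  set a := (Nat.card G).factorization p with ha
  set d := Cfsg.blockDefect p B with hd
  have hda : d ≤ a := Nat.sub_le _ _
  have hdiv : ∀ η ∈ B, ∀ ψ : Cfsg.IrrCharacter G,
      (p : ℤ) ^ (a - d) ∣ Cfsg.Agent.Blocks.regVal p η ψ := by
    intro η hη ψ
    refine dvd_trans (pow_dvd_pow _ ?_) (Cfsg.Agent.Blocks.pow_dvd_regVal hM η ψ)
    have := Cfsg.Agent.Blocks.degree_factorization_eq hM hB hη
    omega
  choose! c hc using hdiv
  refine ⟨fun ψ => ∑ η ∈ F, n η * c η ψ, fun g => ?_⟩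
  have hp0 : ((p : ℂ) ^ (a - d)) ≠ 0 := pow_ne_zero _ (by exact_mod_cast hM.1.ne_zero)
  refine mul_left_cancel₀ hp0 ?_
  have hpa : ((p : ℂ) ^ (a - d)) * (p : ℂ) ^ d = ((p ^ a : ℕ) : ℂ) := by
    rw [← pow_add, Nat.sub_add_cancel hda, Nat.cast_pow]
  rw [← mul_assoc, hpa, Cfsg.Agent.Blocks.pow_mul_pRegularPart,
    finsum_mem_eq_finite_toFinset_sum _ B.toFinite]
  have h1 : Cfsg.Agent.Blocks.regFun p χ g
      = ∑ η ∈ F, (n η : ℂ) * Cfsg.Agent.Blocks.regFun p (η : G → ℂ) g := by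
    simp only [Cfsg.Agent.Blocks.regFun]
    split_ifs
    · simp
    · rw [hn g, finsum_mem_eq_finite_toFinset_sum _ B.toFinite, Finset.mul_sum]
      exact Finset.sum_congr rfl fun η _ => by ring
  rw [h1, Finset.sum_congr rfl fun η hη => by
    rw [Cfsg.Agent.Blocks.regFun_expand_block hM hB (B.toFinite.mem_toFinset.1 hη), Finset.mul_sum]]
  rw [Finset.sum_comm, Finset.mul_sum]
  refine Finset.sum_congr rfl fun ψ _ => ?_
  push_cast
  rw [Finset.sum_mul, Finset.mul_sum]
  refine Finset.sum_congr rfl fun η hη => ?_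
  rw [hc η (B.toFinite.mem_toFinset.1 hη) ψ]
  push_cast
  ring

end Cfsg.Agent.S4666
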