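import Cfsg.Statements.S4668
import Cfsg.Agent.S4653
import Cfsg.Agent.Blocks.WeakOrth
import Cfsg.Agent.Coprime.AxB

set_option autoImplicit false
set_option linter.all false
open Cfsg

namespace Cfsg.Agent.S4668

/-- Fix a prime p and a maximal ideal M of the algebraic integers containing p. Let Q₀ < Q₁ < ⋯ < Q_m be a strictly increasing chain of p-subgroups of the finite group G and N the intersection of their normalizers. Then every block idempotent of N is supported on C_G(Q_m): for every p-block E of N, the idempotent coefficient of E vanishes at every element of N outside C_G(Q_m). -/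
theorem result {G : Type*} [Group G] [Fintype G] (p : ℕ) [Fact p.Prime] (M : Ideal Cfsg.AlgInt) (hM : Cfsg.IsPModular p M) (m : ℕ) (Q : Fin (m + 1) → Subgroup G) (hQ : StrictMono Q) (hQp : ∀ i, IsPGroup p (Q i)) (N : Subgroup G) (hN : ∀ g : G, g ∈ N ↔ ∀ i, g ∈ Subgroup.normalizer (Q i : Set G)) (E : Set (Cfsg.IrrCharacter N)) (hE : Cfsg.IsPBlock M E) (n : N) (hn : (n : G) ∉ Subgroup.centralizer (Q (Fin.last m) : Set G)) : Cfsg.blockCoeff E n = 0 := by
  classical
  have hFp : Fact p.Prime := ⟨hM.1⟩
  by_contra hne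
  have hreg : ¬ p ∣ orderOf n := by
    intro hd
    refine hne ?_
    have hA := Agent.Blocks.idem_block_mem hM hE
    have h0 := Agent.Blocks.sum_eq_zero_of_singular hM hA hd
      (t := (1 : N)) (by rw [orderOf_one]; exact hM.1.not_dvd_one)
    show (Nat.card N : ℂ)⁻¹ * _ = 0
    rw [finsum_mem_eq_finite_toFinset_sum _ E.toFinite]
    convert mul_zero _
    have h1 := congrArg (starRingEnd ℂ) h0
    rw [map_sum, map_zero] at h1
    rw [← h1]
    refine Finset.sum_congr rfl fun χ _ => ?_
    simp [mul_comm]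
  have hN' : ∀ g : G, g ∈ N ↔ ∀ i, ∀ q : G, q ∈ Q i ↔ g * q * g⁻¹ ∈ Q i := fun g =>
    (hN g).trans (forall_congr' fun i => Subgroup.mem_normalizer_iff)
  have hcent : ∀ i, Q i ⊓ N ≤ Subgroup.centralizer ({(n : G)} : Set G) := by
    intro i a ha
    haveI : ((Q i ⊓ N).subgroupOf N).Normal := ⟨fun c hc g => by
      refine ⟨?_, (g * c * g⁻¹).2⟩
      show (g : G) * (c : G) * (g : G)⁻¹ ∈ Q i
      exact ((hN' g).1 g.2 i c).1 hc.1⟩
    have hmem : n ∈ Subgroup.centralizer (((Q i ⊓ N).subgroupOf N : Subgroup N) : Set N) := by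
      by_contra hc
      exact hne (@Cfsg.Agent.S4653.result N _ _ p _ M hM ((Q i ⊓ N).subgroupOf N) (by assumption)
        (((hQp i).to_le inf_le_left).comap_of_injective N.subtype (Subgroup.subtype_injective N)) E hE n hc)
    exact Subgroup.mem_centralizer_singleton_iff.2 (congrArg Subtype.val
      (Subgroup.mem_centralizer_iff.1 hmem ⟨a, ha.2⟩ ha))
  have hcop : (orderOf (n : G)).Coprime p := by
    rw [Subgroup.orderOf_coe]
    exact (hM.1.coprime_iff_not_dvd.2 hreg).symm
  have key : ∀ i, Q i ≤ Subgroup.centralizer ({(n : G)} : Set G) := by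
    intro i
    induction i using Fin.induction with
    | zero =>
      refine fun q hq => hcent 0 ⟨hq, (hN q).2 fun j => ?_⟩
      exact Subgroup.le_normalizer (hQ.monotone (Fin.zero_le j) hq)
    | succ i ih =>
      refine Cfsg.Agent.CoprimeAct.le_centralizer_of_axb (hQp _) hcop ((hN _).1 n.2 _)
        (hQ.monotone (Fin.castSucc_lt_succ (i := i)).le) ih fun g hg => hcent _ ⟨hg.1, (hN g).2 fun j => ?_⟩
      rcases le_or_gt j i.castSucc with hj | hj
      · exact Subgroup.centralizer_le_normalizer _
          (Subgroup.centralizer_le (hQ.monotone hj) hg.2)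
      · exact Subgroup.le_normalizer (hQ.monotone (Fin.castSucc_lt_iff_succ_le.1 hj) hg.1)
  exact hn (Subgroup.mem_centralizer_iff.2 fun q hq =>
    Subgroup.mem_centralizer_singleton_iff.1 (key _ hq))

end Cfsg.Agent.S4668
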