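import Cfsg.Statements.S4678
import Cfsg.Agent.Blocks.PairLocal

set_option autoImplicit false
set_option linter.all false
open Cfsg

namespace Cfsg.Agent.S4678

/-- Fix a prime p and a maximal ideal M of the algebraic integers containing p, a p-block B of the finite group G with maximal Brauer pair (P, e), its fusion system F on P, and a Brauer pair (Q, f) ≤ (P, e). Then Q is fully centralized in F if and only if C_P(Q) is a defect group of f as a block of C_G(Q). -/
theorem result {G : Type*} [Group G] [Fintype G] (p : ℕ) [Fact p.Prime] (M : Ideal Cfsg.AlgInt) (hM : Cfsg.IsPModular p M) (B : Set (Cfsg.IrrCharacter G)) (P : Subgroup G) (e : Set (Cfsg.IrrCharacter (Subgroup.centralizer (P : Set G)))) (hmax : Cfsg.IsMaximalBrauerPair p M B P e) (F : Cfsg.FusionSystem P) (hF : Cfsg.IsBlockFusionSystemOn p M B P e F) (Q : Subgroup G) (f : Set (Cfsg.IrrCharacter (Subgroup.centralizer (Q : Set G)))) (hQP : Q ≤ P) (hf : Cfsg.IsPBlock M f) (hle : Cfsg.SubpairLE p M Q f P e) : F.IsFullyCentralized Q ↔ Cfsg.IsDefectGroup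 p M f ((P ⊓ Subgroup.centralizer (Q : Set G)).subgroupOf (Subgroup.centralizer (Q : Set G))) := by
  classical
  haveI := Fintype.ofFinite (Subgroup.centralizer (Q : Set G))
  rw [Cfsg.Agent.Blocks.isDefectGroup_iff_max hM le_rfl (Subgroup.centralizer_le_normalizer _)
    (Cfsg.Agent.Blocks.centralizer_local f) hf rfl hmax hle]
  constructor
  · intro h x hx
    rw [Cfsg.Agent.Blocks.card_cent_conj]
    exact h.2 _ ((Cfsg.Agent.Blocks.isConj_iff_conj hM hF hQP hle).2 ⟨x, rfl, hx⟩)
  · refine fun h => ⟨hQP, fun Q' hQ' => ?_⟩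
    obtain ⟨x, rfl, hx⟩ := (Cfsg.Agent.Blocks.isConj_iff_conj hM hF hQP hle).1 hQ'
    have := h x hx
    rwa [Cfsg.Agent.Blocks.card_cent_conj] at this

end Cfsg.Agent.S4678
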