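import Cfsg.Statements.S4679
import Cfsg.Agent.Blocks.PairLocal

set_option autoImplicit false
set_option linter.all false
open Cfsg

namespace Cfsg.Agent.S4679

/-- Fix a prime p and a maximal ideal M of the algebraic integers containing p, a p-block B of the finite group G with maximal Brauer pair (P, e), its fusion system F on P, a Brauer pair (Q, f) ≤ (P, e), and let T be the stabilizer of f in N_G(Q). Then Q is fully normalized in F if and only if N_P(Q) is a defect group of the block of T whose idempotent is that of f. -/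
theorem result {G : Type*} [Group G] [Fintype G] (p : ℕ) [Fact p.Prime] (M : Ideal Cfsg.AlgInt) (hM : Cfsg.IsPModular p M) (B : Set (Cfsg.IrrCharacter G)) (P : Subgroup G) (e : Set (Cfsg.IrrCharacter (Subgroup.centralizer (P : Set G)))) (hmax : Cfsg.IsMaximalBrauerPair p M B P e) (F : Cfsg.FusionSystem P) (hF : Cfsg.IsBlockFusionSystemOn p M B P e F) (Q : Subgroup G) (f : Set (Cfsg.IrrCharacter (Subgroup.centralizer (Q : Set G)))) (hQP : Q ≤ P) (hf : Cfsg.IsPBlock M f) (hle : Cfsg.SubpairLE p M Q f P e) (T : Subgroup G) (hT : ∀ y : G, y ∈ T ↔ y ∈ Subgroup.normalizer (Q : Set G) ∧ Cfsg.StabilizesBlock (Subgroup.centralizer (Q : Set G)) f y) : F.IsFullyNormalized Q ↔ ∃ F' : Set (Cfsg.IrrCharacter T), Cfsg.IsPBlock M F' ∧ (∀ t : T, Cfsg.blockCoeff F' t = Cfsg.subgroupBlockCoeff (Subgroup.centralizer (Q : Set G)) f (t : G)) ∧ Cfsg.IsDefectGroup p M F' ((P ⊓ Subgroup.normalizer (Q : Set G)).subgroupOf T) := by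
  classical
  haveI := Fintype.ofFinite T
  obtain ⟨hCT, hQT, hTN, hTf, -⟩ := Cfsg.Agent.Blocks.stabilizer_local hM hf hT
  rw [← Cfsg.Agent.Blocks.inf_stab hM hf hT hmax.1.1 hle]
  constructor
  · intro h
    obtain ⟨F0, hF0, hFe⟩ := Cfsg.Agent.Blocks.exists_local_block hM
      (Cfsg.Agent.Blocks.isBrauerPair_of_le hM hmax.1.1 hle) hCT hQT hTN hTf
    refine ⟨F0, hF0, (Cfsg.Agent.Blocks.emb_eq_iff hCT F0).2 hFe,
      (Cfsg.Agent.Blocks.isDefectGroup_iff_max hM hCT hTN hTf hF0 hFe hmax hle).2 fun x hx => ?_⟩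
    rw [Cfsg.Agent.Blocks.conj_inf_stab hM hf hT hmax.1.1 hx, Cfsg.Agent.Blocks.card_cj,
      Cfsg.Agent.Blocks.inf_stab hM hf hT hmax.1.1 hle]
    exact h.2 _ ((Cfsg.Agent.Blocks.isConj_iff_conj hM hF hQP hle).2 ⟨x, rfl, hx⟩)
  · rintro ⟨F0, hF0, hFe, hD⟩
    refine ⟨hQP, fun Q' hQ' => ?_⟩
    obtain ⟨x, rfl, hx⟩ := (Cfsg.Agent.Blocks.isConj_iff_conj hM hF hQP hle).1 hQ'
    have := (Cfsg.Agent.Blocks.isDefectGroup_iff_max hM hCT hTN hTf hF0
      ((Cfsg.Agent.Blocks.emb_eq_iff hCT F0).1 hFe) hmax hle).1 hD x hx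
    rwa [Cfsg.Agent.Blocks.conj_inf_stab hM hf hT hmax.1.1 hx, Cfsg.Agent.Blocks.card_cj,
      Cfsg.Agent.Blocks.inf_stab hM hf hT hmax.1.1 hle] at this

end Cfsg.Agent.S4679
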