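import Cfsg.Statements.S4680
import Cfsg.Agent.Blocks.PairLocal

set_option autoImplicit false
set_option linter.all false
open Cfsg

namespace Cfsg.Agent.S4680

/-- Fix a prime p and a maximal ideal M of the algebraic integers containing p, a p-block B of the finite group G with maximal Brauer pair (P, e), its fusion system F on P, and a Brauer pair (Q, f) ≤ (P, e). Then Q is centric in F if and only if Z(Q) is a defect group of f as a block of C_G(Q). -/
theorem result {G : Type*} [Group G] [Fintype G] (p : ℕ) [Fact p.Prime] (M : Ideal Cfsg.AlgInt) (hM : Cfsg.IsPModular p M) (B : Set (Cfsg.IrrCharacter G)) (P : Subgroup G) (e : Set (Cfsg.IrrCharacter (Subgroup.centralizer (P : Set G)))) (hmax : Cfsg.IsMaximalBrauerPair p M B P e) (F : Cfsg.FusionSystem P) (hF : Cfsg.IsBlockFusionSystemOn p M B P e F) (Q : Subgroup G) (f : Set (Cfsg.IrrCharacter (Subgroup.centralizer (Q : Set G)))) (hQP : Q ≤ P) (hf : Cfsg.IsPBlock M f) (hle : Cfsg.SubpairLE p M Q f P e) :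 F.IsCentric Q ↔ Cfsg.IsDefectGroup p M f ((Q ⊓ Subgroup.centralizer (Q : Set G)).subgroupOf (Subgroup.centralizer (Q : Set G))) := by
  classical
  haveI := Fintype.ofFinite (Subgroup.centralizer (Q : Set G))
  have hZ : (Q ⊓ Subgroup.centralizer (Q : Set G)).subgroupOf (Subgroup.centralizer (Q : Set G))
      = Q.subgroupOf (Subgroup.centralizer (Q : Set G)) := Subgroup.inf_subgroupOf_right _ _
  constructor
  · intro h
    obtain ⟨D, hD⟩ := Cfsg.Agent.Blocks.exists_defectGroup hM hf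
    obtain ⟨x, hx, hDx⟩ := Cfsg.Agent.Blocks.exists_conj_of_defect hM le_rfl
      (Subgroup.centralizer_le_normalizer _) (Cfsg.Agent.Blocks.centralizer_local f) hf rfl hmax hle hD
    have h1 : D ≤ Q.subgroupOf (Subgroup.centralizer (Q : Set G)) := by
      intro u hu
      have h2 := hDx ⟨u, hu, rfl⟩
      have h3 := h.2 _ ((Cfsg.Agent.Blocks.isConj_iff_conj hM hF hQP hle).2 ⟨x, rfl, hx⟩)
        (show x * (u : G) * x⁻¹ ∈ _ from ⟨by simpa using Cfsg.Agent.Blocks.mem_cj.1 h2.1,
          Cfsg.Agent.Blocks.mem_centralizer_cj' u.2⟩)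
      simpa [Subgroup.mem_subgroupOf, mul_assoc] using Cfsg.Agent.Blocks.mem_cj.1 h3
    haveI : (Q.subgroupOf (Subgroup.centralizer (Q : Set G))).Normal :=
      Cfsg.Agent.Blocks.subgroupOf_normal_of_le_normalizer (Subgroup.centralizer_le_normalizer _)
    have h4 := Cfsg.Agent.Blocks.normal_le_defect hM hf hD
      (P := Q.subgroupOf (Subgroup.centralizer (Q : Set G)))
      ((Cfsg.Agent.Blocks.isBrauerPair_of_le hM hmax.1.1 hle).1.comap_of_injective _
        (Subgroup.subtype_injective _))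
    rw [hZ, ← le_antisymm h1 h4]
    exact hD
  · intro hD
    refine ⟨hQP, fun Q' hQ' => ?_⟩
    obtain ⟨x, rfl, hx⟩ := (Cfsg.Agent.Blocks.isConj_iff_conj hM hF hQP hle).1 hQ'
    obtain ⟨D2, hD2, hle2⟩ := Cfsg.Agent.Blocks.exists_le_defect_conj hM le_rfl
      (Subgroup.centralizer_le_normalizer _) hf rfl hmax.1.1 hx
    obtain ⟨y, hy⟩ := Cfsg.Agent.Blocks.defectGroup_conj hM hf hD2 hD
    have hcard : Nat.card (Cfsg.Agent.Blocks.cj x⁻¹ P ⊓ Subgroup.centralizer (Q : Set G) : Subgroup G)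
        ≤ Nat.card (Q ⊓ Subgroup.centralizer (Q : Set G) : Subgroup G) := by
      rw [← Nat.card_congr (Subgroup.subgroupOfEquivOfLe (inf_le_right :
          Q ⊓ Subgroup.centralizer (Q : Set G) ≤ _)).toEquiv, ← hy, Cfsg.Agent.Blocks.card_cj,
        ← Nat.card_congr (Subgroup.subgroupOfEquivOfLe (inf_le_right :
          Cfsg.Agent.Blocks.cj x⁻¹ P ⊓ Subgroup.centralizer (Q : Set G) ≤ _)).toEquiv]
      exact Subgroup.card_le_of_le hle2
    have hQx : Q ≤ Cfsg.Agent.Blocks.cj x⁻¹ P := by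
      rw [← Cfsg.Agent.Blocks.cj_inv_self x Q]
      exact Cfsg.Agent.Blocks.cj_mono _ (Cfsg.Agent.Blocks.le_of_chain hM hx)
    have heq := Subgroup.eq_of_le_of_card_ge
      (inf_le_inf_right (Subgroup.centralizer (Q : Set G)) hQx) hcard
    rintro u ⟨hu1, hu2⟩
    have h5 : x⁻¹ * u * x ∈ Q ⊓ Subgroup.centralizer (Q : Set G) := by
      rw [heq]
      exact ⟨Cfsg.Agent.Blocks.mem_cj.2 (by simpa [mul_assoc] using hu1),
        Cfsg.Agent.Blocks.mem_centralizer_cj hu2⟩
    exact Cfsg.Agent.Blocks.mem_cj.2 h5.1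

end Cfsg.Agent.S4680
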