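import Cfsg.Statements.S4681
import Cfsg.Agent.Blocks.PairTheory
import Cfsg.Agent.S4663
import Cfsg.Agent.Blocks.SectionApp

set_option autoImplicit false
set_option linter.all false
open Cfsg

namespace Cfsg.Agent.S4681

/-- Fix a prime p and a maximal ideal M of the algebraic integers containing p. Let B₀ be the principal p-block of the finite group G, P a Sylow p-subgroup and e₀ the principal p-block of C_G(P). Then (P, e₀) is a maximal Brauer pair of B₀, and the fusion system of B₀ on (P, e₀) is the fusion system of G on P: its maps from each subgroup of P are exactly the conjugation maps into P by elements of G. -/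
theorem result {G : Type*} [Group G] [Fintype G] (p : ℕ) [Fact p.Prime] (M : Ideal Cfsg.AlgInt) (hM : Cfsg.IsPModular p M) (S : Sylow p G) : Cfsg.IsMaximalBrauerPair p M (Cfsg.principalBlock M G) (S : Subgroup G) (Cfsg.principalBlock M (Subgroup.centralizer ((S : Subgroup G) : Set G))) ∧ ∀ F : Cfsg.FusionSystem (S : Subgroup G), Cfsg.IsBlockFusionSystemOn p M (Cfsg.principalBlock M G) (S : Subgroup G) (Cfsg.principalBlock M (Subgroup.centralizer ((S : Subgroup G) : Set G))) F → ∀ Q : Subgroup G, F.Hom Q = (Cfsg.groupFusionSystem (S : Subgroup G)).Hom Q := by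
  classical
  have hchar : ∀ (Q : Subgroup G), IsPGroup p Q → ∀ f, Cfsg.IsPBlock M f →
      (Cfsg.IsBrauerPairOf p M (Cfsg.principalBlock M G) Q f ↔
        f = Cfsg.principalBlock M (Subgroup.centralizer (Q : Set G))) :=
    fun Q hQ f hf => Cfsg.Agent.S4663.result p M hM Q hQ f hf
  have hS : IsPGroup p (S : Subgroup G) := S.2
  have hof : Cfsg.IsBrauerPairOf p M (Cfsg.principalBlock M G) (S : Subgroup G)
      (Cfsg.principalBlock M (Subgroup.centralizer ((S : Subgroup G) : Set G))) :=
    (hchar _ hS _ (Cfsg.Agent.Blocks.principal_isPBlock M)).2 rfl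
  refine ⟨⟨hof, fun R g hR hle => S.3 hR.1.1 (Cfsg.Agent.Blocks.le_of_chain hM hle)⟩, ?_⟩
  intro F hF Q
  -- the subpair on each subgroup is the principal one
  have hbelow : ∀ R : Subgroup G, R ≤ (S : Subgroup G) →
      ∀ f, Cfsg.IsBrauerPairOf p M (Cfsg.principalBlock M G) R f →
      Cfsg.SubpairLE p M R f (S : Subgroup G)
        (Cfsg.principalBlock M (Subgroup.centralizer ((S : Subgroup G) : Set G))) := by
    intro R hR f hf
    obtain ⟨f', ⟨hf', hc⟩, -⟩ := Cfsg.Agent.Blocks.existsUnique_below hM hof.1 hR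
    have h1 := (Cfsg.Agent.Blocks.isBrauerPairOf_chain hM hc (Cfsg.principalBlock M G)).1 hof
    rw [(hchar R hf.1.1 f hf.1.2).1 hf, ← (hchar R hf.1.1 f' hf').1 h1]
    exact hc
  ext φ
  rw [hF.2]
  constructor
  · rintro ⟨hQ, g, hg, hle, -⟩
    exact ⟨hQ, fun x => hle ⟨x, x.2, (hg x).symm⟩, g, hg⟩
  · rintro ⟨hQ, hQS, g, hg⟩
    have hle : Q.map (MulAut.conj g).toMonoidHom ≤ (S : Subgroup G) := by
      rintro _ ⟨x, hx, rfl⟩
      have := hQS ⟨x, hx⟩
      rw [hg] at this
      exact this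
    obtain ⟨f, ⟨hf, hc⟩, -⟩ := Cfsg.Agent.Blocks.existsUnique_below hM hof.1 hQ
    refine ⟨hQ, g, hg, hle, f, hc, ?_⟩
    rw [Cfsg.Agent.Blocks.conjBlock_eq]
    exact hbelow _ hle _ (Cfsg.Agent.Blocks.isBrauerPairOf_cp g
      ((Cfsg.Agent.Blocks.isBrauerPairOf_chain hM hc (Cfsg.principalBlock M G)).1 hof))

end Cfsg.Agent.S4681
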