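import Cfsg.Statements.S4682
import Cfsg.Agent.Blocks.AbelianDefect

set_option autoImplicit false
set_option linter.all false
open Cfsg

namespace Cfsg.Agent.S4682

/-- Fix a prime p and a maximal ideal M of the algebraic integers containing p, a p-block B of the finite group G with maximal Brauer pair (P, e), P abelian, and a Brauer pair (Q, f) ≤ (P, e). Let T_Q be the stabilizer of f in N_G(Q) and T_P the stabilizer of e in N_G(P). Then every element of T_Q is a product of an element of T_P and an element of C_G(Q); and the index of C_G(Q) in T_Q equals the index of T_P ∩ C_G(Q) in T_P ∩ N_G(Q). -/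
theorem result {G : Type*} [Group G] [Fintype G] (p : ℕ) [Fact p.Prime] (M : Ideal Cfsg.AlgInt) (hM : Cfsg.IsPModular p M) (B : Set (Cfsg.IrrCharacter G)) (P : Subgroup G) (e : Set (Cfsg.IrrCharacter (Subgroup.centralizer (P : Set G)))) (hmax : Cfsg.IsMaximalBrauerPair p M B P e) (hab : ∀ x ∈ P, ∀ y ∈ P, x * y = y * x) (Q : Subgroup G) (f : Set (Cfsg.IrrCharacter (Subgroup.centralizer (Q : Set G)))) (hQP : Q ≤ P) (hf : Cfsg.IsPBlock M f) (hle : Cfsg.SubpairLE p M Q f P e) (TQ : Subgroup G) (hTQ : ∀ y : G, y ∈ TQ ↔ y ∈ Subgroup.normalizer (Q : Set G) ∧ Cfsg.StabilizesBlock (Subgroup.centralizer (Q : Set G)) f y) (TP : Subgroup G) (hTP : ∀ y : G, y ∈ TP ↔ y ∈ Subgroup.normalizer (P : Set G) ∧ Cfsg.StabilizesBlock (Subgroup.centralizer (P : Set G)) e y) : (∀ x ∈ TQ, ∃ y ∈ TP, ∃ c ∈ Subgroup.centralizer (Q : Set G), x = y * c) ∧ ((Subgroup.centralizer (Q : Set G)).subgroupOf TQ).index = ((TP ⊓ Subgroup.centralizer (Q : Set G)).subgroupOf (TP ⊓ Subgroup.normalizer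 (Q : Set G))).index := by
  classical
  have hQf := Agent.Blocks.isBrauerPair_of_le hM hmax.1.1 hle
  have hS : ∀ y, y ∈ TQ ↔ y ∈ Agent.Blocks.stab Q f := fun y => (hTQ y).trans (Agent.Blocks.mem_stab hM hf y).symm
  have hT : ∀ y, y ∈ TP ↔ y ∈ Agent.Blocks.stab P e := fun y =>
    (hTP y).trans (Agent.Blocks.mem_stab hM hmax.1.1.2 y).symm
  have h1 : ∀ x ∈ TQ, ∃ y ∈ TP, ∃ c ∈ Subgroup.centralizer (Q : Set G), x = y * c := by
    intro x hx
    obtain ⟨y, hy, c, hc, h⟩ := Agent.Blocks.abelian_factor hM hmax hab hle ((hS x).1 hx)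
    exact ⟨y, (hT y).2 hy, c, hc, h⟩
  refine ⟨h1, ?_⟩
  have hle' : TP ⊓ Subgroup.normalizer (Q : Set G) ≤ TQ := fun y hy =>
    (hS y).2 (Agent.Blocks.stab_inter_le hM hmax.1.1 hle ((hT y).1 hy.1) hy.2)
  haveI hn : ((Subgroup.centralizer (Q : Set G)).subgroupOf TQ).Normal :=
    ⟨fun c hc t => Agent.Blocks.centralizer_conj_of_le_normalizer (fun z hz => ((hTQ z).1 hz).1) t t.2 c hc⟩
  let φ := (QuotientGroup.mk' ((Subgroup.centralizer (Q : Set G)).subgroupOf TQ)).comp (Subgroup.inclusion hle')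
  have hsurj : Function.Surjective φ := by
    intro q
    obtain ⟨x, rfl⟩ := QuotientGroup.mk'_surjective _ q
    obtain ⟨y, hy, c, hc, hxy⟩ := h1 x x.2
    have hyN : y ∈ Subgroup.normalizer (Q : Set G) := by
      rw [show y = (x : G) * c⁻¹ by rw [hxy]; group]
      exact mul_mem ((hTQ _).1 x.2).1 (inv_mem (Subgroup.centralizer_le_normalizer _ hc))
    refine ⟨⟨y, hy, hyN⟩, QuotientGroup.eq.2 ?_⟩
    show y⁻¹ * (x : G) ∈ Subgroup.centralizer (Q : Set G)
    rw [hxy, inv_mul_cancel_left]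
    exact hc
  have hker : φ.ker = (TP ⊓ Subgroup.centralizer (Q : Set G)).subgroupOf (TP ⊓ Subgroup.normalizer (Q : Set G)) := by
    ext a
    rw [MonoidHom.mem_ker]
    refine (QuotientGroup.eq_one_iff (Subgroup.inclusion hle' a)).trans ?_
    exact ⟨fun h => ⟨a.2.1, h⟩, fun h => h.2⟩
  rw [← hker, Subgroup.index_ker, MonoidHom.range_eq_top.2 hsurj, Subgroup.card_top]
  exact Subgroup.index_eq_card _

end Cfsg.Agent.S4682
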