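import Cfsg.Statements.S5083
import Cfsg.Agent.Fus.Alperin

set_option autoImplicit false
open Cfsg Cfsg.FusionSystem

namespace Cfsg.Agent.S5083

/-- If F is a saturated fusion system over a finite p-group S in which Aut_F(P) is a p-group for every P ≤ S, then F is the inner fusion system of S (all its maps are conjugations by elements of S). -/
theorem result {Ω : Type*} [Group Ω] {S : Subgroup Ω} [Finite S] (p : ℕ) [Fact p.Prime] (hS : IsPGroup p S) (F : Cfsg.FusionSystem S) (hF : F.IsSaturated p) (h : ∀ P : Subgroup Ω, P ≤ S → IsPGroup p (F.autGroup P)) : F = Cfsg.innerFusionSystem S := by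
  refine Fus.eq_inner_iff (Fus.alperin_le hS hF _ fun P hP => ?_)
  rcases hP with rfl | hP
  · have hFA := (Fus.isFullyAutomized_iff.1 (Fus.fullyNormalized_props hS hF Fus.isFullyNormalized_top).2).2
    obtain ⟨k, hk⟩ := IsPGroup.iff_card.1 (h P le_rfl)
    have e : autInducedBy P P = F.autGroup P :=
      Subgroup.eq_of_le_of_card_ge (Fus.autInducedBy_le_autGroup le_rfl le_rfl)
        (by rw [hFA, hk, Nat.Prime.factorization_pow Fact.out, Finsupp.single_eq_same])
    rw [← e]
    exact Fus.autInducedBy_le_autGroup le_rfl le_rfl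
  · exact (Fus.no_essential_of_pGroup (h P hP.1.1) hP).elim

end Cfsg.Agent.S5083
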