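import Cfsg.Statements.S4686
import Cfsg.Agent.Blocks.AbelianDefect
import Cfsg.Agent.S5083

set_option autoImplicit false
set_option linter.all false
open Cfsg

namespace Cfsg.Agent.S4686

/-- Fix a prime p and a maximal ideal M of the algebraic integers containing p, a p-block B of the finite group G with maximal Brauer pair (P, e) and fusion system F on P. Then B is nilpotent (for every Brauer pair (Q, f) of B the stabilizer of f in N_G(Q) is C_G(Q) extended by a p-group) if and only if F is the inner fusion system of P: its maps from each subgroup of P are exactly the conjugations by elements of P. -/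
theorem result {G : Type*} [Group G] [Fintype G] (p : ℕ) [Fact p.Prime] (M : Ideal Cfsg.AlgInt) (hM : Cfsg.IsPModular p M) (B : Set (Cfsg.IrrCharacter G)) (P : Subgroup G) (e : Set (Cfsg.IrrCharacter (Subgroup.centralizer (P : Set G)))) (hmax : Cfsg.IsMaximalBrauerPair p M B P e) (F : Cfsg.FusionSystem P) (hF : Cfsg.IsBlockFusionSystemOn p M B P e F) : Cfsg.IsNilpotentBlock p M B ↔ ∀ Q : Subgroup G, F.Hom Q = (Cfsg.innerFusionSystem P).Hom Q := by
  classical
  haveI : Fact p.Prime := ⟨hM.1⟩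
  have hPe := hmax.1.1
  constructor
  · intro hnil
    have hPf : Finite P := inferInstance
    have h : ∀ Q : Subgroup G, Q ≤ P → IsPGroup p (F.autGroup Q) := by
      rintro Q hQ ⟨α, hα⟩
      obtain ⟨f, hf⟩ := Agent.Blocks.exists_below hM hPe hQ
      obtain ⟨t, htN, htf, ht⟩ := (Agent.Blocks.autGroup_eq hM hF hf α).1 hα
      obtain ⟨a, m, hm, hn⟩ := Nat.exists_eq_pow_mul_and_not_dvd (orderOf_pos t).ne' p hM.1.ne_one
      refine ⟨a, Subtype.ext ?_⟩
      have hQf := Agent.Blocks.isBrauerPair_of_le hM hPe hf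
      have hQB : IsBrauerPairOf p M B Q f :=
        (Agent.Blocks.isBrauerPairOf_chain hM (a := ⟨Q, f⟩) (b := ⟨P, e⟩) hf B).1 hmax.1
      have hs : t ^ (p ^ a) ∈ Agent.Blocks.stab Q f := (Agent.Blocks.stab Q f).pow_mem ⟨htN, htf⟩ _
      have hc : t ^ (p ^ a) ∈ Subgroup.centralizer (Q : Set G) := by
        refine hnil.2 Q f hQB _ hs.1 ((Agent.Blocks.mem_stab hM hQf.2 _).1 hs).2 ?_
        show ¬ p ∣ orderOf (t ^ (p ^ a))
        rw [orderOf_pow' t (pow_ne_zero _ hM.1.ne_zero), hn, Nat.gcd_mul_right_left,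
          Nat.mul_div_cancel_left _ (pow_pos hM.1.pos a)]
        exact hm
      have hiter : ∀ (k : ℕ) (u : Q), (((α ^ k) u : Q) : G) = t ^ k * (u : G) * (t ^ k)⁻¹ := by
        intro k
        induction k with
        | zero => intro u; simp
        | succ k ih =>
          intro u
          rw [pow_succ', MulAut.mul_apply, ht, ih, pow_succ']
          group
      refine MulEquiv.ext fun u => Subtype.ext ?_
      show (((α ^ (p ^ a)) u : Q) : G) = (u : G)
      rw [hiter, ← Subgroup.mem_centralizer_iff.1 hc (u : G) u.2, mul_inv_cancel_right]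
    intro Q
    rw [Cfsg.Agent.S5083.result p hPe.1 F (Agent.Blocks.saturated hM hF) h]
  · intro hin
    refine ⟨(Agent.Blocks.isBrauerPairOf_iff.1 hmax.1).2.1, fun Q f hQf y hy hst hreg => ?_⟩
    have hys : y ∈ Agent.Blocks.stab Q f := (Agent.Blocks.mem_stab hM hQf.1.2 y).2 ⟨hy, hst⟩
    obtain ⟨x, hx⟩ := Agent.Blocks.exists_conj_le_maximal hM hmax hQf
    have hbel : Agent.Blocks.Below p M ⟨P, e⟩ (Agent.Blocks.cp x (⟨Q, f⟩ : Cfsg.BrauerPairIdx G)) := hx
    let φ : Agent.Blocks.cj x Q →* G :=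
      (MulAut.conj (x * y * x⁻¹)).toMonoidHom.comp (Agent.Blocks.cj x Q).subtype
    have hφ : φ ∈ F.Hom (Agent.Blocks.cj x Q) := by
      refine (Agent.Blocks.mem_hom_iff hM hF _ φ).2 ⟨x * y * x⁻¹, fun u => rfl, _, rfl, hbel, ?_⟩
      rw [Agent.Blocks.cp_cp, show x * y * x⁻¹ * x = x * y by group, ← Agent.Blocks.cp_cp,
        (Agent.Blocks.cp_fix_iff hy).2 hys.2]
      exact hbel
    rw [hin] at hφ
    obtain ⟨hQP, a, ha, hag⟩ := hφ
    have hag' : ∀ u ∈ Agent.Blocks.cj x Q, x * y * x⁻¹ * u * (x * y * x⁻¹)⁻¹ = a * u * a⁻¹ :=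
      fun u hu => hag ⟨u, hu⟩
    have hy' : x * y * x⁻¹ ∈ Subgroup.normalizer ((Agent.Blocks.cj x Q : Subgroup G) : Set G) := by
      refine Agent.Blocks.mem_normalizer_of_cj_eq ?_
      rw [← Agent.Blocks.cj_cj, ← Agent.Blocks.cj_cj, Agent.Blocks.cj_inv_self,
        Agent.Blocks.cj_eq_self_of_mem_normalizer hy]
    have haN : a ∈ Subgroup.normalizer ((Agent.Blocks.cj x Q : Subgroup G) : Set G) := by
      refine Agent.Blocks.mem_normalizer_of_cj_eq ?_
      refine (?_ : _ = Agent.Blocks.cj (x * y * x⁻¹) (Agent.Blocks.cj x Q)).trans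
        (Agent.Blocks.cj_eq_self_of_mem_normalizer hy')
      ext z
      constructor
      · rintro ⟨u, hu, rfl⟩; exact ⟨u, hu, hag' u hu⟩
      · rintro ⟨u, hu, rfl⟩; exact ⟨u, hu, (hag' u hu).symm⟩
    let θ := (Agent.Blocks.cj x Q).normalizerMonoidHom
    have heq : θ ⟨x * y * x⁻¹, hy'⟩ = θ ⟨a, haN⟩ := MulEquiv.ext fun u => Subtype.ext (hag' u u.2)
    have h1 : orderOf (θ ⟨x * y * x⁻¹, hy'⟩) ∣ orderOf y := by
      refine (orderOf_map_dvd θ _).trans ?_
      rw [← orderOf_injective (Subgroup.subtype _) (Subgroup.subtype_injective _)]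
      show orderOf (x * y * x⁻¹) ∣ orderOf y
      exact orderOf_map_dvd (MulAut.conj x).toMonoidHom y
    have h2 : orderOf (θ ⟨x * y * x⁻¹, hy'⟩) ∣ orderOf a := by
      rw [heq]
      refine (orderOf_map_dvd θ _).trans ?_
      rw [← orderOf_injective (Subgroup.subtype _) (Subgroup.subtype_injective _)]
      rfl
    obtain ⟨k, hk⟩ := IsPGroup.iff_orderOf.1 hPe.1 ⟨a, ha⟩
    rw [Subgroup.orderOf_mk] at hk
    rw [hk] at h2
    have h3 : θ ⟨x * y * x⁻¹, hy'⟩ = 1 := orderOf_eq_one_iff.1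
      (Nat.eq_one_of_dvd_coprimes (Nat.Coprime.pow_left k (hM.1.coprime_iff_not_dvd.2 hreg)) h2 h1)
    have h4 : x * y * x⁻¹ ∈ Subgroup.centralizer ((Agent.Blocks.cj x Q : Subgroup G) : Set G) := by
      refine Subgroup.mem_centralizer_iff.2 fun q hq => ?_
      have h5 := congrArg Subtype.val (DFunLike.congr_fun h3 (⟨q, hq⟩ : Agent.Blocks.cj x Q))
      exact (mul_inv_eq_iff_eq_mul.1 h5).symm
    have := Agent.Blocks.mem_centralizer_cj h4
    simpa [mul_assoc] using this

end Cfsg.Agent.S4686
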