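import Cfsg.Statements.S4688
import Cfsg.Agent.Blocks.LocalNilpotent
import Cfsg.Agent.S4686

set_option autoImplicit false
set_option linter.all false
open Cfsg

namespace Cfsg.Agent.S4688

/-- Fix a prime p and a maximal ideal M of the algebraic integers containing p, and a nilpotent p-block B of the finite group G with maximal Brauer pair (P, e). Then for every Brauer pair (Q, f) of B, f is a nilpotent block of C_G(Q); and if moreover (Q, f) ≤ (P, e), then C_P(Q) is a defect group of f as a block of C_G(Q). -/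
theorem result {G : Type*} [Group G] [Fintype G] (p : ℕ) [Fact p.Prime] (M : Ideal Cfsg.AlgInt) (hM : Cfsg.IsPModular p M) (B : Set (Cfsg.IrrCharacter G)) (P : Subgroup G) (e : Set (Cfsg.IrrCharacter (Subgroup.centralizer (P : Set G)))) (hmax : Cfsg.IsMaximalBrauerPair p M B P e) (hnil : Cfsg.IsNilpotentBlock p M B) (Q : Subgroup G) (f : Set (Cfsg.IrrCharacter (Subgroup.centralizer (Q : Set G)))) (hQf : Cfsg.IsBrauerPairOf p M B Q f) : Cfsg.IsNilpotentBlock p M f ∧ (Cfsg.SubpairLE p M Q f P e → Cfsg.IsDefectGroup p M f ((P ⊓ Subgroup.centralizer (Q : Set G)).subgroupOf (Subgroup.centralizer (Q : Set G)))) := by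
  classical
  haveI : Fact p.Prime := ⟨hM.1⟩
  refine ⟨Agent.Blocks.local_nilpotent hM hnil hQf, fun hle => ?_⟩
  exact Agent.Blocks.defect_of_inner hM hmax
    ((Cfsg.Agent.S4686.result p M hM B P e hmax (Agent.Blocks.blockSystem hM hmax.1.1)
      (Agent.Blocks.isBlockFusionSystemOn_blockSystem hM hmax)).1 hnil) hle

end Cfsg.Agent.S4688
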