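import Cfsg.Statements.S4693
import Cfsg.Agent.Blocks.AbelianDefect
import Cfsg.Agent.Blocks.Correspondence

set_option autoImplicit false
set_option linter.all false
open Cfsg

namespace Cfsg.Agent.S4693

/-- Fix a prime p and a maximal ideal M of the algebraic integers containing p, a p-block B of the finite group G with maximal Brauer pair (P, e) and fusion system F on P, and a Brauer pair (Q, f) ≤ (P, e) with Q centric in F. Suppose every element of G normalizes Q and stabilizes f. Then the idempotent of B agrees with that of f modulo M at every element of G, and f is the idempotent of a nilpotent block of Q·C_G(Q): some p-block of Q·C_G(Q) has the idempotent coefficients of f and is nilpotent. -/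
theorem result {G : Type*} [Group G] [Fintype G] (p : ℕ) [Fact p.Prime] (M : Ideal Cfsg.AlgInt) (hM : Cfsg.IsPModular p M) (B : Set (Cfsg.IrrCharacter G)) (P : Subgroup G) (e : Set (Cfsg.IrrCharacter (Subgroup.centralizer (P : Set G)))) (hmax : Cfsg.IsMaximalBrauerPair p M B P e) (F : Cfsg.FusionSystem P) (hF : Cfsg.IsBlockFusionSystemOn p M B P e F) (Q : Subgroup G) (f : Set (Cfsg.IrrCharacter (Subgroup.centralizer (Q : Set G)))) (hQP : Q ≤ P) (hf : Cfsg.IsPBlock M f) (hle : Cfsg.SubpairLE p M Q f P e) (hcen : F.IsCentric Q) (hG : ∀ x : G, x ∈ Subgroup.normalizer (Q : Set G) ∧ Cfsg.StabilizesBlock (Subgroup.centralizer (Q : Set G)) f x) : (∀ g : G, Cfsg.MemLocalIdeal M (Cfsg.blockCoeff B g - Cfsg.subgroupBlockCoeff (Subgroup.centralizer (Q : Set G)) f g)) ∧ ∃ F' : Set (Cfsg.IrrCharacter ↥(Q ⊔ Subgroup.centralizer (Q : Set G))), Cfsg.IsPBlock M F' ∧ (∀ t : ↥(Q ⊔ Subgroup.centralizer (Q : Set G)), Cfsg.blockCoeff F' t = Cfsg.subgroupBlockCoeff (Subgroup.centralizer (Q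 : Set G)) f (t : G)) ∧ Cfsg.IsNilpotentBlock p M F' := by
  classical
  haveI : Fact p.Prime := ⟨hM.1⟩
  haveI := Fintype.ofFinite (Subgroup.centralizer (Q : Set G))
  have hQf := Agent.Blocks.isBrauerPair_of_le hM hmax.1.1 hle
  have hfix : ∀ x, x ∈ Agent.Blocks.fixer (Agent.Blocks.pe Q f) := fun x =>
    (Agent.Blocks.stabilizesBlock_iff hM (hG x).1 hf).1 (hG x).2
  have hQB : IsBrauerPairOf p M B Q f :=
    (Agent.Blocks.isBrauerPairOf_chain hM (a := ⟨Q, f⟩) (b := ⟨P, e⟩) hle B).1 hmax.1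
  haveI hQn : Q.Normal := ⟨fun q hq g => (Subgroup.mem_normalizer_iff.1 (hG g).1 q).1 hq⟩
  constructor
  · haveI := Fintype.ofFinite (⊤ : Subgroup G)
    obtain ⟨-, hB, hh⟩ := Agent.Blocks.isBrauerPairOf_iff.1 hQB
    obtain ⟨F0, hF0, hF0e⟩ := Agent.Blocks.exists_local_block hM hQf (H := (⊤ : Subgroup G)) le_top le_top
      (fun x _ => (hG x).1) (fun x _ => hfix x)
    let φ : G ≃* (⊤ : Subgroup G) := Subgroup.topEquiv.symm
    have hB0 : IsPBlock M (Agent.Blocks.imgSet φ F0) := Agent.Blocks.isPBlock_imgSet φ hF0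
    have hid : Agent.Blocks.idem (Agent.Blocks.imgSet φ F0) = Agent.Blocks.pe Q f := by
      refine Agent.Blocks.ext_coeff fun g => ?_
      rw [← hF0e, Agent.Blocks.emb_of_mem _ _ (Subgroup.mem_top g)]
      show Cfsg.blockCoeff _ _ = Cfsg.blockCoeff _ _
      rw [Agent.Blocks.blockCoeff_imgSet]
      rfl
    obtain ⟨η, hη⟩ := Agent.Blocks.block_nonempty hM hf
    have hof : IsBrauerPairOf p M (Agent.Blocks.imgSet φ F0) Q f := by
      refine Agent.Blocks.isBrauerPairOf_iff.2 ⟨hQf, hB0, Agent.Blocks.hits_of_mem hM hf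
        (Agent.Blocks.idem_block_mem hM hB0) ((Agent.Blocks.isCentral_idem _).pInvariant _) hη ?_⟩
      rw [hid, Agent.Blocks.pval, Agent.Blocks.pe, Agent.Blocks.trunc_emb_self, Agent.Blocks.omega_idem,
        if_pos hη, sub_self]
      exact Agent.Blocks.li_zero hM
    intro g
    rw [Agent.Blocks.block_of_pair_eq hM hQB hof]
    have h1 : Cfsg.blockCoeff (Agent.Blocks.imgSet φ F0) g
        = Cfsg.subgroupBlockCoeff (Subgroup.centralizer (Q : Set G)) f g := by
      show (Agent.Blocks.idem (Agent.Blocks.imgSet φ F0)).coeff g = _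
      rw [hid, ← Agent.Blocks.ga_subgroupBlockCoeff]
      rfl
    rw [h1, sub_self]
    exact Agent.Blocks.li_zero hM
  · set H : Subgroup G := Q ⊔ Subgroup.centralizer (Q : Set G) with hH
    haveI := Fintype.ofFinite H
    have hCH : Subgroup.centralizer (Q : Set G) ≤ H := le_sup_right
    have hQH : Q ≤ H := le_sup_left
    have hHN : H ≤ Subgroup.normalizer (Q : Set G) := fun x _ => (hG x).1
    obtain ⟨F', hF', hFe⟩ := Agent.Blocks.exists_local_block hM hQf hCH hQH hHN (fun x _ => hfix x)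
    have hcoe : ∀ t : H, Cfsg.blockCoeff F' t
        = Cfsg.subgroupBlockCoeff (Subgroup.centralizer (Q : Set G)) f (t : G) := by
      intro t
      show (Agent.Blocks.idem F').coeff t = _
      rw [← Agent.Blocks.emb_coe H (Agent.Blocks.idem F') t, hFe, ← Agent.Blocks.ga_subgroupBlockCoeff]
      rfl
    refine ⟨F', hF', hcoe, hF', fun R g hRg y hy hst hreg => ?_⟩
    have hPH : ∀ x : G, Cfsg.SubpairLE p M (Agent.Blocks.cj x Q)
        (Agent.Blocks.imgSet (Agent.Blocks.cjC x Q) f) P e → Agent.Blocks.cj x⁻¹ P ⊓ H ≤ Q := by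
      rintro x hx u ⟨hu1, hu2⟩
      have hcj : Agent.Blocks.cj x Q = Q := Agent.Blocks.cj_eq_self_of_mem_normalizer (hG x).1
      obtain ⟨q, hq, c, hc, rfl⟩ := Subgroup.mem_sup_of_normal_left.1 hu2
      have h1 : x * (q * c) * x⁻¹ ∈ P := by simpa using Agent.Blocks.mem_cj.1 hu1
      have h2 : x * q * x⁻¹ ∈ P := Agent.Blocks.le_of_chain hM hx
        (Agent.Blocks.mem_cj.2 (by simpa [mul_assoc] using hq))
      have h3 : x * c * x⁻¹ ∈ P := by
        have := P.mul_mem (P.inv_mem h2) h1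
        simpa [mul_assoc] using this
      have h4 : x * c * x⁻¹ ∈ Subgroup.centralizer (Q : Set G) := by
        rw [← hcj]; exact Agent.Blocks.mem_centralizer_cj' hc
      have hcen' : Cfsg.FusionSystem.centralizerIn P Q ≤ Q := hcen.2 Q
        ⟨Q.subtype, by
          have h := F.conj_mem (P := Q) hQP P.one_mem
          convert h using 1
          refine MonoidHom.ext fun u => ?_
          show (u : G) = 1 * (u : G) * 1⁻¹
          simp, Subgroup.range_subtype Q⟩
      have h5 : x * c * x⁻¹ ∈ Q := hcen' ⟨h3, h4⟩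
      refine Q.mul_mem hq ?_
      have := hQn.conj_mem _ h5 x⁻¹
      simpa [mul_assoc] using this
    have hD : IsDefectGroup p M F' ((P ⊓ H).subgroupOf H) :=
      (Agent.Blocks.isDefectGroup_iff_max hM hCH hHN (fun x _ => hfix x) hF' hFe hmax hle).2 fun x hx =>
        (Subgroup.card_le_of_le (hPH x hx)).trans (Subgroup.card_le_of_le (le_inf hQP hQH))
    have hle1 : (P ⊓ H).subgroupOf H ≤ Q.subgroupOf H := fun u hu => by
      have := hPH 1 (by
        have h1 : (⟨Agent.Blocks.cj 1 Q, Agent.Blocks.imgSet (Agent.Blocks.cjC 1 Q) f⟩ : Cfsg.BrauerPairIdx G)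
            = ⟨Q, f⟩ := Agent.Blocks.cp_one (⟨Q, f⟩ : Cfsg.BrauerPairIdx G)
        show Relation.ReflTransGen _ (⟨Agent.Blocks.cj 1 Q, Agent.Blocks.imgSet (Agent.Blocks.cjC 1 Q) f⟩ : Cfsg.BrauerPairIdx G) _
        rw [h1]; exact hle)
        (show (u : G) ∈ Agent.Blocks.cj 1⁻¹ P ⊓ H from ⟨by simpa [Agent.Blocks.mem_cj] using hu.1, hu.2⟩)
      exact this
    obtain ⟨P1, e1, hmax1, hle2⟩ := Agent.Blocks.exists_maximal hM hRg
    obtain ⟨-, -, -, -, -, hD1⟩ := Agent.Blocks.maximal_defect hM hmax1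
    obtain ⟨z, hz⟩ := Agent.Blocks.defectGroup_conj hM hF' hD hD1
    have hzN : z ∈ Subgroup.normalizer ((Q.subgroupOf H : Subgroup H) : Set H) := by
      rw [Subgroup.normalizer_eq_top]; exact Subgroup.mem_top z
    have hR : R ≤ Q.subgroupOf H := by
      refine (Agent.Blocks.le_of_chain hM hle2).trans ?_
      show P1 ≤ _
      rw [← hz]
      exact (Agent.Blocks.cj_mono z hle1).trans (Agent.Blocks.cj_eq_self_of_mem_normalizer hzN).le
    have hyC : (y : G) ∈ Subgroup.centralizer (Q : Set G) := by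
      obtain ⟨q, hq, c, hc, hqc⟩ := Subgroup.mem_sup_of_normal_left.1 y.2
      haveI : ((Subgroup.centralizer (Q : Set G)).subgroupOf H).Normal :=
        ⟨fun c hc t => Agent.Blocks.centralizer_conj_of_le_normalizer hHN t t.2 c hc⟩
      let π := QuotientGroup.mk' ((Subgroup.centralizer (Q : Set G)).subgroupOf H)
      have hπ : π y = π ⟨q, hQH hq⟩ := by
        refine (QuotientGroup.eq.2 ?_).symm
        show q⁻¹ * (y : G) ∈ Subgroup.centralizer (Q : Set G)
        rw [← hqc, inv_mul_cancel_left]; exact hc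
      obtain ⟨k, hk⟩ := IsPGroup.iff_orderOf.1 hQf.1 ⟨q, hq⟩
      have h1 : orderOf (π y) ∣ orderOf y := orderOf_map_dvd π y
      have h2 : orderOf (π y) ∣ p ^ k := by
        rw [hπ, ← hk, Subgroup.orderOf_mk]
        refine (orderOf_map_dvd π _).trans ?_
        rw [Subgroup.orderOf_mk]
      have h3 : π y = 1 := orderOf_eq_one_iff.1
        (Nat.eq_one_of_dvd_coprimes (Nat.Coprime.pow_left k (hM.1.coprime_iff_not_dvd.2 hreg)) h2 h1)
      exact (QuotientGroup.eq_one_iff y).1 h3
    exact Subgroup.mem_centralizer_iff.2 fun r hr =>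
      Subtype.ext (Subgroup.mem_centralizer_iff.1 hyC (r : G) (hR hr))

end Cfsg.Agent.S4693
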