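import Cfsg.Statements.S4717
import Cfsg.Agent.Blocks.Deficiency

set_option autoImplicit false
set_option linter.all false
open Cfsg

namespace Cfsg.Agent.S4717

/-- Let p be a prime, M a maximal ideal of the algebraic integers containing p, and r a natural number; say that a finite group X has deficiency class r when X has no non-principal p-block of defect ≥ r. If G has deficiency class r then so does the centralizer of every p-element of G; conversely, if r > 0 and the centralizer of every element of order p has deficiency class r, then G has deficiency class r. -/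
theorem result {G : Type*} [Group G] [Finite G] (p : ℕ) [Fact p.Prime] (M : Ideal Cfsg.AlgInt) (hM : Cfsg.IsPModular p M) (r : ℕ) : ((∀ B' : Set (Cfsg.IrrCharacter G), Cfsg.IsPBlock M B' → B' ≠ Cfsg.principalBlock M G → Cfsg.blockDefect p B' < r) → ∀ y : G, (∃ k : ℕ, orderOf y = p ^ k) → (∀ B' : Set (Cfsg.IrrCharacter ↥(Subgroup.centralizer ({y} : Set G))), Cfsg.IsPBlock M B' → B' ≠ Cfsg.principalBlock M ↥(Subgroup.centralizer ({y} : Set G)) → Cfsg.blockDefect p B' < r)) ∧ (0 < r → (∀ y : G, orderOf y = p → (∀ B' : Set (Cfsg.IrrCharacter ↥(Subgroup.centralizer ({y} : Set G))), Cfsg.IsPBlock M B' → B' ≠ Cfsg.principalBlock M ↥(Subgroup.centralizer ({y} : Set G)) → Cfsg.blockDefect p B' < r)) → (∀ B' : Set (Cfsg.IrrCharacter G), Cfsg.IsPBlock M B' → B' ≠ Cfsg.principalBlock M G → Cfsg.blockDefect p B' < r)) := by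
  classical
  haveI := Fintype.ofFinite G
  constructor
  · rintro hG y ⟨k, hk⟩ b hb hnp
    obtain ⟨B, hB, hBne, hle⟩ := Agent.Blocks.exists_block_over hM (Q := Subgroup.zpowers y)
      (IsPGroup.of_card (by rw [Nat.card_zpowers, hk]))
      (Agent.Blocks.centralizer_zpowers y).symm hb hnp
    exact hle.trans_lt (hG B hB hBne)
  · intro hr hy B hB hnp
    by_contra hlt
    obtain ⟨z, hz, hloc⟩ := Agent.Blocks.exists_local_over hM hB hnp (by omega)
    obtain ⟨b, hb, hbne, hle⟩ := hloc (Subgroup.centralizer ({z} : Set G))
      (Agent.Blocks.centralizer_zpowers z).symm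
    have := hy z hz b hb hbne
    omega

end Cfsg.Agent.S4717
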