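import Cfsg.Statements.S5084
import Cfsg.Agent.Fus.Normal

set_option autoImplicit false
open Cfsg

namespace Cfsg.Agent.S5084

/-- In a saturated fusion system over a finite p-group S, a subgroup Q is central in the system if and only if Q ≤ S and no element of Q is conjugate in the system to any element other than itself. -/
theorem result {Ω : Type*} [Group Ω] {S : Subgroup Ω} [Finite S] (p : ℕ) [Fact p.Prime] (hS : IsPGroup p S) (F : Cfsg.FusionSystem S) (hF : F.IsSaturated p) (Q : Subgroup Ω) : F.IsCentral Q ↔ (Q ≤ S ∧ ∀ x ∈ Q, ∀ y : Ω, F.IsConjElt x y → y = x) := by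
  constructor
  · intro hQ
    refine ⟨hQ.1, fun x hx y ⟨φ, hφ, hy⟩ => ?_⟩
    obtain ⟨ψ, -, h1, h2⟩ := hQ.2 _ φ hφ
    rw [← hy, ← h1]
    exact (congrArg ψ (Subtype.ext rfl)).trans (h2 ⟨x, hx⟩)
  · rintro ⟨hQS, h⟩
    have hfix : ∀ (P : Subgroup Ω) (φ : P →* Ω), φ ∈ F.Hom P → ∀ x : P, (x : Ω) ∈ Q → φ x = x := by
      intro P φ hφ x hx
      exact h x hx _ ⟨_, Fus.restrict_mem hφ (Subgroup.zpowers_le.2 x.2), congrArg φ (Subtype.ext rfl)⟩
    have hsc : F.StronglyClosed Q := ⟨hQS, fun R hR φ hφ x => (hfix R φ hφ x (hR x.2)).symm ▸ hR x.2⟩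
    have hab : ∀ x ∈ Q, ∀ y ∈ Q, x * y = y * x := by
      intro x hx y hy
      have h1 : x * y * x⁻¹ = y := hfix Q _ (F.conj_mem hQS (hQS hx)) ⟨y, hy⟩ hy
      exact mul_inv_eq_iff_eq_mul.1 h1
    refine ⟨hQS, fun P φ hφ => ?_⟩
    obtain ⟨ψ, hψ, h1, -⟩ := (Fus.isNormal_of_stronglyClosed_abelian hS hF hsc hab).2 P φ hφ
    exact ⟨ψ, hψ, h1, fun x => hfix _ ψ hψ _ x.2⟩

end Cfsg.Agent.S5084
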