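import Cfsg.Statements.S5085
import Cfsg.Agent.Fus.Basic

set_option autoImplicit false
open Cfsg

namespace Cfsg.Agent.S5085

/-- In any fusion system, a characteristic subgroup of a subgroup that is normal in the system is itself normal in the system. -/
theorem result {Ω : Type*} [Group Ω] {S : Subgroup Ω} (F : Cfsg.FusionSystem S) (Q U : Subgroup Ω) (hQ : F.IsNormal Q) (hUQ : U ≤ Q) (hU : (U.subgroupOf Q).Characteristic) : F.IsNormal U := by
  refine ⟨hUQ.trans hQ.1, fun P φ hφ => ?_⟩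
  obtain ⟨ψ, hψ, h1, h2⟩ := hQ.2 P φ hφ
  have hle : P ⊔ U ≤ P ⊔ Q := sup_le_sup_left hUQ P
  refine ⟨_, Fus.restrict_mem hψ hle, fun x => h1 x, ?_⟩
  have hQ' : Q ≤ P ⊔ Q := le_sup_right
  rw [Fus.map_subgroupOf_eq hQ'] at h2
  obtain ⟨α, -, hα⟩ := Fus.exists_aut_of_range (Fus.restrict_mem hψ hQ') h2
  have hU' : (U.subgroupOf Q).map α.toMonoidHom = U.subgroupOf Q :=
    Subgroup.characteristic_iff_map_eq.1 hU α
  rw [Fus.map_subgroupOf_eq le_sup_right]
  apply le_antisymm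
  · rintro _ ⟨u, rfl⟩
    have h3 : α (Subgroup.inclusion hUQ u) ∈ U.subgroupOf Q := hU'.le ⟨_, u.2, rfl⟩
    have h4 := hα (Subgroup.inclusion hUQ u)
    exact h4.symm ▸ h3
  · intro u hu
    obtain ⟨v, hv, hvu⟩ := hU'.ge (show (⟨u, hUQ hu⟩ : Q) ∈ U.subgroupOf Q from hu)
    exact ⟨⟨v, hv⟩, (hα v).symm.trans (congrArg Subtype.val hvu)⟩

end Cfsg.Agent.S5085
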