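import Cfsg.Statements.S5087
import Cfsg.Agent.Fus.Normal

set_option autoImplicit false
open Cfsg Cfsg.FusionSystem

namespace Cfsg.Agent.S5087

/-- In a saturated fusion system over a finite p-group S, a subgroup Q is normal in the system if and only if every subgroup P that equals S or is essential contains Q and every element of Aut_F(P) maps Q onto itself. -/
theorem result {Ω : Type*} [Group Ω] {S : Subgroup Ω} [Finite S] (p : ℕ) [Fact p.Prime] (hS : IsPGroup p S) (F : Cfsg.FusionSystem S) (hF : F.IsSaturated p) (Q : Subgroup Ω) : F.IsNormal Q ↔ ∀ P : Subgroup Ω, (P = S ∨ F.IsEssential p P) → (Q ≤ P ∧ ∀ α ∈ F.autGroup P, (Q.subgroupOf P).map α.toMonoidHom = Q.subgroupOf P) := by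
  constructor
  · intro hQ P hP
    have hPS : P ≤ S := hP.elim (fun e => e.le) fun e => e.1.1
    have hQP : Q ≤ P := hP.elim (fun e => hQ.1.trans e.ge) fun e =>
      Fus.le_radical_of_extProp hS hQ.1 (Fus.extProp_of_normal hQ) e.1 (Fus.essential_isRadical hS e)
    refine ⟨hQP, fun α hα => ?_⟩
    have : Finite P := Fus.finite_le hPS
    have : Finite (Q.subgroupOf P) := inferInstance
    refine Subgroup.eq_of_le_of_card_ge ?_ (Nat.card_congr (Subgroup.equivMapOfInjective _ _ α.injective).toEquiv).le
    rintro _ ⟨x, hx, rfl⟩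
    exact Fus.stronglyClosed_inv (Fus.stronglyClosed_of_normal hQ) hPS hα x hx
  · intro h
    refine Fus.isNormal_of_generators hS hF fun P hP => ⟨(h P hP).1, fun α hα x hx => ?_⟩
    exact ((h P hP).2 α hα).le ⟨x, hx, rfl⟩

end Cfsg.Agent.S5087
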