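import Cfsg.Statements.S5088
import Cfsg.Agent.Fus.Normal

set_option autoImplicit false
open Cfsg

namespace Cfsg.Agent.S5088

/-- In a saturated fusion system over a finite p-group, a subgroup Q is normal in the system if and only if there is a chain of subgroups 1 = Q₀ ≤ Q₁ ≤ ⋯ ≤ Qₙ = Q such that each Qᵢ with i ≥ 1 is strongly closed in the system and [Q, Qᵢ] ≤ Qᵢ₋₁. -/
theorem result {Ω : Type*} [Group Ω] {S : Subgroup Ω} [Finite S] (p : ℕ) [Fact p.Prime] (hS : IsPGroup p S) (F : Cfsg.FusionSystem S) (hF : F.IsSaturated p) (Q : Subgroup Ω) : F.IsNormal Q ↔ ∃ (n : ℕ) (Qs : Fin (n + 1) → Subgroup Ω), Qs 0 = ⊥ ∧ Qs (Fin.last n) = Q ∧ Monotone Qs ∧ ∀ i : Fin n, F.StronglyClosed (Qs i.succ) ∧ ⁅Q, Qs i.succ⁆ ≤ Qs (Fin.castSucc i) := by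
  constructor
  · intro hQ
    obtain ⟨n, C, h0, hn, hm, hsc, hcomm⟩ := Fus.exists_series_of_extProp hS hQ.1 (Fus.extProp_of_normal hQ)
    refine ⟨n, fun i => C i, h0, hn, fun i j h => hm h, fun i => ⟨hsc _, ?_⟩⟩
    rw [Subgroup.commutator_le]
    intro b hb a ha
    have h1 := (C i).inv_mem (hcomm i i.2 _ ((C (i + 1)).inv_mem ha) b hb)
    simpa [commutatorElement_def, mul_assoc] using h1
  · rintro ⟨n, C, hC0, hCn, hCm, h⟩
    have hbot : F.StronglyClosed ⊥ := ⟨bot_le, fun R hR φ hφ x => by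
      have hx : x = 1 := Subtype.ext (Subgroup.mem_bot.1 (hR x.2))
      rw [hx, map_one]; exact Subgroup.one_mem _⟩
    have hscAll : ∀ i : Fin (n + 1), F.StronglyClosed (C i) := by
      intro i
      rcases Fin.eq_zero_or_eq_succ i with rfl | ⟨j, rfl⟩
      · rw [hC0]; exact hbot
      · exact (h j).1
    have hQ : F.StronglyClosed Q := hCn ▸ hscAll _
    refine Fus.isNormal_of_series hS hF hQ n (fun i => C ⟨min i n, by omega⟩) ?_ ?_ ?_ ?_ ?_
    · simpa using hC0
    · simp only [min_self]; exact hCn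
    · exact fun i j h => hCm (by show min i n ≤ min j n; omega)
    · exact fun i _ φ hφ => Fus.range_eq_of_stronglyClosed (hscAll _) hφ
    · intro i hi x hx y hy
      have e1 : (⟨min i n, by omega⟩ : Fin (n + 1)) = (⟨i, hi⟩ : Fin n).castSucc := Fin.ext (by simp; omega)
      have e2 : (⟨min (i + 1) n, by omega⟩ : Fin (n + 1)) = (⟨i, hi⟩ : Fin n).succ := Fin.ext (by simp; omega)
      simp only [e1]
      simp only [e2] at hx
      have := (C _).inv_mem ((h ⟨i, hi⟩).2 (Subgroup.commutator_mem_commutator hy ((C _).inv_mem hx)))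
      simpa [commutatorElement_def, mul_assoc] using this

end Cfsg.Agent.S5088
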