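import Cfsg.Statements.S5089
import Cfsg.Agent.Fus.Normal

set_option autoImplicit false
open Cfsg

namespace Cfsg.Agent.S5089

/-- A saturated fusion system over a finite p-group has a nontrivial subgroup that is normal in the system (O_p(F) ≠ 1) if and only if some nontrivial abelian subgroup is strongly closed in the system. -/
theorem result {Ω : Type*} [Group Ω] {S : Subgroup Ω} [Finite S] (p : ℕ) [Fact p.Prime] (hS : IsPGroup p S) (F : Cfsg.FusionSystem S) (hF : F.IsSaturated p) : F.core ≠ ⊥ ↔ ∃ Q : Subgroup Ω, Q ≠ ⊥ ∧ IsMulCommutative Q ∧ F.StronglyClosed Q := by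
  constructor
  · intro hne
    have hn := Fus.core_isNormal (F := F)
    have : Finite F.core := Fus.finite_le hn.1
    have : Nontrivial F.core := (Subgroup.nontrivial_iff_ne_bot _).2 hne
    have hpz : Nontrivial (Subgroup.center F.core) := (hS.to_le hn.1).center_nontrivial
    refine ⟨(Subgroup.center F.core).map F.core.subtype, ?_, ?_, Fus.stronglyClosed_char hn.1 (Fus.extProp_of_normal hn) _⟩
    · rw [Ne, Subgroup.map_eq_bot_iff_of_injective _ (Subgroup.subtype_injective _)]
      exact (Subgroup.nontrivial_iff_ne_bot _).1 hpz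
    · infer_instance
  · rintro ⟨Q, hQ, hab, hsc⟩ e
    refine hQ (le_bot_iff.1 (e ▸ le_sSup (Fus.isNormal_of_stronglyClosed_abelian hS hF hsc ?_)))
    intro x hx y hy
    exact congrArg Subtype.val (mul_comm' (⟨x, hx⟩ : Q) ⟨y, hy⟩)

end Cfsg.Agent.S5089
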