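import Cfsg.Statements.S5102
import Cfsg.Agent.Fus.Group

set_option autoImplicit false
open Cfsg

namespace Cfsg.Agent.S5102

/-- A normal p-subgroup of a finite group G is normal in the fusion system of G on a Sylow p-subgroup. -/
theorem result {G : Type*} [Group G] [Finite G] (p : ℕ) [Fact p.Prime] (S : Sylow p G) (R : Subgroup G) [R.Normal] (hR : IsPGroup p R) : (Cfsg.groupFusionSystem (S : Subgroup G)).IsNormal R := by
  have hRS : R ≤ (S : Subgroup G) := by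
    obtain ⟨k, -, hk⟩ := (Fus.sylowIn_top S).exists_conj_le hR le_top
    intro x hx
    refine hk ⟨k⁻¹ * x * k⁻¹⁻¹, ‹R.Normal›.conj_mem x hx k⁻¹, ?_⟩
    show k * (k⁻¹ * x * k⁻¹⁻¹) * k⁻¹ = x
    group
  refine ⟨hRS, fun P φ hφ => ?_⟩
  obtain ⟨hP, hφS, g, hg⟩ := hφ
  have hmap : (P ⊔ R).map (MulAut.conj g).toMonoidHom ≤ (S : Subgroup G) := by
    rw [Subgroup.map_sup]
    refine sup_le ?_ ?_
    · rintro _ ⟨x, hx, rfl⟩
      have := hφS ⟨x, hx⟩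
      rwa [hg] at this
    · rintro _ ⟨x, hx, rfl⟩
      exact hRS (‹R.Normal›.conj_mem x hx g)
  refine ⟨_, Fus.conjHom_mem (g := g) (sup_le hP hRS) hmap, fun x => (hg x).symm, ?_⟩
  rw [Fus.map_subgroupOf_eq le_sup_right]
  ext y
  constructor
  · rintro ⟨x, rfl⟩; exact ‹R.Normal›.conj_mem _ x.2 g
  · intro hy
    refine ⟨⟨g⁻¹ * y * g⁻¹⁻¹, ‹R.Normal›.conj_mem y hy g⁻¹⟩, ?_⟩
    show g * (g⁻¹ * y * g⁻¹⁻¹) * g⁻¹ = y
    group

end Cfsg.Agent.S5102
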