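import Cfsg.Statements.S5104
import Cfsg.Agent.Fus.Saturation

set_option autoImplicit false
open Cfsg Cfsg.FusionSystem

namespace Cfsg.Agent.S5104

/-- In a saturated fusion system over a finite p-group S, a fully centralized subgroup U with C_S(U) ≤ U is centric. -/
theorem result {Ω : Type*} [Group Ω] {S : Subgroup Ω} [Finite S] (p : ℕ) [Fact p.Prime] (hS : IsPGroup p S) (F : Cfsg.FusionSystem S) (hF : F.IsSaturated p) (U : Subgroup Ω) (hU : F.IsFullyCentralized U) (hC : Cfsg.FusionSystem.centralizerIn S U ≤ U) : F.IsCentric U := by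
  refine ⟨hU.1, fun Q hQ => ?_⟩
  obtain ⟨e, he⟩ := Fus.exists_iso_of_isConj hQ
  have : Finite (centralizerIn S Q) := Fus.finite_le inf_le_left
  have hle : (centralizerIn S Q ⊓ Q) ≤ centralizerIn S Q := inf_le_left
  have : Finite ↥(centralizerIn S Q ⊓ Q) := Fus.finite_le (inf_le_left.trans inf_le_left)
  have hcard : Nat.card (centralizerIn S Q) ≤ Nat.card ↥(centralizerIn S Q ⊓ Q) := by
    refine (hU.2 Q hQ).trans (Nat.card_le_card_of_injective
      (fun u : centralizerIn S U => (⟨e ⟨u, hC u.2⟩, ⟨(Fus.isoMem_le he).2 (e _).2, fun y hy => ?_⟩, (e _).2⟩ : ↥(centralizerIn S Q ⊓ Q)))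
      ?_)
    · obtain ⟨x, hx⟩ := e.surjective ⟨y, hy⟩
      have h1 : x * ⟨u, hC u.2⟩ = ⟨u, hC u.2⟩ * x := Subtype.ext (u.2.2 x x.2)
      have h2 := congrArg (fun z => (e z : Ω)) h1
      simp only [map_mul, hx] at h2
      exact h2
    · intro a b hab
      have h3 : e ⟨a, hC a.2⟩ = e ⟨b, hC b.2⟩ := Subtype.ext (Subtype.ext_iff.1 hab :)
      exact Subtype.ext (Subtype.ext_iff.1 (e.injective h3) :)
  intro g hg
  exact ((Subgroup.eq_of_le_of_card_ge hle hcard).ge hg).2

end Cfsg.Agent.S5104
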