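import Cfsg.Statements.S5111
import Cfsg.Agent.Fus.Stancu

set_option autoImplicit false
open Cfsg

namespace Cfsg.Agent.S5111

/-- A fusion system over a finite p-group S is saturated if and only if the inner automorphisms of S form a Sylow p-subgroup of Aut_F(S) and every fully normalized subgroup of S is receptive. -/
theorem result {Ω : Type*} [Group Ω] {S : Subgroup Ω} [Finite S] (p : ℕ) [Fact p.Prime] (hS : IsPGroup p S) (F : Cfsg.FusionSystem S) : F.IsSaturated p ↔ (F.IsFullyAutomized p S ∧ ∀ P : Subgroup Ω, F.IsFullyNormalized P → F.IsReceptive P) := by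
  refine ⟨fun hF => ⟨(Fus.fullyNormalized_props hS hF Fus.isFullyNormalized_top).2,
    fun P hP => Fus.fullyNormalized_receptive hS hF hP⟩, fun h P hP => ?_⟩
  obtain ⟨Q, hPQ, hQ⟩ := Fus.exists_fullyNormalized (F := F) hP
  exact ⟨Q, hPQ, Fus.fullyAutomized_of_receptive hS h.1 h.2 _ Q rfl hQ, h.2 Q hQ⟩

end Cfsg.Agent.S5111
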