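import Cfsg.Statements.S5112
import Cfsg.Agent.Fus.Dihedral

set_option autoImplicit false
open Cfsg

namespace Cfsg.Agent.S5112

/-- If S is a dihedral or generalized quaternion 2-group of order at least 16, then in every saturated fusion system over S (at the prime 2) the automorphism group Aut_F(S) consists of the inner automorphisms of S. -/
theorem result {Ω : Type*} [Group Ω] {S : Subgroup Ω} [Finite S] (n : ℕ) (hn : 4 ≤ n) (hshape : Nonempty (S ≃* DihedralGroup (2 ^ (n - 1))) ∨ Nonempty (S ≃* QuaternionGroup (2 ^ (n - 2)))) (F : Cfsg.FusionSystem S) (hF : F.IsSaturated 2) : F.autGroup S = Cfsg.Inn S := by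
  have h : IsPGroup 2 S ∧ IsPGroup 2 (MulAut S) := by
    rcases hshape with ⟨⟨e⟩⟩ | ⟨⟨e⟩⟩
    · refine ⟨(IsPGroup.of_card (n := n) ?_).of_equiv e.symm,
        (Fus.isPGroup_mulAut_dihedral (by omega)).of_equiv (MulAut.congr e).symm⟩
      rw [DihedralGroup.nat_card, ← pow_succ']
      congr 1; omega
    · have : NeZero (2 ^ (n - 2)) := ⟨by positivity⟩
      refine ⟨(IsPGroup.of_card (n := n) ?_).of_equiv e.symm,
        (Fus.isPGroup_mulAut_quaternion (by omega)).of_equiv (MulAut.congr e).symm⟩
      rw [Nat.card_eq_fintype_card, QuaternionGroup.card, show (4 : ℕ) = 2 ^ 2 from rfl, ← pow_add]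
      congr 1; omega
  exact Fus.autGroup_eq_inn_of_isPGroup h.1 hF h.2

end Cfsg.Agent.S5112
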