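import Cfsg.Statements.S5393
import Cfsg.Agent.M24.Classes
import Cfsg.Agent.M24.Trans
import Cfsg.Agent.M24.Canon

set_option autoImplicit false
open Cfsg

namespace Cfsg.Agent.S5393
open scoped Pointwise

/-- The length-24 code built from the squares modulo 23 contains the all-ones word, and the code modulo the all-ones word is an irreducible module over the field with two elements for the code's automorphism group: a subspace of the code that contains the all-ones word and is invariant under every coordinate permutation preserving the code is either the span of the all-ones word or the whole code. -/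
theorem result : (fun _ : Cfsg.GolayPt => (1 : ZMod 2)) ∈ Cfsg.golayCode ∧ ∀ W : Submodule (ZMod 2) (Cfsg.GolayPt → ZMod 2), (fun _ => (1 : ZMod 2)) ∈ W → W ≤ Cfsg.golayCode → (∀ σ ∈ Cfsg.M24, ∀ w ∈ W, (fun p => w (σ.symm p)) ∈ W) → W = Submodule.span (ZMod 2) {fun _ => (1 : ZMod 2)} ∨ W = Cfsg.golayCode := by
  classical
  have hone : (fun _ : Cfsg.GolayPt => (1 : ZMod 2)) = Cfsg.Agent.M24.toWord 16777215 := funext fun i => by
    simp [Cfsg.Agent.M24.toWord, Cfsg.Agent.M24.testBit_full _ (Cfsg.Agent.M24.ix_lt i)]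
  have hone' : (fun _ : Cfsg.GolayPt => (1 : ZMod 2)) ∈ Cfsg.golayCode := by
    rw [hone, Cfsg.Agent.M24.toWord_mem_iff (by norm_num)]; decide +kernel
  refine ⟨hone', fun W h1W hWC hinv => ?_⟩
  by_cases hw : ∀ w ∈ W, w = 0 ∨ w = fun _ => (1 : ZMod 2)
  · left
    refine le_antisymm (fun w h => ?_) (Submodule.span_le.2 (Set.singleton_subset_iff.2 h1W))
    rcases hw w h with rfl | rfl
    · exact Submodule.zero_mem _
    · exact Submodule.subset_span rfl
  · right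
    push Not at hw
    obtain ⟨w, hwW, hw0, hw1⟩ := hw
    have hact : ∀ (σ : Equiv.Perm Cfsg.GolayPt) (m m' : ℕ), σ • Cfsg.Agent.M24.toSet m = Cfsg.Agent.M24.toSet m' →
        (fun p => Cfsg.Agent.M24.toWord m (σ.symm p)) = Cfsg.Agent.M24.toWord m' := by
      intro σ m m' h
      funext p
      simp only [Cfsg.Agent.M24.toWord]
      have e : Cfsg.Agent.M24.ix (σ.symm p) = Cfsg.Agent.M24.ix (σ⁻¹ • p) := rfl
      have hb : m.testBit (Cfsg.Agent.M24.ix (σ.symm p)) = true ↔ m'.testBit (Cfsg.Agent.M24.ix p) = true := by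
        rw [e, ← Cfsg.Agent.M24.mem_toSet, ← Cfsg.Agent.M24.mem_toSet, ← h, Finset.inv_smul_mem_iff]
      by_cases hm : m'.testBit (Cfsg.Agent.M24.ix p) = true
      · rw [if_pos hm, if_pos (hb.2 hm)]
      · rw [if_neg hm, if_neg (fun h' => hm (hb.1 h'))]
    have hm' : ∀ n < 4096, Cfsg.Agent.M24.enc n = 0 ∨ Cfsg.Agent.M24.enc n = 16777215 ∨ Cfsg.Agent.M24.pc (Cfsg.Agent.M24.enc n) = 8 ∨
        Cfsg.Agent.M24.pc (Cfsg.Agent.M24.enc n) = 12 ∨ Cfsg.Agent.M24.pc (Cfsg.Agent.M24.enc n ^^^ 16777215) = 8 :=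
      Cfsg.Agent.M24.forall_lt_4096 (by decide +kernel)
    have hm : ∀ m ∈ Cfsg.Agent.M24.codeList, m = 0 ∨ m = 16777215 ∨ Cfsg.Agent.M24.pc m = 8 ∨ Cfsg.Agent.M24.pc m = 12 ∨
        Cfsg.Agent.M24.pc (m ^^^ 16777215) = 8 := fun m h => by
      obtain ⟨n, hn, rfl⟩ := List.mem_map.1 h
      exact hm' n (List.mem_range.1 hn)
    have hoct : ∀ m, m ∈ Cfsg.Agent.M24.octL → Cfsg.Agent.M24.toWord m ∈ W → ∀ n ∈ Cfsg.Agent.M24.octL, Cfsg.Agent.M24.toWord n ∈ W := by
      intro m hm' hmW n hn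
      obtain ⟨a, ha, hao⟩ := Cfsg.Agent.M24.exists_map_octad (Cfsg.Agent.M24.mem_octads_list.2 ⟨m, hm', rfl⟩)
      obtain ⟨b, hb, hbo⟩ := Cfsg.Agent.M24.exists_map_octad (Cfsg.Agent.M24.mem_octads_list.2 ⟨n, hn, rfl⟩)
      have hσ : (b * a⁻¹) • Cfsg.Agent.M24.toSet m = Cfsg.Agent.M24.toSet n := by
        rw [← hao, mul_smul, inv_smul_smul, hbo]
      have := hinv _ (Cfsg.M24.mul_mem hb (Cfsg.M24.inv_mem ha)) _ hmW
      rwa [hact _ _ _ hσ] at this
    have hlt := Cfsg.Agent.M24.toMask_lt (Cfsg.support₂ w)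
    have hin : Cfsg.Agent.M24.inCode (Cfsg.Agent.M24.toMask (Cfsg.support₂ w)) = true := Cfsg.Agent.M24.mem_golayCode_iff.1 (hWC hwW)
    have hwm : Cfsg.Agent.M24.toWord (Cfsg.Agent.M24.toMask (Cfsg.support₂ w)) = w := Cfsg.Agent.M24.toWord_support w
    set m := Cfsg.Agent.M24.toMask (Cfsg.support₂ w) with hmdef
    rw [← hwm] at hwW
    have hmem := (Cfsg.Agent.M24.mem_codeList hlt).2 hin
    have hfull : Cfsg.Agent.M24.inCode 16777215 = true := by decide +kernel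
    have key : ∃ o ∈ Cfsg.Agent.M24.octL, Cfsg.Agent.M24.toWord o ∈ W := by
      rcases hm m hmem with h | h | h | h | h
      · exact absurd (by rw [← hwm, h, Cfsg.Agent.M24.toWord_zero]) hw0
      · exact absurd (by rw [← hwm, h, hone]) hw1
      · exact ⟨m, (Cfsg.Agent.M24.mem_class 8 _ Cfsg.Agent.M24.octL_eq hlt).2 ⟨hin, h⟩, hwW⟩
      · obtain ⟨d', hd', h8⟩ : ∃ d' ∈ Cfsg.Agent.M24.dodL, Cfsg.Agent.M24.dod0 ^^^ d' ∈ Cfsg.Agent.M24.octL := by decide +kernel
        obtain ⟨a, ha, hao⟩ := Cfsg.Agent.M24.exists_map_dodecad (d := Cfsg.Agent.M24.toSet m)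
          (Cfsg.Agent.M24.mem_dodecads_list.2 ⟨m, (Cfsg.Agent.M24.mem_class 12 _ Cfsg.Agent.M24.dodL_eq hlt).2 ⟨hin, h⟩, rfl⟩)
        obtain ⟨b, hb, hbo⟩ := Cfsg.Agent.M24.exists_map_dodecad (Cfsg.Agent.M24.mem_dodecads_list.2 ⟨d', hd', rfl⟩)
        have h0 : Cfsg.Agent.M24.toWord Cfsg.Agent.M24.dod0 ∈ W := by
          have := hinv _ (Cfsg.M24.inv_mem ha) _ hwW
          rwa [hact a⁻¹ m Cfsg.Agent.M24.dod0 (by rw [← hao, inv_smul_smul])] at this
        have hd : Cfsg.Agent.M24.toWord d' ∈ W := by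
          have := hinv _ hb _ h0
          rwa [hact b _ _ hbo] at this
        exact ⟨_, h8, by rw [Cfsg.Agent.M24.toWord_xor]; exact W.add_mem h0 hd⟩
      · refine ⟨m ^^^ 16777215, (Cfsg.Agent.M24.mem_class 8 _ Cfsg.Agent.M24.octL_eq (Nat.xor_lt_two_pow hlt (by norm_num))).2
          ⟨Cfsg.Agent.M24.inCode_xor hin hfull, h⟩, ?_⟩
        rw [Cfsg.Agent.M24.toWord_xor, ← hone]
        exact W.add_mem hwW h1W
    obtain ⟨o, ho, hoW⟩ := key
    refine le_antisymm hWC fun v hv => ?_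
    rw [Cfsg.Agent.M24.golayCode_eq] at hv
    obtain ⟨n, -, rfl⟩ := hv
    have hrows : ∀ r ∈ Cfsg.Agent.M24.rows, r ∈ Cfsg.Agent.M24.octL := by decide +kernel
    exact Cfsg.Agent.M24.comb_mem W _ (fun r hr => hoct o ho hoW r (hrows r hr)) n


end Cfsg.Agent.S5393
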