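import Cfsg.Statements.S5394
import Cfsg.Agent.M24.InvClasses

set_option autoImplicit false
open Cfsg

namespace Cfsg.Agent.S5394
open scoped Pointwise

/-- The automorphism group of the length-24 code built from the squares modulo 23 has exactly two conjugacy classes of involutions: an involution either fixes exactly the eight points of an octad or has no fixed points, both kinds occur, and any two involutions of the same kind are conjugate in the group. -/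
theorem result : (∀ g ∈ Cfsg.M24, orderOf g = 2 → (Finset.univ.filter fun p => g p = p) ∈ Cfsg.octads ∨ ∀ p, g p ≠ p) ∧ (∃ g ∈ Cfsg.M24, orderOf g = 2 ∧ (Finset.univ.filter fun p => g p = p) ∈ Cfsg.octads) ∧ (∃ g ∈ Cfsg.M24, orderOf g = 2 ∧ ∀ p, g p ≠ p) ∧ ∀ g ∈ Cfsg.M24, ∀ h ∈ Cfsg.M24, orderOf g = 2 → orderOf h = 2 → ((∀ p, g p ≠ p) ↔ (∀ p, h p ≠ p)) → ∃ k ∈ Cfsg.M24, k * g * k⁻¹ = h := by
  have hr : ∀ r ∈ Cfsg.Agent.M24.t242Reps, (Cfsg.Agent.M24.inCode (Cfsg.Agent.M24.fixMask r) = true ∧ Cfsg.Agent.M24.pc (Cfsg.Agent.M24.fixMask r) = 8) ∨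
      Cfsg.Agent.M24.pc (Cfsg.Agent.M24.fixMask r) = 0 := by decide +kernel
  have hu : ∀ r ∈ Cfsg.Agent.M24.t242Reps, ∀ r' ∈ Cfsg.Agent.M24.t242Reps,
      (Cfsg.Agent.M24.pc (Cfsg.Agent.M24.fixMask r) = 0 ↔ Cfsg.Agent.M24.pc (Cfsg.Agent.M24.fixMask r') = 0) → r = r' := by decide +kernel
  have : Fact (Nat.Prime 2) := ⟨Nat.prime_two⟩
  have hfree : ∀ g : Equiv.Perm Cfsg.GolayPt,
      (∀ p, g p ≠ p) ↔ (Finset.univ.filter fun p => g p = p).card = 0 := fun g => by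
    simp [Finset.filter_eq_empty_iff]
  refine ⟨fun g hg h => ?_, ?_, ?_, fun g hg h hh og oh hiff => ?_⟩
  · obtain ⟨c, hc, r, hrm, ha, rfl⟩ := Cfsg.Agent.M24.exists_conj_order_two hg h
    rcases hr r hrm with h8 | h0
    · exact Or.inl (Cfsg.Agent.M24.fix_conj_mem (Cfsg.Agent.M24.autB_ok ha) hc h8)
    · right; rw [hfree, Cfsg.Agent.M24.card_fix_rep (Cfsg.Agent.M24.autB_ok ha)]; exact h0
  · have e : ∃ r ∈ Cfsg.Agent.M24.t242Reps, Cfsg.Agent.M24.autB r = true ∧ Cfsg.Agent.M24.inCode (Cfsg.Agent.M24.fixMask r) = true ∧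
        Cfsg.Agent.M24.pc (Cfsg.Agent.M24.fixMask r) = 8 := by decide +kernel
    obtain ⟨r, hrm, ha, h8⟩ := e
    obtain ⟨ho, hm⟩ := Cfsg.Agent.M24.orderOf_toPerm_rep Cfsg.Agent.M24.t242_class hrm
    refine ⟨_, hm.1, ho, ?_⟩
    simpa using Cfsg.Agent.M24.fix_conj_mem (Cfsg.Agent.M24.autB_ok ha) Cfsg.M24.one_mem h8
  · have e : ∃ r ∈ Cfsg.Agent.M24.t242Reps, Cfsg.Agent.M24.autB r = true ∧ Cfsg.Agent.M24.pc (Cfsg.Agent.M24.fixMask r) = 0 := by decide +kernel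
    obtain ⟨r, hrm, ha, h0⟩ := e
    obtain ⟨ho, hm⟩ := Cfsg.Agent.M24.orderOf_toPerm_rep Cfsg.Agent.M24.t242_class hrm
    refine ⟨_, hm.1, ho, ?_⟩
    rw [hfree]
    simpa using (Cfsg.Agent.M24.card_fix_rep (Cfsg.Agent.M24.autB_ok ha) 1).trans h0
  · obtain ⟨c, hc, r, hrm, ha, rfl⟩ := Cfsg.Agent.M24.exists_conj_order_two hg og
    obtain ⟨d, hd, r', hrm', ha', rfl⟩ := Cfsg.Agent.M24.exists_conj_order_two hh oh
    rw [hfree, hfree, Cfsg.Agent.M24.card_fix_rep (Cfsg.Agent.M24.autB_ok ha), Cfsg.Agent.M24.card_fix_rep (Cfsg.Agent.M24.autB_ok ha')] at hiff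
    obtain rfl := hu r hrm r' hrm' hiff
    exact ⟨d * c⁻¹, Cfsg.M24.mul_mem hd (Cfsg.M24.inv_mem hc), by group⟩


end Cfsg.Agent.S5394
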