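import Cfsg.Statements.S5550
import Cfsg.Agent.M24.MaxOct
import Cfsg.Agent.M24.MaxDpair
import Cfsg.Agent.M24.Trans
import Cfsg.Agent.M24.Canon
import Cfsg.Agent.M24.Orders

set_option autoImplicit false
open Cfsg

namespace Cfsg.Agent.S5550
open scoped Pointwise

/-- Let u be a word of the length-24 binary Golay code of the definitions (possibly zero or all-ones) and w any binary word of length 24 outside the code. Then some automorphism of the code (a coordinate permutation preserving it) fixes u but moves w to a word not congruent to w modulo the code: the stabilizer of a codeword fixes no non-zero element of the quotient of the space of all words by the code. -/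
theorem result (u : (Cfsg.GolayPt → ZMod 2)) (hu : u ∈ Cfsg.golayCode) (w : (Cfsg.GolayPt → ZMod 2)) (hw : w ∉ Cfsg.golayCode) : ∃ σ ∈ Cfsg.M24, (fun p => u (σ.symm p)) = u ∧ (fun p => w (σ.symm p)) - w ∉ Cfsg.golayCode := by
  classical
  let W : Equiv.Perm Cfsg.GolayPt → (Cfsg.GolayPt → ZMod 2) → (Cfsg.GolayPt → ZMod 2) := fun σ v p => v (σ.symm p)
  have hWadd : ∀ σ a b, W σ (a + b) = W σ a + W σ b := fun σ a b => rfl
  have hWmul : ∀ σ τ v, W (σ * τ) v = W σ (W τ v) := fun σ τ v => rfl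
  have hW1 : ∀ v, W 1 v = v := fun v => rfl
  have hact : ∀ (σ : Equiv.Perm Cfsg.GolayPt) (m m' : ℕ), σ • Cfsg.Agent.M24.toSet m = Cfsg.Agent.M24.toSet m' →
      W σ (Cfsg.Agent.M24.toWord m) = Cfsg.Agent.M24.toWord m' := by
    intro σ m m' h
    funext p
    simp only [W, Cfsg.Agent.M24.toWord]
    have hb : m.testBit (Cfsg.Agent.M24.ix (σ.symm p)) = true ↔ m'.testBit (Cfsg.Agent.M24.ix p) = true := by
      rw [show Cfsg.Agent.M24.ix (σ.symm p) = Cfsg.Agent.M24.ix (σ⁻¹ • p) from rfl, ← Cfsg.Agent.M24.mem_toSet, ← Cfsg.Agent.M24.mem_toSet, ← h, Finset.inv_smul_mem_iff]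
    by_cases hm : m'.testBit (Cfsg.Agent.M24.ix p) = true
    · rw [if_pos hm, if_pos (hb.2 hm)]
    · rw [if_neg hm, if_neg (fun h' => hm (hb.1 h'))]
  have hC : ∀ σ ∈ Cfsg.M24, ∀ v ∈ Cfsg.golayCode, W σ v ∈ Cfsg.golayCode := by
    intro σ hσ v hv
    obtain ⟨hlt, hin⟩ : Cfsg.Agent.M24.toMask (Cfsg.support₂ v) < 2 ^ 24 ∧ Cfsg.Agent.M24.inCode (Cfsg.Agent.M24.toMask (Cfsg.support₂ v)) = true :=
      ⟨Cfsg.Agent.M24.toMask_lt _, Cfsg.Agent.M24.mem_golayCode_iff.1 hv⟩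
    rw [← Cfsg.Agent.M24.toWord_support v, hact σ _ (Cfsg.Agent.M24.toMask (σ • Cfsg.Agent.M24.toSet (Cfsg.Agent.M24.toMask (Cfsg.support₂ v)))) (Cfsg.Agent.M24.toSet_toMask _).symm,
      Cfsg.Agent.M24.toWord_mem_iff (Cfsg.Agent.M24.toMask_lt _)]
    exact Cfsg.Agent.M24.mem_supports_iff.1 ((Cfsg.Agent.M24.smul_mem_supports hσ).2 (Cfsg.Agent.M24.mem_supports_iff.2 (by rwa [Cfsg.Agent.M24.toMask_toSet hlt])))
  have hone : ∀ σ, W σ (Cfsg.Agent.M24.toWord 16777215) = Cfsg.Agent.M24.toWord 16777215 := fun σ => funext fun p => by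
    simp [W, Cfsg.Agent.M24.toWord, Cfsg.Agent.M24.testBit_full _ (Cfsg.Agent.M24.ix_lt _)]
  have hfull : ∀ m, Cfsg.Agent.M24.toWord (m ^^^ 16777215) = Cfsg.Agent.M24.toWord m + Cfsg.Agent.M24.toWord 16777215 := fun m => Cfsg.Agent.M24.toWord_xor _ _
  have core : ∀ (gens : List ℕ),
      ((List.range 64).all fun a => (List.range 64).all fun b => (64 * a + b == 0) || gens.any fun g =>
        !Cfsg.Agent.M24.inCode (Cfsg.Agent.M24.pimg g (4096 * (64 * a + b)) ^^^ (4096 * (64 * a + b)))) = true →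
      (∀ g ∈ gens, Cfsg.Agent.M24.autB g = true) → ∀ v ∉ Cfsg.golayCode,
      ∃ g ∈ gens, W (Cfsg.Agent.M24.toPerm g) v - v ∉ Cfsg.golayCode := by
    intro gens hk hA v hv
    set m := Cfsg.Agent.M24.toMask (Cfsg.support₂ v) with hm
    have hmlt : m < 2 ^ 24 := Cfsg.Agent.M24.toMask_lt _
    have hvm : Cfsg.Agent.M24.toWord m = v := Cfsg.Agent.M24.toWord_support v
    set r := m ^^^ Cfsg.Agent.M24.enc (m % 4096) with hr
    have hrlt : r < 2 ^ 24 := Nat.xor_lt_two_pow hmlt (Cfsg.Agent.M24.enc_lt (Nat.mod_lt _ (by norm_num)))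
    have hr0 : r % 4096 = 0 := by
      rw [hr, show (4096 : ℕ) = 2 ^ 12 from rfl, Nat.xor_mod_two_pow]
      rw [show (2 : ℕ) ^ 12 = 4096 from rfl, Cfsg.Agent.M24.enc_mod (Nat.mod_lt _ (by norm_num)), Nat.xor_self]
    set k := r / 4096 with hkdef
    have hrk : r = 4096 * k := by omega
    have hk64 : k < 4096 := by omega
    have hsplit : v = Cfsg.Agent.M24.toWord r + Cfsg.Agent.M24.toWord (Cfsg.Agent.M24.enc (m % 4096)) := by
      rw [← Cfsg.Agent.M24.toWord_xor, hr, Nat.xor_assoc, Nat.xor_self, Nat.xor_zero, hvm]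
    have hk0 : k ≠ 0 := fun e => hv (by
      rw [hsplit, hrk, e, Nat.mul_zero, Cfsg.Agent.M24.toWord_zero, zero_add]
      exact Cfsg.Agent.M24.toWord_enc_mem _)
    simp only [List.all_eq_true, List.mem_range, Bool.or_eq_true, beq_iff_eq, List.any_eq_true,
      Bool.not_eq_true'] at hk
    have hkk := hk (k / 64) (by omega) (k % 64) (Nat.mod_lt _ (by norm_num))
    rw [Nat.div_add_mod] at hkk
    obtain ⟨g, hg, hgn⟩ := hkk.resolve_left hk0
    rw [← hrk] at hgn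
    refine ⟨g, hg, fun hmem => ?_⟩
    have hok := Cfsg.Agent.M24.autB_ok (hA g hg)
    have e1 : W (Cfsg.Agent.M24.toPerm g) (Cfsg.Agent.M24.toWord r) = Cfsg.Agent.M24.toWord (Cfsg.Agent.M24.pimg g r) := hact _ _ _ (Cfsg.Agent.M24.toSet_pimg hok r).symm
    have hc : W (Cfsg.Agent.M24.toPerm g) (Cfsg.Agent.M24.toWord (Cfsg.Agent.M24.enc (m % 4096))) ∈ Cfsg.golayCode :=
      hC _ (Cfsg.Agent.M24.toPerm_mem (hA g hg)) _ (Cfsg.Agent.M24.toWord_enc_mem _)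
    have : Cfsg.Agent.M24.toWord (Cfsg.Agent.M24.pimg g r) - Cfsg.Agent.M24.toWord r ∈ Cfsg.golayCode := by
      have h := Cfsg.golayCode.sub_mem hmem (Cfsg.golayCode.sub_mem hc (Cfsg.Agent.M24.toWord_enc_mem (m % 4096)))
      rw [hsplit, hWadd, e1] at h
      convert h using 1
      abel
    rw [sub_eq_add_neg, show -Cfsg.Agent.M24.toWord r = Cfsg.Agent.M24.toWord r from funext fun i => ZMod.neg_eq_self_mod_two _,
      ← Cfsg.Agent.M24.toWord_xor, Cfsg.Agent.M24.toWord_mem_iff (Nat.xor_lt_two_pow (Cfsg.Agent.M24.pimg_lt hok) hrlt), hgn] at this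
    simp at this
  have chk : ((List.range 64).all fun a => (List.range 64).all fun b => (64 * a + b == 0) || Cfsg.Agent.M24.MaxOct.gens.any fun g =>
        !Cfsg.Agent.M24.inCode (Cfsg.Agent.M24.pimg g (4096 * (64 * a + b)) ^^^ (4096 * (64 * a + b)))) = true ∧
      ((List.range 64).all fun a => (List.range 64).all fun b => (64 * a + b == 0) || (Cfsg.Agent.M24.MaxDpair.gens.take 2).any fun g =>
        !Cfsg.Agent.M24.inCode (Cfsg.Agent.M24.pimg g (4096 * (64 * a + b)) ^^^ (4096 * (64 * a + b)))) = true := by decide +kernel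
  have hg8 : ∀ g ∈ Cfsg.Agent.M24.MaxOct.gens, Cfsg.Agent.M24.autB g = true ∧ Cfsg.Agent.M24.pimg g Cfsg.Agent.M24.oct0 = Cfsg.Agent.M24.oct0 := by decide +kernel
  have hg12 : ∀ g ∈ (Cfsg.Agent.M24.MaxDpair.gens.take 2), Cfsg.Agent.M24.autB g = true ∧ Cfsg.Agent.M24.pimg g Cfsg.Agent.M24.dod0 = Cfsg.Agent.M24.dod0 := by decide +kernel
  -- reduce to a canonical word
  have main : ∀ (c : Equiv.Perm Cfsg.GolayPt), c ∈ Cfsg.M24 → ∀ (gens : List ℕ),
      ((List.range 64).all fun a => (List.range 64).all fun b => (64 * a + b == 0) || gens.any fun g =>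
        !Cfsg.Agent.M24.inCode (Cfsg.Agent.M24.pimg g (4096 * (64 * a + b)) ^^^ (4096 * (64 * a + b)))) = true →
      (∀ g ∈ gens, Cfsg.Agent.M24.autB g = true ∧ W (c * Cfsg.Agent.M24.toPerm g * c⁻¹) u = u) →
      ∃ σ ∈ Cfsg.M24, W σ u = u ∧ W σ w - w ∉ Cfsg.golayCode := by
    intro c hc gens hk hgens
    have hw' : W c⁻¹ w ∉ Cfsg.golayCode := fun h => hw (by
      have := hC c hc _ h
      rwa [← hWmul, mul_inv_cancel, hW1] at this)
    obtain ⟨g, hg, hne⟩ := core gens hk (fun g hg => (hgens g hg).1) _ hw'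
    refine ⟨c * Cfsg.Agent.M24.toPerm g * c⁻¹, Cfsg.M24.mul_mem (Cfsg.M24.mul_mem hc (Cfsg.Agent.M24.toPerm_mem (hgens g hg).1))
      (Cfsg.M24.inv_mem hc), (hgens g hg).2, fun h => hne ?_⟩
    have h2 := hC c⁻¹ (Cfsg.M24.inv_mem hc) _ h
    have e : W c⁻¹ (W (c * Cfsg.Agent.M24.toPerm g * c⁻¹) w - w) = W (Cfsg.Agent.M24.toPerm g) (W c⁻¹ w) - W c⁻¹ w := by
      rw [← hWmul (Cfsg.Agent.M24.toPerm g) c⁻¹ w,
        show Cfsg.Agent.M24.toPerm g * c⁻¹ = c⁻¹ * (c * Cfsg.Agent.M24.toPerm g * c⁻¹) by group,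
        hWmul]
      rfl
    rwa [e] at h2
  set mu := Cfsg.Agent.M24.toMask (Cfsg.support₂ u) with hmu
  have humu : Cfsg.Agent.M24.toWord mu = u := Cfsg.Agent.M24.toWord_support u
  have hult : mu < 2 ^ 24 := Cfsg.Agent.M24.toMask_lt _
  have huin : Cfsg.Agent.M24.inCode mu = true := Cfsg.Agent.M24.mem_golayCode_iff.1 hu
  have hcases : ∀ n < 4096, Cfsg.Agent.M24.enc n = 0 ∨ Cfsg.Agent.M24.enc n = 16777215 ∨ Cfsg.Agent.M24.pc (Cfsg.Agent.M24.enc n) = 8 ∨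
      Cfsg.Agent.M24.pc (Cfsg.Agent.M24.enc n) = 12 ∨ Cfsg.Agent.M24.pc (Cfsg.Agent.M24.enc n ^^^ 16777215) = 8 := Cfsg.Agent.M24.forall_lt_4096 (by decide +kernel)
  obtain ⟨n, hn, hnm⟩ := List.mem_map.1 ((Cfsg.Agent.M24.mem_codeList hult).2 huin)
  have hcm := hcases n (List.mem_range.1 hn)
  rw [hnm] at hcm
  have fixg : ∀ (c : Equiv.Perm Cfsg.GolayPt) (g x y : ℕ), Cfsg.Agent.M24.autB g = true → Cfsg.Agent.M24.pimg g x = x →
      c • Cfsg.Agent.M24.toSet x = Cfsg.Agent.M24.toSet y → W (c * Cfsg.Agent.M24.toPerm g * c⁻¹) (Cfsg.Agent.M24.toWord y) = Cfsg.Agent.M24.toWord y := by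
    intro c g x y hg hx hxy
    refine hact _ _ _ ?_
    rw [← hxy, Cfsg.Agent.M24.conj_smul (by rw [← Cfsg.Agent.M24.toSet_pimg (Cfsg.Agent.M24.autB_ok hg), hx])]
  rcases hcm with h | h | h | h | h
  · refine main 1 Cfsg.M24.one_mem _ chk.1 fun g hg => ⟨(hg8 g hg).1, ?_⟩
    rw [← humu, h, Cfsg.Agent.M24.toWord_zero]; rfl
  · refine main 1 Cfsg.M24.one_mem _ chk.1 fun g hg => ⟨(hg8 g hg).1, ?_⟩
    rw [← humu, h, hone]
  · obtain ⟨c, hc, hce⟩ := Cfsg.Agent.M24.exists_map_octad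
      (Cfsg.Agent.M24.mem_octads_list.2 ⟨mu, (Cfsg.Agent.M24.mem_class 8 _ Cfsg.Agent.M24.octL_eq hult).2 ⟨huin, h⟩, rfl⟩)
    refine main c hc _ chk.1 fun g hg => ⟨(hg8 g hg).1, ?_⟩
    rw [← humu]; exact fixg c g _ _ (hg8 g hg).1 (hg8 g hg).2 hce
  · obtain ⟨c, hc, hce⟩ := Cfsg.Agent.M24.exists_map_dodecad
      (Cfsg.Agent.M24.mem_dodecads_list.2 ⟨mu, (Cfsg.Agent.M24.mem_class 12 _ Cfsg.Agent.M24.dodL_eq hult).2 ⟨huin, h⟩, rfl⟩)
    refine main c hc _ chk.2 fun g hg => ⟨(hg12 g hg).1, ?_⟩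
    rw [← humu]; exact fixg c g _ _ (hg12 g hg).1 (hg12 g hg).2 hce
  · have hlt' := Nat.xor_lt_two_pow hult (show 16777215 < 2 ^ 24 by norm_num)
    obtain ⟨c, hc, hce⟩ := Cfsg.Agent.M24.exists_map_octad (Cfsg.Agent.M24.mem_octads_list.2 ⟨mu ^^^ 16777215,
      (Cfsg.Agent.M24.mem_class 8 _ Cfsg.Agent.M24.octL_eq hlt').2 ⟨Cfsg.Agent.M24.inCode_xor huin (by decide +kernel), h⟩, rfl⟩)
    refine main c hc _ chk.1 fun g hg => ⟨(hg8 g hg).1, ?_⟩
    have e := fixg c g _ _ (hg8 g hg).1 (hg8 g hg).2 hce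
    rw [hfull, hWadd, hone, add_left_inj, humu] at e
    exact e


end Cfsg.Agent.S5550
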