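import Cfsg.Statements.S5599
import Cfsg.Agent.M24.SporEq
import Cfsg.Agent.M24.Sylows

set_option autoImplicit false
open scoped Pointwise
open Cfsg

namespace Cfsg.Agent.S5599
open scoped Pointwise

/-- In the automorphism group of the length-24 code, the two-point Mathieu group (permutations of the code's group fixing the extra point and the residue 0) has index 2 in the setwise stabiliser of that pair of points, and an element of the code's group interchanging the two points normalises the two-point group and induces on it, by conjugation, an automorphism that is not inner. -/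
theorem result (g : Equiv.Perm Cfsg.GolayPt) (hg : g ∈ Cfsg.M24) (h₁ : g none = some 0) (h₂ : g (some 0) = none) : Cfsg.Spor.M22.relIndex (Cfsg.M24 ⊓ MulAction.stabilizer (Equiv.Perm Cfsg.GolayPt) ({none, some 0} : Finset Cfsg.GolayPt)) = 2 ∧ (∀ x ∈ Cfsg.Spor.M22, g * x * g⁻¹ ∈ Cfsg.Spor.M22) ∧ ¬ ∃ h ∈ Cfsg.Spor.M22, ∀ x ∈ Cfsg.Spor.M22, g * x * g⁻¹ = h * x * h⁻¹ := by
  have hne : (none : Cfsg.GolayPt) ≠ some 0 := by simp
  have hM22 : ∀ x, x ∈ Cfsg.Spor.M22 ↔ x ∈ Cfsg.M24 ∧ x none = none ∧ x (some 0) = some 0 := fun x => by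
    simp [Cfsg.Spor.M22, Cfsg.Spor.M23, Subgroup.mem_inf, MulAction.mem_stabilizer_iff, and_assoc]
  have hX : ∀ x, x ∈ Cfsg.M24 ⊓ MulAction.stabilizer (Equiv.Perm Cfsg.GolayPt)
      ({none, some 0} : Finset Cfsg.GolayPt) ↔ x ∈ Cfsg.M24 ∧
        ((x none = none ∧ x (some 0) = some 0) ∨ (x none = some 0 ∧ x (some 0) = none)) := by
    intro x
    rw [Subgroup.mem_inf]
    refine and_congr_right fun _ => ?_
    rw [MulAction.mem_stabilizer_iff, Finset.smul_finset_insert,
      Finset.smul_finset_singleton, Equiv.Perm.smul_def, Equiv.Perm.smul_def]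
    refine ⟨fun h => ?_, ?_⟩
    · have h1 : x none ∈ ({none, some 0} : Finset Cfsg.GolayPt) := by rw [← h]; simp
      have h2 : x (some 0) ∈ ({none, some 0} : Finset Cfsg.GolayPt) := by rw [← h]; simp
      simp only [Finset.mem_insert, Finset.mem_singleton] at h1 h2
      have hn : x none ≠ x (some 0) := fun e => hne (x.injective e)
      rcases h1 with h1 | h1 <;> rcases h2 with h2 | h2
      · exact absurd (h1.trans h2.symm) hn
      · exact Or.inl ⟨h1, h2⟩
      · exact Or.inr ⟨h1, h2⟩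
      · exact absurd (h1.trans h2.symm) hn
    · rintro (⟨a, b⟩ | ⟨a, b⟩) <;> rw [a, b]
      exact Finset.pair_comm _ _
  have hnorm : ∀ x ∈ Cfsg.Spor.M22, g * x * g⁻¹ ∈ Cfsg.Spor.M22 := by
    intro x hx
    rw [hM22] at hx ⊢
    refine ⟨Cfsg.M24.mul_mem (Cfsg.M24.mul_mem hg hx.1) (Cfsg.M24.inv_mem hg), ?_, ?_⟩
    · rw [Equiv.Perm.mul_apply, Equiv.Perm.mul_apply,
        show g⁻¹ none = some 0 by rw [Equiv.Perm.inv_eq_iff_eq, h₂], hx.2.2, h₂]
    · rw [Equiv.Perm.mul_apply, Equiv.Perm.mul_apply,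
        show g⁻¹ (some 0) = none by rw [Equiv.Perm.inv_eq_iff_eq, h₁], hx.2.1, h₁]
  refine ⟨?_, hnorm, ?_⟩
  · rw [Subgroup.relIndex, Subgroup.index_eq_two_iff]
    refine ⟨⟨g, (hX g).2 ⟨hg, Or.inr ⟨h₁, h₂⟩⟩⟩, fun b => ?_⟩
    simp only [Subgroup.mem_subgroupOf, Subgroup.coe_mul, hM22, Equiv.Perm.mul_apply, h₁, h₂]
    obtain ⟨hb, (⟨a1, a2⟩ | ⟨a1, a2⟩)⟩ := (hX b).1 b.2
    · simp [Xor', a1, a2, hne, hne.symm, hb, Cfsg.M24.mul_mem hb hg]
    · simp [Xor', a1, a2, hne, hne.symm, hb, Cfsg.M24.mul_mem hb hg]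
  · rintro ⟨h, hh, hcon⟩
    rw [hM22] at hh
    obtain ⟨hhm, hh1, hh2⟩ := hh
    set u := h⁻¹ * g with hu
    have hum : u ∈ Cfsg.M24 := Cfsg.M24.mul_mem (Cfsg.M24.inv_mem hhm) hg
    have hu1 : u none = some 0 := by
      rw [hu, Equiv.Perm.mul_apply, h₁, Equiv.Perm.inv_eq_iff_eq, hh2]
    have hu2 : u (some 0) = none := by
      rw [hu, Equiv.Perm.mul_apply, h₂, Equiv.Perm.inv_eq_iff_eq, hh1]
    have hcomm : ∀ x ∈ Cfsg.Spor.M22, u * x = x * u := fun x hx => by
      have := hcon x hx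
      calc u * x = h⁻¹ * (g * x * g⁻¹) * g := by rw [hu]; group
        _ = x * u := by rw [this, hu]; group
    have hfix : ∀ y, y ≠ none → y ≠ some 0 → u y = y := by
      intro y y1 y2
      by_contra hy
      have w1 : u y ≠ none := fun e => y2 (u.injective (e.trans hu2.symm))
      have w2 : u y ≠ some 0 := fun e => y1 (u.injective (e.trans hu1.symm))
      obtain ⟨z, z1, z2, z3, z4⟩ : ∃ z, z ≠ none ∧ z ≠ some 0 ∧ z ≠ y ∧ z ≠ u y := by
        have hc : ({none, some 0, y, u y} : Finset Cfsg.GolayPt).card < Fintype.card Cfsg.GolayPt := by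
          refine lt_of_le_of_lt Finset.card_le_four ?_
          decide +kernel
        obtain ⟨z, -, hz⟩ := Finset.exists_mem_notMem_of_card_lt_card (t := Finset.univ) hc
        exact ⟨z, by simpa [and_assoc] using hz⟩
      obtain ⟨x, hx, hxe⟩ := Cfsg.Agent.M24.exists_map_pts (n := 4) (by norm_num) ![none, some 0, y, u y]
        ![none, some 0, y, z]
        (by intro i j; fin_cases i <;> fin_cases j <;> simp [hne, hne.symm, y1, y2, hy, Ne.symm y1,
          Ne.symm y2, Ne.symm hy, w1, w2, Ne.symm w1, Ne.symm w2])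
        (by intro i j; fin_cases i <;> fin_cases j <;> simp [hne, hne.symm, y1, y2, Ne.symm y1,
          Ne.symm y2, z1, z2, z3, Ne.symm z1, Ne.symm z2, Ne.symm z3])
      have h22 : x ∈ Cfsg.Spor.M22 := (hM22 x).2 ⟨hx, hxe 0, hxe 1⟩
      have := congrArg (fun v : Equiv.Perm Cfsg.GolayPt => v y) (hcomm x h22)
      simp only [Equiv.Perm.mul_apply] at this
      rw [show x y = y from hxe 2, show x (u y) = z from hxe 3] at this
      exact z4 this.symm
    -- so `u` is a transposition, which does not preserve the code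
    have hs : Cfsg.Agent.M24.okPerm (Cfsg.Agent.M24.packL ((List.range 24).map fun i => if i = 0 then 23 else if i = 23 then 0 else i)) = true := by
      decide +kernel
    set s := Cfsg.Agent.M24.packL ((List.range 24).map fun i => if i = 0 then 23 else if i = 23 then 0 else i) with hsd
    have hpt : ∀ i < 24, Cfsg.Agent.M24.papp s i = if i = 0 then 23 else if i = 23 then 0 else i := by decide +kernel
    have hz : Cfsg.Agent.M24.ix none = 23 ∧ Cfsg.Agent.M24.ix (some 0) = 0 := by decide +kernel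
    have heq : u = Cfsg.Agent.M24.toPerm s := Equiv.ext fun y => by
      rw [Cfsg.Agent.M24.toPerm_apply hs, hpt _ (Cfsg.Agent.M24.ix_lt y)]
      by_cases y1 : y = none
      · subst y1; rw [hu1, hz.1]; decide +kernel
      · by_cases y2 : y = some 0
        · subst y2; rw [hu2, hz.2]; decide +kernel
        · rw [hfix y y1 y2, if_neg, if_neg, Cfsg.Agent.M24.pt_ix]
          · exact fun e => y1 (Cfsg.Agent.M24.ix_injective (e.trans hz.1.symm))
          · exact fun e => y2 (Cfsg.Agent.M24.ix_injective (e.trans hz.2.symm))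
    have hbad : ∃ r ∈ Cfsg.Agent.M24.rows, Cfsg.Agent.M24.inCode r = true ∧ Cfsg.Agent.M24.inCode (Cfsg.Agent.M24.pimg s r) = false := by decide +kernel
    obtain ⟨r, -, hr, hr'⟩ := hbad
    have hsup : u • Cfsg.Agent.M24.toSet r ∈ Cfsg.supports (Cfsg.golayCode : Set (Cfsg.GolayPt → ZMod 2)) :=
      (Cfsg.Agent.M24.smul_mem_supports hum).2 (Cfsg.Agent.M24.mem_supports_iff.2 (by rw [Cfsg.Agent.M24.toMask_toSet (Cfsg.Agent.M24.inCode_lt hr)]; exact hr))
    rw [heq, ← Cfsg.Agent.M24.toSet_pimg hs, Cfsg.Agent.M24.mem_supports_iff, Cfsg.Agent.M24.toMask_toSet (Cfsg.Agent.M24.pimg_lt hs), hr'] at hsup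
    simp at hsup


end Cfsg.Agent.S5599
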