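import Cfsg.Statements.S5600
import Cfsg.Agent.M24.OctFix
import Cfsg.Agent.M24.Facts

set_option autoImplicit false
open scoped Pointwise
open Cfsg

namespace Cfsg.Agent.S5600
open scoped Pointwise

/-- Although the group of the length-24 code is only 5-transitive on the 24 points, it induces the full symmetric group on every 6-element subset: every permutation of a 6-set E is the restriction of an element of the group mapping E to itself. The pointwise stabiliser of E has order 16 when E lies in an octad and order 3 otherwise; in the latter case the setwise stabiliser of E has order 2160. -/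
theorem result (E : Finset Cfsg.GolayPt) (hE : E.card = 6) : (∀ σ : Equiv.Perm ↥E, ∃ g ∈ Cfsg.M24, ∀ p : ↥E, g p = σ p) ∧ ((∃ o ∈ Cfsg.octads, E ⊆ o) → Nat.card {g : Equiv.Perm Cfsg.GolayPt // g ∈ Cfsg.M24 ∧ ∀ p ∈ E, g p = p} = 16) ∧ ((¬ ∃ o ∈ Cfsg.octads, E ⊆ o) → Nat.card {g : Equiv.Perm Cfsg.GolayPt // g ∈ Cfsg.M24 ∧ ∀ p ∈ E, g p = p} = 3 ∧ Nat.card ↥(MulAction.stabilizer Cfsg.M24 E) = 2160) := by
  classical
  have hcases : ∀ n < 24, n ∈ Cfsg.Agent.M24.base.take 5 ∨ n ∈ Cfsg.Agent.M24.orbs.getD 5 [] ∨ n ∈ Cfsg.Agent.M24.orbs.getD 6 [] := by decide +kernel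
  have hoct : ∀ n < 24, (Cfsg.Agent.M24.oct0.testBit n = true ↔ n ∈ Cfsg.Agent.M24.base.take 5 ∨ n ∈ Cfsg.Agent.M24.orbs.getD 5 []) := by decide +kernel
  have hone : ∀ n ∈ Cfsg.Agent.M24.orbs.getD 6 [], n ∉ Cfsg.Agent.M24.orbs.getD 5 [] ∧ n ∉ Cfsg.Agent.M24.base.take 5 := by decide +kernel
  have hb5 : ∀ i : Fin 5, Cfsg.Agent.M24.base5 i ∈ Cfsg.Agent.M24.toSet Cfsg.Agent.M24.oct0 := by decide +kernel
  have hinjb : Function.Injective Cfsg.Agent.M24.base5 := by decide +kernel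
  have hzero : Cfsg.Agent.M24.toSet Cfsg.Agent.M24.oct0 ∈ Cfsg.octads := Cfsg.Agent.M24.oct0_mem
  have hsame : ∀ o ∈ Cfsg.octads, ∀ w ∈ Cfsg.M24, (∀ i : Fin 5, w (Cfsg.Agent.M24.base5 i) ∈ o) →
      w • Cfsg.Agent.M24.toSet Cfsg.Agent.M24.oct0 = o := by
    intro o ho w hw h
    refine Cfsg.Agent.M24.octad_eq_of_inter ((Cfsg.Agent.M24.smul_mem_octads hw).2 hzero) ho ?_
    have hsub : (Finset.univ.image fun i : Fin 5 => w (Cfsg.Agent.M24.base5 i)) ⊆ (w • Cfsg.Agent.M24.toSet Cfsg.Agent.M24.oct0) ∩ o := by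
      intro z hz
      obtain ⟨i, -, rfl⟩ := Finset.mem_image.1 hz
      exact Finset.mem_inter.2 ⟨Finset.smul_mem_smul_finset (hb5 i), h i⟩
    have := Finset.card_le_card hsub
    rw [Finset.card_image_of_injective (Finset.univ : Finset (Fin 5)) (show Function.Injective (fun i : Fin 5 => w (Cfsg.Agent.M24.base5 i)) from w.injective.comp hinjb)] at this
    simpa using this
  set j : ℕ := if ∃ o ∈ Cfsg.octads, E ⊆ o then 7 else 5 with hj
  have hj24 : j < 24 := by rw [hj]; split <;> norm_num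
  have canon : ∀ e : Fin 6 → Cfsg.GolayPt, Function.Injective e → (∀ i, e i ∈ E) → ∃ w ∈ Cfsg.M24,
      (∀ i : Fin 5, w (Cfsg.Agent.M24.base5 i) = e i.castSucc) ∧ w (Cfsg.Agent.M24.pt j) = e (Fin.last 5) := by
    intro e he heE
    obtain ⟨w, hw, hwe⟩ := Cfsg.Agent.M24.exists_map_base5 (k := 5) le_rfl (fun i => e i.castSucc)
      (he.comp (Fin.castSucc_injective 5))
    set z := w⁻¹ (e (Fin.last 5)) with hz
    have hwz : w z = e (Fin.last 5) := by simp [hz]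
    have hzb : Cfsg.Agent.M24.ix z ∉ Cfsg.Agent.M24.base.take 5 := by
      intro hm
      have : ∀ n ∈ Cfsg.Agent.M24.base.take 5, ∃ i : Fin 5, Cfsg.Agent.M24.base5 i = Cfsg.Agent.M24.pt n := by decide +kernel
      obtain ⟨i, hi⟩ := this _ hm
      rw [Cfsg.Agent.M24.pt_ix] at hi
      exact absurd (he ((hwe i i.2).symm.trans (hi ▸ hwz))) (Fin.castSucc_lt_last i).ne
    have hrange : ∀ o, E ⊆ o ↔ ∀ i, e i ∈ o := fun o => by
      refine ⟨fun h i => h (heE i), fun h y hy => ?_⟩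
      have himg : Finset.univ.image e = E := Finset.eq_of_subset_of_card_le
        (fun y hy => by obtain ⟨i, -, rfl⟩ := Finset.mem_image.1 hy; exact heE i)
        (by rw [Finset.card_image_of_injective _ he, hE]; simp)
      rw [← himg] at hy
      obtain ⟨i, -, rfl⟩ := Finset.mem_image.1 hy
      exact h i
    have hiff : (∃ o ∈ Cfsg.octads, E ⊆ o) ↔ Cfsg.Agent.M24.oct0.testBit (Cfsg.Agent.M24.ix z) = true := by
      rw [← Cfsg.Agent.M24.mem_toSet]
      constructor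
      · rintro ⟨o, ho, hEo⟩
        have h1 := hsame o ho w hw fun i => by rw [hwe i i.2]; exact (hrange o).1 hEo _
        have h2 : w z ∈ o := by rw [hwz]; exact (hrange o).1 hEo _
        rw [← h1, ← Equiv.Perm.smul_def, Finset.smul_mem_smul_finset_iff] at h2
        exact h2
      · intro h
        refine ⟨_, (Cfsg.Agent.M24.smul_mem_octads hw).2 hzero, (hrange _).2 fun i => ?_⟩
        induction i using Fin.lastCases with
        | last => rw [← hwz]; exact Finset.smul_mem_smul_finset h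
        | cast i => rw [← hwe i i.2]; exact Finset.smul_mem_smul_finset (hb5 i)
    obtain ⟨u, hu, hub, huj⟩ : ∃ u ∈ Cfsg.M24, (∀ i : Fin 5, u (Cfsg.Agent.M24.base5 i) = Cfsg.Agent.M24.base5 i) ∧ u (Cfsg.Agent.M24.pt j) = z := by
      have hbase : ∀ i : Fin 5, Cfsg.Agent.M24.base.getD i.val 0 ∈ Cfsg.Agent.M24.base.take 5 ∧ Cfsg.Agent.M24.base.getD i.val 0 ∈ Cfsg.Agent.M24.base.take 6 := by decide +kernel
      by_cases hb : Cfsg.Agent.M24.oct0.testBit (Cfsg.Agent.M24.ix z) = true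
      · have hj7 : j = 7 := by rw [hj, if_pos (hiff.2 hb)]
        obtain ⟨u, hu, he'⟩ := Cfsg.Agent.M24.exists_stab_map (k := 5) (by norm_num)
          (((hoct _ (Cfsg.Agent.M24.ix_lt z)).1 hb).resolve_left hzb)
        obtain ⟨h1, h2⟩ := (Cfsg.Agent.M24.mem_stab (by norm_num)).1 hu
        refine ⟨u, h1, fun i => h2 _ (hbase i).1, ?_⟩
        rw [hj7, ← show Cfsg.Agent.M24.base.getD 5 0 = 7 from rfl, he', Cfsg.Agent.M24.pt_ix]
      · have hj5 : j = 5 := by rw [hj, if_neg (fun h => hb (hiff.1 h))]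
        have h6 : Cfsg.Agent.M24.ix z ∈ Cfsg.Agent.M24.orbs.getD 6 [] := by
          rcases hcases _ (Cfsg.Agent.M24.ix_lt z) with h | h | h
          · exact absurd h hzb
          · exact absurd ((hoct _ (Cfsg.Agent.M24.ix_lt z)).2 (Or.inr h)) hb
          · exact h
        obtain ⟨u, hu, he'⟩ := Cfsg.Agent.M24.exists_stab_map (k := 6) (by norm_num) h6
        obtain ⟨h1, h2⟩ := (Cfsg.Agent.M24.mem_stab (by norm_num)).1 hu
        refine ⟨u, h1, fun i => h2 _ (hbase i).2, ?_⟩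
        rw [hj5, ← show Cfsg.Agent.M24.base.getD 6 0 = 5 from rfl, he', Cfsg.Agent.M24.pt_ix]
    refine ⟨w * u, Cfsg.M24.mul_mem hw hu, fun i => ?_, ?_⟩
    · rw [Equiv.Perm.mul_apply, hub, hwe i i.2]
    · rw [Equiv.Perm.mul_apply, huj, hwz]
  let e0 : Fin 6 ≃ ↥E := (E.equivFinOfCardEq hE).symm
  obtain ⟨c, hc, hcb, hcj⟩ := canon (fun i => e0 i) (Subtype.val_injective.comp e0.injective) (fun i => (e0 i).2)
  have surj : ∀ σ : Equiv.Perm ↥E, ∃ g ∈ Cfsg.M24, ∀ p : ↥E, g p = σ p := by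
    intro σ
    obtain ⟨d, hd, hdb, hdj⟩ := canon (fun i => σ (e0 i))
      (Subtype.val_injective.comp (σ.injective.comp e0.injective)) (fun i => (σ (e0 i)).2)
    refine ⟨d * c⁻¹, Cfsg.M24.mul_mem hd (Cfsg.M24.inv_mem hc), fun p => ?_⟩
    obtain ⟨i, rfl⟩ := e0.surjective p
    induction i using Fin.lastCases with
    | last => rw [Equiv.Perm.mul_apply, show c⁻¹ ((e0 (Fin.last 5) : ↥E) : Cfsg.GolayPt) = Cfsg.Agent.M24.pt j by
        rw [Equiv.Perm.inv_eq_iff_eq]; exact hcj.symm, hdj]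
    | cast i => rw [Equiv.Perm.mul_apply, show c⁻¹ ((e0 i.castSucc : ↥E) : Cfsg.GolayPt) = Cfsg.Agent.M24.base5 i by
        rw [Equiv.Perm.inv_eq_iff_eq]; exact (hcb i).symm, hdb]
  set S := Cfsg.Agent.M24.stab 5 ⊓ MulAction.stabilizer (Equiv.Perm Cfsg.GolayPt) (Cfsg.Agent.M24.pt j) with hS
  have hbase5 : ∀ n ∈ Cfsg.Agent.M24.base.take 5, ∃ i : Fin 5, Cfsg.Agent.M24.base5 i = Cfsg.Agent.M24.pt n := by decide +kernel
  have hbase5' : ∀ i : Fin 5, Cfsg.Agent.M24.base.getD i.val 0 ∈ Cfsg.Agent.M24.base.take 5 := by decide +kernel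
  have hfix : ∀ g, (g ∈ Cfsg.M24 ∧ ∀ p ∈ E, g p = p) ↔ c⁻¹ * g * c ∈ S := by
    intro g
    rw [hS, Subgroup.mem_inf, Cfsg.Agent.M24.mem_stab (by norm_num)]
    show _ ↔ _ ∧ (c⁻¹ * g * c) (Cfsg.Agent.M24.pt j) = Cfsg.Agent.M24.pt j
    constructor
    · rintro ⟨hg, hp⟩
      refine ⟨⟨Cfsg.M24.mul_mem (Cfsg.M24.mul_mem (Cfsg.M24.inv_mem hc) hg) hc, fun n hn => ?_⟩, ?_⟩
      · obtain ⟨i, hi⟩ := hbase5 n hn
        rw [← hi, Equiv.Perm.mul_apply, Equiv.Perm.mul_apply, hcb, hp _ (e0 _).2, ← hcb]; simp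
      · rw [Equiv.Perm.mul_apply, Equiv.Perm.mul_apply, hcj, hp _ (e0 _).2, ← hcj]; simp
    · rintro ⟨⟨hg, hp⟩, hpj⟩
      refine ⟨by simpa [mul_assoc] using Cfsg.M24.mul_mem (Cfsg.M24.mul_mem hc hg) (Cfsg.M24.inv_mem hc), fun p hpE => ?_⟩
      obtain ⟨i, hi⟩ := e0.surjective ⟨p, hpE⟩
      obtain rfl : ((e0 i : ↥E) : Cfsg.GolayPt) = p := congrArg Subtype.val hi
      induction i using Fin.lastCases with
      | last =>
        rw [← hcj]
        rw [Equiv.Perm.mul_apply, Equiv.Perm.mul_apply, Equiv.Perm.inv_eq_iff_eq] at hpj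
        exact hpj
      | cast i =>
        rw [← hcb]
        have := hp _ (hbase5' i)
        rw [Equiv.Perm.mul_apply, Equiv.Perm.mul_apply, Equiv.Perm.inv_eq_iff_eq] at this
        exact this
  have hcount : Nat.card {g : Equiv.Perm Cfsg.GolayPt // g ∈ Cfsg.M24 ∧ ∀ p ∈ E, g p = p} = Nat.card S :=
    Nat.card_congr
      { toFun := fun g => ⟨c⁻¹ * g.1 * c, (hfix g.1).1 g.2⟩
        invFun := fun v => ⟨c * v.1 * c⁻¹, (hfix _).2 (by simp [mul_assoc])⟩
        left_inv := fun g => Subtype.ext (by simp [mul_assoc])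
        right_inv := fun v => Subtype.ext (by simp [mul_assoc]) }
  have h6 : Nat.card (Cfsg.Agent.M24.stab 6) = 16 := by
    rw [Cfsg.Agent.M24.card_stab_succ (by norm_num), Cfsg.Agent.M24.stab_seven]
    simp only [Nat.card_unique, mul_one]
    decide +kernel
  have h5 : Nat.card (Cfsg.Agent.M24.stab 5) = 48 := by
    rw [Cfsg.Agent.M24.card_stab_succ (by norm_num), h6]
    have : (Cfsg.Agent.M24.orbs.getD 5 []).length = 3 := by decide +kernel
    rw [this]
  have hin : (∃ o ∈ Cfsg.octads, E ⊆ o) → Nat.card S = 16 := fun h => by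
    have e : S = Cfsg.Agent.M24.stab 6 := by rw [hS, hj, if_pos h]; rfl
    rw [e, h6]
  have hout : (¬ ∃ o ∈ Cfsg.octads, E ⊆ o) → Nat.card S = 3 := fun h => by
    have hj5 : j = 5 := by rw [hj, if_neg h]
    have horb : MulAction.orbit (Cfsg.Agent.M24.stab 5) (Cfsg.Agent.M24.pt 5) =
        ((((Cfsg.Agent.M24.orbs.getD 6 []).map Cfsg.Agent.M24.pt).toFinset : Finset Cfsg.GolayPt) : Set Cfsg.GolayPt) := by
      ext z
      simp only [List.coe_toFinset, Set.mem_setOf_eq, List.mem_map]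
      constructor
      · rintro ⟨⟨v, hv⟩, rfl⟩
        obtain ⟨h1, h2⟩ := (Cfsg.Agent.M24.mem_stab (by norm_num)).1 hv
        refine ⟨Cfsg.Agent.M24.ix (v (Cfsg.Agent.M24.pt 5)), ?_, Cfsg.Agent.M24.pt_ix _⟩
        have hoo : v • Cfsg.Agent.M24.toSet Cfsg.Agent.M24.oct0 = Cfsg.Agent.M24.toSet Cfsg.Agent.M24.oct0 := hsame _ hzero v h1 fun i => by
          rw [show v (Cfsg.Agent.M24.base5 i) = Cfsg.Agent.M24.base5 i from h2 _ (hbase5' i)]; exact hb5 i
        have hn : Cfsg.Agent.M24.oct0.testBit (Cfsg.Agent.M24.ix (v (Cfsg.Agent.M24.pt 5))) = false := by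
          rw [← Bool.not_eq_true, ← Cfsg.Agent.M24.mem_toSet, ← hoo, ← Equiv.Perm.smul_def, Finset.smul_mem_smul_finset_iff]
          decide +kernel
        rcases hcases _ (Cfsg.Agent.M24.ix_lt (v (Cfsg.Agent.M24.pt 5))) with h' | h' | h'
        · rw [(hoct _ (Cfsg.Agent.M24.ix_lt _)).2 (Or.inl h')] at hn; simp at hn
        · rw [(hoct _ (Cfsg.Agent.M24.ix_lt _)).2 (Or.inr h')] at hn; simp at hn
        · exact h'
      · rintro ⟨n, hn, rfl⟩
        obtain ⟨u, hu, he'⟩ := Cfsg.Agent.M24.exists_stab_map (k := 6) (by norm_num) hn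
        exact ⟨⟨u, hu.1⟩, he'⟩
    have h1 := Nat.card_congr (MulAction.orbitProdStabilizerEquivGroup (Cfsg.Agent.M24.stab 5) (Cfsg.Agent.M24.pt 5))
    rw [Nat.card_prod, horb, Nat.card_coe_set_eq, Set.ncard_coe_finset, Cfsg.Agent.M24.card_stabilizer_subgroup, h5] at h1
    rw [show ((((Cfsg.Agent.M24.orbs.getD 6 []).map Cfsg.Agent.M24.pt).toFinset).card) = 16 by decide +kernel] at h1
    rw [hS, hj5]
    omega
  refine ⟨surj, fun h => hcount.trans (hin h), fun h => ⟨hcount.trans (hout h), ?_⟩⟩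
  have hinv : ∀ v : MulAction.stabilizer Cfsg.M24 E, ∀ x, ((v : ↥Cfsg.M24) : Equiv.Perm Cfsg.GolayPt) x ∈ E ↔ x ∈ E := fun v x => by
    have h' : ((v : ↥Cfsg.M24) : Equiv.Perm Cfsg.GolayPt) • E = E := v.2
    have := Finset.smul_mem_smul_finset_iff (a := ((v : ↥Cfsg.M24) : Equiv.Perm Cfsg.GolayPt)) (b := x) (s := E)
    rwa [h'] at this
  let φ : MulAction.stabilizer Cfsg.M24 E →* Equiv.Perm ↥E :=
    MonoidHom.mk' (fun v => ((v : ↥Cfsg.M24) : Equiv.Perm Cfsg.GolayPt).subtypePerm (hinv v))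
      (fun a b => Equiv.ext fun x => Subtype.ext rfl)
  have hstab : ∀ g, g ∈ Cfsg.M24 → (∀ p ∈ E, g p ∈ E) → g • E = E := fun g _ hp =>
    Finset.eq_of_subset_of_card_le (fun y hy => by
      obtain ⟨x, hx, rfl⟩ := Finset.mem_smul_finset.1 hy
      exact hp x hx) (le_of_eq (Finset.card_smul_finset _ _).symm)
  have hsurj : Function.Surjective φ := fun σ => by
    obtain ⟨g, hg, hgs⟩ := surj σ
    exact ⟨⟨⟨g, hg⟩, MulAction.mem_stabilizer_iff.2 (hstab g hg fun p hp => by rw [hgs ⟨p, hp⟩]; exact (σ _).2)⟩,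
      Equiv.ext fun x => Subtype.ext (hgs x)⟩
  have hker : Nat.card φ.ker = 3 := by
    rw [← hout h, ← hcount]
    refine Nat.card_congr
      { toFun := fun v => ⟨((v.1 : ↥Cfsg.M24) : Equiv.Perm Cfsg.GolayPt), v.1.1.2, fun p hp => ?_⟩
        invFun := fun g => ⟨⟨⟨g.1, g.2.1⟩, MulAction.mem_stabilizer_iff.2 (hstab g.1 g.2.1 fun p hp => by rw [g.2.2 p hp]; exact hp)⟩,
          MonoidHom.mem_ker.2 (Equiv.ext fun x => Subtype.ext (g.2.2 x x.2))⟩
        left_inv := fun v => rfl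
        right_inv := fun g => rfl }
    exact congrArg (fun e : Equiv.Perm ↥E => ((e ⟨p, hp⟩ : ↥E) : Cfsg.GolayPt)) (MonoidHom.mem_ker.1 v.2)
  rw [← Subgroup.card_mul_index φ.ker, Subgroup.index_ker, MonoidHom.range_eq_top.2 hsurj, Subgroup.card_top,
    hker, Nat.card_perm, Nat.card_eq_fintype_card, Fintype.card_coe, hE]
  rfl


end Cfsg.Agent.S5600
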