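import Cfsg.Statements.S5601
import Cfsg.Agent.M24.InvClasses

set_option autoImplicit false
open scoped Pointwise
open Cfsg

namespace Cfsg.Agent.S5601
open scoped Pointwise

/-- The group of the length-24 code has exactly two conjugacy classes of subgroups of order 3: a subgroup of order 3 fixes either exactly 6 of the 24 points or none of them, both cases occur, and two subgroups of order 3 with the same number of fixed points are conjugate. -/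
theorem result : (∀ X : Subgroup ↥Cfsg.M24, Nat.card X = 3 → {p : Cfsg.GolayPt | ∀ x ∈ X, ((x : ↥Cfsg.M24) : Equiv.Perm Cfsg.GolayPt) p = p}.ncard = 6 ∨ {p : Cfsg.GolayPt | ∀ x ∈ X, ((x : ↥Cfsg.M24) : Equiv.Perm Cfsg.GolayPt) p = p}.ncard = 0) ∧ (∃ X : Subgroup ↥Cfsg.M24, Nat.card X = 3 ∧ {p : Cfsg.GolayPt | ∀ x ∈ X, ((x : ↥Cfsg.M24) : Equiv.Perm Cfsg.GolayPt) p = p}.ncard = 6) ∧ (∃ X : Subgroup ↥Cfsg.M24, Nat.card X = 3 ∧ {p : Cfsg.GolayPt | ∀ x ∈ X, ((x : ↥Cfsg.M24) : Equiv.Perm Cfsg.GolayPt) p = p}.ncard = 0) ∧ ∀ X Y : Subgroup ↥Cfsg.M24, Nat.card X = 3 → Nat.card Y = 3 → {p : Cfsg.GolayPt | ∀ x ∈ X, ((x : ↥Cfsg.M24) : Equiv.Perm Cfsg.GolayPt) p = p}.ncard = {p : Cfsg.GolayPt | ∀ x ∈ Y, ((x : ↥Cfsg.M24) : Equiv.Perm Cfsg.GolayPt) p = p}.ncard → ∃ k : ↥Cfsg.M24, MulAut.conj k • X = Y := by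
  have hr : ∀ r ∈ Cfsg.Agent.M24.t243Reps, Cfsg.Agent.M24.autB r = true ∧
      (Cfsg.Agent.M24.pc (Cfsg.Agent.M24.fixMask r) = 6 ∨ Cfsg.Agent.M24.pc (Cfsg.Agent.M24.fixMask r) = 0) := by decide +kernel
  have hu : ∀ r ∈ Cfsg.Agent.M24.t243Reps, ∀ r' ∈ Cfsg.Agent.M24.t243Reps,
      Cfsg.Agent.M24.pc (Cfsg.Agent.M24.fixMask r) = Cfsg.Agent.M24.pc (Cfsg.Agent.M24.fixMask r') → r = r' := by decide +kernel
  have hex : (∃ r ∈ Cfsg.Agent.M24.t243Reps, Cfsg.Agent.M24.pc (Cfsg.Agent.M24.fixMask r) = 6) ∧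
      ∃ r ∈ Cfsg.Agent.M24.t243Reps, Cfsg.Agent.M24.pc (Cfsg.Agent.M24.fixMask r) = 0 := by decide +kernel
  have : Fact (Nat.Prime 3) := ⟨Nat.prime_three⟩
  have key : ∀ g : ↥Cfsg.M24, orderOf g = 3 → ∃ r ∈ Cfsg.Agent.M24.t243Reps, ∃ c : ↥Cfsg.M24,
      ((c : Equiv.Perm Cfsg.GolayPt) * Cfsg.Agent.M24.toPerm r * (c : Equiv.Perm Cfsg.GolayPt)⁻¹ = g) ∧
      {p : Cfsg.GolayPt | ∀ x ∈ Subgroup.zpowers g, ((x : ↥Cfsg.M24) : Equiv.Perm Cfsg.GolayPt) p = p}.ncard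
        = Cfsg.Agent.M24.pc (Cfsg.Agent.M24.fixMask r) := by
    intro g hg
    obtain ⟨c, hc, r, hrm, ha, e⟩ := Cfsg.Agent.M24.exists_conj_order_three g.2 (by rw [Subgroup.orderOf_coe, hg])
    refine ⟨r, hrm, ⟨c, hc⟩, e, ?_⟩
    rw [← Cfsg.Agent.M24.card_fix_rep (Cfsg.Agent.M24.autB_ok ha) c, e, ← Set.ncard_coe_finset]
    congr 1
    ext p
    simp only [Finset.coe_filter, Finset.mem_univ, true_and, Set.mem_setOf_eq]
    refine ⟨fun h => h g (Subgroup.mem_zpowers g), fun h x hx => ?_⟩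
    obtain ⟨n, rfl⟩ := hx
    simp only [SubgroupClass.coe_zpow]
    have hm : (g : Equiv.Perm Cfsg.GolayPt) ∈ MulAction.stabilizer (Equiv.Perm Cfsg.GolayPt) p := h
    exact zpow_mem hm n
  have cyc : ∀ X : Subgroup ↥Cfsg.M24, Nat.card X = 3 → ∃ g, orderOf g = 3 ∧ X = Subgroup.zpowers g := by
    intro X hX
    have := isCyclic_of_prime_card hX
    obtain ⟨g, rfl⟩ := Subgroup.isCyclic_iff_exists_zpowers_eq_top X |>.1 this
    exact ⟨g, by rwa [Nat.card_zpowers] at hX, rfl⟩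
  refine ⟨fun X hX => ?_, ?_, ?_, fun X Y hX hY he => ?_⟩
  · obtain ⟨g, hg, rfl⟩ := cyc X hX
    obtain ⟨r, hrm, c, -, h⟩ := key g hg
    rw [h]; exact (hr r hrm).2
  · obtain ⟨r, hrm, h6⟩ := hex.1
    obtain ⟨ho, hm⟩ := Cfsg.Agent.M24.orderOf_toPerm_rep Cfsg.Agent.M24.t243_class hrm
    have ho' : orderOf (⟨_, hm.1⟩ : ↥Cfsg.M24) = 3 := by rw [← Subgroup.orderOf_coe]; exact ho
    obtain ⟨r', hrm', c, e, h⟩ := key _ ho'
    refine ⟨Subgroup.zpowers (⟨_, hm.1⟩ : ↥Cfsg.M24), by rw [Nat.card_zpowers, ho'], ?_⟩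
    rw [h, ← Cfsg.Agent.M24.card_fix_rep (Cfsg.Agent.M24.autB_ok (hr r' hrm').1) c, e]
    simpa using (Cfsg.Agent.M24.card_fix_rep (Cfsg.Agent.M24.autB_ok (hr r hrm).1) 1).trans h6
  · obtain ⟨r, hrm, h6⟩ := hex.2
    obtain ⟨ho, hm⟩ := Cfsg.Agent.M24.orderOf_toPerm_rep Cfsg.Agent.M24.t243_class hrm
    have ho' : orderOf (⟨_, hm.1⟩ : ↥Cfsg.M24) = 3 := by rw [← Subgroup.orderOf_coe]; exact ho
    obtain ⟨r', hrm', c, e, h⟩ := key _ ho'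
    refine ⟨Subgroup.zpowers (⟨_, hm.1⟩ : ↥Cfsg.M24), by rw [Nat.card_zpowers, ho'], ?_⟩
    rw [h, ← Cfsg.Agent.M24.card_fix_rep (Cfsg.Agent.M24.autB_ok (hr r' hrm').1) c, e]
    simpa using (Cfsg.Agent.M24.card_fix_rep (Cfsg.Agent.M24.autB_ok (hr r hrm).1) 1).trans h6
  · obtain ⟨g, hg, rfl⟩ := cyc X hX
    obtain ⟨g', hg', rfl⟩ := cyc Y hY
    obtain ⟨r, hrm, c, e, h⟩ := key g hg
    obtain ⟨r', hrm', c', e', h'⟩ := key g' hg'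
    rw [h, h'] at he
    obtain rfl := hu r hrm r' hrm' he
    refine ⟨c' * c⁻¹, ?_⟩
    have eg : MulAut.conj (c' * c⁻¹) g = g' := Subtype.ext (by simp [← e, ← e', mul_assoc])
    rw [← eg, Subgroup.pointwise_smul_def]
    exact MonoidHom.map_zpowers (MulAut.conj (c' * c⁻¹)).toMonoidHom g


end Cfsg.Agent.S5601
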