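import Cfsg.Statements.S5604
import Cfsg.Agent.M24.Seven

set_option autoImplicit false
open scoped Pointwise
open Cfsg

namespace Cfsg.Agent.S5604
open scoped Pointwise

/-- For a subgroup S of order 7 of the group of the length-24 code (a Sylow 7-subgroup): the normaliser of S has order 126, the centraliser of S has order 42 and is non-abelian, and the whole normaliser leaves some trio invariant. (These are the orders of a Frobenius group of order 21 times a symmetric group of degree 3; the isomorphism type itself is not asserted here.) -/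
theorem result (S : Subgroup ↥Cfsg.M24) (hS : Nat.card S = 7) : Nat.card ↥(Subgroup.normalizer (S : Set ↥Cfsg.M24)) = 126 ∧ Nat.card ↥(Subgroup.centralizer (S : Set ↥Cfsg.M24)) = 42 ∧ (∃ x ∈ Subgroup.centralizer (S : Set ↥Cfsg.M24), ∃ y ∈ Subgroup.centralizer (S : Set ↥Cfsg.M24), x * y ≠ y * x) ∧ ∃ T ∈ Cfsg.trios, ∀ n ∈ Subgroup.normalizer (S : Set ↥Cfsg.M24), ((n : ↥Cfsg.M24) : Equiv.Perm Cfsg.GolayPt) • T = T := by
  classical
  have : Fact (Nat.Prime 7) := ⟨by norm_num⟩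
  obtain ⟨g, hg⟩ := isCyclic_iff_exists_orderOf_eq_natCard.1 (isCyclic_of_prime_card hS)
  rw [hS] at hg
  have hg' : orderOf ((g : ↥Cfsg.M24) : Equiv.Perm Cfsg.GolayPt) = 7 := by
    rw [Subgroup.orderOf_coe, Subgroup.orderOf_coe, hg]
  have hc : Nat.card (Cfsg.Agent.M24.fixAll []) = 244823040 := by rw [Cfsg.Agent.M24.fixAll_nil, Cfsg.Agent.M24.card_M24]
  obtain ⟨c, hcm, z, hz, hzok, -, e⟩ := Cfsg.Agent.M24.exists_conj_tower Cfsg.Agent.M24.Seven.tower_ok (by rw [hc]; norm_num)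
    (by rw [hc]; norm_num) (g := ((g : ↥Cfsg.M24) : Equiv.Perm Cfsg.GolayPt))
    (by rw [Cfsg.Agent.M24.fixAll_nil]; exact g.1.2) (hg' ▸ pow_orderOf_eq_one _)
  rw [Cfsg.Agent.M24.fixAll_nil] at hcm
  obtain ⟨K, -, ⟨hK1, -⟩, hKcl, -⟩ :=
    Cfsg.Agent.M24.exists_carries (by norm_num : 0 < 7) [Cfsg.Agent.M24.Seven.t7] Cfsg.Agent.M24.Seven.tower_ok
  have hzK : Cfsg.Agent.M24.toPerm z ∈ Subgroup.zpowers (Cfsg.Agent.M24.toPerm Cfsg.Agent.M24.Seven.t7) := by
    have h := (hK1 z hz).2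
    rw [hKcl] at h
    rw [Subgroup.zpowers_eq_closure]
    simpa using h
  have hT : Cfsg.Agent.M24.toPerm Cfsg.Agent.M24.Seven.t7 ∈ Cfsg.M24 := Cfsg.Agent.M24.toPerm_mem Cfsg.Agent.M24.Seven.t7_aut
  set t : ↥Cfsg.M24 := ⟨_, hT⟩ with ht
  set c' : ↥Cfsg.M24 := ⟨c, hcm⟩ with hc'
  have hS' : ∀ u : ↥Cfsg.M24, u ∈ S ↔ c'⁻¹ * u * c' ∈ Subgroup.zpowers t := by
    have hgS : Subgroup.zpowers (g : ↥Cfsg.M24) = S := by
      refine Subgroup.eq_of_le_of_card_ge (by rw [Subgroup.zpowers_le]; exact g.2) ?_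
      rw [hS, Nat.card_zpowers, Subgroup.orderOf_coe, hg]
    have ht7 : orderOf t = 7 := by rw [← Subgroup.orderOf_coe]; exact Cfsg.Agent.M24.Seven.orderOf_t7
    have hgt : Subgroup.zpowers (c'⁻¹ * (g : ↥Cfsg.M24) * c') = Subgroup.zpowers t := by
      refine Subgroup.eq_of_le_of_card_ge ?_ ?_
      · rw [Subgroup.zpowers_le]
        obtain ⟨i, hi⟩ := hzK
        exact ⟨i, Subtype.ext (by simp [ht, hc', e, mul_assoc, ← hi])⟩
      · rw [Nat.card_zpowers, Nat.card_zpowers, ht7]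
        have : orderOf (c'⁻¹ * (g : ↥Cfsg.M24) * c') = 7 := by
          rw [show c'⁻¹ * (g : ↥Cfsg.M24) * c' = (MulAut.conj c'⁻¹) (g : ↥Cfsg.M24) by simp,
            MulEquiv.orderOf_eq, Subgroup.orderOf_coe, hg]
        rw [this]
    intro u
    rw [← hgS, ← hgt]
    constructor
    · rintro ⟨i, rfl⟩
      refine ⟨i, ?_⟩
      simpa using map_zpow (MulAut.conj c'⁻¹) (g : ↥Cfsg.M24) i |>.symm
    · rintro ⟨i, hi⟩
      refine ⟨i, ?_⟩
      apply (MulAut.conj c'⁻¹).injective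
      simpa [map_zpow] using hi
  have hpow : ∀ w : ↥Cfsg.M24, w ∈ Subgroup.zpowers t → ∃ k < 7,
      (w : Equiv.Perm Cfsg.GolayPt) = Cfsg.Agent.M24.toPerm Cfsg.Agent.M24.Seven.t7 ^ k := by
    intro w hw
    rw [← mem_powers_iff_mem_zpowers] at hw
    obtain ⟨k, rfl⟩ := hw
    refine ⟨k % 7, Nat.mod_lt _ (by norm_num), ?_⟩
    conv_rhs => rw [← Cfsg.Agent.M24.Seven.orderOf_t7, pow_mod_orderOf]
    rfl
  let E : ↥Cfsg.M24 ≃ ↥Cfsg.M24 := (MulAut.conj c').toEquiv
  let good : Set (Equiv.Perm Cfsg.GolayPt) := Cfsg.Agent.M24.toPerm '' {a | a ∈ Cfsg.Agent.M24.Seven.sols.flatten}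
  have hN : ∀ n : ↥Cfsg.M24, c' * n * c'⁻¹ ∈ Subgroup.normalizer (S : Set ↥Cfsg.M24) ↔
      (n : Equiv.Perm Cfsg.GolayPt) ∈ good := by
    intro n
    constructor
    · intro hn
      rw [Subgroup.mem_normalizer_iff] at hn
      have h1 := (hn (c' * t * c'⁻¹)).1 (by simp only [SetLike.mem_coe, hS']; simp [mul_assoc])
      simp only [SetLike.mem_coe, hS'] at h1
      simp [mul_assoc] at h1
      obtain ⟨k, hk, hkw⟩ := hpow _ h1
      simp [ht] at hkw
      have hk0 : k ≠ 0 := by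
        rintro rfl
        have hne : Cfsg.Agent.M24.toPerm Cfsg.Agent.M24.Seven.t7 ≠ 1 := fun h => by
          have := Cfsg.Agent.M24.Seven.orderOf_t7
          rw [h, orderOf_one] at this
          norm_num at this
        apply hne
        simpa [← mul_assoc] using hkw
      obtain ⟨a, ha, he⟩ := Cfsg.Agent.M24.Seven.exists_sols n.2 hk hk0 (by
        rw [← hkw]; simp [mul_assoc])
      exact ⟨a, Cfsg.Agent.M24.Seven.mem_flatten_iff.2 ⟨k, hk, ha⟩, he.symm⟩
    · rintro ⟨a, ha, he⟩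
      obtain ⟨k, hk, hak⟩ := Cfsg.Agent.M24.Seven.mem_flatten_iff.1 ha
      obtain ⟨-, hrel, -⟩ := Cfsg.Agent.M24.Seven.mem_sols hk hak
      have hrel' : n * t = t ^ k * n := Subtype.ext (by simpa [ht, ← he] using hrel)
      have hle : S.map (MulAut.conj (c' * n * c'⁻¹)).toMonoidHom ≤ S := by
        rintro _ ⟨u, hu, rfl⟩
        simp only [SetLike.mem_coe, hS'] at hu
        rw [hS']
        obtain ⟨i, hi⟩ := hu
        refine ⟨k * i, ?_⟩
        have e2 : n * t ^ i * n⁻¹ = (t ^ k) ^ i := by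
          rw [← conj_zpow, hrel', mul_inv_cancel_right]
        simp only at hi
        simp only
        rw [zpow_mul, zpow_natCast, ← e2, hi]
        simp [mul_assoc]
      have heq : S.map (MulAut.conj (c' * n * c'⁻¹)).toMonoidHom = S :=
        Subgroup.eq_of_le_of_card_ge hle (le_of_eq
          (Nat.card_congr (S.equivMapOfInjective _ (MulAut.conj (c' * n * c'⁻¹)).injective).toEquiv))
      rw [Subgroup.mem_normalizer_iff]
      intro u
      constructor
      · intro hu; exact hle ⟨u, hu, rfl⟩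
      · intro hu
        rw [← heq] at hu
        obtain ⟨v, hv, hve⟩ := hu
        exact (MulAut.conj (c' * n * c'⁻¹)).injective hve ▸ hv
  have hC : ∀ n : ↥Cfsg.M24, c' * n * c'⁻¹ ∈ Subgroup.centralizer (S : Set ↥Cfsg.M24) ↔
      (n : Equiv.Perm Cfsg.GolayPt) ∈ Cfsg.Agent.M24.toPerm '' {a | a ∈ Cfsg.Agent.M24.Seven.sols.getD 1 []} := by
    intro n
    rw [Subgroup.mem_centralizer_iff]
    constructor
    · intro hn
      have h1 := hn (c' * t * c'⁻¹) (by simp only [SetLike.mem_coe, hS']; simp [mul_assoc])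
      have h2 : n * t = t * n := by
        have := congrArg (fun u => c'⁻¹ * u * c') h1
        simpa [mul_assoc] using this.symm
      obtain ⟨a, ha, he⟩ := Cfsg.Agent.M24.Seven.exists_sols n.2 (k := 1) (by norm_num) one_ne_zero (by
        simpa [ht] using congrArg Subtype.val h2)
      exact ⟨a, ha, he.symm⟩
    · rintro ⟨a, ha, he⟩ u hu
      obtain ⟨-, hrel, -⟩ := Cfsg.Agent.M24.Seven.mem_sols (by norm_num : 1 < 7) ha
      simp only [SetLike.mem_coe, hS'] at hu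
      obtain ⟨i, hi⟩ := hu
      have hcomm : Commute n (t ^ i) := Commute.zpow_right (Subtype.ext (by simpa [ht, ← he] using hrel)) i
      simp only at hi
      rw [hi] at hcomm
      have := congrArg (fun u => c' * u * c'⁻¹) hcomm.eq
      simpa [mul_assoc] using this.symm
  have count : ∀ (H : Subgroup ↥Cfsg.M24) (T : Set (Equiv.Perm Cfsg.GolayPt)),
      (∀ u ∈ T, u ∈ Cfsg.M24) →
      (∀ n : ↥Cfsg.M24, c' * n * c'⁻¹ ∈ H ↔ (n : Equiv.Perm Cfsg.GolayPt) ∈ T) → Nat.card H = T.ncard := by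
    intro H T hTm hH
    rw [← Nat.card_coe_set_eq]
    exact Nat.card_congr
      { toFun := fun h => ⟨((c'⁻¹ * h * c' : ↥Cfsg.M24) : Equiv.Perm Cfsg.GolayPt),
          (hH _).1 (by simp [mul_assoc])⟩
        invFun := fun u => ⟨c' * ⟨u.1, hTm u u.2⟩ * c'⁻¹, (hH _).2 u.2⟩
        left_inv := fun h => Subtype.ext (Subtype.ext (by simp [mul_assoc]))
        right_inv := fun u => Subtype.ext (by simp [mul_assoc]) }
  have hmem : ∀ u ∈ good, u ∈ Cfsg.M24 := by
    rintro _ ⟨a, ha, rfl⟩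
    obtain ⟨k, hk, hak⟩ := Cfsg.Agent.M24.Seven.mem_flatten_iff.1 ha
    exact Cfsg.Agent.M24.toPerm_mem (Cfsg.Agent.M24.Seven.mem_sols hk hak).1
  have h1sub : List.Sublist (Cfsg.Agent.M24.Seven.sols.getD 1 []) Cfsg.Agent.M24.Seven.sols.flatten := by decide +kernel
  refine ⟨?_, ?_, ?_, c • (Cfsg.Agent.M24.Seven.trio.map Cfsg.Agent.M24.toSet).toFinset, ?_, fun n hn => ?_⟩
  · rw [count _ good hmem hN, Cfsg.Agent.M24.Seven.ncard_list_perm _ (List.Sublist.refl _)]
    exact Cfsg.Agent.M24.Seven.counts.2.1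
  · rw [count _ _ (fun u hu => by
      obtain ⟨a, ha, rfl⟩ := hu
      exact Cfsg.Agent.M24.toPerm_mem (Cfsg.Agent.M24.Seven.mem_sols (by norm_num : 1 < 7) ha).1) hC, Cfsg.Agent.M24.Seven.ncard_list_perm _ h1sub]
    exact Cfsg.Agent.M24.Seven.counts.2.2
  · have hx : 984039889455363465071759803531056352 ∈ Cfsg.Agent.M24.Seven.sols.getD 1 [] ∧ 335052936082009890538896672030219873 ∈ Cfsg.Agent.M24.Seven.sols.getD 1 [] ∧
        (Cfsg.Agent.M24.commB 984039889455363465071759803531056352 335052936082009890538896672030219873 335052936082009890538896672030219873 984039889455363465071759803531056352) = false := by decide +kernel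
    obtain ⟨hx, hy, hne⟩ := hx
    obtain ⟨hxa, -, -⟩ := Cfsg.Agent.M24.Seven.mem_sols (by norm_num : 1 < 7) hx
    obtain ⟨hya, -, -⟩ := Cfsg.Agent.M24.Seven.mem_sols (by norm_num : 1 < 7) hy
    refine ⟨c' * ⟨_, Cfsg.Agent.M24.toPerm_mem hxa⟩ * c'⁻¹, (hC _).2 ⟨_, hx, rfl⟩,
      c' * ⟨_, Cfsg.Agent.M24.toPerm_mem hya⟩ * c'⁻¹, (hC _).2 ⟨_, hy, rfl⟩, fun h => ?_⟩
    have h2 := congrArg (fun u : ↥Cfsg.M24 => (u : Equiv.Perm Cfsg.GolayPt)) h
    simp [mul_assoc, hc'] at h2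
    have h3 : Cfsg.Agent.M24.commB 984039889455363465071759803531056352 335052936082009890538896672030219873 335052936082009890538896672030219873 984039889455363465071759803531056352 = true := by
      simp only [Cfsg.Agent.M24.commB, List.all_eq_true, List.mem_range, beq_iff_eq]
      intro i hi
      have h4 := congrArg (fun u : Equiv.Perm Cfsg.GolayPt => Cfsg.Agent.M24.ix (u (c (Cfsg.Agent.M24.pt i)))) h2
      have ox := Cfsg.Agent.M24.autB_ok hxa
      have oy := Cfsg.Agent.M24.autB_ok hya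
      simp only [Equiv.Perm.mul_apply, Equiv.Perm.inv_def, Equiv.symm_apply_apply, Cfsg.Agent.M24.toPerm_pt ox hi, Cfsg.Agent.M24.toPerm_pt oy hi,
        Cfsg.Agent.M24.toPerm_pt ox (Cfsg.Agent.M24.okPerm_lt oy hi), Cfsg.Agent.M24.toPerm_pt oy (Cfsg.Agent.M24.okPerm_lt ox hi),
        Cfsg.Agent.M24.ix_pt (Cfsg.Agent.M24.okPerm_lt ox (Cfsg.Agent.M24.okPerm_lt oy hi)), Cfsg.Agent.M24.ix_pt (Cfsg.Agent.M24.okPerm_lt oy (Cfsg.Agent.M24.okPerm_lt ox hi))] at h4
      exact h4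
    rw [hne] at h3
    simp at h3
  · have hp : (Cfsg.Agent.M24.Seven.trio.map Cfsg.Agent.M24.toSet).toFinset ∈ Cfsg.trios := by
      have hd : ∀ a ∈ Cfsg.Agent.M24.Seven.trio, ∀ b ∈ Cfsg.Agent.M24.Seven.trio, a ≠ b → a &&& b = 0 := by decide +kernel
      refine ⟨by decide +kernel, fun o ho => ?_, fun o ho o' ho' hne => ?_⟩
      · obtain ⟨m, hm, rfl⟩ := List.mem_map.1 (List.mem_toFinset.1 ho)
        exact Cfsg.Agent.M24.mem_octads_iff.2 (by revert m; decide +kernel)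
      · obtain ⟨a, ha, rfl⟩ := List.mem_map.1 (List.mem_toFinset.1 ho)
        obtain ⟨b, hb, rfl⟩ := List.mem_map.1 (List.mem_toFinset.1 ho')
        rw [Finset.disjoint_iff_inter_eq_empty, ← Cfsg.Agent.M24.toSet_and,
          hd a ha b hb (fun e => hne (by rw [e]))]
        simp [Cfsg.Agent.M24.toSet]
    refine ⟨?_, fun o ho => ?_, fun o ho o' ho' hne => ?_⟩
    · rw [Finset.card_smul_finset]; exact hp.1
    · obtain ⟨p, hp', rfl⟩ := Finset.mem_smul_finset.1 ho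
      exact (Cfsg.Agent.M24.smul_mem_octads hcm).2 (hp.2.1 p hp')
    · obtain ⟨p, hp', rfl⟩ := Finset.mem_smul_finset.1 ho
      obtain ⟨q, hq', rfl⟩ := Finset.mem_smul_finset.1 ho'
      have hd := hp.2.2 p hp' q hq' (fun e => hne (by rw [e]))
      rw [Finset.disjoint_iff_inter_eq_empty, ← Finset.smul_finset_inter,
        Finset.disjoint_iff_inter_eq_empty.1 hd, Finset.smul_finset_empty]
  · obtain ⟨a, ha, he⟩ := (hN (c'⁻¹ * n * c')).1 (by simpa [mul_assoc] using hn)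
    obtain ⟨k, hk, hak⟩ := Cfsg.Agent.M24.Seven.mem_flatten_iff.1 ha
    obtain ⟨haa, -, htr⟩ := Cfsg.Agent.M24.Seven.mem_sols hk hak
    have hfixT : Cfsg.Agent.M24.toPerm a • (Cfsg.Agent.M24.Seven.trio.map Cfsg.Agent.M24.toSet).toFinset = (Cfsg.Agent.M24.Seven.trio.map Cfsg.Agent.M24.toSet).toFinset := by
      refine Finset.eq_of_subset_of_card_le (fun o ho => ?_) (by rw [Finset.card_smul_finset])
      obtain ⟨p, hp, rfl⟩ := Finset.mem_smul_finset.1 ho
      obtain ⟨m, hm, rfl⟩ := List.mem_map.1 (List.mem_toFinset.1 hp)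
      rw [← Cfsg.Agent.M24.toSet_pimg (Cfsg.Agent.M24.autB_ok haa)]
      exact List.mem_toFinset.2 (List.mem_map.2 ⟨_, htr m hm, rfl⟩)
    have hn' : ((n : ↥Cfsg.M24) : Equiv.Perm Cfsg.GolayPt) = c * Cfsg.Agent.M24.toPerm a * c⁻¹ := by
      rw [he]; simp [hc', mul_assoc]
    rw [hn', mul_smul, mul_smul, inv_smul_smul, hfixT]


end Cfsg.Agent.S5604
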