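import Cfsg.Statements.S5609
import Cfsg.Agent.M24.Canon
import Cfsg.Agent.M24.Trans

set_option autoImplicit false
open scoped Pointwise
open Cfsg

namespace Cfsg.Agent.S5609
open scoped Pointwise

/-- In the graph on the 759 octads of the length-24 code in which two octads are adjacent when they are disjoint, the graph is connected (of diameter 3) and two distinct octads are at distance 1, 2 or 3 exactly when they meet in 0, 4 or 2 points respectively. -/
theorem result (o o' : Finset Cfsg.GolayPt) (ho : o ∈ Cfsg.octads) (ho' : o' ∈ Cfsg.octads) (hne : o ≠ o') : (Cfsg.blockGraph Cfsg.octads).Connected ∧ ((Cfsg.blockGraph Cfsg.octads).dist ⟨o, ho⟩ ⟨o', ho'⟩ = 1 ↔ (o ∩ o').card = 0) ∧ ((Cfsg.blockGraph Cfsg.octads).dist ⟨o, ho⟩ ⟨o', ho'⟩ = 2 ↔ (o ∩ o').card = 4) ∧ ((Cfsg.blockGraph Cfsg.octads).dist ⟨o, ho⟩ ⟨o', ho'⟩ = 3 ↔ (o ∩ o').card = 2) := by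
  classical
  obtain ⟨g, hg, hgo⟩ := Cfsg.Agent.M24.exists_map_octad ho
  obtain ⟨m, hm, hgm⟩ := Cfsg.Agent.M24.exists_octad hg ho'
  set G := Cfsg.blockGraph Cfsg.octads with hG
  have key : (∀ a ∈ Cfsg.Agent.M24.octL, a = Cfsg.Agent.M24.oct0 ∨ Cfsg.Agent.M24.pc (Cfsg.Agent.M24.oct0 &&& a) = 0 ∨ Cfsg.Agent.M24.pc (Cfsg.Agent.M24.oct0 &&& a) = 2 ∨
        Cfsg.Agent.M24.pc (Cfsg.Agent.M24.oct0 &&& a) = 4) ∧
      (∀ a ∈ Cfsg.Agent.M24.octL, Cfsg.Agent.M24.pc (Cfsg.Agent.M24.oct0 &&& a) = 4 →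
        ∃ x ∈ Cfsg.Agent.M24.octL.filter (fun x => Cfsg.Agent.M24.oct0 &&& x == 0), x &&& a = 0) ∧
      (∀ a ∈ Cfsg.Agent.M24.octL, Cfsg.Agent.M24.pc (Cfsg.Agent.M24.oct0 &&& a) = 2 →
        ∀ x ∈ Cfsg.Agent.M24.octL.filter (fun x => Cfsg.Agent.M24.oct0 &&& x == 0), x &&& a ≠ 0) ∧
      (∀ a ∈ Cfsg.Agent.M24.octL, Cfsg.Agent.M24.pc (Cfsg.Agent.M24.oct0 &&& a) = 2 →
        ∃ x ∈ Cfsg.Agent.M24.octL.filter (fun x => Cfsg.Agent.M24.oct0 &&& x == 0),
          ∃ y ∈ Cfsg.Agent.M24.octL.filter (fun y => y &&& a == 0), x &&& y = 0) := by decide +kernel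
  obtain ⟨k0, k1, k2, k3⟩ := key
  have hzero : ∀ a b : ℕ, a &&& b = 0 → Disjoint (Cfsg.Agent.M24.toSet a) (Cfsg.Agent.M24.toSet b) := fun a b h => by
    rw [Finset.disjoint_iff_inter_eq_empty, ← Cfsg.Agent.M24.toSet_and, h]; simp [Cfsg.Agent.M24.toSet]
  let v : (a : ℕ) → a ∈ Cfsg.Agent.M24.octL → Cfsg.octads := fun a ha =>
    ⟨g • Cfsg.Agent.M24.toSet a, (Cfsg.Agent.M24.smul_mem_octads hg).2 (Cfsg.Agent.M24.mem_octads_list.2 ⟨a, ha, rfl⟩)⟩
  have adj : ∀ a b (ha : a ∈ Cfsg.Agent.M24.octL) (hb : b ∈ Cfsg.Agent.M24.octL), a &&& b = 0 → G.Adj (v a ha) (v b hb) := by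
    intro a b ha hb h
    have hd : Disjoint (g • Cfsg.Agent.M24.toSet a) (g • Cfsg.Agent.M24.toSet b) := by
      rw [Finset.disjoint_iff_inter_eq_empty, ← Finset.smul_finset_inter,
        Finset.disjoint_iff_inter_eq_empty.1 (hzero a b h), Finset.smul_finset_empty]
    refine (SimpleGraph.fromRel_adj _ _ _).2 ⟨fun e => ?_, Or.inl hd⟩
    have e' : g • Cfsg.Agent.M24.toSet a = g • Cfsg.Agent.M24.toSet b := congrArg Subtype.val e
    rw [e'] at hd
    have := Finset.card_eq_zero.2 (disjoint_self.1 hd : g • Cfsg.Agent.M24.toSet b = ∅)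
    rw [Finset.card_smul_finset, Cfsg.Agent.M24.card_toSet,
      (Cfsg.Agent.M24.mem_class 8 _ Cfsg.Agent.M24.octL_eq (Cfsg.Agent.M24.class_lt 8 _ Cfsg.Agent.M24.octL_eq hb)).1 hb |>.2] at this
    simp at this
  have h0m : Cfsg.Agent.M24.oct0 ∈ Cfsg.Agent.M24.octL := by decide +kernel
  have hcases : ∀ a (ha : a ∈ Cfsg.Agent.M24.octL), G.Reachable (v _ h0m) (v a ha) := by
    intro a ha
    rcases k0 a ha with h | h | h | h
    · subst h; exact SimpleGraph.Reachable.refl _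
    · refine (adj _ _ h0m ha ?_).reachable
      refine Nat.eq_of_testBit_eq fun i => ?_
      rcases Nat.lt_or_ge i 24 with hi | hi
      · have := h; rw [Cfsg.Agent.M24.pc, List.countP_eq_zero] at this
        simpa using this i (List.mem_range.2 hi)
      · rw [Nat.zero_testBit, Nat.testBit_lt_two_pow]
        exact lt_of_le_of_lt Nat.and_le_right ((Cfsg.Agent.M24.class_lt 8 _ Cfsg.Agent.M24.octL_eq ha).trans_le
          (Nat.pow_le_pow_right (by norm_num) hi))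
    · obtain ⟨x, hx, y, hy, hxy⟩ := k3 a ha h
      simp only [List.mem_filter, beq_iff_eq] at hx hy
      exact ((adj _ _ h0m hx.1 hx.2).reachable.trans (adj _ _ hx.1 hy.1 hxy).reachable).trans
        (adj _ _ hy.1 ha hy.2).reachable
    · obtain ⟨x, hx, hxa⟩ := k1 a ha h
      simp only [List.mem_filter, beq_iff_eq] at hx
      exact (adj _ _ h0m hx.1 hx.2).reachable.trans (adj _ _ hx.1 ha hxa).reachable
  have hv : ∀ q : Cfsg.octads, ∃ a, ∃ ha : a ∈ Cfsg.Agent.M24.octL, v a ha = q := fun q => by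
    obtain ⟨a, ha, e⟩ := Cfsg.Agent.M24.exists_octad hg q.2
    exact ⟨a, ha, Subtype.ext e⟩
  have hconn : G.Connected := by
    haveI : Nonempty Cfsg.octads := ⟨⟨o, ho⟩⟩
    refine ⟨fun p q => ?_⟩
    obtain ⟨a, ha, rfl⟩ := hv p
    obtain ⟨b, hb, rfl⟩ := hv q
    exact (hcases a ha).symm.trans (hcases b hb)
  have ep : (⟨o, ho⟩ : Cfsg.octads) = v _ h0m := Subtype.ext hgo.symm
  have eq' : (⟨o', ho'⟩ : Cfsg.octads) = v m hm := Subtype.ext hgm.symm
  have hmne : m ≠ Cfsg.Agent.M24.oct0 := by rintro rfl; exact hne (hgo.symm.trans hgm)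
  rw [ep, eq', ← hgo, ← hgm, Cfsg.Agent.M24.card_smul_inter]
  have hadj : ∀ a b (ha : a ∈ Cfsg.Agent.M24.octL) (hb : b ∈ Cfsg.Agent.M24.octL), G.Adj (v a ha) (v b hb) → a &&& b = 0 := by
    intro a b ha hb h
    have hd : Disjoint (g • Cfsg.Agent.M24.toSet a) (g • Cfsg.Agent.M24.toSet b) := by
      rcases ((SimpleGraph.fromRel_adj _ _ _).1 h).2 with h' | h'
      · exact h'
      · exact h'.symm
    have hc : Cfsg.Agent.M24.pc (a &&& b) = 0 := by
      rw [← Cfsg.Agent.M24.card_smul_inter g, Finset.card_eq_zero, ← Finset.disjoint_iff_inter_eq_empty]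
      exact hd
    refine Nat.eq_of_testBit_eq fun i => ?_
    rcases Nat.lt_or_ge i 24 with hi | hi
    · rw [Cfsg.Agent.M24.pc, List.countP_eq_zero] at hc
      simpa using hc i (List.mem_range.2 hi)
    · rw [Nat.zero_testBit, Nat.testBit_lt_two_pow]
      exact lt_of_le_of_lt Nat.and_le_right ((Cfsg.Agent.M24.class_lt 8 _ Cfsg.Agent.M24.octL_eq hb).trans_le
        (Nat.pow_le_pow_right (by norm_num) hi))
  have hpc0 : ∀ a, a = 0 → Cfsg.Agent.M24.pc a = 0 := by rintro a rfl; decide +kernel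
  have d0 : Cfsg.Agent.M24.pc (Cfsg.Agent.M24.oct0 &&& m) = 0 → G.dist (v _ h0m) (v m hm) = 1 := fun h => by
    rw [SimpleGraph.dist_eq_one_iff_adj]
    refine adj _ _ h0m hm (Nat.eq_of_testBit_eq fun i => ?_)
    rcases Nat.lt_or_ge i 24 with hi | hi
    · rw [Cfsg.Agent.M24.pc, List.countP_eq_zero] at h
      simpa using h i (List.mem_range.2 hi)
    · rw [Nat.zero_testBit, Nat.testBit_lt_two_pow]
      exact lt_of_le_of_lt Nat.and_le_right ((Cfsg.Agent.M24.class_lt 8 _ Cfsg.Agent.M24.octL_eq hm).trans_le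
        (Nat.pow_le_pow_right (by norm_num) hi))
  have hne0 : v _ h0m ≠ v m hm := by rw [← ep, ← eq']; exact fun e => hne (congrArg Subtype.val e)
  have d4 : Cfsg.Agent.M24.pc (Cfsg.Agent.M24.oct0 &&& m) = 4 → G.dist (v _ h0m) (v m hm) = 2 := fun h => by
    obtain ⟨x, hx, hxa⟩ := k1 m hm h
    simp only [List.mem_filter, beq_iff_eq] at hx
    have hw := SimpleGraph.dist_le (SimpleGraph.Walk.cons (adj _ _ h0m hx.1 hx.2)
      (SimpleGraph.Walk.cons (adj _ _ hx.1 hm hxa) SimpleGraph.Walk.nil))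
    simp only [SimpleGraph.Walk.length_cons, SimpleGraph.Walk.length_nil] at hw
    have h1 : 0 < G.dist (v _ h0m) (v m hm) := (hcases m hm).pos_dist_of_ne hne0
    have h2 : G.dist (v _ h0m) (v m hm) ≠ 1 := fun e => by
      have := hpc0 _ (hadj _ _ h0m hm (SimpleGraph.dist_eq_one_iff_adj.1 e))
      omega
    omega
  have d2 : Cfsg.Agent.M24.pc (Cfsg.Agent.M24.oct0 &&& m) = 2 → G.dist (v _ h0m) (v m hm) = 3 := fun h => by
    obtain ⟨x, hx, y, hy, hxy⟩ := k3 m hm h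
    simp only [List.mem_filter, beq_iff_eq] at hx hy
    have hw := SimpleGraph.dist_le (SimpleGraph.Walk.cons (adj _ _ h0m hx.1 hx.2)
      (SimpleGraph.Walk.cons (adj _ _ hx.1 hy.1 hxy)
        (SimpleGraph.Walk.cons (adj _ _ hy.1 hm hy.2) SimpleGraph.Walk.nil)))
    simp only [SimpleGraph.Walk.length_cons, SimpleGraph.Walk.length_nil] at hw
    have h1 : 0 < G.dist (v _ h0m) (v m hm) := (hcases m hm).pos_dist_of_ne hne0
    have h2 : G.dist (v _ h0m) (v m hm) ≠ 1 := fun e => by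
      have := hpc0 _ (hadj _ _ h0m hm (SimpleGraph.dist_eq_one_iff_adj.1 e))
      omega
    have h3 : G.dist (v _ h0m) (v m hm) ≠ 2 := fun e => by
      obtain ⟨w, hwl⟩ := (hcases m hm).exists_walk_length_eq_dist
      rw [e] at hwl
      have two : ∀ (A B : Cfsg.octads) (w : G.Walk A B), w.length = 2 → ∃ C, G.Adj A C ∧ G.Adj C B := by
        intro A B w hw
        cases w with
        | nil => simp at hw
        | cons h1 w1 =>
          cases w1 with
          | nil => simp at hw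
          | cons h2 w2 =>
            cases w2 with
            | nil => exact ⟨_, h1, h2⟩
            | cons h3 w3 => simp at hw
      obtain ⟨C, hC1, hC2⟩ := two _ _ w hwl
      obtain ⟨z, hz, rfl⟩ := hv C
      exact k2 m hm h z (List.mem_filter.2 ⟨hz, by simp [hadj _ _ h0m hz hC1]⟩) (hadj _ _ hz hm hC2)
    omega
  rcases (k0 m hm).resolve_left hmne with h | h | h
  · refine ⟨hconn, ?_, ?_, ?_⟩ <;> simp [d0 h, h]
  · refine ⟨hconn, ?_, ?_, ?_⟩ <;> simp [d2 h, h]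
  · refine ⟨hconn, ?_, ?_, ?_⟩ <;> simp [d4 h, h]


end Cfsg.Agent.S5609
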