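import Cfsg.Statements.S5613
import Cfsg.Agent.M24.OctPairs
import Cfsg.Agent.M24.Orders

set_option autoImplicit false
open scoped Pointwise
open Cfsg

namespace Cfsg.Agent.S5613
open scoped Pointwise

/-- In the group of the length-24 code, the joint stabiliser of two octads has order 10752, 1152 or 720 according as the octads meet in 0, 4 or 2 points. -/
theorem result (o o' : Finset Cfsg.GolayPt) (ho : o ∈ Cfsg.octads) (ho' : o' ∈ Cfsg.octads) : ((o ∩ o').card = 0 → Nat.card ↥(MulAction.stabilizer Cfsg.M24 o ⊓ MulAction.stabilizer Cfsg.M24 o') = 10752) ∧ ((o ∩ o').card = 4 → Nat.card ↥(MulAction.stabilizer Cfsg.M24 o ⊓ MulAction.stabilizer Cfsg.M24 o') = 1152) ∧ ((o ∩ o').card = 2 → Nat.card ↥(MulAction.stabilizer Cfsg.M24 o ⊓ MulAction.stabilizer Cfsg.M24 o') = 720) := by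
  classical
  obtain ⟨g, hg, rfl⟩ := Cfsg.Agent.M24.exists_map_octad ho
  obtain ⟨m, hm, rfl⟩ := Cfsg.Agent.M24.exists_octad hg ho'
  rw [Cfsg.Agent.M24.card_smul_inter]
  have hH : Nat.card (Cfsg.Agent.M24.fixAll [Cfsg.Agent.M24.oct0]) = 322560 := by
    have hok : ∀ c, (c = Cfsg.Agent.M24.octPair0 ∨ c = Cfsg.Agent.M24.octPair2 ∨ c = Cfsg.Agent.M24.octPair4) → c.fx = [Cfsg.Agent.M24.oct0] := by
      rintro c (rfl | rfl | rfl) <;> decide +kernel
    have e : Cfsg.Agent.M24.fixAll [Cfsg.Agent.M24.oct0] = Cfsg.M24 ⊓ MulAction.stabilizer (Equiv.Perm Cfsg.GolayPt) (Cfsg.Agent.M24.toSet Cfsg.Agent.M24.oct0) := by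
      ext v; simp [Cfsg.Agent.M24.mem_fixAll]
    have h1 := Nat.card_congr (MulAction.orbitProdStabilizerEquivGroup Cfsg.M24 (Cfsg.Agent.M24.toSet Cfsg.Agent.M24.oct0))
    have horb : MulAction.orbit Cfsg.M24 (Cfsg.Agent.M24.toSet Cfsg.Agent.M24.oct0) = Cfsg.octads := by
      ext o
      constructor
      · rintro ⟨v, rfl⟩; exact (Cfsg.Agent.M24.smul_mem_octads v.2).2 Cfsg.Agent.M24.oct0_mem
      · intro h
        obtain ⟨v, hv, rfl⟩ := Cfsg.Agent.M24.exists_map_octad h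
        exact ⟨⟨v, hv⟩, rfl⟩
    have h759 : Cfsg.octads.ncard = 759 := by
      have := Cfsg.Agent.M24.ncard_octads_filter (fun _ => True) (fun _ => true) (by simp)
      simpa using this.trans (by decide +kernel : Cfsg.Agent.M24.octL.countP (fun _ => true) = 759)
    rw [Nat.card_prod, horb, Nat.card_coe_set_eq, h759, Cfsg.Agent.M24.card_M24, Cfsg.Agent.M24.card_stabilizer_subgroup, ← e] at h1
    omega
  have main : m ≠ Cfsg.Agent.M24.oct0 → ∀ k n, Cfsg.Agent.M24.pc (Cfsg.Agent.M24.oct0 &&& m) = k →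
      (Cfsg.Agent.M24.octL.filter fun x => x != Cfsg.Agent.M24.oct0 && Cfsg.Agent.M24.pc (x &&& Cfsg.Agent.M24.oct0) == k).length = n → 0 < n →
      Nat.card ↥(MulAction.stabilizer Cfsg.M24 (g • Cfsg.Agent.M24.toSet Cfsg.Agent.M24.oct0) ⊓
        MulAction.stabilizer Cfsg.M24 (g • Cfsg.Agent.M24.toSet m)) = 322560 / n := by
    intro hne k n hk hn hn0
    set L := Cfsg.Agent.M24.octL.filter fun x => x != Cfsg.Agent.M24.oct0 && Cfsg.Agent.M24.pc (x &&& Cfsg.Agent.M24.oct0) == k with hL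
    have hk' : Cfsg.Agent.M24.pc (m &&& Cfsg.Agent.M24.oct0) = k := by rw [Nat.and_comm]; exact hk
    have hmL : m ∈ L := List.mem_filter.2 ⟨hm, by simp [hne, hk']⟩
    have horb : MulAction.orbit (Cfsg.Agent.M24.fixAll [Cfsg.Agent.M24.oct0]) (Cfsg.Agent.M24.toSet m) =
        (((L.map Cfsg.Agent.M24.toSet).toFinset : Finset (Finset Cfsg.GolayPt)) : Set (Finset Cfsg.GolayPt)) := by
      ext o
      simp only [List.coe_toFinset, Set.mem_setOf_eq, List.mem_map]
      constructor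
      · rintro ⟨v, rfl⟩
        obtain ⟨x, hx, hxe⟩ := Cfsg.Agent.M24.mem_octads_list.1 ((Cfsg.Agent.M24.smul_mem_octads v.2.1).2 (Cfsg.Agent.M24.mem_octads_list.2 ⟨m, hm, rfl⟩))
        refine ⟨x, List.mem_filter.2 ⟨hx, ?_⟩, hxe⟩
        have hv := v.2.2 Cfsg.Agent.M24.oct0 List.mem_cons_self
        have hxe' : Cfsg.Agent.M24.toSet x = (v : Equiv.Perm Cfsg.GolayPt) • Cfsg.Agent.M24.toSet m := hxe
        have h1 : Cfsg.Agent.M24.pc (x &&& Cfsg.Agent.M24.oct0) = k := by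
          rw [← hk', ← Cfsg.Agent.M24.card_toSet, Cfsg.Agent.M24.toSet_and, hxe', ← hv, ← Finset.smul_finset_inter,
            Finset.card_smul_finset, ← Cfsg.Agent.M24.toSet_and, Cfsg.Agent.M24.card_toSet]
        have h2 : x ≠ Cfsg.Agent.M24.oct0 := by
          rintro rfl
          apply hne
          refine Cfsg.Agent.M24.toSet_inj (Cfsg.Agent.M24.class_lt 8 _ Cfsg.Agent.M24.octL_eq hm) (by decide +kernel) ?_
          exact MulAction.injective (v : Equiv.Perm Cfsg.GolayPt) (hxe'.symm.trans hv.symm)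
        simp [h1, h2]
      · rintro ⟨x, hx, rfl⟩
        obtain ⟨hx1, hx2⟩ := List.mem_filter.1 hx
        simp only [Bool.and_eq_true, bne_iff_ne, ne_eq, beq_iff_eq] at hx2
        obtain ⟨v, hv, hve⟩ := Cfsg.Agent.M24.map_of_keyCheck Cfsg.Agent.M24.octPairs_ok
          (List.mem_filter.2 ⟨hm, by simp [hne]⟩) (List.mem_filter.2 ⟨hx1, by simp [hx2.1]⟩)
          (hk'.trans hx2.2.symm)
        exact ⟨⟨v, hv⟩, hve⟩
    have h1 := Nat.card_congr (MulAction.orbitProdStabilizerEquivGroup (Cfsg.Agent.M24.fixAll [Cfsg.Agent.M24.oct0]) (Cfsg.Agent.M24.toSet m))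
    rw [Nat.card_prod, horb, Nat.card_coe_set_eq, Set.ncard_coe_finset, List.toFinset_card_of_nodup
      (List.Nodup.map_on (fun a ha b hb e => Cfsg.Agent.M24.toSet_inj
        (Cfsg.Agent.M24.class_lt 8 _ Cfsg.Agent.M24.octL_eq (List.mem_of_mem_filter ha))
        (Cfsg.Agent.M24.class_lt 8 _ Cfsg.Agent.M24.octL_eq (List.mem_of_mem_filter hb)) e)
        ((Cfsg.Agent.M24.class_nodup 8 _ Cfsg.Agent.M24.octL_eq).filter _)),
      List.length_map, hn, Cfsg.Agent.M24.card_stabilizer_subgroup, hH] at h1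
    rw [← h1, Nat.mul_div_cancel_left _ hn0]
    refine Nat.card_congr
      { toFun := fun v => ⟨g⁻¹ * ((v : ↥Cfsg.M24) : Equiv.Perm Cfsg.GolayPt) * g, ?_⟩
        invFun := fun v => ⟨⟨g * v.1 * g⁻¹, Cfsg.M24.mul_mem (Cfsg.M24.mul_mem hg v.2.1.1) (Cfsg.M24.inv_mem hg)⟩,
          MulAction.mem_stabilizer_iff.2 (Cfsg.Agent.M24.conj_smul (v.2.1.2 _ List.mem_cons_self)),
          MulAction.mem_stabilizer_iff.2 (Cfsg.Agent.M24.conj_smul v.2.2)⟩
        left_inv := fun v => Subtype.ext (Subtype.ext (by simp [mul_assoc]))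
        right_inv := fun v => Subtype.ext (by simp [mul_assoc]) }
    obtain ⟨⟨w, hw⟩, ha, hb⟩ := v
    have ha' : w • g • Cfsg.Agent.M24.toSet Cfsg.Agent.M24.oct0 = g • Cfsg.Agent.M24.toSet Cfsg.Agent.M24.oct0 := ha
    have hb' : w • g • Cfsg.Agent.M24.toSet m = g • Cfsg.Agent.M24.toSet m := hb
    refine ⟨⟨Cfsg.M24.mul_mem (Cfsg.M24.mul_mem (Cfsg.M24.inv_mem hg) hw) hg, fun x hx => ?_⟩, ?_⟩
    · rw [List.mem_singleton] at hx; subst hx
      rw [mul_smul, mul_smul, ha', inv_smul_smul]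
    · refine MulAction.mem_stabilizer_iff.2 ?_
      rw [mul_smul, mul_smul, hb', inv_smul_smul]
  have hne : ∀ k, k ≠ 8 → Cfsg.Agent.M24.pc (Cfsg.Agent.M24.oct0 &&& m) = k → m ≠ Cfsg.Agent.M24.oct0 := by
    rintro k hk h rfl
    exact hk (h.symm.trans (by decide +kernel))
  refine ⟨fun h => ?_, fun h => ?_, fun h => ?_⟩
  · rw [main (hne 0 (by norm_num) h) 0 30 h (by decide +kernel) (by norm_num)]
  · rw [main (hne 4 (by norm_num) h) 4 280 h (by decide +kernel) (by norm_num)]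
  · rw [main (hne 2 (by norm_num) h) 2 448 h (by decide +kernel) (by norm_num)]


end Cfsg.Agent.S5613
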