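import Cfsg.Statements.S5614
import Cfsg.Agent.S5613
import Cfsg.Agent.M24.OctPairs
import Cfsg.Agent.M24.Orders

set_option autoImplicit false
open scoped Pointwise
open Cfsg

namespace Cfsg.Agent.S5614
open scoped Pointwise

/-- In the group of the length-24 code, the joint stabiliser of two octads meeting in exactly two points is isomorphic to the symmetric group of degree 6. -/
theorem result (o o' : Finset Cfsg.GolayPt) (ho : o ∈ Cfsg.octads) (ho' : o' ∈ Cfsg.octads) (h₂ : (o ∩ o').card = 2) : Nonempty (↥(MulAction.stabilizer Cfsg.M24 o ⊓ MulAction.stabilizer Cfsg.M24 o') ≃* Equiv.Perm (Fin 6)) := by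
  classical
  have h720 := (Cfsg.Agent.S5613.result o o' ho ho').2.2 h₂
  obtain ⟨g, hg, rfl⟩ := Cfsg.Agent.M24.exists_map_octad ho
  obtain ⟨m, hm, rfl⟩ := Cfsg.Agent.M24.exists_octad hg ho'
  rw [Cfsg.Agent.M24.card_smul_inter] at h₂
  have hne : m ≠ Cfsg.Agent.M24.oct0 := by
    rintro rfl
    exact absurd h₂ (by decide +kernel)
  have hm0 : 11654144 ∈ Cfsg.Agent.M24.octL.filter (fun x => x != Cfsg.Agent.M24.oct0) ∧ Cfsg.Agent.M24.pc (11654144 &&& Cfsg.Agent.M24.oct0) = 2 := by decide +kernel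
  obtain ⟨h, hh, he⟩ := Cfsg.Agent.M24.map_of_keyCheck Cfsg.Agent.M24.octPairs_ok hm0.1 (List.mem_filter.2 ⟨hm, by simp [hne]⟩)
    (by rw [hm0.2, Nat.and_comm, h₂])
  have hgh : g * h ∈ Cfsg.M24 := Cfsg.M24.mul_mem hg hh.1
  have ea : g • Cfsg.Agent.M24.toSet Cfsg.Agent.M24.oct0 = (g * h) • Cfsg.Agent.M24.toSet Cfsg.Agent.M24.oct0 := by
    rw [mul_smul, hh.2 _ List.mem_cons_self]
  have eb : g • Cfsg.Agent.M24.toSet m = (g * h) • Cfsg.Agent.M24.toSet 11654144 := by rw [mul_smul, he]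
  rw [ea, eb] at h720 ⊢
  set c := g * h with hc
  set H := MulAction.stabilizer Cfsg.M24 (c • Cfsg.Agent.M24.toSet Cfsg.Agent.M24.oct0) ⊓
    MulAction.stabilizer Cfsg.M24 (c • Cfsg.Agent.M24.toSet 11654144) with hH
  set A : Finset Cfsg.GolayPt := c • Cfsg.Agent.M24.toSet 159 with hA
  have hA' : A = (c • Cfsg.Agent.M24.toSet Cfsg.Agent.M24.oct0) \ (c • Cfsg.Agent.M24.toSet 11654144) := by
    rw [← Finset.smul_finset_sdiff, hA]
    congr 1
  have hinv : ∀ v : H, ∀ x, ((v : ↥Cfsg.M24) : Equiv.Perm Cfsg.GolayPt) x ∈ A ↔ x ∈ A := fun v x => by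
    have h1 : ((v : ↥Cfsg.M24) : Equiv.Perm Cfsg.GolayPt) • c • Cfsg.Agent.M24.toSet Cfsg.Agent.M24.oct0 = c • Cfsg.Agent.M24.toSet Cfsg.Agent.M24.oct0 := v.2.1
    have h2 : ((v : ↥Cfsg.M24) : Equiv.Perm Cfsg.GolayPt) • c • Cfsg.Agent.M24.toSet 11654144 = c • Cfsg.Agent.M24.toSet 11654144 := v.2.2
    have hs : ((v : ↥Cfsg.M24) : Equiv.Perm Cfsg.GolayPt) • A = A := by
      rw [hA', Finset.smul_finset_sdiff, h1, h2]
    conv_lhs => rw [← hs, ← Equiv.Perm.smul_def, Finset.smul_mem_smul_finset_iff]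
  let φ : H →* Equiv.Perm ↥A :=
    MonoidHom.mk' (fun v => ((v : ↥Cfsg.M24) : Equiv.Perm Cfsg.GolayPt).subtypePerm (hinv v))
      (fun a b => Equiv.ext fun x => Subtype.ext rfl)
  have hsix : Fintype.card ↥A = 6 := by
    rw [Fintype.card_coe, hA, Finset.card_smul_finset, Cfsg.Agent.M24.card_toSet]; decide +kernel
  have hinj : Function.Injective φ := by
    rw [← MonoidHom.ker_eq_bot_iff, eq_bot_iff]
    intro v hv
    rw [Subgroup.mem_bot]
    set w := c⁻¹ * ((v : ↥Cfsg.M24) : Equiv.Perm Cfsg.GolayPt) * c with hw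
    have hwm : w ∈ Cfsg.M24 := Cfsg.M24.mul_mem (Cfsg.M24.mul_mem (Cfsg.M24.inv_mem hgh) v.1.2) hgh
    have hfix : ∀ i ∈ Cfsg.Agent.M24.base.take 6, w (Cfsg.Agent.M24.pt i) = Cfsg.Agent.M24.pt i := by
      intro i hi
      have hi' : Cfsg.Agent.M24.pt i ∈ Cfsg.Agent.M24.toSet 159 := by revert i; decide +kernel
      have hx : c (Cfsg.Agent.M24.pt i) ∈ A := by
        rw [hA, ← Equiv.Perm.smul_def]; exact Finset.smul_mem_smul_finset hi'
      have hv' := congrArg (fun e : Equiv.Perm ↥A => ((e ⟨_, hx⟩ : ↥A) : Cfsg.GolayPt)) (MonoidHom.mem_ker.1 hv)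
      simp [φ] at hv'
      simp [hw, hv']
    have h6 : w ∈ Cfsg.Agent.M24.stab 6 := (Cfsg.Agent.M24.mem_stab (by norm_num)).2 ⟨hwm, hfix⟩
    have hy := Cfsg.Agent.M24.base_orbit_bound hwm (by norm_num : 6 < 7) hfix
    have htr := Cfsg.Agent.M24.trans_orbs
    simp only [List.all_eq_true, List.mem_range, beq_iff_eq] at htr
    rw [← htr 6 (by norm_num), List.mem_map] at hy
    obtain ⟨p, hp, hpy⟩ := hy
    obtain ⟨hpA, hpS⟩ := Cfsg.Agent.M24.trans_spec (k := 6) (by norm_num) hp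
    have hwp : w = Cfsg.Agent.M24.toPerm p := by
      have h7 : (Cfsg.Agent.M24.toPerm p)⁻¹ * w ∈ Cfsg.Agent.M24.stab 7 := by
        refine ⟨(Cfsg.Agent.M24.stab 6).mul_mem ((Cfsg.Agent.M24.stab 6).inv_mem hpS) h6, MulAction.mem_stabilizer_iff.2 ?_⟩
        rw [mul_smul, inv_smul_eq_iff, Equiv.Perm.smul_def, Equiv.Perm.smul_def,
          Cfsg.Agent.M24.toPerm_pt (Cfsg.Agent.M24.autB_ok hpA) (by decide +kernel), hpy, Cfsg.Agent.M24.pt_ix]
      rw [Cfsg.Agent.M24.stab_seven, Subgroup.mem_bot, inv_mul_eq_one] at h7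
      exact h7.symm
    have hm0' : w • Cfsg.Agent.M24.toSet 11654144 = Cfsg.Agent.M24.toSet 11654144 := by
      have h2 : ((v : ↥Cfsg.M24) : Equiv.Perm Cfsg.GolayPt) • c • Cfsg.Agent.M24.toSet 11654144 = c • Cfsg.Agent.M24.toSet 11654144 := v.2.2
      rw [hw, mul_smul, mul_smul, h2, inv_smul_smul]
    rw [hwp, ← Cfsg.Agent.M24.toSet_pimg (Cfsg.Agent.M24.autB_ok hpA)] at hm0'
    have hpm := Cfsg.Agent.M24.toSet_inj (Cfsg.Agent.M24.pimg_lt (Cfsg.Agent.M24.autB_ok hpA)) (by norm_num) hm0'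
    have hid : ∀ p ∈ Cfsg.Agent.M24.trans.getD 6 [], Cfsg.Agent.M24.pimg p 11654144 = 11654144 → ∀ i < 24, Cfsg.Agent.M24.papp p i = i := by decide +kernel
    have hw1 : w = 1 := by
      rw [hwp]
      exact Equiv.ext fun x => by
        rw [Cfsg.Agent.M24.toPerm_apply (Cfsg.Agent.M24.autB_ok hpA), hid p hp hpm _ (Cfsg.Agent.M24.ix_lt x), Cfsg.Agent.M24.pt_ix]; rfl
    refine Subtype.ext (Subtype.ext ?_)
    calc ((v : ↥Cfsg.M24) : Equiv.Perm Cfsg.GolayPt) = c * w * c⁻¹ := by rw [hw]; group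
      _ = 1 := by rw [hw1]; group
  have hbij : Function.Bijective φ := by
    refine (Nat.bijective_iff_injective_and_card φ).2 ⟨hinj, ?_⟩
    rw [h720, Nat.card_perm, Nat.card_eq_fintype_card, hsix]; rfl
  exact ⟨(MulEquiv.ofBijective φ hbij).trans ((Fintype.equivFinOfCardEq hsix).permCongrHom)⟩


end Cfsg.Agent.S5614
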