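import Cfsg.Statements.S5618
import Cfsg.Agent.M24.OctDod
import Cfsg.Agent.M24.Orders
import Cfsg.Agent.M24.OctFix

set_option autoImplicit false
open scoped Pointwise
open Cfsg

namespace Cfsg.Agent.S5618
open scoped Pointwise

theorem faith {d : Finset Cfsg.GolayPt} (hd : d ∈ Cfsg.dodecads) {C : Finset Cfsg.GolayPt}
    (hC : C ∈ Cfsg.hexadsOn d) (v : ↥Cfsg.M24) (h1 : (v : Equiv.Perm Cfsg.GolayPt) • d = d)
    (hp : ∀ p ∈ C, (v : Equiv.Perm Cfsg.GolayPt) p = p) : v = 1 := by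
  classical
  have oct_eq : ∀ o₁ ∈ Cfsg.octads, ∀ o₂ ∈ Cfsg.octads, ∀ A : Finset Cfsg.GolayPt, A.card = 6 → A ⊆ o₁ → A ⊆ o₂ → o₁ = o₂ :=
    fun o₁ h1 o₂ h2 A hA a1 a2 => Cfsg.Agent.M24.octad_eq_of_inter h1 h2
      (by have := Finset.card_le_card (Finset.subset_inter a1 a2); omega)
  obtain ⟨hC6, o, ho, hoC⟩ := hC
  obtain ⟨g, hg, hgo⟩ := Cfsg.Agent.M24.exists_map_octad ho
  obtain ⟨m, hm, hgm⟩ := Cfsg.Agent.M24.exists_dodecad hg hd
  have hm6 : Cfsg.Agent.M24.pc (m &&& Cfsg.Agent.M24.oct0) = 6 := by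
    rw [Nat.and_comm, ← Cfsg.Agent.M24.card_smul_inter g, hgo, hgm, hoC, hC6]
  have hd0 : 11649183 ∈ Cfsg.Agent.M24.dodL.filter (fun m => Cfsg.Agent.M24.pc (m &&& Cfsg.Agent.M24.oct0) == 6) := by decide +kernel
  obtain ⟨h, hh, he⟩ := Cfsg.Agent.M24.map_of_keyCheck Cfsg.Agent.M24.octDod_ok hd0 (List.mem_filter.2 ⟨hm, by simp [hm6]⟩) rfl
  have hgh : g * h ∈ Cfsg.M24 := Cfsg.M24.mul_mem hg hh.1
  set c := g * h with hc
  have hco : c • Cfsg.Agent.M24.toSet Cfsg.Agent.M24.oct0 = o := by rw [hc, mul_smul, hh.2 _ List.mem_cons_self, hgo]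
  have hcd : c • Cfsg.Agent.M24.toSet 11649183 = d := by rw [hc, mul_smul, he, hgm]
  have hfaith : ∀ w ∈ Cfsg.M24, w • Cfsg.Agent.M24.toSet 11649183 = Cfsg.Agent.M24.toSet 11649183 →
      (∀ i ∈ Cfsg.Agent.M24.base.take 6, w (Cfsg.Agent.M24.pt i) = Cfsg.Agent.M24.pt i) → w = 1 := by
    intro w hwm hwd hfix
    have h6 : w ∈ Cfsg.Agent.M24.stab 6 := (Cfsg.Agent.M24.mem_stab (by norm_num)).2 ⟨hwm, hfix⟩
    have hy := Cfsg.Agent.M24.base_orbit_bound hwm (by norm_num : 6 < 7) hfix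
    have htr := Cfsg.Agent.M24.trans_orbs
    simp only [List.all_eq_true, List.mem_range, beq_iff_eq] at htr
    rw [← htr 6 (by norm_num), List.mem_map] at hy
    obtain ⟨p, hp, hpy⟩ := hy
    obtain ⟨hpA, hpS⟩ := Cfsg.Agent.M24.trans_spec (k := 6) (by norm_num) hp
    have hwp : w = Cfsg.Agent.M24.toPerm p := by
      have h7 : (Cfsg.Agent.M24.toPerm p)⁻¹ * w ∈ Cfsg.Agent.M24.stab 7 := by
        refine ⟨(Cfsg.Agent.M24.stab 6).mul_mem ((Cfsg.Agent.M24.stab 6).inv_mem hpS) h6, MulAction.mem_stabilizer_iff.2 ?_⟩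
        rw [mul_smul, inv_smul_eq_iff, Equiv.Perm.smul_def, Equiv.Perm.smul_def,
          Cfsg.Agent.M24.toPerm_pt (Cfsg.Agent.M24.autB_ok hpA) (by decide +kernel), hpy, Cfsg.Agent.M24.pt_ix]
      rw [Cfsg.Agent.M24.stab_seven, Subgroup.mem_bot, inv_mul_eq_one] at h7
      exact h7.symm
    rw [hwp, ← Cfsg.Agent.M24.toSet_pimg (Cfsg.Agent.M24.autB_ok hpA)] at hwd
    have hid : ∀ p ∈ Cfsg.Agent.M24.trans.getD 6 [], Cfsg.Agent.M24.pimg p 11649183 = 11649183 → ∀ i < 24, Cfsg.Agent.M24.papp p i = i := by decide +kernel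
    rw [hwp]
    exact Equiv.ext fun x => by
      rw [Cfsg.Agent.M24.toPerm_apply (Cfsg.Agent.M24.autB_ok hpA), hid p hp (Cfsg.Agent.M24.toSet_inj (Cfsg.Agent.M24.pimg_lt (Cfsg.Agent.M24.autB_ok hpA)) (by norm_num) hwd) _
        (Cfsg.Agent.M24.ix_lt x), Cfsg.Agent.M24.pt_ix]; rfl
  have hcC : c • Cfsg.Agent.M24.toSet (11649183 &&& Cfsg.Agent.M24.oct0) = C := by
    rw [Cfsg.Agent.M24.toSet_and, Finset.smul_finset_inter, hcd, hco, Finset.inter_comm, hoC]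
  have hw : c⁻¹ * (v : Equiv.Perm Cfsg.GolayPt) * c = 1 := by
    refine hfaith _ (Cfsg.M24.mul_mem (Cfsg.M24.mul_mem (Cfsg.M24.inv_mem hgh) v.2) hgh) ?_ fun i hi => ?_
    · rw [mul_smul, mul_smul, hcd, h1, ← hcd, inv_smul_smul]
    · have hi' : Cfsg.Agent.M24.pt i ∈ Cfsg.Agent.M24.toSet (11649183 &&& Cfsg.Agent.M24.oct0) := by revert i; decide +kernel
      have hmem : c (Cfsg.Agent.M24.pt i) ∈ C := by rw [← hcC]; exact Finset.smul_mem_smul_finset hi'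
      simp [hp _ hmem]
  refine Subtype.ext ?_
  calc (v : Equiv.Perm Cfsg.GolayPt) = c * (c⁻¹ * (v : Equiv.Perm Cfsg.GolayPt) * c) * c⁻¹ := by group
    _ = 1 := by rw [hw]; group


/-- For a dodecad d of the length-24 code and a hexad C on it (a 6-point intersection of d with an octad): the joint stabiliser of d and C in the code's group is isomorphic to the symmetric group of degree 6, and it acts faithfully both on the six points of C and on the six points of d outside C. -/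
theorem result (d : Finset Cfsg.GolayPt) (hd : d ∈ Cfsg.dodecads) (C : Finset Cfsg.GolayPt) (hC : C ∈ Cfsg.hexadsOn d) : Nonempty (↥(MulAction.stabilizer Cfsg.M24 d ⊓ MulAction.stabilizer Cfsg.M24 C) ≃* Equiv.Perm (Fin 6)) ∧ (∀ g ∈ MulAction.stabilizer Cfsg.M24 d ⊓ MulAction.stabilizer Cfsg.M24 C, (∀ p ∈ C, ((g : ↥Cfsg.M24) : Equiv.Perm Cfsg.GolayPt) p = p) → g = 1) ∧ ∀ g ∈ MulAction.stabilizer Cfsg.M24 d ⊓ MulAction.stabilizer Cfsg.M24 C, (∀ p ∈ d \ C, ((g : ↥Cfsg.M24) : Equiv.Perm Cfsg.GolayPt) p = p) → g = 1 := by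
  classical
  have oct_eq : ∀ o₁ ∈ Cfsg.octads, ∀ o₂ ∈ Cfsg.octads, ∀ A : Finset Cfsg.GolayPt, A.card = 6 → A ⊆ o₁ → A ⊆ o₂ → o₁ = o₂ :=
    fun o₁ h1 o₂ h2 A hA a1 a2 => Cfsg.Agent.M24.octad_eq_of_inter h1 h2
      (by have := Finset.card_le_card (Finset.subset_inter a1 a2); omega)
  obtain ⟨hC6, o, ho, hoC⟩ := hC
  obtain ⟨g, hg, hgo⟩ := Cfsg.Agent.M24.exists_map_octad ho
  obtain ⟨m, hm, hgm⟩ := Cfsg.Agent.M24.exists_dodecad hg hd
  have hm6 : Cfsg.Agent.M24.pc (m &&& Cfsg.Agent.M24.oct0) = 6 := by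
    rw [Nat.and_comm, ← Cfsg.Agent.M24.card_smul_inter g, hgo, hgm, hoC, hC6]
  have hd0 : 11649183 ∈ Cfsg.Agent.M24.dodL.filter (fun m => Cfsg.Agent.M24.pc (m &&& Cfsg.Agent.M24.oct0) == 6) := by decide +kernel
  obtain ⟨h, hh, he⟩ := Cfsg.Agent.M24.map_of_keyCheck Cfsg.Agent.M24.octDod_ok hd0 (List.mem_filter.2 ⟨hm, by simp [hm6]⟩) rfl
  have hgh : g * h ∈ Cfsg.M24 := Cfsg.M24.mul_mem hg hh.1
  set c := g * h with hc
  have hco : c • Cfsg.Agent.M24.toSet Cfsg.Agent.M24.oct0 = o := by rw [hc, mul_smul, hh.2 _ List.mem_cons_self, hgo]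
  have hcd : c • Cfsg.Agent.M24.toSet 11649183 = d := by rw [hc, mul_smul, he, hgm]
  have hfaith : ∀ w ∈ Cfsg.M24, w • Cfsg.Agent.M24.toSet 11649183 = Cfsg.Agent.M24.toSet 11649183 →
      (∀ i ∈ Cfsg.Agent.M24.base.take 6, w (Cfsg.Agent.M24.pt i) = Cfsg.Agent.M24.pt i) → w = 1 := by
    intro w hwm hwd hfix
    have h6 : w ∈ Cfsg.Agent.M24.stab 6 := (Cfsg.Agent.M24.mem_stab (by norm_num)).2 ⟨hwm, hfix⟩
    have hy := Cfsg.Agent.M24.base_orbit_bound hwm (by norm_num : 6 < 7) hfix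
    have htr := Cfsg.Agent.M24.trans_orbs
    simp only [List.all_eq_true, List.mem_range, beq_iff_eq] at htr
    rw [← htr 6 (by norm_num), List.mem_map] at hy
    obtain ⟨p, hp, hpy⟩ := hy
    obtain ⟨hpA, hpS⟩ := Cfsg.Agent.M24.trans_spec (k := 6) (by norm_num) hp
    have hwp : w = Cfsg.Agent.M24.toPerm p := by
      have h7 : (Cfsg.Agent.M24.toPerm p)⁻¹ * w ∈ Cfsg.Agent.M24.stab 7 := by
        refine ⟨(Cfsg.Agent.M24.stab 6).mul_mem ((Cfsg.Agent.M24.stab 6).inv_mem hpS) h6, MulAction.mem_stabilizer_iff.2 ?_⟩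
        rw [mul_smul, inv_smul_eq_iff, Equiv.Perm.smul_def, Equiv.Perm.smul_def,
          Cfsg.Agent.M24.toPerm_pt (Cfsg.Agent.M24.autB_ok hpA) (by decide +kernel), hpy, Cfsg.Agent.M24.pt_ix]
      rw [Cfsg.Agent.M24.stab_seven, Subgroup.mem_bot, inv_mul_eq_one] at h7
      exact h7.symm
    rw [hwp, ← Cfsg.Agent.M24.toSet_pimg (Cfsg.Agent.M24.autB_ok hpA)] at hwd
    have hid : ∀ p ∈ Cfsg.Agent.M24.trans.getD 6 [], Cfsg.Agent.M24.pimg p 11649183 = 11649183 → ∀ i < 24, Cfsg.Agent.M24.papp p i = i := by decide +kernel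
    rw [hwp]
    exact Equiv.ext fun x => by
      rw [Cfsg.Agent.M24.toPerm_apply (Cfsg.Agent.M24.autB_ok hpA), hid p hp (Cfsg.Agent.M24.toSet_inj (Cfsg.Agent.M24.pimg_lt (Cfsg.Agent.M24.autB_ok hpA)) (by norm_num) hwd) _
        (Cfsg.Agent.M24.ix_lt x), Cfsg.Agent.M24.pt_ix]; rfl
  have hcC : c • Cfsg.Agent.M24.toSet (11649183 &&& Cfsg.Agent.M24.oct0) = C := by
    rw [Cfsg.Agent.M24.toSet_and, Finset.smul_finset_inter, hcd, hco, Finset.inter_comm, hoC]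
  set H := MulAction.stabilizer Cfsg.M24 d ⊓ MulAction.stabilizer Cfsg.M24 C with hH
  have hsd : ∀ v : ↥Cfsg.M24, v ∈ H → (v : Equiv.Perm Cfsg.GolayPt) • d = d ∧
      (v : Equiv.Perm Cfsg.GolayPt) • C = C ∧ (v : Equiv.Perm Cfsg.GolayPt) • o = o := fun v hv => by
    have h1 : (v : Equiv.Perm Cfsg.GolayPt) • d = d := hv.1
    have h2 : (v : Equiv.Perm Cfsg.GolayPt) • C = C := hv.2
    refine ⟨h1, h2, oct_eq _ ((Cfsg.Agent.M24.smul_mem_octads v.2).2 ho) _ ho C hC6 ?_ (hoC ▸ Finset.inter_subset_left)⟩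
    rw [← h2, Finset.smul_finset_subset_smul_finset_iff, ← hoC]
    exact Finset.inter_subset_left
  have hfC : ∀ v ∈ H, (∀ p ∈ C, ((v : ↥Cfsg.M24) : Equiv.Perm Cfsg.GolayPt) p = p) → v = 1 := by
    intro v hv hp
    obtain ⟨h1, -, -⟩ := hsd v hv
    have hw : c⁻¹ * (v : Equiv.Perm Cfsg.GolayPt) * c = 1 := by
      refine hfaith _ (Cfsg.M24.mul_mem (Cfsg.M24.mul_mem (Cfsg.M24.inv_mem hgh) v.2) hgh) ?_ fun i hi => ?_
      · rw [mul_smul, mul_smul, hcd, h1, ← hcd, inv_smul_smul]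
      · have hi' : Cfsg.Agent.M24.pt i ∈ Cfsg.Agent.M24.toSet (11649183 &&& Cfsg.Agent.M24.oct0) := by revert i; decide +kernel
        have hmem : c (Cfsg.Agent.M24.pt i) ∈ C := by rw [← hcC]; exact Finset.smul_mem_smul_finset hi'
        simp [hp _ hmem]
    refine Subtype.ext ?_
    calc (v : Equiv.Perm Cfsg.GolayPt) = c * (c⁻¹ * (v : Equiv.Perm Cfsg.GolayPt) * c) * c⁻¹ := by group
      _ = 1 := by rw [hw]; group
  have hinv : ∀ v : H, ∀ x, ((v : ↥Cfsg.M24) : Equiv.Perm Cfsg.GolayPt) x ∈ C ↔ x ∈ C := fun v x => by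
    have h2 := (hsd v v.2).2.1
    conv_lhs => rw [← h2, ← Equiv.Perm.smul_def, Finset.smul_mem_smul_finset_iff]
  let φ : H →* Equiv.Perm ↥C :=
    MonoidHom.mk' (fun v => ((v : ↥Cfsg.M24) : Equiv.Perm Cfsg.GolayPt).subtypePerm (hinv v))
      (fun a b => Equiv.ext fun x => Subtype.ext rfl)
  have hinj : Function.Injective φ := by
    rw [← MonoidHom.ker_eq_bot_iff, eq_bot_iff]
    intro v hv
    refine Subgroup.mem_bot.2 (Subtype.ext (hfC v.1 v.2 fun p hp => ?_))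
    have := congrArg (fun e : Equiv.Perm ↥C => ((e ⟨p, hp⟩ : ↥C) : Cfsg.GolayPt)) (MonoidHom.mem_ker.1 hv)
    simpa [φ] using this
  have hcard : Nat.card H = 720 := by
    let L := Cfsg.Agent.M24.dodL.filter fun m => Cfsg.Agent.M24.pc (m &&& Cfsg.Agent.M24.oct0) == 6
    have horb : MulAction.orbit (Cfsg.Agent.M24.fixAll [Cfsg.Agent.M24.oct0]) (Cfsg.Agent.M24.toSet 11649183) =
        (((L.map Cfsg.Agent.M24.toSet).toFinset : Finset (Finset Cfsg.GolayPt)) : Set (Finset Cfsg.GolayPt)) := by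
      ext z
      simp only [List.coe_toFinset, Set.mem_setOf_eq, List.mem_map]
      constructor
      · rintro ⟨v, rfl⟩
        have hdd : Cfsg.Agent.M24.toSet 11649183 ∈ Cfsg.dodecads :=
          Cfsg.Agent.M24.mem_dodecads_list.2 ⟨_, List.mem_of_mem_filter hd0, rfl⟩
        obtain ⟨x, hx, hxe⟩ := Cfsg.Agent.M24.mem_dodecads_list.1 ((Cfsg.Agent.M24.smul_mem_dodecads v.2.1).2 hdd)
        refine ⟨x, List.mem_filter.2 ⟨hx, ?_⟩, hxe⟩
        have hxe' : Cfsg.Agent.M24.toSet x = (v : Equiv.Perm Cfsg.GolayPt) • Cfsg.Agent.M24.toSet 11649183 := hxe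
        rw [beq_iff_eq, ← Cfsg.Agent.M24.card_toSet, Cfsg.Agent.M24.toSet_and, hxe', ← v.2.2 Cfsg.Agent.M24.oct0 List.mem_cons_self,
          ← Finset.smul_finset_inter, Finset.card_smul_finset, ← Cfsg.Agent.M24.toSet_and, Cfsg.Agent.M24.card_toSet]
        decide +kernel
      · rintro ⟨x, hx, rfl⟩
        obtain ⟨v, hv, hve⟩ := Cfsg.Agent.M24.map_of_keyCheck Cfsg.Agent.M24.octDod_ok hd0 hx rfl
        exact ⟨⟨v, hv⟩, hve⟩
    have h322 : Nat.card (Cfsg.Agent.M24.fixAll [Cfsg.Agent.M24.oct0]) = 322560 := by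
      have e : Cfsg.Agent.M24.fixAll [Cfsg.Agent.M24.oct0] = Cfsg.M24 ⊓ MulAction.stabilizer (Equiv.Perm Cfsg.GolayPt) (Cfsg.Agent.M24.toSet Cfsg.Agent.M24.oct0) := by
        ext v; simp [Cfsg.Agent.M24.mem_fixAll]
      have h1 := Nat.card_congr (MulAction.orbitProdStabilizerEquivGroup Cfsg.M24 (Cfsg.Agent.M24.toSet Cfsg.Agent.M24.oct0))
      have horb : MulAction.orbit Cfsg.M24 (Cfsg.Agent.M24.toSet Cfsg.Agent.M24.oct0) = Cfsg.octads := by
        ext z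
        constructor
        · rintro ⟨v, rfl⟩; exact (Cfsg.Agent.M24.smul_mem_octads v.2).2 Cfsg.Agent.M24.oct0_mem
        · intro h
          obtain ⟨v, hv, rfl⟩ := Cfsg.Agent.M24.exists_map_octad h
          exact ⟨⟨v, hv⟩, rfl⟩
      have h759 : Cfsg.octads.ncard = 759 := by
        have := Cfsg.Agent.M24.ncard_octads_filter (fun _ => True) (fun _ => true) (by simp)
        simpa using this.trans (by decide +kernel : Cfsg.Agent.M24.octL.countP (fun _ => true) = 759)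
      rw [Nat.card_prod, horb, Nat.card_coe_set_eq, h759, Cfsg.Agent.M24.card_M24, Cfsg.Agent.M24.card_stabilizer_subgroup, ← e] at h1
      omega
    have hlen : L.length = 448 := by decide +kernel
    have h1 := Nat.card_congr (MulAction.orbitProdStabilizerEquivGroup (Cfsg.Agent.M24.fixAll [Cfsg.Agent.M24.oct0]) (Cfsg.Agent.M24.toSet 11649183))
    rw [Nat.card_prod, horb, Nat.card_coe_set_eq, Set.ncard_coe_finset, List.toFinset_card_of_nodup
      (List.Nodup.map_on (fun a ha b hb e => Cfsg.Agent.M24.toSet_inj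
        (Cfsg.Agent.M24.class_lt 12 _ Cfsg.Agent.M24.dodL_eq (List.mem_of_mem_filter ha))
        (Cfsg.Agent.M24.class_lt 12 _ Cfsg.Agent.M24.dodL_eq (List.mem_of_mem_filter hb)) e)
        ((Cfsg.Agent.M24.class_nodup 12 _ Cfsg.Agent.M24.dodL_eq).filter _)),
      List.length_map, hlen, Cfsg.Agent.M24.card_stabilizer_subgroup, h322] at h1
    have h2 : Nat.card H = Nat.card ↥(Cfsg.Agent.M24.fixAll [Cfsg.Agent.M24.oct0] ⊓ MulAction.stabilizer (Equiv.Perm Cfsg.GolayPt) (Cfsg.Agent.M24.toSet 11649183)) := by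
      refine Nat.card_congr
        { toFun := fun v => ⟨c⁻¹ * ((v : ↥Cfsg.M24) : Equiv.Perm Cfsg.GolayPt) * c, ?_⟩
          invFun := fun v => ⟨⟨c * v.1 * c⁻¹, Cfsg.M24.mul_mem (Cfsg.M24.mul_mem hgh v.2.1.1) (Cfsg.M24.inv_mem hgh)⟩,
            MulAction.mem_stabilizer_iff.2 ?_, MulAction.mem_stabilizer_iff.2 ?_⟩
          left_inv := fun v => Subtype.ext (Subtype.ext (by simp [mul_assoc]))
          right_inv := fun v => Subtype.ext (by simp [mul_assoc]) }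
      · obtain ⟨a, -, b⟩ := hsd v v.2
        refine ⟨⟨Cfsg.M24.mul_mem (Cfsg.M24.mul_mem (Cfsg.M24.inv_mem hgh) v.1.2) hgh, fun x hx => ?_⟩,
          MulAction.mem_stabilizer_iff.2 ?_⟩
        · rw [List.mem_singleton] at hx; subst hx
          rw [mul_smul, mul_smul, hco, b, ← hco, inv_smul_smul]
        · rw [mul_smul, mul_smul, hcd, a, ← hcd, inv_smul_smul]
      · show (c * v.1 * c⁻¹) • d = d
        rw [← hcd]; exact Cfsg.Agent.M24.conj_smul v.2.2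
      · show (c * v.1 * c⁻¹) • C = C
        rw [← hcC, Cfsg.Agent.M24.toSet_and, Finset.smul_finset_inter, Finset.smul_finset_inter,
          Cfsg.Agent.M24.conj_smul v.2.2, Cfsg.Agent.M24.conj_smul (v.2.1.2 _ List.mem_cons_self)]
    omega
  refine ⟨?_, hfC, fun v hv hp => ?_⟩
  · have hbij : Function.Bijective φ := by
      refine (Nat.bijective_iff_injective_and_card φ).2 ⟨hinj, ?_⟩
      rw [hcard, Nat.card_perm, Nat.card_eq_fintype_card, Fintype.card_coe, hC6]; rfl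
    exact ⟨(MulEquiv.ofBijective φ hbij).trans (C.equivFinOfCardEq hC6).permCongrHom⟩
  · obtain ⟨h1, h2, h3⟩ := hsd v hv
    have hoin : (Cfsg.Agent.M24.toMask o) ∈ Cfsg.Agent.M24.octL ∧ Cfsg.Agent.M24.toSet (Cfsg.Agent.M24.toMask o) = o := by
      obtain ⟨x, hx, e⟩ := Cfsg.Agent.M24.mem_octads_list.1 ho
      rw [← e, Cfsg.Agent.M24.toMask_toSet (Cfsg.Agent.M24.class_lt 8 _ Cfsg.Agent.M24.octL_eq hx)]
      exact ⟨hx, rfl⟩
    obtain ⟨x, hx, hxd⟩ := Cfsg.Agent.M24.mem_dodecads_list.1 hd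
    set y := Cfsg.Agent.M24.toMask o
    have hxy : Cfsg.Agent.M24.inCode (y ^^^ x) = true ∧ Cfsg.Agent.M24.pc (y ^^^ x) = 8 ∧ y ^^^ x < 2 ^ 24 := by
      have l1 := Cfsg.Agent.M24.class_lt 8 _ Cfsg.Agent.M24.octL_eq hoin.1
      have l2 := Cfsg.Agent.M24.class_lt 12 _ Cfsg.Agent.M24.dodL_eq hx
      obtain ⟨c1, p1⟩ := (Cfsg.Agent.M24.mem_class 8 _ Cfsg.Agent.M24.octL_eq l1).1 hoin.1
      obtain ⟨c2, p2⟩ := (Cfsg.Agent.M24.mem_class 12 _ Cfsg.Agent.M24.dodL_eq l2).1 hx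
      refine ⟨Cfsg.Agent.M24.inCode_xor c1 c2, ?_, Nat.xor_lt_two_pow l1 l2⟩
      rw [← Cfsg.Agent.M24.card_toSet, Cfsg.Agent.M24.toSet_xor, hoin.2, hxd]
      have e1 := Finset.card_union_add_card_inter o d
      have co : o.card = 8 := by rw [← hoin.2, Cfsg.Agent.M24.card_toSet]; exact p1
      have cd : d.card = 12 := hd.2
      rw [hoC, hC6, co, cd] at e1
      have e2 : symmDiff o d = (o ∪ d) \ (o ∩ d) := by ext z; simp [Finset.mem_symmDiff]; tauto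
      rw [e2, Finset.card_sdiff_of_subset Finset.inter_subset_union, hoC, hC6]
      omega
    have hC' : d \ C ∈ Cfsg.hexadsOn d := by
      have hCd : C ⊆ d := hoC ▸ Finset.inter_subset_right
      have hd12 : d.card = 12 := hd.2
      refine ⟨by rw [Finset.card_sdiff_of_subset hCd, hd12, hC6], Cfsg.Agent.M24.toSet (y ^^^ x), ?_, ?_⟩
      · exact Cfsg.Agent.M24.mem_octads_list.2 ⟨_, (Cfsg.Agent.M24.mem_class 8 _ Cfsg.Agent.M24.octL_eq hxy.2.2).2 ⟨hxy.1, hxy.2.1⟩, rfl⟩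
      · rw [Cfsg.Agent.M24.toSet_xor, hoin.2, hxd, ← hoC]
        ext z
        simp [Finset.mem_symmDiff]
        tauto
    exact faith hd hC' v h1 hp

end Cfsg.Agent.S5618
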