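import Cfsg.Statements.S5619
import Cfsg.Agent.M24.DodPts
import Cfsg.Agent.M24.Sylows
import Cfsg.Agent.M24.Simple

set_option autoImplicit false
open scoped Pointwise
open Cfsg

namespace Cfsg.Agent.S5619
open scoped Pointwise

/-- In the group of the length-24 code, the subgroup fixing a dodecad setwise and three of its points individually (a group of order 72) has a normal Sylow 3-subgroup that is elementary abelian of order 9, and its Sylow 2-subgroups are quaternion of order 8. -/
theorem result (d : Finset Cfsg.GolayPt) (hd : d ∈ Cfsg.dodecads) (p q r : Cfsg.GolayPt) (hp : p ∈ d) (hq : q ∈ d) (hr : r ∈ d) (hpq : p ≠ q) (hpr : p ≠ r) (hqr : q ≠ r) : (∀ Q : Sylow 3 ↥(MulAction.stabilizer Cfsg.M24 d ⊓ MulAction.stabilizer Cfsg.M24 p ⊓ MulAction.stabilizer Cfsg.M24 q ⊓ MulAction.stabilizer Cfsg.M24 r), (Q : Subgroup ↥(MulAction.stabilizer Cfsg.M24 d ⊓ MulAction.stabilizer Cfsg.M24 p ⊓ MulAction.stabilizer Cfsg.M24 q ⊓ MulAction.stabilizer Cfsg.M24 r)).Normal ∧ Nat.card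 ↥Q = 9 ∧ ∀ x ∈ (Q : Subgroup ↥(MulAction.stabilizer Cfsg.M24 d ⊓ MulAction.stabilizer Cfsg.M24 p ⊓ MulAction.stabilizer Cfsg.M24 q ⊓ MulAction.stabilizer Cfsg.M24 r)), x ^ 3 = 1) ∧ ∀ P : Sylow 2 ↥(MulAction.stabilizer Cfsg.M24 d ⊓ MulAction.stabilizer Cfsg.M24 p ⊓ MulAction.stabilizer Cfsg.M24 q ⊓ MulAction.stabilizer Cfsg.M24 r), Nonempty (↥P ≃* QuaternionGroup 2) := by
  classical
  obtain ⟨c, hc, hcd, hcp, hcq, hcr⟩ := Cfsg.Agent.M24.exists_map_dodecad_three hd hp hq hr hpq hpr hqr
  set fx : List ℕ := [4, 2, 1, Cfsg.Agent.M24.dod0] with hfx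
  set H := MulAction.stabilizer Cfsg.M24 d ⊓ MulAction.stabilizer Cfsg.M24 p ⊓
    MulAction.stabilizer Cfsg.M24 q ⊓ MulAction.stabilizer Cfsg.M24 r with hH
  have hmem : ∀ v : ↥Cfsg.M24, v ∈ H ↔ c⁻¹ * (v : Equiv.Perm Cfsg.GolayPt) * c ∈ Cfsg.Agent.M24.fixAll fx := by
    intro v
    have hs : ∀ (i : ℕ) (u : Cfsg.GolayPt), i < 24 → c (Cfsg.Agent.M24.pt i) = u →
        ((c⁻¹ * (v : Equiv.Perm Cfsg.GolayPt) * c) • Cfsg.Agent.M24.toSet (2 ^ i) = Cfsg.Agent.M24.toSet (2 ^ i) ↔
          (v : Equiv.Perm Cfsg.GolayPt) u = u) := fun i u hi hu => by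
      rw [Cfsg.Agent.M24.smul_toSet_two_pow_iff _ hi hi, Equiv.Perm.mul_apply, Equiv.Perm.mul_apply,
        Equiv.Perm.inv_eq_iff_eq, hu]
    have hd' : (c⁻¹ * (v : Equiv.Perm Cfsg.GolayPt) * c) • Cfsg.Agent.M24.toSet Cfsg.Agent.M24.dod0 = Cfsg.Agent.M24.toSet Cfsg.Agent.M24.dod0 ↔
        (v : Equiv.Perm Cfsg.GolayPt) • d = d := by
      rw [mul_smul, mul_smul, hcd, inv_smul_eq_iff, hcd]
    constructor
    · rintro ⟨⟨⟨a, b⟩, e⟩, f⟩
      refine ⟨Cfsg.M24.mul_mem (Cfsg.M24.mul_mem (Cfsg.M24.inv_mem hc) v.2) hc, fun m hm => ?_⟩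
      simp only [hfx, List.mem_cons, List.not_mem_nil, or_false] at hm
      rcases hm with rfl | rfl | rfl | rfl
      · exact (hs 2 r (by norm_num) hcr).2 f
      · exact (hs 1 q (by norm_num) hcq).2 e
      · exact (hs 0 p (by norm_num) hcp).2 b
      · exact hd'.2 a
    · rintro ⟨-, h⟩
      exact ⟨⟨⟨hd'.1 (h _ (by simp [hfx])), (hs 0 p (by norm_num) hcp).1 (h _ (by simp [hfx]))⟩,
        (hs 1 q (by norm_num) hcq).1 (h _ (by simp [hfx]))⟩, (hs 2 r (by norm_num) hcr).1 (h _ (by simp [hfx]))⟩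
  let e : H ≃* Cfsg.Agent.M24.fixAll fx :=
    { toFun := fun v => ⟨c⁻¹ * ((v : ↥Cfsg.M24) : Equiv.Perm Cfsg.GolayPt) * c, (hmem v).1 v.2⟩
      invFun := fun w => ⟨⟨c * w.1 * c⁻¹, Cfsg.M24.mul_mem (Cfsg.M24.mul_mem hc w.2.1) (Cfsg.M24.inv_mem hc)⟩,
        (hmem _).2 (by simp [mul_assoc])⟩
      left_inv := fun v => Subtype.ext (Subtype.ext (by simp [mul_assoc]))
      right_inv := fun w => Subtype.ext (by simp [mul_assoc])
      map_mul' := fun a b => Subtype.ext (by simp [mul_assoc]) }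
  have h72 : Nat.card H = 72 := by rw [Nat.card_congr e.toEquiv, hfx, Cfsg.Agent.M24.card_fixAll_dod_three]
  have h3 : Cfsg.Agent.M24.towerOk fx 3 [929000492124499343650182431580424224, 928952864966028496604741530750814240] = true := by decide +kernel
  have h2 : Cfsg.Agent.M24.towerOk fx 2 [648441755269428208718993426702993440, 849862808090484735685470734032308256, 970254902120350598020240965873371168] = true := by decide +kernel
  obtain ⟨A, hA, ⟨hA1, hA2⟩, hAcl, hAc⟩ := Cfsg.Agent.M24.exists_carries (by norm_num : 0 < 3) _ h3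
  obtain ⟨B, hB, ⟨hB1, hB2⟩, hBcl, hBc⟩ := Cfsg.Agent.M24.exists_carries (by norm_num : 0 < 2) _ h2
  have hA9 : Nat.card A = 9 := by rw [hAc]; rfl
  have hB8 : Nat.card B = 8 := by rw [hBc]; rfl
  set A' := A.comap ((Cfsg.Agent.M24.fixAll fx).subtype.comp e.toMonoidHom) with hA'
  set B' := B.comap ((Cfsg.Agent.M24.fixAll fx).subtype.comp e.toMonoidHom) with hB'
  have card' : ∀ K : Subgroup (Equiv.Perm Cfsg.GolayPt), K ≤ Cfsg.Agent.M24.fixAll fx →
      Nonempty (K.comap ((Cfsg.Agent.M24.fixAll fx).subtype.comp e.toMonoidHom) ≃* K) := fun K hK =>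
    ⟨{ toFun := fun v => ⟨_, v.2⟩
       invFun := fun w => ⟨e.symm ⟨w.1, hK w.2⟩, by simp [Subgroup.mem_comap, w.2]⟩
       left_inv := fun v => Subtype.ext (e.symm_apply_apply v.1)
       right_inv := fun w => Subtype.ext (by simp)
       map_mul' := fun a b => Subtype.ext (congrArg (fun z : (Cfsg.Agent.M24.fixAll fx) => (z : Equiv.Perm Cfsg.GolayPt)) (map_mul e a.1 b.1)) }⟩
  obtain ⟨eA⟩ := card' A hA
  obtain ⟨eB⟩ := card' B hB
  have hnorm : A'.Normal := by
    have hconj : ∀ t ∈ ([648441755269428208718993426702993440, 849862808090484735685470734032308256, 970254902120350598020240965873371168] ++ [929000492124499343650182431580424224, 928952864966028496604741530750814240] : List ℕ), Cfsg.Agent.M24.okPerm t = true ∧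
        ∀ a ∈ ([929000492124499343650182431580424224, 928952864966028496604741530750814240] : List ℕ), ∃ x ∈ Cfsg.Agent.M24.towerList 3 [929000492124499343650182431580424224, 928952864966028496604741530750814240], Cfsg.Agent.M24.commB t a x t = true := by decide +kernel
    have hmap : ∀ t ∈ ([648441755269428208718993426702993440, 849862808090484735685470734032308256, 970254902120350598020240965873371168] ++ [929000492124499343650182431580424224, 928952864966028496604741530750814240] : List ℕ), ∀ a ∈ A, Cfsg.Agent.M24.toPerm t * a * (Cfsg.Agent.M24.toPerm t)⁻¹ ∈ A := by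
      intro t ht a ha
      obtain ⟨hok, hx⟩ := hconj t ht
      rw [hAcl] at ha
      induction ha using Subgroup.closure_induction with
      | mem u hu =>
        obtain ⟨s, hs, rfl⟩ := hu
        obtain ⟨x, hx', hcm⟩ := hx s hs
        have hsok : Cfsg.Agent.M24.okPerm s = true := List.all_eq_true.1 (show ([929000492124499343650182431580424224, 928952864966028496604741530750814240] : List ℕ).all Cfsg.Agent.M24.okPerm = true by decide +kernel) s hs
        rw [Cfsg.Agent.M24.commB_mul hok hsok (hA1 x hx').1 hok hcm, mul_inv_cancel_right]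
        exact (hA1 x hx').2
      | one => simp
      | mul a b _ _ iha ihb => simpa [mul_assoc] using A.mul_mem iha ihb
      | inv a _ iha => simpa [mul_assoc] using A.inv_mem iha
    have htop : A ⊔ B = Cfsg.Agent.M24.fixAll fx := by
      refine Subgroup.eq_of_le_of_card_ge (sup_le hA hB) ?_
      have d1 := Subgroup.card_dvd_of_le (le_sup_left : A ≤ A ⊔ B)
      have d2 := Subgroup.card_dvd_of_le (le_sup_right : B ≤ A ⊔ B)
      rw [hA9] at d1
      rw [hB8] at d2
      rw [hfx, Cfsg.Agent.M24.card_fixAll_dod_three]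
      exact Nat.le_of_dvd Nat.card_pos (Nat.Coprime.mul_dvd_of_dvd_of_dvd (by norm_num : Nat.Coprime 9 8) d1 d2)
    have hle : Cfsg.Agent.M24.fixAll fx ≤ Subgroup.normalizer (A : Set (Equiv.Perm Cfsg.GolayPt)) := by
      rw [← htop, hAcl, hBcl, ← Subgroup.closure_union, Subgroup.closure_le, ← hAcl]
      rintro u hu
      obtain ⟨t, ht, rfl⟩ : ∃ t ∈ ([648441755269428208718993426702993440, 849862808090484735685470734032308256, 970254902120350598020240965873371168] ++ [929000492124499343650182431580424224, 928952864966028496604741530750814240] : List ℕ), u = Cfsg.Agent.M24.toPerm t := by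
        rcases hu with ⟨t, ht, e⟩ | ⟨t, ht, e⟩
        · exact ⟨t, List.mem_append.2 (Or.inr ht), e⟩
        · exact ⟨t, List.mem_append.2 (Or.inl ht), e⟩
      rw [SetLike.mem_coe, Subgroup.mem_normalizer_iff]
      have hle : A.map (MulAut.conj (Cfsg.Agent.M24.toPerm t)).toMonoidHom ≤ A := by
        rintro _ ⟨a, ha, rfl⟩; exact hmap t ht a ha
      have heq : A.map (MulAut.conj (Cfsg.Agent.M24.toPerm t)).toMonoidHom = A :=
        Subgroup.eq_of_le_of_card_ge hle
          (le_of_eq (Nat.card_congr (A.equivMapOfInjective _ (MulAut.conj (Cfsg.Agent.M24.toPerm t)).injective).toEquiv))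
      intro a
      refine ⟨hmap t ht a, fun h => ?_⟩
      rw [← heq] at h
      obtain ⟨b, hb, hbe⟩ := h
      exact (MulAut.conj (Cfsg.Agent.M24.toPerm t)).injective hbe ▸ hb
    refine ⟨fun n hn v => ?_⟩
    have := (Subgroup.mem_normalizer_iff.1 (hle (e v).2) _).1 hn
    simpa [hA', Subgroup.mem_comap] using this
  have hfac : (72 : ℕ) = 3 ^ 2 * 2 ^ 3 := by norm_num
  have f3 : (Nat.card H).factorization 3 = 2 := by
    rw [h72, hfac, Nat.factorization_mul (by norm_num) (by norm_num), Finsupp.add_apply, Nat.factorization_pow,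
      Nat.factorization_pow, Finsupp.smul_apply, Finsupp.smul_apply, Nat.prime_three.factorization_self,
      Nat.factorization_eq_zero_of_not_dvd (by norm_num : ¬ 3 ∣ 2)]
    rfl
  have f2 : (Nat.card H).factorization 2 = 3 := by
    rw [h72, hfac, Nat.factorization_mul (by norm_num) (by norm_num), Finsupp.add_apply, Nat.factorization_pow,
      Nat.factorization_pow, Finsupp.smul_apply, Finsupp.smul_apply, Nat.prime_two.factorization_self,
      Nat.factorization_eq_zero_of_not_dvd (by norm_num : ¬ 2 ∣ 3)]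
    rfl
  have : Fact (Nat.Prime 3) := ⟨Nat.prime_three⟩
  have : Fact (Nat.Prime 2) := ⟨Nat.prime_two⟩
  have hA'c : Nat.card A' = 3 ^ (Nat.card H).factorization 3 := by
    rw [f3, Nat.card_congr eA.toEquiv, hA9]; rfl
  refine ⟨fun Q => ?_, fun P => ?_⟩
  · obtain ⟨g, hg⟩ := MulAction.exists_smul_eq H (Sylow.ofCard A' hA'c) Q
    have hQ : (Q : Subgroup H) = A' := by
      rw [← hg, Sylow.coe_subgroup_smul, Sylow.coe_ofCard]
      ext w
      rw [Subgroup.mem_pointwise_smul_iff_inv_smul_mem, MulAut.smul_def]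
      refine ⟨fun h => ?_, fun h => ?_⟩
      · simpa [MulAut.conj_inv_apply, mul_assoc] using hnorm.conj_mem _ h g
      · simpa [MulAut.conj_inv_apply] using hnorm.conj_mem w h g⁻¹
    refine ⟨hQ ▸ hnorm, ?_, fun x hx => ?_⟩
    · show Nat.card (Q : Subgroup H) = 9
      rw [hQ, Nat.card_congr eA.toEquiv, hA9]
    · rw [hQ] at hx
      obtain ⟨y, hy, hye⟩ := hA2 _ hx
      have hk : ∀ y ∈ Cfsg.Agent.M24.towerList 3 [929000492124499343650182431580424224, 928952864966028496604741530750814240],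
          ∀ i < 24, Cfsg.Agent.M24.iterApp y 3 i = i := by decide +kernel
      have hyok := (hA1 y hy).1
      have h1 : Cfsg.Agent.M24.toPerm y ^ 3 = 1 := Equiv.ext fun u => by
        rw [(Cfsg.Agent.M24.toPerm_pow_apply hyok u 3).1, hk y hy _ (Cfsg.Agent.M24.ix_lt u), Cfsg.Agent.M24.pt_ix]
        rfl
      have hxy : ((e x : Cfsg.Agent.M24.fixAll fx) : Equiv.Perm Cfsg.GolayPt) = Cfsg.Agent.M24.toPerm y := hye.symm
      apply e.injective
      rw [map_pow, map_one]
      exact Subtype.ext (by rw [SubmonoidClass.coe_pow, hxy, h1]; rfl)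
  · have hB'c : Nat.card B' = 2 ^ (Nat.card H).factorization 2 := by
      rw [f2, Nat.card_congr eB.toEquiv, hB8]; rfl
    refine ⟨((Sylow.equiv P (Sylow.ofCard B' hB'c)).trans ((MulEquiv.subgroupCongr (Sylow.coe_ofCard B' hB'c)).trans eB)).trans ?_⟩
    let F : QuaternionGroup 2 → ℕ := fun
      | QuaternionGroup.a i => ([984818244535754528103549039458486304, 849862808090484735685470734032308256, 970254902120350598020240965873371168, 858502712789113075489201924125100064] : List ℕ).getD i.val 0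
      | QuaternionGroup.xa i => ([648441755269428208718993426702993440, 425260589770023667920228681599158304, 629863500390412654982178157189269536, 437673696385666828435562741295908896] : List ℕ).getD i.val 0
    have hF : (∀ g h : QuaternionGroup 2, Cfsg.Agent.M24.compB (F (g * h)) (F g) (F h) = true) ∧
        (∀ g : QuaternionGroup 2, Cfsg.Agent.M24.okPerm (F g) = true ∧ Cfsg.Agent.M24.inL (F g) (Cfsg.Agent.M24.towerList 2 [648441755269428208718993426702993440, 849862808090484735685470734032308256, 970254902120350598020240965873371168]) = true) ∧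
        (∀ g : QuaternionGroup 2, ∀ h : QuaternionGroup 2,
          (List.range 24).all (fun i => Cfsg.Agent.M24.papp (F g) i == Cfsg.Agent.M24.papp (F h) i) = true → g = h) := by decide +kernel
    have hmemB : ∀ g, Cfsg.Agent.M24.toPerm (F g) ∈ B := fun g => by
      obtain ⟨y, hy, hye⟩ := Cfsg.Agent.M24.toPerm_of_inL (hF.2.1 g).1 (fun y hy => (hB1 y hy).1) (hF.2.1 g).2
      exact hye ▸ (hB1 y hy).2
    let ψ : QuaternionGroup 2 →* B := MonoidHom.mk' (fun g => ⟨_, hmemB g⟩) fun g h => Subtype.ext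
      (Cfsg.Agent.M24.compB_mul (hF.2.1 (g * h)).1 (hF.2.1 g).1 (hF.2.1 h).1 (hF.1 g h))
    have hψ : Function.Bijective ψ := by
      refine (Nat.bijective_iff_injective_and_card ψ).2 ⟨fun g h e => hF.2.2 g h ?_, by rw [hB8, Nat.card_eq_fintype_card]; decide +kernel⟩
      simp only [List.all_eq_true, List.mem_range, beq_iff_eq]
      intro i hi
      have := congrArg (fun v : B => Cfsg.Agent.M24.ix ((v : Equiv.Perm Cfsg.GolayPt) (Cfsg.Agent.M24.pt i))) e
      simpa [ψ, Cfsg.Agent.M24.toPerm_pt (hF.2.1 g).1 hi, Cfsg.Agent.M24.toPerm_pt (hF.2.1 h).1 hi,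
        Cfsg.Agent.M24.ix_pt (Cfsg.Agent.M24.okPerm_lt (hF.2.1 g).1 hi), Cfsg.Agent.M24.ix_pt (Cfsg.Agent.M24.okPerm_lt (hF.2.1 h).1 hi)] using this
    exact (MulEquiv.ofBijective ψ hψ).symm


end Cfsg.Agent.S5619
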