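import Cfsg.Statements.S5620
import Cfsg.Agent.M24.SporEq
import Cfsg.Agent.M24.ClassData

set_option autoImplicit false
open scoped Pointwise
open Cfsg

namespace Cfsg.Agent.S5620
open scoped Pointwise

/-- Inside the stabiliser of the dodecad of squares (a Mathieu group of degree 12), the stabiliser of the residue 0 (a point of the dodecad) and the stabiliser of the extra point (a point outside the dodecad) are isomorphic but not conjugate; conjugation by a suitable element of the code's group that maps the dodecad of squares onto its complement carries the first onto the second. -/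
theorem result : Nonempty (↥(Cfsg.Spor.M12 ⊓ MulAction.stabilizer (Equiv.Perm Cfsg.GolayPt) (none : Cfsg.GolayPt)) ≃* ↥Cfsg.Spor.M11) ∧ (¬ ∃ k ∈ Cfsg.Spor.M12, MulAut.conj k • Cfsg.Spor.M11 = Cfsg.Spor.M12 ⊓ MulAction.stabilizer (Equiv.Perm Cfsg.GolayPt) (none : Cfsg.GolayPt)) ∧ ∃ g ∈ Cfsg.M24, g • Cfsg.Spor.squareDodecad = Finset.univ \ Cfsg.Spor.squareDodecad ∧ MulAut.conj g • Cfsg.Spor.M11 = Cfsg.Spor.M12 ⊓ MulAction.stabilizer (Equiv.Perm Cfsg.GolayPt) (none : Cfsg.GolayPt) := by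
  set d : Finset Cfsg.GolayPt := Finset.univ \ Cfsg.Spor.squareDodecad with hdd
  have hdm : d = Cfsg.Agent.M24.toSet (Cfsg.Agent.M24.dod0 ^^^ 16777215) := by
    rw [hdd, Cfsg.Agent.M24.squareDodecad_eq]; decide +kernel
  have hd : d ∈ Cfsg.dodecads := by
    rw [hdm, Cfsg.Agent.M24.mem_dodecads_iff, Cfsg.Agent.M24.toMask_toSet (by decide +kernel)]; decide +kernel
  have hp : (none : Cfsg.GolayPt) ∈ d := by rw [hdm]; decide +kernel
  obtain ⟨g, hg, hgd, hgp⟩ := Cfsg.Agent.M24.exists_map_dodecad_pt_mem hd hp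
  have hcompl : ∀ v : Equiv.Perm Cfsg.GolayPt,
      v • Cfsg.Spor.squareDodecad = Cfsg.Spor.squareDodecad ↔ v • d = d := by
    intro v
    rw [hdd, Finset.smul_finset_sdiff, Finset.smul_finset_univ]
    refine ⟨fun h => by rw [h], fun h => ?_⟩
    have := congrArg (fun s => Finset.univ \ s) h
    simpa [sdiff_sdiff_right_self] using this
  have hconj : MulAut.conj g • Cfsg.Spor.M11 =
      Cfsg.Spor.M12 ⊓ MulAction.stabilizer (Equiv.Perm Cfsg.GolayPt) (none : Cfsg.GolayPt) := by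
    ext v
    rw [Cfsg.Agent.M24.spor_M11_eq, Subgroup.mem_pointwise_smul_iff_inv_smul_mem]
    simp only [Subgroup.mem_inf, MulAction.mem_stabilizer_iff, Cfsg.Spor.M12, MulAut.smul_def, hcompl,
      Equiv.Perm.smul_def]
    rw [show (MulAut.conj g)⁻¹ v = g⁻¹ * v * g by simp [MulAut.conj_inv_apply], Cfsg.Agent.M24.mem_fixAll]
    simp only [List.forall_mem_cons, List.not_mem_nil, false_imp_iff, implies_true, and_true]
    rw [show Cfsg.Agent.M24.toSet 1 = Cfsg.Agent.M24.toSet (2 ^ 0) from rfl,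
      Cfsg.Agent.M24.smul_toSet_two_pow_iff _ (by norm_num) (by norm_num)]
    constructor
    · rintro ⟨h1, h2, h3⟩
      refine ⟨⟨by simpa [mul_assoc] using Cfsg.M24.mul_mem (Cfsg.M24.mul_mem hg h1) (Cfsg.M24.inv_mem hg), ?_⟩, ?_⟩
      · rw [← hgd]
        rw [mul_smul, mul_smul, inv_smul_eq_iff] at h3
        exact h3
      · rw [← hgp]
        rw [Equiv.Perm.mul_apply, Equiv.Perm.mul_apply, Equiv.Perm.inv_eq_iff_eq] at h2
        exact h2
    · rintro ⟨⟨h1, h3⟩, h2⟩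
      refine ⟨Cfsg.M24.mul_mem (Cfsg.M24.mul_mem (Cfsg.M24.inv_mem hg) h1) hg, ?_, ?_⟩
      · rw [Equiv.Perm.mul_apply, Equiv.Perm.mul_apply, hgp, h2, Equiv.Perm.inv_eq_iff_eq, hgp]
      · rw [mul_smul, mul_smul, hgd, h3, inv_smul_eq_iff, hgd]
  refine ⟨⟨?_⟩, ?_, g, hg, ?_, hconj⟩
  · rw [← hconj]
    exact (Subgroup.equivSMul (MulAut.conj g) Cfsg.Spor.M11).symm
  · rintro ⟨k, hk, hke⟩
    rw [← hconj] at hke
    rw [Cfsg.Agent.M24.spor_M12_eq] at hk
    have hmove : ∀ i < 24, Cfsg.Agent.M24.dod0.testBit i = false →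
        ∃ x ∈ Cfsg.Agent.M24.towerList 2 Cfsg.Agent.M24.t112, Cfsg.Agent.M24.okPerm x = true ∧ Cfsg.Agent.M24.papp x i ≠ i := by decide +kernel
    have ht : Cfsg.Agent.M24.towerOk [1, Cfsg.Agent.M24.dod0] 2 Cfsg.Agent.M24.t112 = true := by decide +kernel
    obtain ⟨K, hK, ⟨hK1, -⟩, -, -⟩ := Cfsg.Agent.M24.exists_carries (by norm_num : 0 < 2) Cfsg.Agent.M24.t112 ht
    set w := g⁻¹ (k (Cfsg.Agent.M24.pt 0)) with hw
    have hbit : Cfsg.Agent.M24.dod0.testBit (Cfsg.Agent.M24.ix w) = false := by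
      have h1 : Cfsg.Agent.M24.dod0.testBit (Cfsg.Agent.M24.ix (k (Cfsg.Agent.M24.pt 0))) = true := by
        rw [Cfsg.Agent.M24.testBit_of_fix hk (List.mem_singleton_self _)]; decide +kernel
      by_contra hcon
      have h2 : g w ∈ g • Cfsg.Agent.M24.toSet Cfsg.Agent.M24.dod0 := by
        rw [← Equiv.Perm.smul_def, Finset.smul_mem_smul_finset_iff, Cfsg.Agent.M24.mem_toSet]
        simpa using hcon
      rw [hgd, hdm, Cfsg.Agent.M24.mem_toSet, hw] at h2
      simp [Nat.testBit_xor, h1, Cfsg.Agent.M24.testBit_full _ (Cfsg.Agent.M24.ix_lt _)] at h2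
    obtain ⟨x, hx, hxok, hne⟩ := hmove _ (Cfsg.Agent.M24.ix_lt w) hbit
    have hmem : g * Cfsg.Agent.M24.toPerm x * g⁻¹ ∈ MulAut.conj g • Cfsg.Spor.M11 := by
      rw [Cfsg.Agent.M24.spor_M11_eq]
      exact Subgroup.smul_mem_pointwise_smul _ (MulAut.conj g) _ (hK (hK1 x hx).2)
    rw [← hke, Subgroup.mem_pointwise_smul_iff_inv_smul_mem, Cfsg.Agent.M24.spor_M11_eq] at hmem
    have h0 := Cfsg.Agent.M24.fixAll_point hmem (i := 0) (by norm_num) (by simp)
    simp only [MulAut.smul_def] at h0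
    rw [show (MulAut.conj k)⁻¹ (g * Cfsg.Agent.M24.toPerm x * g⁻¹) = k⁻¹ * (g * Cfsg.Agent.M24.toPerm x * g⁻¹) * k by
      simp [MulAut.conj_inv_apply]] at h0
    simp only [Equiv.Perm.mul_apply] at h0
    rw [Equiv.Perm.inv_eq_iff_eq, ← hw] at h0
    have h5 : Cfsg.Agent.M24.toPerm x w = w := g.injective (by rw [h0, hw]; simp)
    apply hne
    have h6 := congrArg Cfsg.Agent.M24.ix h5
    rw [Cfsg.Agent.M24.toPerm_apply hxok, Cfsg.Agent.M24.ix_pt (Cfsg.Agent.M24.okPerm_lt hxok (Cfsg.Agent.M24.ix_lt w))] at h6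
    exact h6
  · rw [Cfsg.Agent.M24.squareDodecad_eq, hgd, hdd, Cfsg.Agent.M24.squareDodecad_eq]


end Cfsg.Agent.S5620
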