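import Cfsg.Statements.S5944
-- import your own Cfsg.Agent.* helpers here

set_option autoImplicit false
open Cfsg

namespace Cfsg.Agent.S5944

/-- For n ≠ 4, every proper subgroup of the symmetric group S_n other than the alternating group A_n has index at least n. -/
theorem result (n : ℕ) (hn : n ≠ 4) (H : Subgroup (Equiv.Perm (Fin n))) (hH : H ≠ ⊤) (hA : H ≠ alternatingGroup (Fin n)) : n ≤ H.index := by
  classical
  have h0 : H.index ≠ 0 := Subgroup.index_ne_zero_of_finite
  have h1 : H.index ≠ 1 := fun e => hH (Subgroup.index_eq_one.1 e)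
  have h2 : H.index ≠ 2 := fun e => hA (Equiv.Perm.eq_alternatingGroup_of_index_eq_two e)
  by_cases h5 : n < 5
  · omega
  push Not at h5
  rcases eq_or_ne H.normalCore ⊥ with hK | hK
  · have hker : (MulAction.toPermHom (Equiv.Perm (Fin n)) (Equiv.Perm (Fin n) ⧸ H)).ker = ⊥ := by
      rw [← Subgroup.normalCore_eq_ker, hK]
    have hinj := (MonoidHom.ker_eq_bot_iff _).1 hker
    have hle := Nat.card_le_card_of_injective _ hinj
    rw [Nat.card_perm, Nat.card_perm, Nat.card_fin] at hle
    rw [← Subgroup.index_eq_card] at hle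
    by_contra hlt
    push Not at hlt
    exact absurd ((Nat.factorial_lt (Nat.pos_of_ne_zero h0)).2 hlt) (not_lt.2 hle)
  · exfalso
    have hn5 : 5 ≤ Nat.card (Fin n) := by rw [Nat.card_fin]; exact h5
    have hle : alternatingGroup (Fin n) ≤ H :=
      (Equiv.Perm.alternatingGroup_le_of_normal hn5 ((Subgroup.nontrivial_iff_ne_bot _).2 hK)).trans H.normalCore_le
    haveI : Nontrivial (Fin n) := Fin.nontrivial_iff_two_le.2 (by omega)
    have := Subgroup.index_dvd_of_le hle
    rw [alternatingGroup.index_eq_two] at this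
    have := Nat.le_of_dvd (by norm_num) this
    omega

end Cfsg.Agent.S5944
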